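import Cfsg.Agent.H6.ChevSimple

/-!
Simplicity of the Chevalley groups: the individual types.
-/

set_option autoImplicit false
set_option maxHeartbeats 400000
set_option maxRecDepth 100000

namespace Cfsg.Agent.H6
open Cfsg.Lie

def TG2.par : Fin 2 → Fin 2 := ![0, 0]
theorem TG2.simple (F : Type*) [Field F] (hF : ∃ a : F, a ≠ 0 ∧ a ≠ 1) : IsSimpleGroup ↥(chevG2.group F) ∧ ¬ IsMulCommutative ↥(chevG2.group F) := by
  have h1 : ∀ i : Fin 2, i = TG2.par i ∨ chkId 12 TG2.P ([(i : ℕ), (TG2.par i : ℕ)] ++ [(i : ℕ), (TG2.par i : ℕ)]) = false := by decide +kernel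
  have h2 : ∀ i : Fin 2, TG2.par^[1] i = 0 := by decide +kernel
  refine TG2.good.simple_group TG2.ext F TG2.par ⟨0, by decide⟩ 1 ?_ h2 (TG2.perfect hF)
  intro i
  exact (h1 i).imp_right fun h => TG2.chk.noncomm_simple TG2.good i (TG2.par i) h

def TB2.par : Fin 2 → Fin 2 := ![0, 0]
theorem TB2.simple (F : Type*) [Field F] (hF : ∃ a : F, a ≠ 0 ∧ a ≠ 1) : IsSimpleGroup ↥(chevB2.group F) ∧ ¬ IsMulCommutative ↥(chevB2.group F) := by
  have h1 : ∀ i : Fin 2, i = TB2.par i ∨ chkId 8 TB2.P ([(i : ℕ), (TB2.par i : ℕ)] ++ [(i : ℕ), (TB2.par i : ℕ)]) = false := by decide +kernel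
  have h2 : ∀ i : Fin 2, TB2.par^[1] i = 0 := by decide +kernel
  refine TB2.good.simple_group TB2.ext F TB2.par ⟨0, by decide⟩ 1 ?_ h2 (TB2.perfect hF)
  intro i
  exact (h1 i).imp_right fun h => TB2.chk.noncomm_simple TB2.good i (TB2.par i) h

def TD4.par : Fin 4 → Fin 4 := ![0, 0, 1, 1]
theorem TD4.simple (F : Type*) [Field F] : IsSimpleGroup ↥(chevD4.group F) ∧ ¬ IsMulCommutative ↥(chevD4.group F) := by
  have h1 : ∀ i : Fin 4, i = TD4.par i ∨ chkId 24 TD4.P ([(i : ℕ), (TD4.par i : ℕ)] ++ [(i : ℕ), (TD4.par i : ℕ)]) = false := by decide +kernel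
  have h2 : ∀ i : Fin 4, TD4.par^[2] i = 0 := by decide +kernel
  refine TD4.good.simple_group TD4.ext F TD4.par ⟨0, by decide⟩ 2 ?_ h2 TD4.perfect
  intro i
  exact (h1 i).imp_right fun h => TD4.chk.noncomm_simple TD4.good i (TD4.par i) h

def TF4.par : Fin 4 → Fin 4 := ![0, 0, 1, 2]
theorem TF4.simple (F : Type*) [Field F] : IsSimpleGroup ↥(chevF4.group F) ∧ ¬ IsMulCommutative ↥(chevF4.group F) := by
  have h1 : ∀ i : Fin 4, i = TF4.par i ∨ chkId 48 TF4.P ([(i : ℕ), (TF4.par i : ℕ)] ++ [(i : ℕ), (TF4.par i : ℕ)]) = false := by decide +kernel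
  have h2 : ∀ i : Fin 4, TF4.par^[3] i = 0 := by decide +kernel
  refine TF4.good.simple_group TF4.ext F TF4.par ⟨0, by decide⟩ 3 ?_ h2 TF4.perfect
  intro i
  exact (h1 i).imp_right fun h => TF4.chk.noncomm_simple TF4.good i (TF4.par i) h

def TE6.par : Fin 6 → Fin 6 := ![0, 3, 0, 2, 3, 4]
theorem TE6.simple (F : Type*) [Field F] : IsSimpleGroup ↥(chevE6.group F) ∧ ¬ IsMulCommutative ↥(chevE6.group F) := by
  have h1 : ∀ i : Fin 6, i = TE6.par i ∨ chkId 72 TE6.P ([(i : ℕ), (TE6.par i : ℕ)] ++ [(i : ℕ), (TE6.par i : ℕ)]) = false := by decide +kernel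
  have h2 : ∀ i : Fin 6, TE6.par^[4] i = 0 := by decide +kernel
  refine TE6.good.simple_group TE6.ext F TE6.par ⟨0, by decide⟩ 4 ?_ h2 TE6.perfect
  intro i
  exact (h1 i).imp_right fun h => TE6.chk.noncomm_simple TE6.good i (TE6.par i) h

def TE7.par : Fin 7 → Fin 7 := ![0, 3, 0, 2, 3, 4, 5]
theorem TE7.simple (F : Type*) [Field F] : IsSimpleGroup ↥(chevE7.group F) ∧ ¬ IsMulCommutative ↥(chevE7.group F) := by
  have h1 : ∀ i : Fin 7, i = TE7.par i ∨ chkId 126 TE7.P ([(i : ℕ), (TE7.par i : ℕ)] ++ [(i : ℕ), (TE7.par i : ℕ)]) = false := by decide +kernel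
  have h2 : ∀ i : Fin 7, TE7.par^[5] i = 0 := by decide +kernel
  refine TE7.good.simple_group TE7.ext F TE7.par ⟨0, by decide⟩ 5 ?_ h2 TE7.perfect
  intro i
  exact (h1 i).imp_right fun h => TE7.chk.noncomm_simple TE7.good i (TE7.par i) h

def TE8.par : Fin 8 → Fin 8 := ![0, 3, 0, 2, 3, 4, 5, 6]
theorem TE8.simple (F : Type*) [Field F] : IsSimpleGroup ↥(chevE8.group F) ∧ ¬ IsMulCommutative ↥(chevE8.group F) := by
  have h1 : ∀ i : Fin 8, i = TE8.par i ∨ chkId 240 TE8.P ([(i : ℕ), (TE8.par i : ℕ)] ++ [(i : ℕ), (TE8.par i : ℕ)]) = false := by decide +kernel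
  have h2 : ∀ i : Fin 8, TE8.par^[6] i = 0 := by decide +kernel
  refine TE8.good.simple_group TE8.ext F TE8.par ⟨0, by decide⟩ 6 ?_ h2 TE8.perfect
  intro i
  exact (h1 i).imp_right fun h => TE8.chk.noncomm_simple TE8.good i (TE8.par i) h

end Cfsg.Agent.H6
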