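import Cfsg.Agent.H17.UFieldConj
import Cfsg.Agent.H5.UnitOrder

/-!
Unitary elements multiplied by a scalar under a field automorphism of odd prime order.
-/

set_option autoImplicit false
set_option linter.unusedSectionVars false
set_option maxHeartbeats 400000

namespace Cfsg.Agent.H6.Fc
open Cfsg Cfsg.Agent.H17
open scoped Matrix MatrixGroups

variable {F F₀ : Type*} [Field F] [Field F₀] {q q0 r n : ℕ}

/-- elements multiplied by a scalar -/
def SS (n : ℕ) (U : UFix F F₀ q q0 r) : Subgroup (GU n F q) where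
  carrier := {g | ∃ c : Fˣ, glMap U.τ (g : GL (Fin n) F) = sGL n c * g}
  mul_mem' := by
    rintro a b ⟨c, hc⟩ ⟨d, hd⟩
    refine ⟨c * d, ?_⟩
    rw [Subgroup.coe_mul, map_mul, hc, hd, map_mul, mul_assoc, mul_assoc]
    congr 1
    rw [← mul_assoc, ← mul_assoc, sGL_comm]
  one_mem' := ⟨1, by rw [Subgroup.coe_one, map_one, map_one, mul_one]⟩
  inv_mem' := by
    rintro a ⟨c, hc⟩
    refine ⟨c⁻¹, ?_⟩
    rw [Subgroup.coe_inv, map_inv, hc, mul_inv_rev, map_inv]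
    rw [← map_inv, sGL_comm]

/-- units of norm one -/
def N1 (κ : F ≃+* F) : Subgroup Fˣ := ((MonoidHom.id Fˣ) * (uM κ)).ker

theorem mem_N1 {κ : F ≃+* F} {c : Fˣ} : c ∈ N1 κ ↔ c * uM κ c = 1 := Iff.rfl

theorem card_N1 [Fintype F] (hF : Fintype.card F = q ^ 2) {κ : F ≃+* F} (hκ : ∀ x, κ x = x ^ q) : Nat.card (N1 κ) = q + 1 := by
  rw [← H5.card_norm_eq (σ := (κ : F →+* F)) hF hκ (c := 1) (map_one _) one_ne_zero]
  refine Nat.card_congr ⟨fun c => ⟨(c : Fˣ), ?_⟩, fun x => ⟨Units.mk0 x.1 ?_, ?_⟩, ?_, ?_⟩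
  · have h := congrArg Units.val (mem_N1.1 c.2)
    rw [Units.val_mul, Units.val_one, mul_comm] at h
    exact h
  · intro h
    have := x.2
    rw [h, mul_zero] at this
    exact zero_ne_one this
  · rw [mem_N1]
    apply Units.ext
    rw [Units.val_mul, Units.val_one, mul_comm]
    exact x.2
  · intro c
    exact Subtype.ext (Units.ext rfl)
  · intro x
    exact Subtype.ext rfl

theorem decomp [Fintype F] [Finite F₀] (hn : n ≠ 0) (U : UFix F F₀ q q0 r) (g : GU n F q) (hg : g ∈ SS n U) :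
    ∃ (c : Fˣ) (h : GL (Fin n) F), c * uM U.κ c = 1 ∧ gfM U.κ h = h ∧ glMap U.τ h = h ∧ (g : GL (Fin n) F) = sGL n c * h := by
  obtain ⟨c, hc'⟩ := hg
  have hτG : glMap U.τ (g : GL (Fin n) F) ∈ GU n F q := (guMap n q U.τ g).2
  have hsc : sGL n c ∈ GU n F q := by
    have h1 : sGL n c = glMap U.τ (g : GL (Fin n) F) * (g : GL (Fin n) F)⁻¹ := by rw [hc', mul_inv_cancel_right]
    rw [h1]
    exact mul_mem hτG (inv_mem g.2)
  have hcn : c * uM U.κ c = 1 := norm_one_of_mem (n := n) U.hκ hn hsc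
  have h2 : ∀ i, glMap (U.τ ^ i) (g : GL (Fin n) F) = sGL n (uN U.τ c i) * (g : GL (Fin n) F) := by
    intro i
    induction i with
    | zero => rw [pow_zero, glMap_one, uN_zero, map_one, one_mul]
    | succ i ih =>
      rw [glMap_pow_succ, ih, map_mul, glMap_sGL, hc', uN_succ, ← mul_assoc, ← map_mul, mul_comm c]
  have h3 := h2 r
  rw [U.τpow, glMap_one] at h3
  have h4 : uN U.τ c r = 1 := by
    apply sGL_inj (n := n) hn
    rw [map_one]
    exact (right_eq_mul.mp h3)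
  obtain ⟨y, hy1, hy2⟩ := U.exists_norm_split hcn h4
  refine ⟨y⁻¹, sGL n y * g, ?_, ?_, ?_, ?_⟩
  · rw [map_inv, ← mul_inv, hy1, inv_one]
  · rw [map_mul, (mem_GU_iff_gfM U.hκ _).mp (mem_of_norm_one U.hκ hy1), gfM_eq_of_mem U.hκ]
  · rw [map_mul, glMap_sGL, hc', ← mul_assoc, ← map_mul, mul_comm (uM U.τ y), hy2]
  · rw [← mul_assoc, ← map_mul, inv_mul_cancel, map_one, one_mul]

theorem exists_j (U : UFix F F₀ q q0 r) {h : GL (Fin n) F} (h1 : glMap U.τ h = h) : ∃ h0 : GL (Fin n) F₀, jM n U.j h0 = h := by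
  have key : ∀ g : GL (Fin n) F, glMap U.τ g = g → ∃ M : Matrix (Fin n) (Fin n) F₀, M.map U.j = (g : Matrix (Fin n) (Fin n) F) := by
    intro g hg
    have h2 : ∀ a b, ∃ y, U.j y = (g : Matrix (Fin n) (Fin n) F) a b := by
      intro a b
      rw [← U.hj]
      exact congrArg (fun z : GL (Fin n) F => (z : Matrix (Fin n) (Fin n) F) a b) hg
    choose M hM using h2
    exact ⟨Matrix.of M, by ext a b; exact hM a b⟩
  obtain ⟨M, hM⟩ := key h h1
  obtain ⟨M', hM'⟩ := key h⁻¹ (by rw [map_inv, h1])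
  have hinj : Function.Injective (fun M : Matrix (Fin n) (Fin n) F₀ => M.map U.j) := by
    intro A B hAB
    ext a b
    exact U.j.injective (congrFun (congrFun hAB a) b)
  refine ⟨⟨M, M', hinj ?_, hinj ?_⟩, Units.ext hM⟩
  · change (M * M').map U.j = (1 : Matrix (Fin n) (Fin n) F₀).map U.j
    rw [Matrix.map_mul, hM, hM', Matrix.map_one _ (map_zero _) (map_one _)]
    exact h.mul_inv
  · change (M' * M).map U.j = (1 : Matrix (Fin n) (Fin n) F₀).map U.j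
    rw [Matrix.map_mul, hM, hM', Matrix.map_one _ (map_zero _) (map_one _)]
    exact h.inv_mul

/-- the product map -/
def Phi [Fintype F] [Finite F₀] (n : ℕ) (U : UFix F F₀ q q0 r) : N1 U.κ × GU n F₀ q0 →* GU n F q where
  toFun x := ⟨sGL n (x.1 : Fˣ), mem_of_norm_one U.hκ x.1.2⟩ * jU n U x.2
  map_one' := by
    apply Subtype.ext
    rw [Prod.snd_one, map_one, mul_one, Prod.fst_one]
    exact map_one _
  map_mul' x y := by
    apply Subtype.ext
    change sGL n ((x.1 * y.1 : N1 U.κ) : Fˣ) * ((jU n U (x.2 * y.2) : GU n F q) : GL (Fin n) F) =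
      (sGL n (x.1 : Fˣ) * (jU n U x.2 : GL (Fin n) F)) * (sGL n (y.1 : Fˣ) * (jU n U y.2 : GL (Fin n) F))
    rw [Subgroup.coe_mul, map_mul, map_mul, Subgroup.coe_mul]
    calc sGL n (x.1 : Fˣ) * sGL n (y.1 : Fˣ) * ((jU n U x.2 : GL (Fin n) F) * (jU n U y.2 : GL (Fin n) F)) =
        sGL n (x.1 : Fˣ) * (sGL n (y.1 : Fˣ) * (jU n U x.2 : GL (Fin n) F)) * (jU n U y.2 : GL (Fin n) F) := by simp only [mul_assoc]
      _ = _ := by rw [sGL_comm (y.1 : Fˣ) (jU n U x.2 : GL (Fin n) F)]; simp only [mul_assoc]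

theorem range_Phi [Fintype F] [Finite F₀] (hn : n ≠ 0) (U : UFix F F₀ q q0 r) : (Phi n U).range = SS n U := by
  ext g
  constructor
  · rintro ⟨⟨z, h0⟩, rfl⟩
    refine ⟨(z : Fˣ)⁻¹ * uM U.τ z, ?_⟩
    change glMap U.τ (sGL n (z : Fˣ) * jM n U.j h0) = sGL n ((z : Fˣ)⁻¹ * uM U.τ z) * (sGL n (z : Fˣ) * jM n U.j h0)
    have h1 : glMap U.τ (jM n U.j (h0 : GL (Fin n) F₀)) = jM n U.j (h0 : GL (Fin n) F₀) := by
      apply Units.ext
      ext a b
      exact U.τj _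
    rw [map_mul, glMap_sGL, h1, ← mul_assoc, ← map_mul]
    congr 2
    rw [mul_comm, mul_inv_cancel_left]
  · intro hg
    obtain ⟨c, h, hc, h1, h2, h3⟩ := decomp hn U g hg
    obtain ⟨h0, rfl⟩ := exists_j U h2
    have h4 : h0 ∈ GU n F₀ q0 := by
      rw [mem_GU_iff_gfM U.hκ₀]
      rw [gfM_jM U.κj] at h1
      apply Units.ext
      ext a b
      apply U.j.injective
      exact congrArg (fun z : GL (Fin n) F => (z : Matrix (Fin n) (Fin n) F) a b) h1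
    exact ⟨(⟨c, hc⟩, ⟨h0, h4⟩), Subtype.ext h3.symm⟩

theorem card_ker [Fintype F] [Finite F₀] (hn : n ≠ 0) (U : UFix F F₀ q q0 r) : Nat.card (Phi n U).ker = Nat.card (N1 U.κ₀) := by
  have hjn : ∀ c0 : F₀ˣ, c0 ∈ N1 U.κ₀ → Units.map (U.j : F₀ →* F) c0 ∈ N1 U.κ := by
    intro c0 h0
    rw [mem_N1] at h0 ⊢
    apply Units.ext
    have h1 := congrArg (fun z : F₀ˣ => U.j (z : F₀)) h0
    change (U.j c0) * U.κ (U.j c0) = 1
    rw [U.κj, ← map_mul]
    exact h1.trans (map_one _)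
  symm
  refine Nat.card_congr (Equiv.ofBijective (fun c0 : N1 U.κ₀ => (⟨(⟨Units.map (U.j : F₀ →* F) (c0 : F₀ˣ), hjn c0 c0.2⟩⁻¹,
    ⟨sGL n (c0 : F₀ˣ), mem_of_norm_one U.hκ₀ c0.2⟩), ?_⟩ : (Phi n U).ker)) ⟨?_, ?_⟩)
  · rw [MonoidHom.mem_ker]
    apply Subtype.ext
    change sGL n (((⟨Units.map (U.j : F₀ →* F) (c0 : F₀ˣ), hjn c0 c0.2⟩⁻¹ : N1 U.κ)) : Fˣ) * jM n U.j (sGL n (c0 : F₀ˣ)) = 1
    rw [jM_sGL, Subgroup.coe_inv, map_inv, inv_mul_cancel]
  · intro a b hab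
    have h1 := congrArg (fun z : (Phi n U).ker => (((z : N1 U.κ × GU n F₀ q0).2 : GU n F₀ q0) : GL (Fin n) F₀)) hab
    exact Subtype.ext (sGL_inj hn h1)
  · rintro ⟨⟨z, h0⟩, hk⟩
    rw [MonoidHom.mem_ker] at hk
    have h1 : sGL n (z : Fˣ) * jM n U.j (h0 : GL (Fin n) F₀) = 1 := congrArg Subtype.val hk
    have h2 : jM n U.j (h0 : GL (Fin n) F₀) = sGL n (z : Fˣ)⁻¹ := by
      rw [map_inv, eq_inv_iff_mul_eq_one, ← sGL_comm]; exact h1
    obtain ⟨c0, hc0⟩ := jM_eq_sGL hn h2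
    have h3 : c0 * uM U.κ₀ c0 = 1 := norm_one_of_mem (n := n) U.hκ₀ hn (by rw [← hc0]; exact h0.2)
    have h4 : (z : Fˣ)⁻¹ = Units.map (U.j : F₀ →* F) c0 := by
      apply sGL_inj (n := n) hn
      rw [← h2, hc0, jM_sGL]
    refine ⟨⟨c0, h3⟩, ?_⟩
    apply Subtype.ext
    apply Prod.ext
    · apply Subtype.ext
      change (Units.map (U.j : F₀ →* F) c0)⁻¹ = z
      rw [← h4, inv_inv]
    · apply Subtype.ext
      exact hc0.symm

theorem card_SS [Fintype F] [Fintype F₀] (hn : n ≠ 0) (hF : Fintype.card F = q ^ 2) (hF₀ : Fintype.card F₀ = q0 ^ 2) (U : UFix F F₀ q q0 r) :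
    Nat.card (SS n U) * (q0 + 1) = (q + 1) * H5.ordU q0 n := by
  have h1 := Subgroup.card_eq_card_quotient_mul_card_subgroup (Phi n U).ker
  rw [card_ker hn, card_N1 hF₀ U.hκ₀, Nat.card_prod, card_N1 hF U.hκ, H5.card_GU hF₀] at h1
  rw [h1]
  congr 1
  rw [← range_Phi hn U]
  exact (Nat.card_congr (QuotientGroup.quotientKerEquivRange (Phi n U)).toEquiv).symm

theorem ordU_eq (q n : ℕ) (hq : 1 ≤ q) : (H5.ordU q n : ℤ) = (q : ℤ) ^ (n * (n - 1) / 2) * ∏ i : Fin n, ((q : ℤ) ^ ((i : ℕ) + 1) - (-1) ^ ((i : ℕ) + 1)) := by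
  unfold H5.ordU
  push_cast
  congr 1
  rw [← Fin.prod_univ_eq_prod_range (fun i => (if Even i then (q : ℤ) ^ (i + 1) + 1 else ((q ^ (i + 1) - 1 : ℕ) : ℤ))) n]
  apply Finset.prod_congr rfl
  intro i _
  split_ifs with h
  · rw [Odd.neg_one_pow h.add_one]
    ring
  · rw [Nat.cast_sub (Nat.one_le_pow _ _ hq)]
    rw [Nat.not_even_iff_odd] at h
    push_cast
    rw [Even.neg_one_pow (by exact Odd.add_one h)]

end Cfsg.Agent.H6.Fc
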