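import Cfsg.Agent.H6.FoldG
import Cfsg.Prelude.Def_ChevAutomorphisms

/-!
Graph automorphisms of D4 and their fixed points.
-/

set_option autoImplicit false
set_option linter.unusedSectionVars false
set_option maxHeartbeats 400000
set_option maxRecDepth 10000

namespace Cfsg.Agent.H6
open Cfsg.Lie
open Cfsg.Agent.H15.Chev
open scoped Matrix

section
variable {D : ChevalleyDatum} {N : ℕ} {η : ℕ → ℕ → ℤ} {rc : ℕ → ℕ → ℤ} {F : Type*} [Field F]

/-- simple root elements with a sign -/
noncomputable def SX (hG : Good D N η rc) (b : Bool) (i : ℕ) (t : F) : ↥(D.group F) := XX hG (cond b (D.simple i) (D.neg (D.simple i))) t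

theorem graph_of (hG : Good D N η rc) (hl : ∀ i < D.rank, D.isLong (D.simple i) = false) {φ : ↥(D.group F) ≃* ↥(D.group F)}
    (hφ : D.IsGraphAut φ) : ∃ π : Equiv.Perm (Fin D.rank), D.IsDiagramSymmetry π ∧
      ∀ (i : Fin D.rank) (b : Bool) (t : F), φ (SX hG b i t) = SX hG b (π i) t := by
  obtain ⟨π, h1, h2⟩ := (isGraphAut_iff hG).1 hφ
  refine ⟨π, h1, fun i b t => ?_⟩
  have h3 : D.graphExp (ringChar F) i (π i) = 1 := by
    unfold ChevalleyDatum.graphExp
    rw [hl _ (π i).2]; rfl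
  have h4 := h2 i t
  rw [h3, pow_one] at h4
  cases b
  · exact h4.2
  · exact h4.1

theorem hom_ext' (hG : Good D N η rc) (hE : Ext D rc) {A : Type*} [Group A] {φ ψ : ↥(D.group F) →* A}
    (h : ∀ (i : Fin D.rank) (b : Bool) (t : F), φ (SX hG b i t) = ψ (SX hG b i t)) : φ = ψ :=
  hom_ext hG hE (fun i hi t => h ⟨i, hi⟩ true t) (fun i hi t => h ⟨i, hi⟩ false t)

variable {m : ℕ} {rho inv lam pi : ℕ → ℕ} {ep : ℕ → ℤ} {e : ℕ} {σ : ↥(D.group F) →* ↥(D.group F)}

theorem TwCtx.sigma_SX (h : TwCtx D N η rc F m rho inv lam pi ep e σ) (h1 : ∀ r, lam r * e = 1) (i : Fin D.rank) (b : Bool) (t : F) :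
    σ (SX h.G b i t) = SX h.G b (pi i) t := by
  have h2 := h.sgf_sx b i.2 t
  rw [h1, pow_one] at h2
  apply Subtype.ext
  have h3 : sgf σ (sx D F b i t) = (σ (SX h.G b i t) : GL D.Idx F) := sgf_of (h.sx_mem b i t)
  rw [← h3, h2]
  rfl

end

namespace FDG
variable {K : Type*} [Field K]

theorem notLong : ∀ i < chevD4.rank, chevD4.isLong (chevD4.simple i) = false := by decide +kernel

def bD (i j : Fin 4) : ℤ := chevD4.bonds i j

set_option synthInstance.maxHeartbeats 400000 in
set_option synthInstance.maxSize 4096 in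
theorem sym_cases : ∀ b a c d : Fin 4, (bD a b = bD 0 1 ∧ bD b c = bD 1 2 ∧ bD b d = bD 1 3 ∧ a ≠ b ∧ c ≠ b ∧ d ≠ b ∧ a ≠ c ∧ a ≠ d ∧ c ≠ d) →
    (b = 1 ∧ ((a = 2 ∧ c = 3 ∧ d = 0) ∨ (a = 3 ∧ c = 0 ∧ d = 2) ∨
      ((a = 0 ∧ c = 2 ∧ d = 3) ∨ (a = 0 ∧ c = 3 ∧ d = 2) ∨ (a = 2 ∧ c = 0 ∧ d = 3) ∨ (a = 3 ∧ c = 2 ∧ d = 0)))) := by
  decide +kernel

/-- the three cycle -/
def pA : Fin 4 → Fin 4 := ![2, 1, 3, 0]
def pB : Fin 4 → Fin 4 := ![3, 1, 0, 2]

theorem pA_eq (i : Fin 4) : sP WD4a.PT i = pA i := by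
  have h : ∀ i : Fin 4, sP WD4a.PT i = pA i := by decide +kernel
  exact h i

theorem sym_or (π : Fin 4 → Fin 4) (hi : Function.Injective π) (hs : ∀ i j, i ≠ j → bD (π i) (π j) = bD i j) :
    π = pA ∨ π = pB ∨ ∀ i, π (π i) = i := by
  have h1 := sym_cases (π 1) (π 0) (π 2) (π 3) ⟨hs _ _ (by decide), hs _ _ (by decide), hs _ _ (by decide),
    hi.ne (by decide), hi.ne (by decide), hi.ne (by decide), hi.ne (by decide), hi.ne (by decide), hi.ne (by decide)⟩
  obtain ⟨e1, ⟨e0, e2, e3⟩ | ⟨e0, e2, e3⟩ | h2⟩ := h1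
  · left; funext i; fin_cases i
    · exact e0
    · exact e1
    · exact e2
    · exact e3
  · right; left; funext i; fin_cases i
    · exact e0
    · exact e1
    · exact e2
    · exact e3
  · right; right
    rcases h2 with ⟨e0, e2, e3⟩ | ⟨e0, e2, e3⟩ | ⟨e0, e2, e3⟩ | ⟨e0, e2, e3⟩
    · intro i; fin_cases i
      · change π (π 0) = 0; rw [e0, e0]
      · change π (π 1) = 1; rw [e1, e1]
      · change π (π 2) = 2; rw [e2, e2]
      · change π (π 3) = 3; rw [e3, e3]
    · intro i; fin_cases i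
      · change π (π 0) = 0; rw [e0, e0]
      · change π (π 1) = 1; rw [e1, e1]
      · change π (π 2) = 2; rw [e2, e3]
      · change π (π 3) = 3; rw [e3, e2]
    · intro i; fin_cases i
      · change π (π 0) = 0; rw [e0, e2]
      · change π (π 1) = 1; rw [e1, e1]
      · change π (π 2) = 2; rw [e2, e0]
      · change π (π 3) = 3; rw [e3, e3]
    · intro i; fin_cases i
      · change π (π 0) = 0; rw [e0, e3]
      · change π (π 1) = 1; rw [e1, e1]
      · change π (π 2) = 2; rw [e2, e2]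
      · change π (π 3) = 3; rw [e3, e0]

theorem triality [Finite K] {τ : MulAut ↥(chevD4.group K)} (hτ : chevD4.IsGraphAut τ) (h3 : orderOf τ = 3) :
    Nonempty (↥(MonoidHom.eqLocus τ.toMonoidHom (MonoidHom.id ↥(chevD4.group K))) ≃* ↥(chevG2.group K)) := by
  obtain ⟨π, hs, hπ⟩ := graph_of TD4.good notLong hτ
  obtain ⟨σ, h⟩ := WD4a.exists_ctx1 (K := K)
  have hσ : ∀ (i : Fin 4) (b : Bool) (t : K), σ (SX TD4.good b i t) = SX TD4.good b (pA i) t := by
    intro i b t
    have h1 := h.sigma_SX (fun r => by rw [WD4a.lam_one, one_mul]) i b t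
    rw [← pA_eq]; exact h1
  have hor : (∀ i : Fin 4, π i = pA i) ∨ (∀ i : Fin 4, π i = pB i) := by
    rcases sym_or π π.injective (fun i j hij => hs i j hij) with h1 | h1 | h1
    · left; intro i; exact congrFun h1 i
    · right; intro i; exact congrFun h1 i
    · exfalso
      have h2 : τ ^ 2 = 1 := by
        have h4 : ((τ ^ 2 : MulAut ↥(chevD4.group K)) : ↥(chevD4.group K) ≃* ↥(chevD4.group K)).toMonoidHom = MonoidHom.id _ := by
          apply hom_ext' TD4.good TD4.ext
          intro i b t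
          rw [pow_two]
          change τ (τ (SX TD4.good b i t)) = SX TD4.good b i t
          rw [hπ, hπ]
          congr 2
          exact h1 i
        ext1 x
        exact DFunLike.congr_fun h4 x
      have h4 := orderOf_dvd_of_pow_eq_one h2
      rw [h3] at h4
      norm_num at h4
  have hK : ∀ g, g ∈ MonoidHom.eqLocus τ.toMonoidHom (MonoidHom.id ↥(chevD4.group K)) ↔ σ g = g := by
    rcases hor with h1 | h1
    · have h2 : τ.toMonoidHom = σ := by
        apply hom_ext' TD4.good TD4.ext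
        intro i b t
        change τ (SX TD4.good b i t) = _
        rw [hπ, h1 i]
        exact (hσ i b t).symm
      intro g
      rw [← h2]; rfl
    · have h2 : τ.toMonoidHom.comp σ = MonoidHom.id _ := by
        apply hom_ext' TD4.good TD4.ext
        intro i b t
        change τ (σ (SX TD4.good b i t)) = SX TD4.good b i t
        have h4 := hσ i b t
        rw [h4]
        have h5 := hπ (pA i) b t
        have h6 : ∀ i : Fin 4, pB (pA i) = i := by decide +kernel
        rw [h1 (pA i), h6 i] at h5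
        exact h5
      have h3 : ∀ x, τ (σ x) = x := fun x => DFunLike.congr_fun h2 x
      intro g
      change τ g = g ↔ σ g = g
      constructor
      · intro h4
        have h5 := h3 g
        exact τ.injective (h5.trans h4.symm)
      · intro h4
        have h5 := h3 g
        rw [h4] at h5
        exact h5
  obtain ⟨e1⟩ := fix_equiv (σ := σ) _ hK
  obtain ⟨e2⟩ := fix h
  exact ⟨e1.trans e2.symm⟩

end FDG
end Cfsg.Agent.H6
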