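import Mathlib
import Cfsg.Agent.H17.FixField
import Cfsg.Agent.H17.QStd
import Cfsg.Agent.H17.SpField
import Cfsg.Agent.H17.SplitCount

set_option autoImplicit false

/-! Graph automorphisms of `PSL_n(F)`. -/

open Cfsg Cfsg.Agent.H5 Cfsg.Agent.H17
open scoped MatrixGroups Matrix

namespace Cfsg.Agent.H6

section gr

variable {F : Type*} [Field F] [Finite F] {n : ℕ}

/-- transpose -/
def trG (g : GL (Fin n) F) : GL (Fin n) F := (invTrGL g)⁻¹

theorem coe_trG (g : GL (Fin n) F) : (trG g : Matrix (Fin n) (Fin n) F) = (g : Matrix (Fin n) (Fin n) F)ᵀ := rfl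

theorem trG_mul (g h : GL (Fin n) F) : trG (g * h) = trG h * trG g := by
  apply Units.ext
  rw [coe_trG, Units.val_mul, Units.val_mul, coe_trG, coe_trG, Matrix.transpose_mul]

theorem trG_trG (g : GL (Fin n) F) : trG (trG g) = g := by
  apply Units.ext
  rw [coe_trG, coe_trG, Matrix.transpose_transpose]

theorem trG_one : trG (1 : GL (Fin n) F) = 1 := by
  apply Units.ext
  rw [coe_trG, Units.val_one, Matrix.transpose_one]

theorem trG_inv (g : GL (Fin n) F) : trG g⁻¹ = (trG g)⁻¹ := by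
  rw [eq_inv_iff_mul_eq_one, ← trG_mul, mul_inv_cancel, trG_one]

theorem trG_sGL (c : Fˣ) : trG (sGL n c) = sGL n c := by
  apply Units.ext
  rw [coe_trG, coe_sGL, Matrix.scalar_apply, Matrix.diagonal_transpose]

theorem invTrGL_eq (g : GL (Fin n) F) : invTrGL g = (trG g)⁻¹ := by rw [trG, inv_inv]

/-- conjugates of graph automorphisms -/
theorem gr_conj (A g : GL (Fin n) F) : cP g * (cP A * iP F n) * (cP g)⁻¹ = cP (g * A * trG g) * iP F n := by
  rw [← cP_inv, mul_assoc, mul_assoc, iP_cP, invTrGL_eq, trG_inv, inv_inv, ← mul_assoc, ← mul_assoc, ← cP_mul, ← cP_mul]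

theorem cP_inj (hn : 2 ≤ n) {g h : GL (Fin n) F} (H : cP g = cP h) : ∃ c : Fˣ, g = sGL n c * h := by
  have h1 : cP (g * h⁻¹) = 1 := by rw [cP_mul, cP_inv, H, mul_inv_cancel]
  obtain ⟨c, hc⟩ := (cP_eq_one_iff' hn _).mp h1
  exact ⟨c, by rw [← hc, inv_mul_cancel_right]⟩

theorem gr_comm (hn : 2 ≤ n) (A B : GL (Fin n) F) :
    (cP A * iP F n) * cP B = cP B * (cP A * iP F n) ↔ ∃ c : Fˣ, B * A * trG B = sGL n c * A := by
  constructor
  · intro h
    have h1 : cP B * (cP A * iP F n) * (cP B)⁻¹ = cP A * iP F n := by rw [← h, mul_inv_cancel_right]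
    rw [gr_conj] at h1
    exact cP_inj hn (mul_right_cancel h1)
  · rintro ⟨c, hc⟩
    have h1 := gr_conj A B
    rw [hc, cP_mul, cP_sGL hn, one_mul] at h1
    rw [mul_inv_eq_iff_eq_mul] at h1
    exact h1.symm

theorem gr_sq (hn : 2 ≤ n) {A : GL (Fin n) F} (h : (cP A * iP F n) * (cP A * iP F n) = 1) :
    trG A = A ∨ trG A = sGL n (-1) * A := by
  have h1 : cP (A * (trG A)⁻¹) = 1 := by
    rw [← h, mul_assoc, ← mul_assoc (iP F n), iP_cP, invTrGL_eq, mul_assoc, iP_mul_self, mul_one, ← cP_mul]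
  obtain ⟨c, hc⟩ := (cP_eq_one_iff' hn _).mp h1
  rw [mul_inv_eq_iff_eq_mul] at hc
  have h2 : trG A = sGL n c * A := by
    have := congrArg trG hc
    rwa [trG_mul, trG_trG, trG_sGL, ← sGL_comm] at this
  have h3 : sGL n (c * c) = sGL n 1 := by
    rw [h2, ← mul_assoc, ← map_mul] at hc
    rw [map_one]
    exact mul_right_cancel (b := A) (by rw [← hc, one_mul])
  have h4 : (c : F) * c = 1 := by
    have := congrArg Units.val (sGL_inj (by omega) h3)
    simpa using this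
  rcases mul_self_eq_one_iff.mp h4 with h5 | h5
  · left
    rw [h2, show c = 1 from Units.ext h5, map_one, one_mul]
  · right
    rw [h2, show c = -1 from Units.ext (by rw [h5]; simp)]

theorem gr_ord {A : GL (Fin n) F} (hn : 3 ≤ n) (h : ∃ c : Fˣ, trG A = sGL n c * A) : orderOf (cP A * iP F n) = 2 := by
  obtain ⟨c, hc⟩ := h
  apply orderOf_eq_prime
  · rw [pow_two, mul_assoc, ← mul_assoc (iP F n), iP_cP, invTrGL_eq, mul_assoc, iP_mul_self, mul_one, ← cP_mul, hc,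
      _root_.mul_inv_rev, ← map_inv, ← mul_assoc, mul_inv_cancel, one_mul, cP_sGL (by omega)]
  · intro h1
    apply cP_fP_iP_ne_one hn A 1
    rw [fP_one, mul_one]
    exact h1

theorem gr_class {β : MulAut (Matrix.ProjectiveSpecialLinearGroup (Fin n) F)} (h : IsGraphAutClassPSL β) :
    ∃ A : GL (Fin n) F, β = cP A * iP F n := by
  obtain ⟨_, δ, γ, hδ, hγ, rfl⟩ := h
  obtain ⟨A, rfl⟩ := isInnerDiagonal_iff.mp hδ
  exact ⟨A, by rw [isInvTr_iff.mp hγ]⟩

theorem gr_isClass (hn : 3 ≤ n) (A : GL (Fin n) F) : IsGraphAutClassPSL (cP A * iP F n) :=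
  ⟨hn, _, _, isInnerDiagonal_iff.mpr ⟨A, rfl⟩, isInvTr_iff.mpr rfl, rfl⟩

/-- the form of a graph automorphism -/
def bA (A : GL (Fin n) F) (x y : Fin n → F) : F := x ⬝ᵥ (((A⁻¹ : GL (Fin n) F) : Matrix (Fin n) (Fin n) F) *ᵥ y)

theorem mat_ext {M N : Matrix (Fin n) (Fin n) F} (h : ∀ x y : Fin n → F, x ⬝ᵥ (M *ᵥ y) = x ⬝ᵥ (N *ᵥ y)) : M = N := by
  ext i j
  have := h (Pi.single i 1) (Pi.single j 1)
  simpa [Matrix.mulVec_single_one, single_one_dotProduct] using this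

omit [Finite F] in
theorem mv_dot (B : Matrix (Fin n) (Fin n) F) (x z : Fin n → F) : (B *ᵥ x) ⬝ᵥ z = x ⬝ᵥ (Bᵀ *ᵥ z) := by
  rw [Matrix.dotProduct_mulVec, Matrix.vecMul_transpose]

/-- group criterion in terms of forms -/
theorem form_iff (A A' B : GL (Fin n) F) (c : Fˣ) :
    B * A * trG B = sGL n c * A' ↔ ∀ x y, bA A' ((B : Matrix (Fin n) (Fin n) F) *ᵥ x) ((B : Matrix (Fin n) (Fin n) F) *ᵥ y) =
      (c : F) * bA A x y := by
  have h1 : B * A * trG B = sGL n c * A' ↔ trG B * A'⁻¹ * B = sGL n c * A⁻¹ := by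
    obtain ⟨z, hz⟩ : ∃ z, z = sGL n c := ⟨_, rfl⟩
    have hz1 : ∀ g, z * g = g * z := fun g => by rw [hz]; exact sGL_comm c g
    rw [← hz]
    constructor
    · intro h
      have h2 : trG B = A⁻¹ * B⁻¹ * (z * A') := by rw [← h]; group
      rw [h2, hz1 A', hz1 A⁻¹, show A⁻¹ * B⁻¹ * (A' * z) * A'⁻¹ * B = A⁻¹ * B⁻¹ * (A' * (z * (A'⁻¹ * B))) by group, hz1]
      group
    · intro h
      have h2 : trG B = z * A⁻¹ * B⁻¹ * A' := by rw [← h]; group
      rw [h2, hz1 A⁻¹, hz1 A', show B * A * (A⁻¹ * z * B⁻¹ * A') = B * (z * (B⁻¹ * A')) by group, hz1]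
      group
  rw [h1]
  constructor
  · intro h x y
    have h2 := congrArg (fun g : GL (Fin n) F => x ⬝ᵥ ((g : Matrix (Fin n) (Fin n) F) *ᵥ y)) h
    simp only [Units.val_mul, coe_trG, coe_sGL, ← Matrix.mulVec_mulVec, Matrix.scalar_apply] at h2
    unfold bA
    rw [mv_dot, h2]
    rw [show Matrix.diagonal (fun _ : Fin n => (c : F)) *ᵥ (((A⁻¹ : GL (Fin n) F) : Matrix (Fin n) (Fin n) F) *ᵥ y) =
      (c : F) • (((A⁻¹ : GL (Fin n) F) : Matrix (Fin n) (Fin n) F) *ᵥ y) by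
        ext i; rw [Matrix.mulVec_diagonal, Pi.smul_apply, smul_eq_mul], dotProduct_smul, smul_eq_mul]
  · intro h
    apply Units.ext
    apply mat_ext
    intro x y
    have h2 := h x y
    unfold bA at h2
    rw [mv_dot] at h2
    rw [Units.val_mul, Units.val_mul, Units.val_mul, coe_trG, coe_sGL, ← Matrix.mulVec_mulVec, ← Matrix.mulVec_mulVec,
      ← Matrix.mulVec_mulVec, h2, Matrix.scalar_apply,
      show Matrix.diagonal (fun _ : Fin n => (c : F)) *ᵥ (((A⁻¹ : GL (Fin n) F) : Matrix (Fin n) (Fin n) F) *ᵥ y) =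
      (c : F) • (((A⁻¹ : GL (Fin n) F) : Matrix (Fin n) (Fin n) F) *ᵥ y) by
        ext i; rw [Matrix.mulVec_diagonal, Pi.smul_apply, smul_eq_mul], dotProduct_smul, smul_eq_mul]

section tr

variable {ι : Type} [Fintype ι] [DecidableEq ι]

omit [Finite F] in
theorem gl_ext {g h : GL ι F} (H : ∀ x : ι → F, (g : Matrix ι ι F) *ᵥ x = (h : Matrix ι ι F) *ᵥ x) : g = h := by
  apply Units.ext
  exact Matrix.ext_of_mulVec_single fun i => H _

/-- transport of a general linear group along a linear equivalence -/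
noncomputable def tE (e : (ι → F) ≃ₗ[F] (Fin n → F)) : GL ι F ≃* GL (Fin n) F :=
  (Matrix.GeneralLinearGroup.toLin.trans (LinearMap.GeneralLinearGroup.congrLinearEquiv e)).trans
    Matrix.GeneralLinearGroup.toLin.symm

omit [Finite F] in
theorem tE_spec (e : (ι → F) ≃ₗ[F] (Fin n → F)) (g : GL ι F) (x : ι → F) :
    ((tE e g : GL (Fin n) F) : Matrix (Fin n) (Fin n) F) *ᵥ (e x) = e ((g : Matrix ι ι F) *ᵥ x) := by
  have h1 : Matrix.GeneralLinearGroup.toLin (tE e g) =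
      LinearMap.GeneralLinearGroup.congrLinearEquiv e (Matrix.GeneralLinearGroup.toLin g) :=
    MulEquiv.apply_symm_apply _ _
  have h2 := congrArg (fun z : LinearMap.GeneralLinearGroup F (Fin n → F) => (z : (Fin n → F) →ₗ[F] (Fin n → F)) (e x)) h1
  have h3 : ((Matrix.GeneralLinearGroup.toLin (tE e g) : LinearMap.GeneralLinearGroup F (Fin n → F)) : (Fin n → F) →ₗ[F] (Fin n → F)) (e x) =
    ((tE e g : GL (Fin n) F) : Matrix (Fin n) (Fin n) F) *ᵥ (e x) := rfl
  have h4 : ((LinearMap.GeneralLinearGroup.congrLinearEquiv e (Matrix.GeneralLinearGroup.toLin g) : LinearMap.GeneralLinearGroup F (Fin n → F)) : (Fin n → F) →ₗ[F] (Fin n → F)) (e x) =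
    e ((g : Matrix ι ι F) *ᵥ (e.symm (e x))) := rfl
  rw [← h3, h2, h4, LinearEquiv.symm_apply_apply]

omit [Finite F] in
theorem tE_sc (e : (ι → F) ≃ₗ[F] (Fin n → F)) (g : GL ι F) : g ∈ Geo.scalars ι F ↔ ∃ c : Fˣ, tE e g = sGL n c := by
  have key : ∀ c : Fˣ, tE e (Matrix.GeneralLinearGroup.scalar ι c) = sGL n c := by
    intro c
    apply gl_ext
    intro x
    obtain ⟨y, rfl⟩ := e.surjective x
    rw [tE_spec]
    have h1 : ((Matrix.GeneralLinearGroup.scalar ι c : GL ι F) : Matrix ι ι F) *ᵥ y = (c : F) • y := by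
      ext i
      rw [show ((Matrix.GeneralLinearGroup.scalar ι c : GL ι F) : Matrix ι ι F) = Matrix.diagonal (fun _ => (c : F)) from rfl,
        Matrix.mulVec_diagonal, Pi.smul_apply, smul_eq_mul]
    have h2 : ((sGL n c : GL (Fin n) F) : Matrix (Fin n) (Fin n) F) *ᵥ (e y) = (c : F) • (e y) := by
      ext i
      rw [coe_sGL, Matrix.scalar_apply, Matrix.mulVec_diagonal, Pi.smul_apply, smul_eq_mul]
    rw [h1, h2, map_smul]
  constructor
  · rintro ⟨c, rfl⟩
    exact ⟨c, key c⟩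
  · rintro ⟨c, hc⟩
    refine ⟨c, ?_⟩
    apply (tE e).injective
    rw [hc]
    exact key c

/-- the centralizer of a graph automorphism -/
theorem gr_cent (hn : 2 ≤ n) (A : GL (Fin n) F) (e : (ι → F) ≃ₗ[F] (Fin n → F)) (β : (ι → F) → (ι → F) → F) (k : Fˣ)
    (hβ : ∀ x y, bA A (e x) (e y) = k * β x y) (H : Subgroup (GL ι F))
    (hH : ∀ g : GL ι F, g ∈ H ↔ ∃ c : Fˣ, ∀ x y, β ((g : Matrix ι ι F) *ᵥ x) ((g : Matrix ι ι F) *ᵥ y) = (c : F) * β x y) :
    Nonempty (↥(inndiagPSL n F ⊓ Subgroup.centralizer {cP A * iP F n}) ≃* projQuot H) := by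
  have key : ∀ g : GL ι F, g ∈ H ↔ (cP A * iP F n) * cP (tE e g) = cP (tE e g) * (cP A * iP F n) := by
    intro g
    rw [gr_comm hn, hH]
    apply exists_congr
    intro c
    rw [form_iff]
    constructor
    · intro h x y
      obtain ⟨x, rfl⟩ := e.surjective x
      obtain ⟨y, rfl⟩ := e.surjective y
      rw [tE_spec, tE_spec, hβ, hβ, h]
      ring
    · intro h x y
      have h1 := h (e x) (e y)
      rw [tE_spec, tE_spec, hβ, hβ] at h1
      have hk : (k : F) ≠ 0 := k.ne_zero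
      apply mul_left_cancel₀ hk
      rw [h1]
      ring
  have h0 : cP A * iP F n = (cP (1 : GL (Fin n) F)) * (cP A * iP F n) * (cP (1 : GL (Fin n) F))⁻¹ := by
    rw [cP_one, inv_one, one_mul, mul_one]
  rw [h0, inndiag_eq]
  refine cent_equiv (cPrange F n) (cP A * iP F n) (cP 1) ⟨1, rfl⟩ (((cPh F n).comp (tE e).toMonoidHom).comp H.subtype) ?_
    ((Geo.scalars ι F).subgroupOf H) ?_
  · ext y
    constructor
    · rintro ⟨h, rfl⟩
      refine ⟨⟨_, rfl⟩, ?_⟩
      refine Subgroup.mem_centralizer_singleton_iff.mpr ?_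
      exact ((key h).mp h.2).symm
    · rintro ⟨⟨h, rfl⟩, hh⟩
      replace hh := Subgroup.mem_centralizer_singleton_iff.mp hh
      refine ⟨⟨(tE e).symm h, ?_⟩, ?_⟩
      · rw [key, MulEquiv.apply_symm_apply]
        exact hh.symm
      · change cP (tE e ((tE e).symm h)) = _
        rw [MulEquiv.apply_symm_apply]
        rfl
  · ext h
    rw [MonoidHom.mem_ker, Subgroup.mem_subgroupOf, tE_sc e]
    change cP (tE e (h : GL ι F)) = 1 ↔ _
    rw [cP_eq_one_iff' hn]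

/-- conjugacy of graph automorphisms from equivalence of forms -/
theorem gr_conj_of (hn : 2 ≤ n) (A₀ A : GL (Fin n) F) (ψ : (Fin n → F) ≃ₗ[F] (Fin n → F)) (c : Fˣ)
    (h : ∀ x y, bA A (ψ x) (ψ y) = c * bA A₀ x y) :
    IsConjUnder (inndiagPSL n F) (cP A₀ * iP F n) (cP A * iP F n) := by
  obtain ⟨g, hg⟩ := exists_gl_of_inj (ψ : (Fin n → F) →ₗ[F] (Fin n → F)) (fun x hx => by simpa using hx)
  have h1 : g * A₀ * trG g = sGL n c * A := by
    rw [form_iff]
    intro x y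
    rw [hg, hg]
    exact h x y
  refine ⟨cP g, ?_, ?_⟩
  · rw [inndiag_eq]
    exact ⟨g, rfl⟩
  · rw [gr_conj, h1, cP_mul, cP_sGL hn, one_mul]

theorem conj_form (hn : 2 ≤ n) {A₀ A : GL (Fin n) F} (h : IsConjUnder (inndiagPSL n F) (cP A₀ * iP F n) (cP A * iP F n)) :
    ∃ (g : GL (Fin n) F) (c : Fˣ), g * A₀ * trG g = sGL n c * A := by
  obtain ⟨y, hy, h⟩ := h
  rw [inndiag_eq] at hy
  obtain ⟨g, rfl⟩ := mem_cPrange.mp hy
  rw [gr_conj] at h
  obtain ⟨c, hc⟩ := cP_inj hn (mul_right_cancel h).symm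
  exact ⟨g, c, hc⟩

end tr

end gr

end Cfsg.Agent.H6
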