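import Mathlib
import Cfsg.Agent.H6.IvA

set_option autoImplicit false

/-! Models of graph automorphisms of `PSL_n(F)`, odd characteristic. -/

open Cfsg Cfsg.Agent.H5 Cfsg.Agent.H17
open scoped MatrixGroups Matrix

namespace Cfsg.Agent.H6

section md

variable {F : Type*} [Field F] [Finite F] {n : ℕ}

theorem bA_trG (A : GL (Fin n) F) (x y : Fin n → F) : bA (trG A) x y = bA A y x := by
  unfold bA
  rw [← trG_inv, coe_trG, ← mv_dot, dotProduct_comm]

theorem bA_sGL (c : Fˣ) (A : GL (Fin n) F) (x y : Fin n → F) : bA (sGL n c * A) x y = ((c⁻¹ : Fˣ) : F) * bA A x y := by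
  unfold bA
  rw [show (sGL n c * A)⁻¹ = sGL n c⁻¹ * A⁻¹ by rw [_root_.mul_inv_rev, map_inv, ← map_inv, sGL_comm], Units.val_mul, coe_sGL, ← Matrix.mulVec_mulVec,
    Matrix.scalar_apply,
    show Matrix.diagonal (fun _ : Fin n => ((c⁻¹ : Fˣ) : F)) *ᵥ (((A⁻¹ : GL (Fin n) F) : Matrix (Fin n) (Fin n) F) *ᵥ y) =
      ((c⁻¹ : Fˣ) : F) • (((A⁻¹ : GL (Fin n) F) : Matrix (Fin n) (Fin n) F) *ᵥ y) by
        ext i; rw [Matrix.mulVec_diagonal, Pi.smul_apply, smul_eq_mul], dotProduct_smul, smul_eq_mul]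

theorem bA_inj {A A' : GL (Fin n) F} (h : ∀ x y, bA A x y = bA A' x y) : A = A' := by
  rw [← inv_inj]
  apply Units.ext
  exact mat_ext h

/-- the bilinear form of a graph automorphism -/
noncomputable def bL (A : GL (Fin n) F) : LinearMap.BilinForm F (Fin n → F) :=
  Matrix.toBilin' ((A⁻¹ : GL (Fin n) F) : Matrix (Fin n) (Fin n) F)

theorem bL_apply (A : GL (Fin n) F) (x y : Fin n → F) : bL A x y = bA A x y := by
  rw [bL, Matrix.toBilin'_apply']
  rfl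

theorem bA_add (A : GL (Fin n) F) (x y : Fin n → F) :
    bA A (x + y) (x + y) = bA A x x + bA A x y + bA A y x + bA A y y := by
  simp only [← bL_apply, map_add, LinearMap.add_apply]
  ring

theorem bA_nd (A : GL (Fin n) F) (x : Fin n → F) (h : ∀ y, bA A x y = 0) : x = 0 := by
  apply dotProduct_eq_zero
  intro z
  have h1 := h ((A : Matrix (Fin n) (Fin n) F) *ᵥ z)
  unfold bA at h1
  rwa [Matrix.mulVec_mulVec, ← Units.val_mul, inv_mul_cancel, Units.val_one, Matrix.one_mulVec] at h1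

/-- the quadratic form -/
noncomputable def qA (A : GL (Fin n) F) : QuadraticForm F (Fin n → F) := (bL A).toQuadraticMap

theorem qA_apply (A : GL (Fin n) F) (x : Fin n → F) : qA A x = bA A x x := by
  rw [qA, LinearMap.BilinMap.toQuadraticMap_apply, bL_apply]

theorem pB_qA {A : GL (Fin n) F} (hA : trG A = A) (x y : Fin n → F) : pB (qA A) x y = 2 * bA A x y := by
  have h1 := q_add (qA A) x y
  rw [qA_apply, qA_apply, qA_apply, bA_add] at h1
  have h2 : bA A y x = bA A x y := by rw [← bA_trG, hA]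
  rw [h2] at h1
  linear_combination -h1

theorem nd_qA {A : GL (Fin n) F} (h2 : (2 : F) ≠ 0) (hA : trG A = A) : ND (qA A) := by
  intro x hx
  apply bA_nd A
  intro y
  have h1 := hx y
  rw [pB_qA hA] at h1
  exact (mul_eq_zero.mp h1).resolve_left h2

theorem sym_class (h2 : (2 : F) ≠ 0) {m : ℕ} (hm : 1 ≤ m) (hn : n = 2 * m) {A : GL (Fin n) F} (hA : trG A = A) {a b : F}
    (hab : ∀ z₁ z₂ : F, z₁ ^ 2 + a * z₁ * z₂ + b * z₂ ^ 2 = 0 → z₁ = 0 ∧ z₂ = 0) :
    (∃ ψ : (Fin n → F) ≃ₗ[F] (Fin m ⊕ Fin m → F), ∀ x, qPlus m F (ψ x) = bA A x x) ∨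
    (∃ ψ : (Fin n → F) ≃ₗ[F] ((Fin (m - 1) ⊕ Fin (m - 1)) ⊕ Fin 2 → F), ∀ x, qMinus (m - 1) F a b (ψ x) = bA A x x) := by
  have hfr : Module.finrank F (Fin n → F) = 2 * m := by rw [Module.finrank_fintype_fun_eq_card, Fintype.card_fin, hn]
  by_cases h : ∃ U : Submodule F (Fin n → F), TS (qA A) U ∧ Module.finrank F U = m
  · left
    obtain ⟨ψ, hψ⟩ := std_plus (nd_qA h2 hA) hfr h
    exact ⟨ψ, fun x => by rw [hψ, qA_apply]⟩
  · right
    obtain ⟨ψ, hψ⟩ := std_minus (m := m - 1) (nd_qA h2 hA) (by rw [hfr]; omega) (by rwa [Nat.sub_add_cancel hm]) hab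
    exact ⟨ψ, fun x => by rw [hψ, qA_apply]⟩

theorem exists_model {ι : Type} [Fintype ι] [DecidableEq ι] (β : LinearMap.BilinForm F (ι → F)) (hβ : ∀ y, (∀ x, β x y = 0) → y = 0)
    (e : (ι → F) ≃ₗ[F] (Fin n → F)) : ∃ A : GL (Fin n) F, ∀ x y, bA A (e x) (e y) = β x y := by
  let B' : LinearMap.BilinForm F (Fin n → F) := β.compl₁₂ (e.symm : (Fin n → F) →ₗ[F] (ι → F)) (e.symm : (Fin n → F) →ₗ[F] (ι → F))
  let M := LinearMap.BilinForm.toMatrix' B'
  have hM : ∀ x y, x ⬝ᵥ (M *ᵥ y) = B' x y := by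
    intro x y
    rw [← Matrix.toBilin'_apply', Matrix.toBilin'_toMatrix']
  have hdet : M.det ≠ 0 := by
    intro h0
    obtain ⟨v, hv0, hv⟩ := Matrix.exists_mulVec_eq_zero_iff.mpr h0
    apply hv0
    have h1 : e.symm v = 0 := by
      apply hβ
      intro x
      have h2 := hM (e x) v
      rw [hv, dotProduct_zero] at h2
      have h3 : B' (e x) v = β (e.symm (e x)) (e.symm v) := rfl
      rw [h3, LinearEquiv.symm_apply_apply] at h2
      exact h2.symm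
    simpa using h1
  refine ⟨(Matrix.GeneralLinearGroup.mkOfDetNeZero M hdet)⁻¹, fun x y => ?_⟩
  unfold bA
  rw [inv_inv]
  change (e x) ⬝ᵥ (M *ᵥ (e y)) = _
  rw [hM]
  have h3 : B' (e x) (e y) = β (e.symm (e x)) (e.symm (e y)) := rfl
  rw [h3, LinearEquiv.symm_apply_apply, LinearEquiv.symm_apply_apply]

variable {ι : Type} [Fintype ι] [DecidableEq ι]

theorem mem_sim_iff (h2 : (2 : F) ≠ 0) (Q : QuadraticForm F (ι → F)) (g : GL ι F) :
    g ∈ Geo.quadSimilarityGroup (F := F) (⇑Q) ↔ ∃ c : Fˣ, ∀ x y, pB Q ((g : Matrix ι ι F) *ᵥ x) ((g : Matrix ι ι F) *ᵥ y) = (c : F) * pB Q x y := by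
  constructor
  · rintro ⟨c, hc⟩
    refine ⟨c, fun x y => ?_⟩
    have h1 := hc (x + y)
    rw [Matrix.mulVec_add, q_add, q_add, hc, hc] at h1
    linear_combination h1
  · rintro ⟨c, hc⟩
    refine ⟨c, fun x => ?_⟩
    have h1 := hc x x
    rw [pB_self, pB_self] at h1
    apply mul_left_cancel₀ h2
    linear_combination h1

theorem gr_cent_Q (h2 : (2 : F) ≠ 0) (hn : 2 ≤ n) {A : GL (Fin n) F} (hA : trG A = A) (Q : QuadraticForm F (ι → F))
    (e : (ι → F) ≃ₗ[F] (Fin n → F)) (k : Fˣ) (h : ∀ v, bA A (e v) (e v) = k * Q v) :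
    Nonempty (↥(inndiagPSL n F ⊓ Subgroup.centralizer {cP A * iP F n}) ≃* PGO F (⇑Q)) := by
  refine gr_cent hn A e (fun x y => pB Q x y) (k * (Units.mk0 2 h2)⁻¹) ?_ _ (mem_sim_iff h2 Q)
  intro x y
  have h1 := h (x + y)
  rw [map_add, bA_add, q_add, h, h] at h1
  have h3 : bA A (e y) (e x) = bA A (e x) (e y) := by rw [← bA_trG, hA]
  rw [h3] at h1
  rw [Units.val_mul, Units.val_inv_eq_inv_val, Units.val_mk0]
  field_simp
  linear_combination h1

theorem gr_cent_Sp (hn : 2 ≤ n) {m : ℕ} {A : GL (Fin n) F} (e : (Fin m ⊕ Fin m → F) ≃ₗ[F] (Fin n → F))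
    (h : ∀ x y, bA A (e x) (e y) = sympB m F x y) :
    Nonempty (↥(inndiagPSL n F ⊓ Subgroup.centralizer {cP A * iP F n}) ≃* PGSp m F) := by
  refine gr_cent hn A e (fun x y => sympB m F x y) 1 ?_ _ (fun g => mem_GSp_iff)
  intro x y
  rw [h, Units.val_one, one_mul]

theorem alt_class (h2 : (2 : F) ≠ 0) {m : ℕ} (hn : n = 2 * m) {A : GL (Fin n) F} (hA : trG A = sGL n (-1) * A) :
    ∃ e : (Fin m ⊕ Fin m → F) ≃ₗ[F] (Fin n → F), ∀ x y, bA A (e x) (e y) = sympB m F x y := by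
  let e₀ : (Fin m ⊕ Fin m → F) ≃ₗ[F] (Fin n → F) := LinearEquiv.ofFinrankEq _ _ (by
    rw [Module.finrank_fintype_fun_eq_card, Module.finrank_fintype_fun_eq_card, Fintype.card_sum, Fintype.card_fin, Fintype.card_fin]; omega)
  have halt : ∀ x, bA A x x = 0 := by
    intro x
    have h1 := bA_trG A x x
    rw [hA, bA_sGL] at h1
    have h3 : (((-1 : Fˣ)⁻¹ : Fˣ) : F) = -1 := by
      rw [inv_neg, inv_one, Units.val_neg, Units.val_one]
    rw [h3] at h1
    apply (mul_eq_zero.mp (show (2 : F) * bA A x x = 0 by linear_combination -h1)).resolve_left h2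
  let B : LinearMap.BilinForm F (Fin m ⊕ Fin m → F) := (bL A).compl₁₂ (e₀ : (Fin m ⊕ Fin m → F) →ₗ[F] (Fin n → F)) (e₀ : (Fin m ⊕ Fin m → F) →ₗ[F] (Fin n → F))
  have hB : ∀ x y, B x y = bA A (e₀ x) (e₀ y) := fun x y => by
    rw [← bL_apply]; rfl
  obtain ⟨c, hc⟩ := alt_equiv B (fun x => by rw [hB]; exact halt _) (fun u hu => by
    have h1 : e₀ u = 0 := by
      apply bA_nd A
      intro y
      obtain ⟨y, rfl⟩ := e₀.surjective y
      rw [← hB]; exact hu y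
    simpa using h1)
  let cl : (Fin m ⊕ Fin m → F) ≃ₗ[F] (Fin m ⊕ Fin m → F) := (Matrix.GeneralLinearGroup.toLin c).toLinearEquiv
  have hcl : ∀ x, cl x = (c : Matrix (Fin m ⊕ Fin m) (Fin m ⊕ Fin m) F) *ᵥ x := fun x => rfl
  refine ⟨cl.symm.trans e₀, fun x y => ?_⟩
  obtain ⟨x, rfl⟩ := cl.surjective x
  obtain ⟨y, rfl⟩ := cl.surjective y
  rw [LinearEquiv.trans_apply, LinearEquiv.trans_apply, LinearEquiv.symm_apply_apply, LinearEquiv.symm_apply_apply, ← hB, ← hc, hcl, hcl]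

end md

end Cfsg.Agent.H6
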