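import Mathlib
import Cfsg.Agent.H6.IvB
import Cfsg.Agent.H17.OddTwo

set_option autoImplicit false

/-! Classes of involutory graph automorphisms of `PSL_{2m}(F)`, odd characteristic. -/

open Cfsg Cfsg.Agent.H5 Cfsg.Agent.H17
open scoped MatrixGroups Matrix

namespace Cfsg.Agent.H6

section cl

variable {F : Type*} [Field F] [Finite F] {n : ℕ}

/-- symmetric models -/
theorem exists_sym {ι : Type} [Fintype ι] [DecidableEq ι] {Q : QuadraticForm F (ι → F)} (hnd : ND Q)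
    (e : (ι → F) ≃ₗ[F] (Fin n → F)) : ∃ A : GL (Fin n) F, trG A = A ∧ ∀ x y, bA A (e x) (e y) = pB Q x y := by
  obtain ⟨A, hA⟩ := exists_model (pB Q) (fun y hy => hnd y fun x => by rw [pB_symm]; exact hy x) e
  refine ⟨A, ?_, hA⟩
  apply bA_inj
  intro x y
  obtain ⟨x, rfl⟩ := e.surjective x
  obtain ⟨y, rfl⟩ := e.surjective y
  rw [bA_trG, hA, hA, pB_symm]

theorem neg_inv_coe : (((-1 : Fˣ)⁻¹ : Fˣ) : F) = -1 := by
  rw [inv_neg, inv_one, Units.val_neg, Units.val_one]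

/-- alternating model -/
theorem exists_alt {m : ℕ} (e : (Fin m ⊕ Fin m → F) ≃ₗ[F] (Fin n → F)) :
    ∃ A : GL (Fin n) F, trG A = sGL n (-1) * A ∧ ∀ x y, bA A (e x) (e y) = sympB m F x y := by
  obtain ⟨A, hA⟩ := exists_model (sympB m F) (fun y hy => by
    apply sympB_nondegenerate.2 y
    exact hy) e
  refine ⟨A, ?_, hA⟩
  apply bA_inj
  intro x y
  obtain ⟨x, rfl⟩ := e.surjective x
  obtain ⟨y, rfl⟩ := e.surjective y
  rw [bA_trG, bA_sGL, hA, hA, neg_inv_coe, sympB_neg]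
  ring

theorem not_conj_alt_sym (h2 : (2 : F) ≠ 0) (hn : 2 ≤ n) {A₁ A : GL (Fin n) F} (h1 : trG A₁ = sGL n (-1) * A₁) (hA : trG A = A) :
    ¬ IsConjUnder (inndiagPSL n F) (cP A₁ * iP F n) (cP A * iP F n) := by
  intro h
  obtain ⟨g, c, hc⟩ := conj_form hn h
  have h3 := congrArg trG hc
  rw [trG_mul, trG_mul, trG_trG, h1, trG_mul, hA, trG_sGL, ← sGL_comm] at h3
  have h4 : g * (sGL n (-1) * A₁ * trG g) = sGL n (-1) * (g * A₁ * trG g) := by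
    rw [← mul_assoc, ← mul_assoc, ← sGL_comm, mul_assoc (sGL n (-1)), mul_assoc (sGL n (-1))]
  rw [h4, hc, ← mul_assoc, ← map_mul] at h3
  have h5 := sGL_inj (by omega) (mul_right_cancel h3)
  have h6 := congrArg Units.val h5
  rw [Units.val_mul, Units.val_neg, Units.val_one] at h6
  have h7 : (2 : F) * c = 0 := by linear_combination -h6
  rcases mul_eq_zero.mp h7 with h8 | h8
  · exact h2 h8
  · exact c.ne_zero h8

theorem not_conj_plus_minus (h2 : (2 : F) ≠ 0) (hn : 2 ≤ n) {m : ℕ} (hm : 1 ≤ m) {a b : F}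
    (hab : ∀ z₁ z₂ : F, z₁ ^ 2 + a * z₁ * z₂ + b * z₂ ^ 2 = 0 → z₁ = 0 ∧ z₂ = 0)
    {A₂ A₃ : GL (Fin n) F} (e₁ : (Fin m ⊕ Fin m → F) ≃ₗ[F] (Fin n → F))
    (e₃ : ((Fin (m - 1) ⊕ Fin (m - 1)) ⊕ Fin 2 → F) ≃ₗ[F] (Fin n → F))
    (h₂ : ∀ x y, bA A₂ (e₁ x) (e₁ y) = pB (qPlus m F) x y) (h₃ : ∀ x y, bA A₃ (e₃ x) (e₃ y) = pB (qMinus (m - 1) F a b) x y) :
    ¬ IsConjUnder (inndiagPSL n F) (cP A₂ * iP F n) (cP A₃ * iP F n) := by
  intro h
  obtain ⟨g, c, hc⟩ := conj_form hn h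
  rw [form_iff] at hc
  let gl : (Fin n → F) ≃ₗ[F] (Fin n → F) := (Matrix.GeneralLinearGroup.toLin g).toLinearEquiv
  have hgl : ∀ x, gl x = (g : Matrix (Fin n) (Fin n) F) *ᵥ x := fun x => rfl
  let φ : (Fin m ⊕ Fin m → F) ≃ₗ[F] ((Fin (m - 1) ⊕ Fin (m - 1)) ⊕ Fin 2 → F) := (e₁.trans gl).trans e₃.symm
  have hφ : ∀ x, qMinus (m - 1) F a b (φ x) = c * qPlus m F x := by
    intro x
    have h4 := hc (e₁ x) (e₁ x)
    rw [h₂, pB_self, ← hgl] at h4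
    have h5 := h₃ (φ x) (φ x)
    rw [pB_self] at h5
    have h6 : e₃ (φ x) = gl (e₁ x) := e₃.apply_symm_apply _
    rw [h6, h4] at h5
    apply mul_left_cancel₀ h2
    linear_combination -h5
  refine no_ts_minus (m := m - 1) hab ⟨(Ustd m F).map (φ : (Fin m ⊕ Fin m → F) →ₗ[F] _), ?_, ?_⟩
  · rintro _ ⟨x, hx, rfl⟩
    have := hφ x
    rw [Ustd_TS x hx, mul_zero] at this
    exact this
  · rw [Nat.sub_add_cancel hm]
    have := LinearEquiv.finrank_map_eq φ (Ustd m F)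
    rw [Ustd_finrank] at this
    exact this

end cl

end Cfsg.Agent.H6
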