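import Mathlib
import Cfsg.Agent.H6.IvC

set_option autoImplicit false

/-! The sum of squares in even dimension over a finite field of odd order. -/

open Cfsg Cfsg.Agent.H5 Cfsg.Agent.H17
open scoped MatrixGroups Matrix

namespace Cfsg.Agent.H6

section sq

variable {F : Type*} [Field F] [Finite F]

/-- sum of squares -/
noncomputable def sqQ (ι : Type) [Fintype ι] (F : Type*) [Field F] : QuadraticForm F (ι → F) :=
  ∑ i : ι, QuadraticMap.linMulLin (LinearMap.proj i) (LinearMap.proj i)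

omit [Finite F] in
theorem sqQ_apply {ι : Type} [Fintype ι] (x : ι → F) : sqQ ι F x = ∑ i, x i * x i := by
  unfold sqQ
  rw [QuadraticMap.sum_apply]
  rfl

omit [Finite F] in
theorem pB_sqQ {ι : Type} [Fintype ι] (x y : ι → F) : pB (sqQ ι F) x y = 2 * ∑ i, x i * y i := by
  have h := q_add (sqQ ι F) x y
  rw [sqQ_apply, sqQ_apply, sqQ_apply] at h
  have h1 : ∑ i, (x + y) i * (x + y) i = ∑ i, x i * x i + ∑ i, y i * y i + 2 * ∑ i, x i * y i := by
    rw [Finset.mul_sum, ← Finset.sum_add_distrib, ← Finset.sum_add_distrib]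
    apply Finset.sum_congr rfl
    intro i _
    simp only [Pi.add_apply]
    ring
  rw [h1] at h
  linear_combination -h

omit [Finite F] in
theorem nd_sqQ {ι : Type} [Fintype ι] [DecidableEq ι] (h2 : (2 : F) ≠ 0) : ND (sqQ ι F) := by
  intro x hx
  funext i
  have h1 := hx (Pi.single i 1)
  rw [pB_sqQ] at h1
  simp only [Pi.single_apply, mul_ite, mul_one, mul_zero, Finset.sum_ite_eq', Finset.mem_univ, if_true] at h1
  exact (mul_eq_zero.mp h1).resolve_left h2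

theorem sq_plus (h2 : (2 : F) ≠ 0) {m : ℕ} (L : (Fin m → F) →ₗ[F] (Fin m → F)) (hL : ∀ x, ∑ i, L x i * L x i = - ∑ i, x i * x i) :
    ∃ ψ : (Fin m ⊕ Fin m → F) ≃ₗ[F] (Fin m ⊕ Fin m → F), ∀ x, qPlus m F (ψ x) = ∑ i, x i * x i := by
  let G : (Fin m → F) →ₗ[F] (Fin m ⊕ Fin m → F) :=
    (LinearEquiv.sumArrowLequivProdArrow (Fin m) (Fin m) F F).symm.toLinearMap ∘ₗ (LinearMap.id.prod L)
  have hG1 : ∀ x i, G x (Sum.inl i) = x i := fun x i => rfl
  have hG2 : ∀ x i, G x (Sum.inr i) = L x i := fun x i => rfl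
  have hinj : Function.Injective G := by
    intro x y h
    funext i
    have := congrFun h (Sum.inl i)
    rwa [hG1, hG1] at this
  obtain ⟨ψ, hψ⟩ := std_plus (m := m) (nd_sqQ (ι := Fin m ⊕ Fin m) h2) (by
    rw [Module.finrank_fintype_fun_eq_card, Fintype.card_sum, Fintype.card_fin]; omega) ⟨LinearMap.range G, by
      rintro _ ⟨x, rfl⟩
      rw [sqQ_apply, Fintype.sum_sum_type]
      simp only [hG1, hG2]
      rw [hL, add_neg_cancel], by
      rw [LinearMap.finrank_range_of_inj hinj, Module.finrank_fintype_fun_eq_card, Fintype.card_fin]⟩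
  exact ⟨ψ, fun x => by rw [hψ, sqQ_apply]⟩

omit [Finite F] in
theorem exists_L_sq {m : ℕ} {i : F} (hi : i * i = -1) :
    ∃ L : (Fin m → F) →ₗ[F] (Fin m → F), ∀ x, ∑ j, L x j * L x j = - ∑ j, x j * x j := by
  refine ⟨i • LinearMap.id, fun x => ?_⟩
  rw [← Finset.sum_neg_distrib]
  apply Finset.sum_congr rfl
  intro j _
  simp only [LinearMap.smul_apply, LinearMap.id_apply, Pi.smul_apply, smul_eq_mul]
  linear_combination (x j * x j) * hi

omit [Finite F] in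
theorem exists_L_two {k : ℕ} {a b : F} (hab : a * a + b * b = -1) :
    ∃ L : (Fin (2 * k) → F) →ₗ[F] (Fin (2 * k) → F), ∀ x, ∑ j, L x j * L x j = - ∑ j, x j * x j := by
  let e : Fin (2 * k) ≃ Fin k ⊕ Fin k := Fintype.equivOfCardEq (by simp; omega)
  let E : (Fin k ⊕ Fin k → F) ≃ₗ[F] (Fin (2 * k) → F) := LinearEquiv.funCongrLeft F F e
  have hE : ∀ x j, E x j = x (e j) := fun x j => rfl
  let P : ((Fin k ⊕ Fin k → F)) ≃ₗ[F] ((Fin k → F) × (Fin k → F)) := LinearEquiv.sumArrowLequivProdArrow (Fin k) (Fin k) F F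
  let M : ((Fin k → F) × (Fin k → F)) →ₗ[F] ((Fin k → F) × (Fin k → F)) :=
    LinearMap.prod (a • LinearMap.fst F (Fin k → F) (Fin k → F) + b • LinearMap.snd F (Fin k → F) (Fin k → F))
      (b • LinearMap.fst F (Fin k → F) (Fin k → F) - a • LinearMap.snd F (Fin k → F) (Fin k → F))
  refine ⟨E.toLinearMap ∘ₗ P.symm.toLinearMap ∘ₗ M ∘ₗ P.toLinearMap ∘ₗ E.symm.toLinearMap, fun x => ?_⟩
  obtain ⟨x, rfl⟩ := E.surjective x
  obtain ⟨y, rfl⟩ := P.symm.surjective x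
  simp only [LinearMap.comp_apply, LinearEquiv.coe_coe, LinearEquiv.symm_apply_apply, LinearEquiv.apply_symm_apply]
  simp only [hE]
  rw [e.sum_comp (fun j => (P.symm (M y)) j * (P.symm (M y)) j), e.sum_comp (fun j => (P.symm y) j * (P.symm y) j),
    Fintype.sum_sum_type, Fintype.sum_sum_type]
  have h1 : ∀ (z : (Fin k → F) × (Fin k → F)) i, P.symm z (Sum.inl i) = z.1 i := fun z i => rfl
  have h2 : ∀ (z : (Fin k → F) × (Fin k → F)) i, P.symm z (Sum.inr i) = z.2 i := fun z i => rfl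
  have h3 : ∀ z i, (M z).1 i = a * z.1 i + b * z.2 i := fun z i => rfl
  have h4 : ∀ z i, (M z).2 i = b * z.1 i - a * z.2 i := fun z i => rfl
  simp only [h1, h2, h3, h4]
  rw [← Finset.sum_add_distrib, ← Finset.sum_add_distrib, ← Finset.sum_neg_distrib]
  apply Finset.sum_congr rfl
  intro i _
  linear_combination (y.1 i * y.1 i + y.2 i * y.2 i) * hab

theorem sq_minus (h2 : (2 : F) ≠ 0) {k : ℕ} (L : (Fin k → F) →ₗ[F] (Fin k → F)) (hL : ∀ x, ∑ i, L x i * L x i = - ∑ i, x i * x i) :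
    ∃ ψ : ((Fin k ⊕ Fin k) ⊕ Fin 2 → F) ≃ₗ[F] ((Fin k ⊕ Fin k) ⊕ Fin 2 → F), ∀ x, qMinus k F 0 1 (ψ x) = ∑ i, x i * x i := by
  obtain ⟨ψ, hψ⟩ := sq_plus h2 L hL
  let Φ : ((Fin k ⊕ Fin k) ⊕ Fin 2 → F) ≃ₗ[F] ((Fin k ⊕ Fin k → F) × (Fin 2 → F)) :=
    LinearEquiv.sumArrowLequivProdArrow (Fin k ⊕ Fin k) (Fin 2) F F
  refine ⟨Φ.trans ((ψ.prodCongr (LinearEquiv.refl F _)).trans Φ.symm), fun x => ?_⟩
  obtain ⟨⟨x, z⟩, rfl⟩ := Φ.symm.surjective x
  simp only [LinearEquiv.trans_apply, LinearEquiv.apply_symm_apply, LinearEquiv.prodCongr_apply, LinearEquiv.refl_apply]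
  have h1 : ∀ (w : (Fin k ⊕ Fin k → F) × (Fin 2 → F)) i, Φ.symm w (Sum.inl i) = w.1 i := fun z i => rfl
  have h3 : ∀ (w : (Fin k ⊕ Fin k → F) × (Fin 2 → F)) i, Φ.symm w (Sum.inr i) = w.2 i := fun z i => rfl
  rw [Fintype.sum_sum_type, Fin.sum_univ_two]
  simp only [h1, h3]
  rw [← hψ, qMinus_coe, qPlus_coe]
  unfold quadFormMinus quadFormPlus
  simp only [h1, h3]
  ring

end sq

end Cfsg.Agent.H6
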