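import Mathlib
import Cfsg.Agent.H6.IvC
import Cfsg.Agent.H17.SpBal4

set_option autoImplicit false

/-! Splitting of the classes of involutory graph automorphisms of `PSL_n(F)`. -/

open Cfsg Cfsg.Agent.H5 Cfsg.Agent.H17
open scoped MatrixGroups Matrix

namespace Cfsg.Agent.H6

section sp

variable {F : Type*} [Field F] [Finite F] {n : ℕ} {ι : Type} [Fintype ι] [DecidableEq ι]

theorem gr_comm_tE (hn : 2 ≤ n) (A : GL (Fin n) F) (e : (ι → F) ≃ₗ[F] (Fin n → F)) (β : (ι → F) → (ι → F) → F) (k : Fˣ)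
    (hβ : ∀ x y, bA A (e x) (e y) = k * β x y) (g : GL ι F) :
    (cP A * iP F n) * cP (tE e g) = cP (tE e g) * (cP A * iP F n) ↔
      ∃ c : Fˣ, ∀ x y, β ((g : Matrix ι ι F) *ᵥ x) ((g : Matrix ι ι F) *ᵥ y) = (c : F) * β x y := by
  rw [gr_comm hn]
  apply exists_congr
  intro c
  rw [form_iff]
  constructor
  · intro h x y
    have h1 := h (e x) (e y)
    rw [tE_spec, tE_spec, hβ, hβ] at h1
    have hk : (k : F) ≠ 0 := k.ne_zero
    apply mul_left_cancel₀ hk
    rw [h1]
    ring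
  · intro h x y
    obtain ⟨x, rfl⟩ := e.surjective x
    obtain ⟨y, rfl⟩ := e.surjective y
    rw [tE_spec, tE_spec, hβ, hβ, h]
    ring

omit [Finite F] in
theorem det_of_lin {g : GL ι F} {L : (ι → F) →ₗ[F] (ι → F)} (h : ∀ x, (g : Matrix ι ι F) *ᵥ x = L x) :
    ((Matrix.GeneralLinearGroup.det g : Fˣ) : F) = LinearMap.det L := by
  have h1 : L = Matrix.toLin' (g : Matrix ι ι F) := by
    apply LinearMap.ext
    intro x
    rw [Matrix.toLin'_apply, h]
  rw [h1, LinearMap.det_toLin']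
  rfl

omit [Finite F] in
theorem det_tE (e : (ι → F) ≃ₗ[F] (Fin n → F)) (g : GL ι F) :
    Matrix.GeneralLinearGroup.det (tE e g) = Matrix.GeneralLinearGroup.det g := by
  apply Units.ext
  rw [det_of_lin (g := tE e g) (L := (e : (ι → F) →ₗ[F] (Fin n → F)) ∘ₗ (Matrix.toLin' (g : Matrix ι ι F)) ∘ₗ (e.symm : (Fin n → F) →ₗ[F] (ι → F))) (by
    intro x
    obtain ⟨x, rfl⟩ := e.surjective x
    rw [tE_spec]
    simp), LinearMap.det_conj, LinearMap.det_toLin']
  rfl

theorem det_dS (m : ℕ) (a : Fˣ) : Matrix.GeneralLinearGroup.det (dS m F a : GL (Fin m ⊕ Fin m) F) = a ^ m := by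
  apply Units.ext
  change (dMat m (a : F)).det = _
  unfold dMat
  rw [Matrix.det_diagonal, Fintype.prod_sum_type]
  simp

theorem det_GSp {m : ℕ} (hm : 1 ≤ m) (g : GSp m F) :
    Matrix.GeneralLinearGroup.det (g : GL (Fin m ⊕ Fin m) F) = (muS hm g) ^ m := by
  obtain ⟨s, hs⟩ := exists_spH_of_mu hm (h := (dS m F (muS hm g))⁻¹ * g) (by
    rw [map_mul, map_inv, muS_dS, inv_mul_cancel])
  have h1 : g = dS m F (muS hm g) * spH m F s := by rw [hs, mul_inv_cancel_left]
  have h2 : Matrix.GeneralLinearGroup.det ((spH m F s : GSp m F) : GL (Fin m ⊕ Fin m) F) = 1 := by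
    apply Units.ext
    exact SymplecticGroup.det_eq_one s.2
  have h3 := congrArg (fun z : GSp m F => Matrix.GeneralLinearGroup.det (z : GL (Fin m ⊕ Fin m) F)) h1
  simp only [Subgroup.coe_mul, map_mul, h2, det_dS, mul_one] at h3
  exact h3

theorem split_alt {m : ℕ} (hm : 1 ≤ m) (hn : 2 ≤ n) (A : GL (Fin n) F) (e : (Fin m ⊕ Fin m → F) ≃ₗ[F] (Fin n → F))
    (h : ∀ x y, bA A (e x) (e y) = sympB m F x y) :
    splitClassCount (inndiagPSL n F) (Inn (Matrix.ProjectiveSpecialLinearGroup (Fin n) F)) (cP A * iP F n) =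
      Nat.gcd n ((powMonoidHom m : Fˣ →* Fˣ).range).index := by
  have key := gr_comm_tE hn A e (fun x y => sympB m F x y) 1 (fun x y => by rw [h, Units.val_one, one_mul])
  apply splitCount_PSL hn
  · intro g hg
    obtain ⟨g, rfl⟩ := (tE e).surjective g
    rw [key] at hg
    have hg' : g ∈ GSp m F := mem_GSp_iff.mpr hg
    rw [det_tE]
    apply Subgroup.mem_sup_right
    have h1 := det_GSp hm ⟨g, hg'⟩
    exact ⟨muS hm ⟨g, hg'⟩, h1.symm⟩
  · rintro _ ⟨a, rfl⟩
    refine ⟨tE e (dS m F a : GL (Fin m ⊕ Fin m) F), ?_, ?_⟩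
    · rw [key]
      exact mem_GSp_iff.mp (dS m F a).2
    · rw [det_tE, det_dS]
      rfl

theorem det_trG (g : GL (Fin n) F) : Matrix.GeneralLinearGroup.det (trG g) = Matrix.GeneralLinearGroup.det g := by
  apply Units.ext
  exact Matrix.det_transpose _

theorem det_sq {A B : GL (Fin n) F} {c : Fˣ} (h : B * A * trG B = sGL n c * A) :
    Matrix.GeneralLinearGroup.det B ^ 2 = c ^ n := by
  have h1 := congrArg Matrix.GeneralLinearGroup.det h
  rw [map_mul, map_mul, det_trG, map_mul, det_sGL] at h1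
  apply mul_right_cancel (b := Matrix.GeneralLinearGroup.det A)
  rw [← h1, pow_two, mul_assoc, mul_assoc, mul_comm (Matrix.GeneralLinearGroup.det A)]

omit [Finite F] in
theorem unit_sq_one {u : Fˣ} (h : u ^ 2 = 1) : u = 1 ∨ u = -1 := by
  have h1 : (u : F) * u = 1 := by
    have := congrArg Units.val h
    rw [Units.val_pow_eq_pow_val, pow_two, Units.val_one] at this
    exact this
  rcases mul_self_eq_one_iff.mp h1 with h2 | h2
  · exact Or.inl (Units.ext h2)
  · exact Or.inr (Units.ext (by rw [h2, Units.val_neg, Units.val_one]))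

/-- odd dimension -/
theorem split_odd (hn : 2 ≤ n) (hodd : Odd n) (A : GL (Fin n) F) :
    splitClassCount (inndiagPSL n F) (Inn (Matrix.ProjectiveSpecialLinearGroup (Fin n) F)) (cP A * iP F n) =
      Nat.gcd n (Nat.card Fˣ) := by
  rw [← Subgroup.index_bot]
  apply splitCount_PSL hn
  · intro g hg
    obtain ⟨c, hc⟩ := (gr_comm hn A g).mp hg
    have h1 := det_sq hc
    apply Subgroup.mem_sup_left
    obtain ⟨k, hk⟩ := hodd
    -- `c = d ^ 2`
    obtain ⟨d, hd⟩ : ∃ d : Fˣ, c = d ^ 2 := by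
      refine ⟨Matrix.GeneralLinearGroup.det g * (c ^ k)⁻¹, ?_⟩
      rw [mul_pow, h1, hk, inv_pow, ← pow_mul, pow_succ, mul_comm k 2, mul_comm (c ^ (2 * k)) c, mul_inv_cancel_right]
    have h2 : (Matrix.GeneralLinearGroup.det g * (d ^ n)⁻¹) ^ 2 = 1 := by
      rw [mul_pow, h1, hd, inv_pow, ← pow_mul, ← pow_mul, mul_comm n 2, mul_inv_cancel]
    rcases unit_sq_one h2 with h3 | h3
    · rw [mul_inv_eq_one] at h3
      exact ⟨d, h3.symm⟩
    · rw [mul_inv_eq_iff_eq_mul] at h3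
      refine ⟨-d, ?_⟩
      rw [h3]
      change (-d) ^ n = _
      rw [Odd.neg_pow ⟨k, hk⟩, neg_one_mul]
  · intro e he
    rw [Subgroup.mem_bot] at he
    subst he
    exact ⟨1, by rw [cP_one, mul_one, one_mul], map_one _⟩

/-- characteristic two -/
theorem split_two (hn : 2 ≤ n) (h2 : (2 : F) = 0) (A : GL (Fin n) F) :
    splitClassCount (inndiagPSL n F) (Inn (Matrix.ProjectiveSpecialLinearGroup (Fin n) F)) (cP A * iP F n) =
      Nat.gcd n (Nat.card Fˣ) := by
  rw [← Subgroup.index_bot]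
  apply splitCount_PSL hn
  · intro g hg
    obtain ⟨c, hc⟩ := (gr_comm hn A g).mp hg
    have h1 := det_sq hc
    apply Subgroup.mem_sup_left
    obtain ⟨d, hd⟩ : ∃ d : Fˣ, c = d ^ 2 := by
      obtain ⟨d, hd⟩ := sq_char_two h2 (c : F)
      have hd0 : d ≠ 0 := by
        rintro rfl
        rw [mul_zero] at hd
        exact c.ne_zero hd
      exact ⟨Units.mk0 d hd0, Units.ext (by rw [Units.val_pow_eq_pow_val, Units.val_mk0, hd, pow_two])⟩
    have h3 : (Matrix.GeneralLinearGroup.det g * (d ^ n)⁻¹) ^ 2 = 1 := by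
      rw [mul_pow, h1, hd, inv_pow, ← pow_mul, ← pow_mul, mul_comm n 2, mul_inv_cancel]
    have h4 : (-1 : Fˣ) = 1 := by
      apply Units.ext
      rw [Units.val_neg, Units.val_one]
      linear_combination -h2
    have h5 : Matrix.GeneralLinearGroup.det g * (d ^ n)⁻¹ = 1 := by
      rcases unit_sq_one h3 with h | h
      · exact h
      · rw [h, h4]
    rw [mul_inv_eq_one] at h5
    exact ⟨d, h5.symm⟩
  · intro e he
    rw [Subgroup.mem_bot] at he
    subst he
    exact ⟨1, by rw [cP_one, mul_one, one_mul], map_one _⟩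

/-- similitudes with given multiplier -/
theorem exists_simi (h2 : (2 : F) ≠ 0) {m : ℕ} (hnm : n = 2 * m) {A : GL (Fin n) F} (hA : trG A = A) (c : Fˣ) :
    ∃ B : GL (Fin n) F, B * A * trG B = sGL n c * A := by
  have hfr : Module.finrank F (Fin n → F) = 2 * m := by rw [Module.finrank_fintype_fun_eq_card, Fintype.card_fin, hnm]
  obtain ⟨φ, hφ⟩ := class_even m (nd_qA h2 hA) (nd_qA h2 hA) hfr hfr rfl c.ne_zero
  obtain ⟨ψ, hψ⟩ := exists_simEquiv c.ne_zero hφ (nd_qA h2 hA) rfl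
  obtain ⟨B, hB⟩ := exists_gl_of_inj (ψ : (Fin n → F) →ₗ[F] (Fin n → F)) (fun x hx => by simpa using hx)
  refine ⟨B, ?_⟩
  rw [form_iff]
  intro x y
  rw [hB, hB]
  have h3 := sim_B (φ := (ψ : (Fin n → F) →ₗ[F] (Fin n → F))) (fun x => hψ x) x y
  rw [pB_qA hA, pB_qA hA] at h3
  apply mul_left_cancel₀ h2
  linear_combination h3

/-- a reflection -/
theorem exists_rf (h2 : (2 : F) ≠ 0) (hn : 1 ≤ n) {A : GL (Fin n) F} (hA : trG A = A) :
    ∃ R : GL (Fin n) F, R * A * trG R = sGL n 1 * A ∧ Matrix.GeneralLinearGroup.det R = -1 := by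
  obtain ⟨v, hv⟩ := exists_ne_q (nd_qA h2 hA) (by rw [Module.finrank_fintype_fun_eq_card, Fintype.card_fin]; exact hn)
  obtain ⟨R, hR⟩ := exists_gl_of_inj (((refl hv).1 : (Fin n → F) ≃ₗ[F] (Fin n → F)) : (Fin n → F) →ₗ[F] (Fin n → F)) (fun x hx => by simpa using hx)
  refine ⟨R, ?_, ?_⟩
  · rw [form_iff]
    intro x y
    rw [hR, hR, Units.val_one, one_mul]
    have h3 := sim_B (Q := qA A) (Q' := qA A) (c := 1) (φ := (((refl hv).1 : (Fin n → F) ≃ₗ[F] (Fin n → F)) : (Fin n → F) →ₗ[F] (Fin n → F))) (fun x => by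
      rw [one_mul]; exact (refl hv).2 x) x y
    rw [pB_qA hA, pB_qA hA, one_mul] at h3
    exact mul_left_cancel₀ h2 h3
  · apply Units.ext
    rw [det_of_lin hR, Units.val_neg, Units.val_one]
    exact odet_refl hv

/-- even dimension, symmetric, odd characteristic -/
theorem split_sym (h2 : (2 : F) ≠ 0) {m : ℕ} (hm : 1 ≤ m) (hnm : n = 2 * m) {A : GL (Fin n) F} (hA : trG A = A) :
    splitClassCount (inndiagPSL n F) (Inn (Matrix.ProjectiveSpecialLinearGroup (Fin n) F)) (cP A * iP F n) =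
      Nat.gcd n ((powMonoidHom m : Fˣ →* Fˣ).range ⊔ Subgroup.zpowers (-1 : Fˣ)).index := by
  have hn : 2 ≤ n := by omega
  have hdet : ∀ (B : GL (Fin n) F) (c : Fˣ), B * A * trG B = sGL n c * A →
      Matrix.GeneralLinearGroup.det B = c ^ m ∨ Matrix.GeneralLinearGroup.det B = - c ^ m := by
    intro B c h
    have h1 := det_sq h
    have h3 : (Matrix.GeneralLinearGroup.det B * (c ^ m)⁻¹) ^ 2 = 1 := by
      rw [mul_pow, h1, inv_pow, ← pow_mul, hnm, mul_comm m 2, mul_inv_cancel]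
    rcases unit_sq_one h3 with h4 | h4
    · left; rwa [mul_inv_eq_one] at h4
    · right
      rw [mul_inv_eq_iff_eq_mul, neg_one_mul] at h4
      exact h4
  apply splitCount_PSL hn
  · intro g hg
    obtain ⟨c, hc⟩ := (gr_comm hn A g).mp hg
    apply Subgroup.mem_sup_right
    have h5 : c ^ m ∈ (powMonoidHom m : Fˣ →* Fˣ).range := ⟨c, rfl⟩
    rcases hdet g c hc with h | h
    · rw [h]
      exact Subgroup.mem_sup_left h5
    · rw [h, show -c ^ m = c ^ m * (-1 : Fˣ) by rw [mul_neg_one]]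
      exact Subgroup.mul_mem _ (Subgroup.mem_sup_left h5) (Subgroup.mem_sup_right (Subgroup.mem_zpowers _))
  · intro u hu
    obtain ⟨_, ⟨c, rfl⟩, w, hw, rfl⟩ := Subgroup.mem_sup.mp hu
    have hw' : w = 1 ∨ w = -1 := by
      obtain ⟨k, rfl⟩ := Subgroup.mem_zpowers_iff.mp hw
      rcases Int.even_or_odd k with hk | hk
      · left; exact hk.neg_one_zpow
      · right; exact hk.neg_one_zpow
    obtain ⟨B, hB⟩ := exists_simi h2 hnm hA c
    obtain ⟨R, hR, hRd⟩ := exists_rf h2 (by omega) hA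
    rw [map_one, one_mul] at hR
    have hBR : (B * R) * A * trG (B * R) = sGL n c * A := by
      rw [trG_mul, ← hB]
      have : B * R * A * (trG R * trG B) = B * (R * A * trG R) * trG B := by group
      rw [this, hR]
    have hdBR : Matrix.GeneralLinearGroup.det (B * R) = - Matrix.GeneralLinearGroup.det B := by
      rw [map_mul, hRd, mul_neg_one]
    have hex : ∀ w : Fˣ, w = 1 ∨ w = -1 → ∃ g : GL (Fin n) F, g * A * trG g = sGL n c * A ∧ Matrix.GeneralLinearGroup.det g = c ^ m * w := by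
      rintro w (rfl | rfl)
      · rcases hdet B c hB with h | h
        · exact ⟨B, hB, by rw [h, mul_one]⟩
        · exact ⟨B * R, hBR, by rw [hdBR, h, neg_neg, mul_one]⟩
      · rcases hdet B c hB with h | h
        · exact ⟨B * R, hBR, by rw [hdBR, h, mul_neg_one]⟩
        · exact ⟨B, hB, by rw [h, mul_neg_one]⟩
    obtain ⟨g, hg, hgd⟩ := hex w hw'
    exact ⟨g, (gr_comm hn A g).mpr ⟨c, hg⟩, hgd⟩

end sp

end Cfsg.Agent.H6
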