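import Mathlib
import Cfsg.Agent.H6.IvC
import Cfsg.Agent.H17.SpBal4
import Cfsg.Agent.H5.SpOrder
import Cfsg.Agent.S0287
import Cfsg.Agent.S0288

set_option autoImplicit false

/-! `PGSp_{2m}(q)` and `PGO^±_{2m}(q)` have different orders. -/

open Cfsg Cfsg.Agent.H5 Cfsg.Agent.H17
open scoped MatrixGroups Matrix

namespace Cfsg.Agent.H6

section cd

variable {F : Type*} [Field F] [Finite F] {ι : Type} [Fintype ι] [DecidableEq ι]

theorem card_scal [Nonempty ι] : Nat.card (Geo.scalars ι F) = Nat.card Fˣ := by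
  symm
  apply Nat.card_congr
  apply (MonoidHom.ofInjective (f := Units.map (Matrix.scalar ι : F →+* Matrix ι ι F).toMonoidHom) ?_).toEquiv
  intro c d h
  apply Units.ext
  have h1 := congrArg (fun g : GL ι F => (g : Matrix ι ι F) (Classical.arbitrary ι) (Classical.arbitrary ι)) h
  simpa using h1

theorem card_projQuot (H : Subgroup (GL ι F)) (hH : Geo.scalars ι F ≤ H) :
    Nat.card H = Nat.card (projQuot H) * Nat.card (Geo.scalars ι F) := by
  rw [Subgroup.card_eq_card_quotient_mul_card_subgroup ((Geo.scalars ι F).subgroupOf H),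
    Nat.card_congr (Subgroup.subgroupOfEquivOfLe hH).toEquiv]

theorem scal_le_sim (Q : QuadraticForm F (ι → F)) : Geo.scalars ι F ≤ Geo.quadSimilarityGroup (F := F) (⇑Q) := by
  intro g hg
  obtain ⟨c, hc⟩ := (Geo.mem_scalars_iff g).mp hg
  refine ⟨c ^ 2, fun v => ?_⟩
  rw [hc, Matrix.smul_mulVec, Matrix.one_mulVec, q_smul, Units.val_pow_eq_pow_val, pow_two]

theorem scal_le_GSp {m : ℕ} : Geo.scalars (Fin m ⊕ Fin m) F ≤ GSp m F := by
  intro g hg
  obtain ⟨c, hc⟩ := (Geo.mem_scalars_iff g).mp hg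
  rw [mem_GSp_iff]
  refine ⟨c ^ 2, fun u v => ?_⟩
  rw [hc, Matrix.smul_mulVec, Matrix.one_mulVec, Matrix.smul_mulVec, Matrix.one_mulVec, map_smul, map_smul, LinearMap.smul_apply,
    smul_eq_mul, smul_eq_mul, Units.val_pow_eq_pow_val]
  ring

theorem card_PGO_le [Nonempty ι] (Q : QuadraticForm F (ι → F)) : Nat.card (PGO F (⇑Q)) ≤ Nat.card (isometryGroup F (⇑Q)) := by
  classical
  have h1 := card_projQuot (Geo.quadSimilarityGroup (F := F) (⇑Q)) (scal_le_sim Q)
  rw [card_scal] at h1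
  have hpos : 0 < Nat.card Fˣ := Nat.card_pos
  have h2 : Nat.card (Geo.quadSimilarityGroup (F := F) (⇑Q)) ≤ Nat.card (isometryGroup F (⇑Q) × Fˣ) := by
    let P : Fˣ → GL ι F → Prop := fun c g => ∀ v, Q ((g : Matrix ι ι F) *ᵥ v) = (c : F) * Q v
    have hch : ∀ g : Geo.quadSimilarityGroup (F := F) (⇑Q), ∃ c : Fˣ, P c g := fun g => g.2
    choose μ hμ using hch
    let r : Fˣ → GL ι F := fun c => if h : ∃ g, P c g then h.choose else 1
    have hr : ∀ c, (∃ g, P c g) → P c (r c) := by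
      intro c h
      simp only [r]
      rw [dif_pos h]
      exact h.choose_spec
    have hiso : ∀ g : Geo.quadSimilarityGroup (F := F) (⇑Q), (r (μ g))⁻¹ * (g : GL ι F) ∈ isometryGroup F (⇑Q) := by
      intro g u v
      change Q ((((r (μ g))⁻¹ * (g : GL ι F) : GL ι F) : Matrix ι ι F) *ᵥ u) = Q u
      have h3 := hr (μ g) ⟨g, hμ g⟩ ((((r (μ g))⁻¹ * (g : GL ι F) : GL ι F) : Matrix ι ι F) *ᵥ u)
      rw [Matrix.mulVec_mulVec, ← Units.val_mul, mul_inv_cancel_left, hμ g] at h3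
      exact (mul_left_cancel₀ (μ g).ne_zero h3).symm
    apply Nat.card_le_card_of_injective (fun g : Geo.quadSimilarityGroup (F := F) (⇑Q) => ((⟨_, hiso g⟩ : isometryGroup F (⇑Q)), μ g))
    intro g h hgh
    have h4 : μ g = μ h := congrArg Prod.snd hgh
    have h5 : (r (μ g))⁻¹ * (g : GL ι F) = (r (μ h))⁻¹ * (h : GL ι F) := congrArg (fun z => ((Prod.fst z : isometryGroup F (⇑Q)) : GL ι F)) hgh
    rw [h4] at h5
    exact Subtype.ext (mul_left_cancel h5)
  rw [h1, Nat.card_prod] at h2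
  exact Nat.le_of_mul_le_mul_right h2 hpos

theorem card_PGSp_ge {m : ℕ} (hm : 1 ≤ m) : Nat.card (Matrix.symplecticGroup (Fin m) F) ≤ Nat.card (PGSp m F) := by
  classical
  haveI : Nonempty (Fin m ⊕ Fin m) := ⟨Sum.inl ⟨0, hm⟩⟩
  have h1 := card_projQuot (GSp m F) scal_le_GSp
  rw [card_scal] at h1
  have hpos : 0 < Nat.card Fˣ := Nat.card_pos
  have h2 : Nat.card (Matrix.symplecticGroup (Fin m) F × Fˣ) ≤ Nat.card (GSp m F) := by
    apply Nat.card_le_card_of_injective (fun z : Matrix.symplecticGroup (Fin m) F × Fˣ => spH m F z.1 * dS m F z.2)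
    rintro ⟨s, c⟩ ⟨t, d⟩ h
    have h3 := congrArg (muS hm) h
    simp only [map_mul, muS_dS] at h3
    rw [show muS hm (spH m F s) = 1 from muS_spGSp hm s, show muS hm (spH m F t) = 1 from muS_spGSp hm t, one_mul, one_mul] at h3
    subst h3
    have h4 := mul_right_cancel h
    have h5 : s = t := by
      apply Subtype.ext
      exact congrArg (fun z : GSp m F => ((z : GL (Fin m ⊕ Fin m) F) : Matrix (Fin m ⊕ Fin m) (Fin m ⊕ Fin m) F)) h4
    rw [h5]
  rw [h1, Nat.card_prod] at h2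
  exact Nat.le_of_mul_le_mul_right h2 hpos

end cd

section lt

variable {F : Type*} [Field F] [Fintype F]

theorem lt_aux {q k : ℕ} (hq : 2 ≤ q) (s : ℕ) (hs : s ≤ q ^ (k + 1) + 1) (hk : 1 ≤ k) (P : ℕ) (hP : 0 < P) :
    2 * q ^ ((k + 1) * k) * s * P < q ^ ((k + 1) ^ 2) * (P * (q ^ (2 * (k + 1)) - 1)) := by
  obtain ⟨x, hx⟩ : ∃ x, x = q ^ (k + 1) := ⟨_, rfl⟩
  have hx4 : 4 ≤ x := by
    rw [hx]
    calc 4 = 2 ^ 2 := by norm_num
      _ ≤ q ^ 2 := Nat.pow_le_pow_left hq 2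
      _ ≤ q ^ (k + 1) := Nat.pow_le_pow_right (by omega) (by omega)
  have e1 : q ^ ((k + 1) ^ 2) = q ^ ((k + 1) * k) * x := by rw [hx, ← pow_add]; congr 1; ring
  have e2 : q ^ (2 * (k + 1)) = x * x := by rw [hx, ← pow_add]; congr 1; ring
  rw [e1, e2]
  rw [← hx] at hs
  have hc : 0 < q ^ ((k + 1) * k) := pow_pos (by omega) _
  have h1 : 2 * s < x * (x * x - 1) := by
    have h3 : x * x - 1 = (x - 1) * (x + 1) := by
      obtain ⟨y, rfl⟩ : ∃ y, x = y + 1 := ⟨x - 1, by omega⟩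
      simp only [Nat.add_sub_cancel]
      have : (y + 1) * (y + 1) = y * (y + 1 + 1) + 1 := by ring
      omega
    rw [h3]
    calc 2 * s ≤ 2 * (x + 1) := by omega
      _ < 3 * (x + 1) := by omega
      _ ≤ (x * (x - 1)) * (x + 1) := by
          apply Nat.mul_le_mul_right
          calc 3 ≤ 4 * 3 := by norm_num
            _ ≤ x * (x - 1) := Nat.mul_le_mul hx4 (by omega)
      _ = x * ((x - 1) * (x + 1)) := by ring
  calc 2 * q ^ ((k + 1) * k) * s * P = (q ^ ((k + 1) * k) * P) * (2 * s) := by ring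
    _ < (q ^ ((k + 1) * k) * P) * (x * (x * x - 1)) := by
        apply Nat.mul_lt_mul_of_pos_left h1 (Nat.mul_pos hc hP)
    _ = _ := by ring

theorem card_plus_lt {m : ℕ} (hm : 2 ≤ m) : Nat.card (isometryGroup F (quadFormPlus m F)) < Nat.card (Matrix.symplecticGroup (Fin m) F) := by
  obtain ⟨k, rfl⟩ : ∃ k, m = k + 1 := ⟨m - 1, by omega⟩
  have hq : 2 ≤ Fintype.card F := Fintype.one_lt_card
  rw [S0287.result (F := F) rfl (k + 1) (by omega), card_Sp (F := F) rfl (k + 1), Finset.prod_range_succ, Nat.add_sub_cancel]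
  apply lt_aux hq _ (by omega) (by omega)
  apply Finset.prod_pos
  intro i _
  have : 2 ≤ Fintype.card F ^ (2 * (i + 1)) := le_trans hq (Nat.le_self_pow (by omega) _)
  omega

theorem card_minus_lt {m : ℕ} (hm : 2 ≤ m) {a b : F} (hab : ∀ z₁ z₂ : F, z₁ ^ 2 + a * z₁ * z₂ + b * z₂ ^ 2 = 0 → z₁ = 0 ∧ z₂ = 0) :
    Nat.card (isometryGroup F (quadFormMinus (m - 1) F a b)) < Nat.card (Matrix.symplecticGroup (Fin m) F) := by
  obtain ⟨k, rfl⟩ : ∃ k, m = k + 1 := ⟨m - 1, by omega⟩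
  have hq : 2 ≤ Fintype.card F := Fintype.one_lt_card
  rw [S0288.result (F := F) rfl (k + 1) (by omega) a b hab, card_Sp (F := F) rfl (k + 1), Finset.prod_range_succ, Nat.add_sub_cancel]
  apply lt_aux hq _ (by omega) (by omega)
  apply Finset.prod_pos
  intro i _
  have : 2 ≤ Fintype.card F ^ (2 * (i + 1)) := le_trans hq (Nat.le_self_pow (by omega) _)
  omega

theorem PGSp_ne_PGO {m : ℕ} (hm : 2 ≤ m) {ι : Type} [Fintype ι] [DecidableEq ι] [Nonempty ι] (Q : QuadraticForm F (ι → F))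
    (h : Nat.card (isometryGroup F (⇑Q)) < Nat.card (Matrix.symplecticGroup (Fin m) F)) : ¬ Nonempty (PGSp m F ≃* PGO F (⇑Q)) := by
  rintro ⟨e⟩
  have h1 := Nat.card_congr e.toEquiv
  have h2 := card_PGO_le Q
  have h3 := card_PGSp_ge (F := F) (m := m) (by omega)
  omega

end lt

end Cfsg.Agent.H6
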