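import Mathlib
import Cfsg.Agent.H6.IvE

set_option autoImplicit false

/-! Symmetric forms in characteristic two. -/

open Cfsg Cfsg.Agent.H5 Cfsg.Agent.H17
open scoped MatrixGroups Matrix

namespace Cfsg.Agent.H6

section ct

variable {F : Type*} [Field F] [Finite F] {n : ℕ}

/-- the vector describing the diagonal of a symmetric form in characteristic two -/
theorem exists_w (h2 : (2 : F) = 0) {A : GL (Fin n) F} (hA : trG A = A) :
    ∃ w : Fin n → F, ∀ x, bA A x x = bA A x w * bA A x w := by
  have hsq : ∀ a : F, ∃ b : F, a = b * b := fun a => sq_char_two h2 a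
  choose r hr using hsq
  have hinj : ∀ a b : F, a * a = b * b → a = b := by
    intro a b h
    have h1 : (a + b) * (a + b) = 0 := by linear_combination h + (b * b + a * b) * h2
    have h3 := mul_self_eq_zero.mp h1
    linear_combination h3 - b * h2
  have hr0 : r 0 = 0 := hinj _ _ (by rw [← hr, mul_zero])
  have hsym : ∀ x y, bA A y x = bA A x y := fun x y => by rw [← bA_trG, hA]
  let δ : (Fin n → F) →ₗ[F] F :=
    { toFun := fun x => r (bA A x x)
      map_add' := fun x y => by
        apply hinj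
        rw [← hr, bA_add, hsym x y]
        have h3 := hr (bA A x x)
        have h4 := hr (bA A y y)
        linear_combination h3 + h4 + (bA A x y - r (bA A x x) * r (bA A y y)) * h2
      map_smul' := fun c x => by
        apply hinj
        rw [← hr]
        have h3 := hr (bA A x x)
        have h4 : bA A (c • x) (c • x) = c * c * bA A x x := by
          rw [← bL_apply, ← bL_apply, map_smul, map_smul, LinearMap.smul_apply, smul_eq_mul, smul_eq_mul, mul_assoc]
        rw [h4, RingHom.id_apply, smul_eq_mul]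
        linear_combination (c * c) * h3 }
  let d : Fin n → F := fun i => δ (Pi.single i 1)
  have hd : ∀ x, δ x = x ⬝ᵥ d := by
    intro x
    rw [LinearMap.pi_apply_eq_sum_univ δ x]
    apply Finset.sum_congr rfl
    intro i _
    rw [smul_eq_mul]
    congr 2
    funext j
    rw [Pi.single_apply]
    simp [eq_comm]
  refine ⟨(A : Matrix (Fin n) (Fin n) F) *ᵥ d, fun x => ?_⟩
  have h5 : bA A x ((A : Matrix (Fin n) (Fin n) F) *ᵥ d) = δ x := by
    rw [hd]
    unfold bA
    rw [Matrix.mulVec_mulVec, ← Units.val_mul, inv_mul_cancel, Units.val_one, Matrix.one_mulVec]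
  rw [h5]
  exact hr _

/-- the associated alternating form -/
noncomputable def bW (A : GL (Fin n) F) (w : Fin n → F) : LinearMap.BilinForm F (Fin n → F) :=
  bL A + LinearMap.mk₂ F (fun x y => bA A x w * bA A y w)
    (fun x y z => by rw [← bL_apply, ← bL_apply, ← bL_apply, ← bL_apply, map_add, LinearMap.add_apply]; ring)
    (fun c x y => by rw [← bL_apply, ← bL_apply, ← bL_apply, map_smul, LinearMap.smul_apply]; simp only [smul_eq_mul]; ring)
    (fun x y z => by rw [← bL_apply, ← bL_apply, ← bL_apply, ← bL_apply, map_add, LinearMap.add_apply]; ring)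
    (fun c x y => by rw [← bL_apply, ← bL_apply, ← bL_apply, map_smul, LinearMap.smul_apply]; simp only [smul_eq_mul]; ring)

theorem bW_apply (A : GL (Fin n) F) (w x y : Fin n → F) : bW A w x y = bA A x y + bA A x w * bA A y w := by
  rw [bW, LinearMap.add_apply, LinearMap.add_apply, LinearMap.mk₂_apply, bL_apply]

theorem bA_sym {A : GL (Fin n) F} (hA : trG A = A) (x y : Fin n → F) : bA A y x = bA A x y := by rw [← bA_trG, hA]

theorem bA_smul_left (A : GL (Fin n) F) (c : F) (x y : Fin n → F) : bA A (c • x) y = c * bA A x y := by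
  rw [← bL_apply, ← bL_apply, map_smul, LinearMap.smul_apply, smul_eq_mul]

theorem bA_smul_right (A : GL (Fin n) F) (c : F) (x y : Fin n → F) : bA A x (c • y) = c * bA A x y := by
  rw [← bL_apply, ← bL_apply, map_smul, smul_eq_mul]

theorem bA_add_left (A : GL (Fin n) F) (x y z : Fin n → F) : bA A (x + y) z = bA A x z + bA A y z := by
  rw [← bL_apply, ← bL_apply, ← bL_apply, map_add, LinearMap.add_apply]

theorem bA_add_right (A : GL (Fin n) F) (x y z : Fin n → F) : bA A x (y + z) = bA A x y + bA A x z := by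
  rw [← bL_apply, ← bL_apply, ← bL_apply, map_add]

theorem bA_nd_left {A : GL (Fin n) F} {x y : Fin n → F} (h : ∀ z, bA A x z = bA A y z) : x = y := by
  rw [← sub_eq_zero]
  apply bA_nd A
  intro z
  have h1 : bA A (x - y) z = bA A x z - bA A y z := by
    rw [← bL_apply, map_sub, LinearMap.sub_apply, bL_apply, bL_apply]
  rw [h1, h, sub_self]

theorem ct_inj (h2 : (2 : F) = 0) {a b : F} (h : a * a = b * b) : a = b := by
  have h1 : (a + b) * (a + b) = 0 := by linear_combination h + (b * b + a * b) * h2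
  have h3 := mul_self_eq_zero.mp h1
  linear_combination h3 - b * h2

theorem bW_alt (h2 : (2 : F) = 0) {A : GL (Fin n) F} {w : Fin n → F} (hw : ∀ x, bA A x x = bA A x w * bA A x w) :
    (bW A w).IsAlt := by
  intro x
  rw [bW_apply, hw]
  linear_combination (bA A x w * bA A x w) * h2

/-- nondegeneracy of the alternating form -/
theorem bW_nd (h2 : (2 : F) = 0) {A : GL (Fin n) F} (hA : trG A = A) {w : Fin n → F} (hw : bA A w w ≠ 1) (x : Fin n → F)
    (hx : ∀ y, bW A w x y = 0) : x = 0 := by
  have h1 : x = bA A x w • w := by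
    apply bA_nd_left (A := A)
    intro z
    have h3 := hx z
    rw [bW_apply] at h3
    rw [bA_smul_left, bA_sym hA z w]
    linear_combination h3 - (bA A x w * bA A z w) * h2
  have h4 : bA A x w = bA A x w * bA A w w := by
    have := congrArg (fun z => bA A z w) h1
    simp only [bA_smul_left] at this
    exact this
  have h5 : bA A x w = 0 := by
    by_contra h
    apply hw
    apply mul_left_cancel₀ h
    rw [← h4, mul_one]
  rw [h1, h5, zero_smul]

/-- model in odd dimension -/
theorem exists_model_odd (h2 : (2 : F) = 0) {m : ℕ} (hn : n = 2 * m + 1) {A : GL (Fin n) F} (hA : trG A = A) :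
    ∃ e : (Unit ⊕ (Fin m ⊕ Fin m) → F) ≃ₗ[F] (Fin n → F), ∀ x y, bA A (e x) (e y) =
      x (Sum.inl ()) * y (Sum.inl ()) + sympB m F (fun i => x (Sum.inr i)) (fun i => y (Sum.inr i)) := by
  obtain ⟨w, hw⟩ := exists_w h2 hA
  have hfr : Module.finrank F (Fin n → F) = 2 * m + 1 := by rw [Module.finrank_fintype_fun_eq_card, Fintype.card_fin, hn]
  have ht : bA A w w = 1 := by
    by_contra hne
    have h3 := even_of_alt (bW A w) (bW_alt h2 hw) (bW_nd h2 hA hne)
    rw [hfr, ← Nat.not_odd_iff_even] at h3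
    exact h3 ⟨m, rfl⟩
  let δ : (Fin n → F) →ₗ[F] F := (bL A).flip w
  have hδ : ∀ x, δ x = bA A x w := fun x => by rw [← bL_apply]; rfl
  have hK : Module.finrank F (LinearMap.ker δ) = 2 * m := by
    have h3 := LinearMap.finrank_range_add_finrank_ker δ
    have h4 : LinearMap.range δ = ⊤ := by
      rw [LinearMap.range_eq_top]
      intro c
      exact ⟨c • w, by rw [hδ, bA_smul_left, ht, mul_one]⟩
    rw [h4, finrank_top, Module.finrank_self, hfr] at h3
    omega
  let e₀ : (Fin m ⊕ Fin m → F) ≃ₗ[F] LinearMap.ker δ := LinearEquiv.ofFinrankEq _ _ (by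
    rw [hK, Module.finrank_fintype_fun_eq_card, Fintype.card_sum, Fintype.card_fin]; omega)
  let E : (Fin m ⊕ Fin m → F) →ₗ[F] (Fin n → F) := (LinearMap.ker δ).subtype ∘ₗ (e₀ : (Fin m ⊕ Fin m → F) →ₗ[F] LinearMap.ker δ)
  have hE0 : ∀ x, bA A (E x) w = 0 := fun x => by rw [← hδ]; exact (e₀ x).2
  have hEi : ∀ x, E x = 0 → x = 0 := fun x hx => by
    have h3 : e₀ x = 0 := Subtype.ext hx
    simpa using h3
  have hEs : ∀ z, bA A z w = 0 → ∃ x, E x = z := fun z hz => ⟨e₀.symm ⟨z, by rw [LinearMap.mem_ker, hδ]; exact hz⟩, by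
    change ((e₀ (e₀.symm _) : LinearMap.ker δ) : Fin n → F) = z
    rw [LinearEquiv.apply_symm_apply]⟩
  let B₀ : LinearMap.BilinForm F (Fin m ⊕ Fin m → F) := (bL A).compl₁₂ E E
  have hB₀ : ∀ x y, B₀ x y = bA A (E x) (E y) := fun x y => by rw [← bL_apply]; rfl
  obtain ⟨c, hc⟩ := alt_equiv B₀ (fun x => by rw [hB₀, hw, hE0, mul_zero]) (fun u hu => by
    apply hEi
    apply bA_nd A
    intro z
    obtain ⟨y, hy⟩ := hEs (z + bA A z w • w) (by
      rw [bA_add_left, bA_smul_left, ht]
      linear_combination (bA A z w) * h2)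
    have h3 := hu y
    rw [hB₀, hy, bA_add_right, bA_smul_right, hE0, mul_zero, add_zero] at h3
    exact h3)
  let cl : (Fin m ⊕ Fin m → F) ≃ₗ[F] (Fin m ⊕ Fin m → F) := (Matrix.GeneralLinearGroup.toLin c).toLinearEquiv
  have hcl : ∀ x, cl x = (c : Matrix (Fin m ⊕ Fin m) (Fin m ⊕ Fin m) F) *ᵥ x := fun x => rfl
  let L : (Unit ⊕ (Fin m ⊕ Fin m) → F) →ₗ[F] (Fin n → F) :=
    (LinearMap.proj (Sum.inl ())).smulRight w + E ∘ₗ (cl.symm : (Fin m ⊕ Fin m → F) →ₗ[F] (Fin m ⊕ Fin m → F)) ∘ₗ
      (LinearMap.funLeft F F Sum.inr)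
  have hL : ∀ x, L x = x (Sum.inl ()) • w + E (cl.symm (fun i => x (Sum.inr i))) := fun x => rfl
  have hform : ∀ x y, bA A (L x) (L y) =
      x (Sum.inl ()) * y (Sum.inl ()) + sympB m F (fun i => x (Sum.inr i)) (fun i => y (Sum.inr i)) := by
    intro x y
    rw [hL, hL, bA_add_left, bA_add_right, bA_add_right, bA_smul_left, bA_smul_left, bA_smul_right, bA_smul_right, ht,
      bA_sym hA (E _) w, hE0, hE0, ← hB₀, ← hc, ← hcl, ← hcl, LinearEquiv.apply_symm_apply, LinearEquiv.apply_symm_apply]
    ring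
  have hinj : Function.Injective L := by
    rw [injective_iff_map_eq_zero]
    intro x hx
    have h0 : ∀ y : Unit ⊕ (Fin m ⊕ Fin m) → F, x (Sum.inl ()) * y (Sum.inl ()) + sympB m F (fun i => x (Sum.inr i)) (fun i => y (Sum.inr i)) = 0 := by
      intro y
      rw [← hform, hx, ← bL_apply, map_zero, LinearMap.zero_apply]
    have h1 : x (Sum.inl ()) = 0 := by
      have := h0 (Sum.elim (fun _ => 1) (fun _ => 0))
      simpa [show (fun _ : Fin m ⊕ Fin m => (0 : F)) = 0 from rfl] using this
    have h3 : (fun i => x (Sum.inr i)) = 0 := by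
      apply sympB_nondegenerate.1
      intro v
      have := h0 (Sum.elim (fun _ => 0) v)
      simpa using this
    funext i
    rcases i with i | i
    · exact h1
    · exact congrFun h3 i
  refine ⟨LinearEquiv.ofInjectiveOfFinrankEq L hinj (by
    rw [hfr, Module.finrank_fintype_fun_eq_card]; simp; omega), hform⟩

end ct

end Cfsg.Agent.H6
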