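import Mathlib
import Cfsg.Agent.H6.IvG
import Cfsg.Agent.S0304

set_option autoImplicit false

/-! Centralizers in characteristic two, odd dimension. -/

open Cfsg Cfsg.Agent.H5 Cfsg.Agent.H17
open scoped MatrixGroups Matrix

namespace Cfsg.Agent.H6

section dh

variable {F : Type*} [Field F] [Finite F] {n m : ℕ}

/-- the model form in odd dimension -/
noncomputable def b0 (m : ℕ) (F : Type*) [Field F] (x y : Unit ⊕ (Fin m ⊕ Fin m) → F) : F :=
  x (Sum.inl ()) * y (Sum.inl ()) + sympB m F (fun i => x (Sum.inr i)) (fun i => y (Sum.inr i))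

/-- the embedding of the symplectic group -/
def dH (m : ℕ) (F : Type*) [Field F] : Matrix.symplecticGroup (Fin m) F →* GL (Unit ⊕ (Fin m ⊕ Fin m)) F :=
  MonoidHom.toHomUnits
    { toFun := fun s => Matrix.fromBlocks (1 : Matrix Unit Unit F) 0 0 (s : Matrix (Fin m ⊕ Fin m) (Fin m ⊕ Fin m) F)
      map_one' := by rw [← Matrix.fromBlocks_one]; rfl
      map_mul' := fun s t => by
        rw [Matrix.fromBlocks_multiply]
        simp }

omit [Finite F] in
theorem coe_dH (s : Matrix.symplecticGroup (Fin m) F) : (dH m F s : Matrix (Unit ⊕ (Fin m ⊕ Fin m)) (Unit ⊕ (Fin m ⊕ Fin m)) F) =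
    Matrix.fromBlocks (1 : Matrix Unit Unit F) 0 0 (s : Matrix (Fin m ⊕ Fin m) (Fin m ⊕ Fin m) F) := rfl

omit [Finite F] in
theorem dH_inl (s : Matrix.symplecticGroup (Fin m) F) (x : Unit ⊕ (Fin m ⊕ Fin m) → F) :
    ((dH m F s : Matrix (Unit ⊕ (Fin m ⊕ Fin m)) (Unit ⊕ (Fin m ⊕ Fin m)) F) *ᵥ x) (Sum.inl ()) = x (Sum.inl ()) := by
  rw [coe_dH, Matrix.fromBlocks_mulVec]
  simp

omit [Finite F] in
theorem dH_inr (s : Matrix.symplecticGroup (Fin m) F) (x : Unit ⊕ (Fin m ⊕ Fin m) → F) :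
    (fun i => ((dH m F s : Matrix (Unit ⊕ (Fin m ⊕ Fin m)) (Unit ⊕ (Fin m ⊕ Fin m)) F) *ᵥ x) (Sum.inr i)) =
      (s : Matrix (Fin m ⊕ Fin m) (Fin m ⊕ Fin m) F) *ᵥ (fun i => x (Sum.inr i)) := by
  funext i
  rw [coe_dH, Matrix.fromBlocks_mulVec]
  simp
  rfl

omit [Finite F] in
theorem b0_nd {x y : Unit ⊕ (Fin m ⊕ Fin m) → F} (h : ∀ z, b0 m F x z = b0 m F y z) : x = y := by
  have h1 : x (Sum.inl ()) = y (Sum.inl ()) := by
    have := h (Sum.elim (fun _ => 1) (fun _ => 0))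
    simpa [b0, show (fun _ : Fin m ⊕ Fin m => (0 : F)) = 0 from rfl] using this
  have h3 : (fun i => x (Sum.inr i)) - (fun i => y (Sum.inr i)) = 0 := by
    apply sympB_nondegenerate.1
    intro v
    have := h (Sum.elim (fun _ => 0) v)
    simp only [b0, Sum.elim_inl, Sum.elim_inr, mul_zero, zero_add] at this
    rw [map_sub, LinearMap.sub_apply, sub_eq_zero]
    exact this
  funext i
  rcases i with i | i
  · exact h1
  · have := congrFun h3 i
    rwa [Pi.sub_apply, Pi.zero_apply, sub_eq_zero] at this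

omit [Finite F] in
theorem b0_self (x : Unit ⊕ (Fin m ⊕ Fin m) → F) : b0 m F x x = x (Sum.inl ()) * x (Sum.inl ()) := by
  rw [b0, sympB_isAlt, add_zero]

omit [Finite F] in
theorem b0_dH (s : Matrix.symplecticGroup (Fin m) F) (x y : Unit ⊕ (Fin m ⊕ Fin m) → F) :
    b0 m F ((dH m F s : Matrix (Unit ⊕ (Fin m ⊕ Fin m)) (Unit ⊕ (Fin m ⊕ Fin m)) F) *ᵥ x)
      ((dH m F s : Matrix (Unit ⊕ (Fin m ⊕ Fin m)) (Unit ⊕ (Fin m ⊕ Fin m)) F) *ᵥ y) = b0 m F x y := by
  unfold b0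
  rw [dH_inl, dH_inl, dH_inr, dH_inr, mem_Sp_iff.mp s.2]

theorem exists_dH (h2 : (2 : F) = 0) (g : GL (Unit ⊕ (Fin m ⊕ Fin m)) F)
    (hg : ∀ x y, b0 m F ((g : Matrix (Unit ⊕ (Fin m ⊕ Fin m)) (Unit ⊕ (Fin m ⊕ Fin m)) F) *ᵥ x)
      ((g : Matrix (Unit ⊕ (Fin m ⊕ Fin m)) (Unit ⊕ (Fin m ⊕ Fin m)) F) *ᵥ y) = b0 m F x y) : ∃ s, dH m F s = g := by
  have h1 : ∀ x, ((g : Matrix (Unit ⊕ (Fin m ⊕ Fin m)) (Unit ⊕ (Fin m ⊕ Fin m)) F) *ᵥ x) (Sum.inl ()) = x (Sum.inl ()) := by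
    intro x
    have := hg x x
    rw [b0_self, b0_self] at this
    exact ct_inj h2 this
  have hsurj : ∀ z : Unit ⊕ (Fin m ⊕ Fin m) → F, ∃ y, (g : Matrix (Unit ⊕ (Fin m ⊕ Fin m)) (Unit ⊕ (Fin m ⊕ Fin m)) F) *ᵥ y = z := fun z =>
    ⟨((g⁻¹ : GL (Unit ⊕ (Fin m ⊕ Fin m)) F) : Matrix (Unit ⊕ (Fin m ⊕ Fin m)) (Unit ⊕ (Fin m ⊕ Fin m)) F) *ᵥ z, by
      rw [Matrix.mulVec_mulVec, ← Units.val_mul, mul_inv_cancel, Units.val_one, Matrix.one_mulVec]⟩
  have he : ∀ z : Unit ⊕ (Fin m ⊕ Fin m) → F, b0 m F (Pi.single (Sum.inl ()) 1) z = z (Sum.inl ()) := by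
    intro z
    unfold b0
    rw [Pi.single_eq_same, one_mul, show (fun i : Fin m ⊕ Fin m => (Pi.single (Sum.inl ()) (1 : F) : Unit ⊕ (Fin m ⊕ Fin m) → F) (Sum.inr i)) = 0 by
      funext i
      simp, map_zero, LinearMap.zero_apply, add_zero]
  have h3 : (g : Matrix (Unit ⊕ (Fin m ⊕ Fin m)) (Unit ⊕ (Fin m ⊕ Fin m)) F) *ᵥ (Pi.single (Sum.inl ()) 1) = Pi.single (Sum.inl ()) 1 := by
    apply b0_nd
    intro z
    obtain ⟨y, rfl⟩ := hsurj z
    rw [hg, he, he, h1]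
  let M : Matrix (Unit ⊕ (Fin m ⊕ Fin m)) (Unit ⊕ (Fin m ⊕ Fin m)) F := (g : Matrix (Unit ⊕ (Fin m ⊕ Fin m)) (Unit ⊕ (Fin m ⊕ Fin m)) F)
  have hM : M = Matrix.fromBlocks 1 0 0 M.toBlocks₂₂ := by
    conv_lhs => rw [← Matrix.fromBlocks_toBlocks M]
    congr 1
    · ext i j
      have := congrFun h3 (Sum.inl ())
      rw [Matrix.mulVec_single_one, Pi.single_eq_same] at this
      rw [Matrix.toBlocks₁₁, Matrix.of_apply, Matrix.one_apply]
      simpa using this
    · ext i j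
      have := h1 (Pi.single (Sum.inr j) 1)
      rw [Matrix.mulVec_single_one] at this
      rw [Matrix.toBlocks₁₂, Matrix.of_apply]
      simpa using this
    · ext i j
      have := congrFun h3 (Sum.inr i)
      rw [Matrix.mulVec_single_one] at this
      rw [Matrix.toBlocks₂₁, Matrix.of_apply]
      simpa using this
  have hs : M.toBlocks₂₂ ∈ Matrix.symplecticGroup (Fin m) F := by
    rw [mem_Sp_iff]
    intro u v
    have h4 := hg (Sum.elim (fun _ => 0) u) (Sum.elim (fun _ => 0) v)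
    have h5 : ∀ u : Fin m ⊕ Fin m → F, M *ᵥ (Sum.elim (fun _ => 0) u) = Sum.elim (fun _ => 0) (M.toBlocks₂₂ *ᵥ u) := by
      intro u
      conv_lhs => rw [hM]
      rw [Matrix.fromBlocks_mulVec]
      funext i
      rcases i with i | i
      · simp [show (fun _ : Unit => (0 : F)) = 0 from rfl]
      · simp [show (fun _ : Unit => (0 : F)) = 0 from rfl]
    change b0 m F (M *ᵥ _) (M *ᵥ _) = _ at h4
    rw [h5, h5] at h4
    simpa [b0] using h4
  refine ⟨⟨_, hs⟩, ?_⟩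
  apply Units.ext
  rw [coe_dH]
  exact hM.symm

/-- similitudes are scalars times isometries in characteristic two -/
theorem exists_sqrt (h2 : (2 : F) = 0) (c : Fˣ) : ∃ d : Fˣ, c = d ^ 2 := by
  obtain ⟨d, hd⟩ := sq_char_two h2 (c : F)
  have hd0 : d ≠ 0 := by
    rintro rfl
    rw [mul_zero] at hd
    exact c.ne_zero hd
  exact ⟨Units.mk0 d hd0, Units.ext (by rw [Units.val_pow_eq_pow_val, Units.val_mk0, hd, pow_two])⟩

omit [Finite F] in
theorem scal_mv {ι : Type} [Fintype ι] [DecidableEq ι] (d : Fˣ) (x : ι → F) :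
    ((Matrix.GeneralLinearGroup.scalar ι d : GL ι F) : Matrix ι ι F) *ᵥ x = (d : F) • x := by
  ext i
  rw [show ((Matrix.GeneralLinearGroup.scalar ι d : GL ι F) : Matrix ι ι F) = Matrix.diagonal (fun _ => (d : F)) from rfl,
    Matrix.mulVec_diagonal, Pi.smul_apply, smul_eq_mul]

omit [Finite F] in
theorem b0_smul (c : F) (x y : Unit ⊕ (Fin m ⊕ Fin m) → F) : b0 m F (c • x) (c • y) = c ^ 2 * b0 m F x y := by
  unfold b0
  rw [show (fun i => (c • x) (Sum.inr i)) = c • (fun i => x (Sum.inr i)) from rfl,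
    show (fun i => (c • y) (Sum.inr i)) = c • (fun i => y (Sum.inr i)) from rfl, map_smul, map_smul, LinearMap.smul_apply,
    Pi.smul_apply, Pi.smul_apply]
  simp only [smul_eq_mul]
  ring

theorem cent_odd_two (hn : 2 ≤ n) (h2 : (2 : F) = 0) (A : GL (Fin n) F) (e : (Unit ⊕ (Fin m ⊕ Fin m) → F) ≃ₗ[F] (Fin n → F))
    (he : ∀ x y, bA A (e x) (e y) = b0 m F x y) :
    Nonempty (↥(inndiagPSL n F ⊓ Subgroup.centralizer {cP A * iP F n}) ≃* Matrix.symplecticGroup (Fin m) F) := by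
  have key := gr_comm_tE hn A e (b0 m F) 1 (fun x y => by rw [he, Units.val_one, one_mul])
  have h0 : cP A * iP F n = (cP (1 : GL (Fin n) F)) * (cP A * iP F n) * (cP (1 : GL (Fin n) F))⁻¹ := by
    rw [cP_one, inv_one, one_mul, mul_one]
  have h1 : Nonempty (↥(inndiagPSL n F ⊓ Subgroup.centralizer {cP A * iP F n}) ≃* Matrix.symplecticGroup (Fin m) F ⧸ (⊥ : Subgroup (Matrix.symplecticGroup (Fin m) F))) := by
    rw [h0, inndiag_eq]
    refine cent_equiv (cPrange F n) (cP A * iP F n) (cP 1) ⟨1, rfl⟩ (((cPh F n).comp (tE e).toMonoidHom).comp (dH m F)) ?_ ⊥ ?_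
    · ext y
      constructor
      · rintro ⟨s, rfl⟩
        refine ⟨⟨_, rfl⟩, ?_⟩
        refine Subgroup.mem_centralizer_singleton_iff.mpr ?_
        exact ((key _).mpr ⟨1, fun x y => by rw [b0_dH, Units.val_one, one_mul]⟩).symm
      · rintro ⟨⟨h, rfl⟩, hh⟩
        replace hh := Subgroup.mem_centralizer_singleton_iff.mp hh
        obtain ⟨g, rfl⟩ := (tE e).surjective h
        obtain ⟨c, hc⟩ := (key g).mp hh.symm
        obtain ⟨d, rfl⟩ := exists_sqrt h2 c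
        obtain ⟨s, hs⟩ := exists_dH h2 (Matrix.GeneralLinearGroup.scalar _ d⁻¹ * g) (fun x y => by
          rw [Units.val_mul, ← Matrix.mulVec_mulVec, ← Matrix.mulVec_mulVec, scal_mv, scal_mv, b0_smul, hc,
            Units.val_pow_eq_pow_val, Units.val_inv_eq_inv_val]
          have := d.ne_zero
          field_simp)
        refine ⟨s, ?_⟩
        change cP (tE e (dH m F s)) = cP (tE e g)
        obtain ⟨c', hc'⟩ := (tE_sc e (Matrix.GeneralLinearGroup.scalar _ d⁻¹)).mp ⟨d⁻¹, rfl⟩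
        rw [hs, map_mul, hc', cP_mul, cP_sGL hn, one_mul]
    · ext s
      rw [MonoidHom.mem_ker, Subgroup.mem_bot]
      change cP (tE e (dH m F s)) = 1 ↔ _
      rw [cP_eq_one_iff' hn, ← tE_sc]
      constructor
      · rintro hsc
        obtain ⟨c, hc⟩ := (Geo.mem_scalars_iff _).mp hsc
        rw [coe_dH] at hc
        have h3 : (1 : F) = c := by
          have := congrFun (congrFun hc (Sum.inl ())) (Sum.inl ())
          simpa using this
        apply Subtype.ext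
        have h4 := congrArg Matrix.toBlocks₂₂ hc
        rw [Matrix.toBlocks_fromBlocks₂₂, ← h3, one_smul, ← Matrix.fromBlocks_one, Matrix.toBlocks_fromBlocks₂₂] at h4
        exact h4
      · rintro rfl
        rw [map_one]
        exact one_mem _
  obtain ⟨f⟩ := h1
  exact ⟨f.trans QuotientGroup.quotientBot⟩

/-- projective similitudes in characteristic two -/
theorem PGO_two {ι : Type} [Fintype ι] [DecidableEq ι] (h2 : (2 : F) = 0) (Q : QuadraticForm F (ι → F)) (hQ : ∃ v, Q v ≠ 0) :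
    Nonempty (isometryGroup F (⇑Q) ≃* PGO F (⇑Q)) := by
  let j : isometryGroup F (⇑Q) →* Geo.quadSimilarityGroup (F := F) (⇑Q) :=
    Subgroup.inclusion (fun g hg => ⟨1, fun v => by rw [Units.val_one, one_mul]; exact hg v v⟩)
  refine ⟨MulEquiv.ofBijective ((QuotientGroup.mk' _).comp j) ⟨?_, ?_⟩⟩
  · rw [injective_iff_map_eq_one]
    intro g hg
    have h3 : j g ∈ (Geo.scalars ι F).subgroupOf (Geo.quadSimilarityGroup (F := F) (⇑Q)) := (QuotientGroup.eq_one_iff _).mp hg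
    rw [Subgroup.mem_subgroupOf] at h3
    obtain ⟨c, hc⟩ := (Geo.mem_scalars_iff _).mp h3
    obtain ⟨v, hv⟩ := hQ
    have h4 : Q (((g : GL ι F) : Matrix ι ι F) *ᵥ v) = Q v := g.2 v v
    have hc' : ((g : GL ι F) : Matrix ι ι F) = (c : F) • (1 : Matrix ι ι F) := hc
    rw [hc', Matrix.smul_mulVec, Matrix.one_mulVec, q_smul] at h4
    have h5 : (c : F) * c = 1 * 1 := by
      rw [one_mul]
      exact mul_right_cancel₀ hv (by rw [h4, one_mul])
    have h6 := ct_inj h2 h5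
    apply Subtype.ext
    apply Units.ext
    rw [hc', h6, one_smul]
    rfl
  · intro y
    obtain ⟨⟨g, c, hc⟩, rfl⟩ := QuotientGroup.mk_surjective y
    obtain ⟨d, rfl⟩ := exists_sqrt h2 c
    refine ⟨⟨Matrix.GeneralLinearGroup.scalar _ d⁻¹ * g, fun u v => ?_⟩, ?_⟩
    · change Q (((Matrix.GeneralLinearGroup.scalar ι d⁻¹ * g : GL ι F) : Matrix ι ι F) *ᵥ u) = Q u
      rw [Units.val_mul, ← Matrix.mulVec_mulVec, scal_mv, q_smul, hc, Units.val_pow_eq_pow_val, Units.val_inv_eq_inv_val]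
      have := d.ne_zero
      field_simp
    · change (QuotientGroup.mk _ : PGO F (⇑Q)) = QuotientGroup.mk _
      rw [QuotientGroup.eq, Subgroup.mem_subgroupOf]
      refine ⟨d, ?_⟩
      change Matrix.GeneralLinearGroup.scalar ι d = (Matrix.GeneralLinearGroup.scalar ι d⁻¹ * g)⁻¹ * g
      rw [_root_.mul_inv_rev, ← map_inv, inv_inv, mul_assoc]
      have : Matrix.GeneralLinearGroup.scalar ι d * g = g * Matrix.GeneralLinearGroup.scalar ι d := Matrix.GeneralLinearGroup.scalar_commute _ _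
      rw [this, inv_mul_cancel_left]

end dh

end Cfsg.Agent.H6
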