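import Mathlib
import Cfsg.Agent.H6.IvH
import Cfsg.Agent.H5.SpSimple

set_option autoImplicit false

/-! Graph involutions of `PSL_{2m}` in characteristic two. -/

open Cfsg Cfsg.Agent.H5 Cfsg.Agent.H17
open scoped MatrixGroups Matrix

namespace Cfsg.Agent.H6

section ie

variable {F : Type*} [Field F] [Finite F] {n m : ℕ}

omit [Finite F] in
/-- alternating forms, any characteristic -/
theorem alt_class' (hn : n = 2 * m) (B : LinearMap.BilinForm F (Fin n → F)) (halt : B.IsAlt) (hnd : ∀ x, (∀ y, B x y = 0) → x = 0) :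
    ∃ e : (Fin m ⊕ Fin m → F) ≃ₗ[F] (Fin n → F), ∀ x y, B (e x) (e y) = sympB m F x y := by
  let e₀ : (Fin m ⊕ Fin m → F) ≃ₗ[F] (Fin n → F) := LinearEquiv.ofFinrankEq _ _ (by
    rw [Module.finrank_fintype_fun_eq_card, Module.finrank_fintype_fun_eq_card, Fintype.card_sum, Fintype.card_fin, Fintype.card_fin]; omega)
  let B' : LinearMap.BilinForm F (Fin m ⊕ Fin m → F) := B.compl₁₂ (e₀ : (Fin m ⊕ Fin m → F) →ₗ[F] (Fin n → F)) (e₀ : (Fin m ⊕ Fin m → F) →ₗ[F] (Fin n → F))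
  have hB : ∀ x y, B' x y = B (e₀ x) (e₀ y) := fun x y => rfl
  obtain ⟨c, hc⟩ := alt_equiv B' (fun x => halt _) (fun u hu => by
    have h1 : e₀ u = 0 := by
      apply hnd
      intro y
      obtain ⟨y, rfl⟩ := e₀.surjective y
      exact hu y
    simpa using h1)
  let cl : (Fin m ⊕ Fin m → F) ≃ₗ[F] (Fin m ⊕ Fin m → F) := (Matrix.GeneralLinearGroup.toLin c).toLinearEquiv
  have hcl : ∀ x, cl x = (c : Matrix (Fin m ⊕ Fin m) (Fin m ⊕ Fin m) F) *ᵥ x := fun x => rfl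
  refine ⟨cl.symm.trans e₀, fun x y => ?_⟩
  obtain ⟨x, rfl⟩ := cl.surjective x
  obtain ⟨y, rfl⟩ := cl.surjective y
  rw [LinearEquiv.trans_apply, LinearEquiv.trans_apply, LinearEquiv.symm_apply_apply, LinearEquiv.symm_apply_apply, ← hB, ← hc, hcl, hcl]

/-- general centralizer computation in characteristic two -/
theorem cent_two {ι : Type} [Fintype ι] [DecidableEq ι] (hn : 2 ≤ n) (h2 : (2 : F) = 0) (A : GL (Fin n) F)
    (e : (ι → F) ≃ₗ[F] (Fin n → F)) (β : (ι → F) → (ι → F) → F) (he : ∀ x y, bA A (e x) (e y) = β x y)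
    (hβ : ∀ (c : F) x y, β (c • x) (c • y) = c ^ 2 * β x y) {S : Type*} [Group S] (D : S →* GL ι F)
    (hD1 : ∀ s x y, β ((D s : Matrix ι ι F) *ᵥ x) ((D s : Matrix ι ι F) *ᵥ y) = β x y)
    (hD2 : ∀ g : GL ι F, (∀ x y, β ((g : Matrix ι ι F) *ᵥ x) ((g : Matrix ι ι F) *ᵥ y) = β x y) → ∃ s, D s = g)
    (hker : ∀ s, D s ∈ Geo.scalars ι F → s = 1) :
    Nonempty (↥(inndiagPSL n F ⊓ Subgroup.centralizer {cP A * iP F n}) ≃* S) := by
  have key := gr_comm_tE hn A e β 1 (fun x y => by rw [he, Units.val_one, one_mul])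
  have h0 : cP A * iP F n = (cP (1 : GL (Fin n) F)) * (cP A * iP F n) * (cP (1 : GL (Fin n) F))⁻¹ := by
    rw [cP_one, inv_one, one_mul, mul_one]
  have h1 : Nonempty (↥(inndiagPSL n F ⊓ Subgroup.centralizer {cP A * iP F n}) ≃* S ⧸ (⊥ : Subgroup S)) := by
    rw [h0, inndiag_eq]
    refine cent_equiv (cPrange F n) (cP A * iP F n) (cP 1) ⟨1, rfl⟩ (((cPh F n).comp (tE e).toMonoidHom).comp D) ?_ ⊥ ?_
    · ext y
      constructor
      · rintro ⟨s, rfl⟩
        refine ⟨⟨_, rfl⟩, ?_⟩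
        refine Subgroup.mem_centralizer_singleton_iff.mpr ?_
        exact ((key _).mpr ⟨1, fun x y => by rw [hD1, Units.val_one, one_mul]⟩).symm
      · rintro ⟨⟨h, rfl⟩, hh⟩
        replace hh := Subgroup.mem_centralizer_singleton_iff.mp hh
        obtain ⟨g, rfl⟩ := (tE e).surjective h
        obtain ⟨c, hc⟩ := (key g).mp hh.symm
        obtain ⟨d, rfl⟩ := exists_sqrt h2 c
        obtain ⟨s, hs⟩ := hD2 (Matrix.GeneralLinearGroup.scalar _ d⁻¹ * g) (fun x y => by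
          rw [Units.val_mul, ← Matrix.mulVec_mulVec, ← Matrix.mulVec_mulVec, scal_mv, scal_mv, hβ, hc,
            Units.val_pow_eq_pow_val, Units.val_inv_eq_inv_val]
          have := d.ne_zero
          field_simp)
        refine ⟨s, ?_⟩
        change cP (tE e (D s)) = cP (tE e g)
        obtain ⟨c', hc'⟩ := (tE_sc e (Matrix.GeneralLinearGroup.scalar _ d⁻¹)).mp ⟨d⁻¹, rfl⟩
        rw [hs, map_mul, hc', cP_mul, cP_sGL hn, one_mul]
    · ext s
      rw [MonoidHom.mem_ker, Subgroup.mem_bot]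
      change cP (tE e (D s)) = 1 ↔ _
      rw [cP_eq_one_iff' hn, ← tE_sc]
      constructor
      · exact hker s
      · rintro rfl
        rw [map_one]
        exact one_mem _
  obtain ⟨f⟩ := h1
  exact ⟨f.trans QuotientGroup.quotientBot⟩

/-- the symplectic group in the general linear group -/
def dG (m : ℕ) (F : Type*) [Field F] : Matrix.symplecticGroup (Fin m) F →* GL (Fin m ⊕ Fin m) F :=
  (GSp m F).subtype.comp (spH m F)

omit [Finite F] in
theorem coe_dG (s : Matrix.symplecticGroup (Fin m) F) : (dG m F s : Matrix (Fin m ⊕ Fin m) (Fin m ⊕ Fin m) F) =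
    (s : Matrix (Fin m ⊕ Fin m) (Fin m ⊕ Fin m) F) := rfl

theorem dG_ker (h2 : (2 : F) = 0) (hm : 1 ≤ m) (s : Matrix.symplecticGroup (Fin m) F) (hs : dG m F s ∈ Geo.scalars (Fin m ⊕ Fin m) F) : s = 1 := by
  obtain ⟨c, hc⟩ := (Geo.mem_scalars_iff _).mp hs
  rw [coe_dG] at hc
  obtain ⟨u, v, huv⟩ := exists_hyp_Sp (F := F) hm
  have h1 : sympB m F u v = 1 := huv.ef
  have h3 := mem_Sp_iff.mp s.2 u v
  rw [hc, Matrix.smul_mulVec, Matrix.smul_mulVec, Matrix.one_mulVec, Matrix.one_mulVec, map_smul, map_smul, LinearMap.smul_apply, h1,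
    smul_eq_mul, smul_eq_mul, mul_one] at h3
  have h4 := ct_inj h2 (show (c : F) * c = 1 * 1 by rw [h3, one_mul])
  apply Subtype.ext
  rw [hc, h4, one_smul]
  rfl

theorem cent_alt_two (hn : 2 ≤ n) (h2 : (2 : F) = 0) (hm : 1 ≤ m) (A : GL (Fin n) F)
    (e : (Fin m ⊕ Fin m → F) ≃ₗ[F] (Fin n → F)) (he : ∀ x y, bA A (e x) (e y) = sympB m F x y) :
    Nonempty (↥(inndiagPSL n F ⊓ Subgroup.centralizer {cP A * iP F n}) ≃* Matrix.symplecticGroup (Fin m) F) := by
  refine cent_two hn h2 A e (fun x y => sympB m F x y) he ?_ (dG m F) ?_ ?_ (dG_ker h2 hm)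
  · intro c x y
    simp only [map_smul, LinearMap.smul_apply, smul_eq_mul]
    ring
  · intro s x y
    exact mem_Sp_iff.mp s.2 x y
  · intro g hg
    exact ⟨⟨(g : Matrix (Fin m ⊕ Fin m) (Fin m ⊕ Fin m) F), mem_Sp_iff.mpr hg⟩, Units.ext rfl⟩

/-- the third form -/
noncomputable def b3 (m : ℕ) (F : Type*) [Field F] (w x y : Fin m ⊕ Fin m → F) : F :=
  sympB m F x y + sympB m F x w * sympB m F y w

omit [Finite F] in
theorem b3_eq (w x y : Fin m ⊕ Fin m → F) :
    b3 m F w x y = sympB m F x ((spT w 1 : Matrix (Fin m ⊕ Fin m) (Fin m ⊕ Fin m) F) *ᵥ y) := by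
  rw [spT_mulVec, map_add, map_smul, smul_eq_mul, one_mul, b3]
  ring

theorem cent_three (hn : 2 ≤ n) (h2 : (2 : F) = 0) (hm : 1 ≤ m) (A : GL (Fin n) F) (w : Fin m ⊕ Fin m → F)
    (e : (Fin m ⊕ Fin m → F) ≃ₗ[F] (Fin n → F)) (he : ∀ x y, bA A (e x) (e y) = b3 m F w x y) :
    Nonempty (↥(inndiagPSL n F ⊓ Subgroup.centralizer {cP A * iP F n}) ≃*
      ↥(Subgroup.centralizer ({spT w 1} : Set (Matrix.symplecticGroup (Fin m) F)))) := by
  refine cent_two hn h2 A e (b3 m F w) he ?_ ((dG m F).comp (Subgroup.centralizer ({spT w 1} : Set (Matrix.symplecticGroup (Fin m) F))).subtype) ?_ ?_ ?_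
  · intro c x y
    unfold b3
    simp only [map_smul, LinearMap.smul_apply, smul_eq_mul]
    ring
  · rintro ⟨s, hs⟩ x y
    have hs' := Subgroup.mem_centralizer_singleton_iff.mp hs
    change b3 m F w ((s : Matrix (Fin m ⊕ Fin m) (Fin m ⊕ Fin m) F) *ᵥ x) ((s : Matrix (Fin m ⊕ Fin m) (Fin m ⊕ Fin m) F) *ᵥ y) = _
    rw [b3_eq, b3_eq, ← sp_mul_mulVec (spT w 1) s y]
    have h3 : spT w 1 * s = s * spT w 1 := by
      first
        | exact hs'
        | exact hs'.symm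
    rw [h3, sp_mul_mulVec, mem_Sp_iff.mp s.2]
  · intro g hg
    have h1 : ∀ x, sympB m F ((g : Matrix (Fin m ⊕ Fin m) (Fin m ⊕ Fin m) F) *ᵥ x) w = sympB m F x w := by
      intro x
      have := hg x x
      unfold b3 at this
      rw [sympB_isAlt, sympB_isAlt, zero_add, zero_add] at this
      exact ct_inj h2 this
    have h3 : ∀ x y, sympB m F ((g : Matrix (Fin m ⊕ Fin m) (Fin m ⊕ Fin m) F) *ᵥ x) ((g : Matrix (Fin m ⊕ Fin m) (Fin m ⊕ Fin m) F) *ᵥ y) =
        sympB m F x y := by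
      intro x y
      have := hg x y
      unfold b3 at this
      rw [h1, h1] at this
      exact add_right_cancel this
    obtain ⟨s, hs⟩ : ∃ s : Matrix.symplecticGroup (Fin m) F, (s : Matrix (Fin m ⊕ Fin m) (Fin m ⊕ Fin m) F) = (g : Matrix (Fin m ⊕ Fin m) (Fin m ⊕ Fin m) F) :=
      ⟨⟨_, mem_Sp_iff.mpr h3⟩, rfl⟩
    have hcomm : spT w 1 * s = s * spT w 1 := by
      apply sp_ext
      intro y
      rw [← sub_eq_zero]
      apply sympB_nondegenerate.2
      intro z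
      obtain ⟨x, rfl⟩ : ∃ x, (s : Matrix (Fin m ⊕ Fin m) (Fin m ⊕ Fin m) F) *ᵥ x = z := ⟨_, sp_inv_mulVec s z⟩
      have h4 := hg x y
      rw [← hs, b3_eq, b3_eq] at h4
      rw [map_sub, sp_mul_mulVec, sp_mul_mulVec, h4, mem_Sp_iff.mp s.2, sub_self]
    refine ⟨⟨s, Subgroup.mem_centralizer_singleton_iff.mpr ?_⟩, Units.ext hs⟩
    first
      | exact hcomm
      | exact hcomm.symm
  · rintro ⟨s, hs⟩ h
    exact Subtype.ext (dG_ker h2 hm s h)

/-- in even dimension the diagonal vector is isotropic -/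
theorem bA_ww (h2 : (2 : F) = 0) (hn : n = 2 * m) (hn0 : 1 ≤ n) {A : GL (Fin n) F} (hA : trG A = A) {w : Fin n → F}
    (hw : ∀ x, bA A x x = bA A x w * bA A x w) : bA A w w = 0 := by
  by_contra hne
  have ht : bA A w w = 1 := by
    apply mul_left_cancel₀ hne
    rw [← hw, mul_one]
  let δ : (Fin n → F) →ₗ[F] F := (bL A).flip w
  have hδ : ∀ x, δ x = bA A x w := fun x => by rw [← bL_apply]; rfl
  have hfr : Module.finrank F (Fin n → F) = n := by rw [Module.finrank_fintype_fun_eq_card, Fintype.card_fin]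
  have hK : Module.finrank F (LinearMap.ker δ) + 1 = n := by
    have h3 := LinearMap.finrank_range_add_finrank_ker δ
    have h4 : LinearMap.range δ = ⊤ := by
      rw [LinearMap.range_eq_top]
      intro c
      exact ⟨c • w, by rw [hδ, bA_smul_left, ht, mul_one]⟩
    rw [h4, finrank_top, Module.finrank_self, hfr] at h3
    omega
  let B₀ : LinearMap.BilinForm F (LinearMap.ker δ) := (bL A).compl₁₂ (LinearMap.ker δ).subtype (LinearMap.ker δ).subtype
  have hB₀ : ∀ x y : LinearMap.ker δ, B₀ x y = bA A x y := fun x y => by rw [← bL_apply]; rfl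
  have hk0 : ∀ x : LinearMap.ker δ, bA A x w = 0 := fun x => by rw [← hδ]; exact x.2
  have hev := even_of_alt B₀ (fun x => by rw [hB₀, hw, hk0, mul_zero]) (fun x hx => by
    apply Subtype.ext
    apply bA_nd A
    intro z
    have h3 := hx ⟨z + bA A z w • w, by
      rw [LinearMap.mem_ker, hδ, bA_add_left, bA_smul_left, ht]
      linear_combination (bA A z w) * h2⟩
    rw [hB₀, bA_add_right, bA_smul_right, hk0, mul_zero, add_zero] at h3
    exact h3)
  obtain ⟨r, hr⟩ := hev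
  omega

/-- model for the third class -/
theorem three_class (h2 : (2 : F) = 0) (hn : n = 2 * m) (hm : 1 ≤ m) {A : GL (Fin n) F} (hA : trG A = A) {w : Fin n → F}
    (hw : ∀ x, bA A x x = bA A x w * bA A x w) (hw0 : w ≠ 0) {w₀ : Fin m ⊕ Fin m → F} (hw₀ : w₀ ≠ 0) :
    ∃ e : (Fin m ⊕ Fin m → F) ≃ₗ[F] (Fin n → F), ∀ x y, bA A (e x) (e y) = b3 m F w₀ x y := by
  have hww := bA_ww h2 hn (by omega) hA hw
  obtain ⟨e, he⟩ := alt_class' hn (bW A w) (bW_alt h2 hw) (bW_nd h2 hA (by rw [hww]; exact zero_ne_one))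
  obtain ⟨s, hs⟩ := sp_trans hw₀ (w := e.symm w) (by simpa using hw0)
  let sl : (Fin m ⊕ Fin m → F) ≃ₗ[F] (Fin m ⊕ Fin m → F) := (Matrix.GeneralLinearGroup.toLin (dG m F s)).toLinearEquiv
  have hsl : ∀ x, sl x = (s : Matrix (Fin m ⊕ Fin m) (Fin m ⊕ Fin m) F) *ᵥ x := fun x => rfl
  have h5 : ∀ x, bA A (e x) w = sympB m F x (e.symm w) := by
    intro x
    rw [← he, LinearEquiv.apply_symm_apply, bW_apply, hww, mul_zero, add_zero]
  refine ⟨sl.trans e, fun x y => ?_⟩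
  rw [LinearEquiv.trans_apply, LinearEquiv.trans_apply]
  have h3 := he (sl x) (sl y)
  rw [bW_apply, h5, h5, ← hs, hsl, hsl, mem_Sp_iff.mp s.2, mem_Sp_iff.mp s.2, mem_Sp_iff.mp s.2, ← hsl, ← hsl] at h3
  unfold b3
  linear_combination h3 - (sympB m F x w₀ * sympB m F y w₀) * h2

theorem isTrv {w : Fin m ⊕ Fin m → F} (hw : w ≠ 0) : IsTransvection ((spT w 1 : Matrix.symplecticGroup (Fin m) F) : Matrix (Fin m ⊕ Fin m) (Fin m ⊕ Fin m) F) := by
  have h1 : ((spT w 1 : Matrix.symplecticGroup (Fin m) F) : Matrix (Fin m ⊕ Fin m) (Fin m ⊕ Fin m) F) - 1 =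
      Matrix.vecMulVec w (Matrix.J (Fin m) F *ᵥ w) := by
    change sympTransvection m w 1 - 1 = _
    rw [sympTransvection, one_smul, add_sub_cancel_left]
  have hne : ((spT w 1 : Matrix.symplecticGroup (Fin m) F) : Matrix (Fin m ⊕ Fin m) (Fin m ⊕ Fin m) F) - 1 ≠ 0 := by
    intro h0
    apply hw
    apply sympB_nondegenerate.2
    intro x
    by_contra hx
    have h3 : ((spT w 1 : Matrix.symplecticGroup (Fin m) F) : Matrix (Fin m ⊕ Fin m) (Fin m ⊕ Fin m) F) *ᵥ x = x := by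
      rw [sub_eq_zero.mp h0, Matrix.one_mulVec]
    rw [spT_mulVec, add_eq_left, one_mul] at h3
    exact hw ((smul_eq_zero.mp h3).resolve_left hx)
  refine ⟨?_, ?_⟩
  · apply le_antisymm
    · rw [h1]
      exact Matrix.rank_vecMulVec_le _ _
    · by_contra hcon
      have h2 : (((spT w 1 : Matrix.symplecticGroup (Fin m) F) : Matrix (Fin m ⊕ Fin m) (Fin m ⊕ Fin m) F) - 1).rank = 0 := by omega
      have h3 : LinearMap.range (((spT w 1 : Matrix.symplecticGroup (Fin m) F) : Matrix (Fin m ⊕ Fin m) (Fin m ⊕ Fin m) F) - 1).mulVecLin = ⊥ :=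
        Submodule.finrank_eq_zero.1 h2
      rw [LinearMap.range_eq_bot] at h3
      apply hne
      apply Matrix.ext_of_mulVec_single
      intro i
      have h4 := LinearMap.congr_fun h3 (Pi.single i 1)
      rw [Matrix.mulVecLin_apply] at h4
      rw [h4, Matrix.zero_mulVec]
      rfl
  · apply Matrix.ext_of_mulVec_single
    intro i
    rw [← Matrix.mulVec_mulVec, Matrix.zero_mulVec]
    have h5 : ∀ x, (((spT w 1 : Matrix.symplecticGroup (Fin m) F) : Matrix (Fin m ⊕ Fin m) (Fin m ⊕ Fin m) F) - 1) *ᵥ x = (sympB m F x w) • w := by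
      intro x
      rw [Matrix.sub_mulVec, Matrix.one_mulVec, spT_mulVec, add_sub_cancel_left, one_mul]
    rw [h5, h5, map_smul, LinearMap.smul_apply, sympB_isAlt, smul_zero, zero_smul]

end ie

end Cfsg.Agent.H6
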