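import Mathlib
import Cfsg.Agent.H6.IvC
import Cfsg.Agent.H17.UFieldSplit

set_option autoImplicit false

/-! Graph automorphisms of `PSU_n(q)`: transfer to `PGL_n(q)`. -/

open Cfsg Cfsg.Agent.H5 Cfsg.Agent.H17
open scoped MatrixGroups Matrix

namespace Cfsg.Agent.H6

section st

variable {F : Type*} [Field F] [Finite F] {n : ℕ}

/-- conjugate transpose -/
def stG (κ : F ≃+* F) (g : GL (Fin n) F) : GL (Fin n) F := (gfM κ g)⁻¹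

theorem stG_mul (κ : F ≃+* F) (g h : GL (Fin n) F) : stG κ (g * h) = stG κ h * stG κ g := by
  rw [stG, map_mul, _root_.mul_inv_rev]; rfl

theorem stG_inv (κ : F ≃+* F) (g : GL (Fin n) F) : stG κ g⁻¹ = (stG κ g)⁻¹ := by
  rw [stG, map_inv]; rfl

theorem stG_sGL (κ : F ≃+* F) (c : Fˣ) : stG κ (sGL n c) = sGL n (uM κ c) := by
  rw [stG, gfM_sGL, inv_inv]

theorem stG_stG {κ : F ≃+* F} (h2 : κ * κ = 1) (g : GL (Fin n) F) : stG κ (stG κ g) = g := by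
  rw [stG, stG, map_inv, inv_inv, gfM_gfM h2]

theorem stG_eq (κ : F ≃+* F) (g : GL (Fin n) F) : stG κ g = glMap κ (trG g) := by
  rw [stG, trG, map_inv]; rfl

theorem stG_eq' (κ : F ≃+* F) (g : GL (Fin n) F) : stG κ g = trG (glMap κ g) := by
  apply Units.ext
  rw [stG, coe_gfM_inv, coe_trG, coe_glMap]

theorem glMap_glMap {κ : F ≃+* F} (h2 : κ * κ = 1) (g : GL (Fin n) F) : glMap κ (glMap κ g) = g := by
  rw [← glMap_mul, h2, glMap_one]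

theorem mem_GU_st {κ : F ≃+* F} {q : ℕ} (hκ : ∀ x, κ x = x ^ q) (g : GL (Fin n) F) : g ∈ GU n F q ↔ stG κ g * g = 1 := by
  rw [mem_GU_iff_gfM hκ, stG, inv_mul_eq_one]

theorem sim_flip (A A' B : GL (Fin n) F) (c : Fˣ) :
    B * A * trG B = sGL n c * A' ↔ trG B * A'⁻¹ * B = sGL n c * A⁻¹ := by
  obtain ⟨z, hz⟩ : ∃ z, z = sGL n c := ⟨_, rfl⟩
  have hz1 : ∀ g, z * g = g * z := fun g => by rw [hz]; exact sGL_comm c g
  rw [← hz]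
  constructor
  · intro h
    have h2 : trG B = A⁻¹ * B⁻¹ * (z * A') := by rw [← h]; group
    rw [h2, hz1 A', hz1 A⁻¹, show A⁻¹ * B⁻¹ * (A' * z) * A'⁻¹ * B = A⁻¹ * B⁻¹ * (A' * (z * (A'⁻¹ * B))) by group, hz1]
    group
  · intro h
    have h2 : trG B = z * A⁻¹ * B⁻¹ * A' := by rw [← h]; group
    rw [h2, hz1 A⁻¹, hz1 A', show B * A * (A⁻¹ * z * B⁻¹ * A') = B * (z * (B⁻¹ * A')) by group, hz1]
    group

theorem cz3 {G : Type*} [Group G] {a b c x y z : G} (hx : ∀ g, x * g = g * x) (hy : ∀ g, y * g = g * y) (hz : ∀ g, z * g = g * z) :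
    a * x * (y * b) * (z * c) = (x * y * z) * (a * b * c) := by
  have Ly : ∀ g t, g * (y * t) = y * (g * t) := fun g t => by rw [← mul_assoc, ← hy, mul_assoc]
  have Lz : ∀ g t, g * (z * t) = z * (g * t) := fun g t => by rw [← mul_assoc, ← hz, mul_assoc]
  rw [← hx a]
  simp only [mul_assoc]
  rw [Ly a, Lz b, Lz a]

variable {F₀ : Type*} [Field F₀] [Finite F₀]

theorem trG_jM (j : F₀ →+* F) (g : GL (Fin n) F₀) : trG (jM n j g) = jM n j (trG g) := by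
  apply Units.ext
  rfl

theorem stG_jM {κ : F ≃+* F} {j : F₀ →+* F} (hj : ∀ x, κ x = x ↔ ∃ y, j y = x) (g : GL (Fin n) F₀) :
    stG κ (jM n j g) = jM n j (trG g) := by
  rw [stG_eq, trG_jM, glMap_jM (fun y => (hj _).mpr ⟨y, rfl⟩)]

/-- the data relating a unitary matrix and a form over the fixed field -/
structure RelU (κ : F ≃+* F) (j : F₀ →+* F) (A : GL (Fin n) F) (A₀ : GL (Fin n) F₀) (h : GL (Fin n) F) (ε lam : Fˣ) : Prop where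
  r1 : A = sGL n ε * (h * (glMap κ h)⁻¹)
  r2 : stG κ h * h = sGL n lam * jM n j A₀⁻¹

variable {κ : F ≃+* F} {j : F₀ →+* F} {A A' : GL (Fin n) F} {A₀ A₀' : GL (Fin n) F₀} {h h' : GL (Fin n) F} {ε ε' lam lam' : Fˣ}

theorem st_prod (k : GL (Fin n) F) : stG κ (h' * k * h⁻¹) * (h' * k * h⁻¹) = 1 ↔ stG κ k * (stG κ h' * h') * k = stG κ h * h := by
  rw [stG_mul, stG_mul, stG_inv]
  rw [show (stG κ h)⁻¹ * (stG κ k * stG κ h') * (h' * k * h⁻¹) = (stG κ h)⁻¹ * (stG κ k * (stG κ h' * h') * k) * h⁻¹ by group,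
    mul_inv_eq_one, inv_mul_eq_iff_eq_mul]

theorem st_key (hj : ∀ x, κ x = x ↔ ∃ y, j y = x) (R' : RelU κ j A' A₀' h' ε' lam') (d : Fˣ) (P : GL (Fin n) F₀) :
    stG κ (sGL n d * jM n j P) * (stG κ h' * h') * (sGL n d * jM n j P) =
      sGL n (uM κ d * lam' * d) * jM n j (trG P * A₀'⁻¹ * P) := by
  rw [stG_mul, stG_jM hj, stG_sGL, R'.r2, cz3 (sGL_comm _) (sGL_comm _) (sGL_comm _)]
  simp only [map_mul, mul_assoc]

theorem T3a (hn : n ≠ 0) (hj : ∀ x, κ x = x ↔ ∃ y, j y = x) (R : RelU κ j A A₀ h ε lam) (R' : RelU κ j A' A₀' h' ε' lam')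
    {g : GL (Fin n) F} (hg : stG κ g * g = 1) {d : Fˣ} {P : GL (Fin n) F₀} (hP : h'⁻¹ * g * h = sGL n d * jM n j P) :
    ∃ c₀ : F₀ˣ, P * A₀ * trG P = sGL n c₀ * A₀' := by
  have hg' : g = h' * (sGL n d * jM n j P) * h⁻¹ := by rw [← hP]; group
  rw [hg', st_prod, st_key hj R', R.r2] at hg
  have h1 : jM n j ((trG P * A₀'⁻¹ * P) * (A₀⁻¹)⁻¹) = sGL n ((uM κ d * lam' * d)⁻¹ * lam) := by
    have h2 : jM n j (trG P * A₀'⁻¹ * P) = sGL n ((uM κ d * lam' * d)⁻¹ * lam) * jM n j A₀⁻¹ := by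
      rw [map_mul (sGL n), mul_assoc (sGL n (uM κ d * lam' * d)⁻¹), ← hg, ← mul_assoc, ← map_mul (sGL n), inv_mul_cancel, map_one, one_mul]
    rw [map_mul (jM n j) _ (A₀⁻¹)⁻¹, map_inv (jM n j) A₀⁻¹, mul_inv_eq_iff_eq_mul]
    exact h2
  obtain ⟨c₀, hc₀⟩ := jM_eq_sGL hn h1
  refine ⟨c₀, ?_⟩
  rw [sim_flip]
  rw [mul_inv_eq_iff_eq_mul] at hc₀
  exact hc₀

theorem T3b (R : RelU κ j A A₀ h ε lam) (R' : RelU κ j A' A₀' h' ε' lam') (hj : ∀ x, κ x = x ↔ ∃ y, j y = x)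
    {g : GL (Fin n) F} {d : Fˣ} {P : GL (Fin n) F₀} (hP : h'⁻¹ * g * h = sGL n d * jM n j P) :
    g * A * (glMap κ g)⁻¹ = sGL n (ε * d * (uM κ d)⁻¹ * ε'⁻¹) * A' := by
  have hg' : g = h' * (sGL n d * jM n j P) * h⁻¹ := by rw [← hP]; group
  have hk : glMap κ g = glMap κ h' * (sGL n (uM κ d) * jM n j P) * (glMap κ h)⁻¹ := by
    rw [hg', map_mul, map_mul, map_mul, map_inv, glMap_sGL, glMap_jM (fun y => (hj _).mpr ⟨y, rfl⟩)]
  rw [hk, hg', R.r1, R'.r1]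
  obtain ⟨p, hp⟩ : ∃ p, p = jM n j P := ⟨_, rfl⟩
  obtain ⟨z, hz⟩ : ∃ z, z = sGL n d := ⟨_, rfl⟩
  obtain ⟨y, hy⟩ : ∃ y, y = sGL n (uM κ d) := ⟨_, rfl⟩
  obtain ⟨x, hx⟩ : ∃ x, x = sGL n ε := ⟨_, rfl⟩
  obtain ⟨w, hw⟩ : ∃ w, w = sGL n ε' := ⟨_, rfl⟩
  have cz : ∀ g, z * g = g * z := fun g => by rw [hz]; exact sGL_comm _ g
  have cy : ∀ g, y⁻¹ * g = g * y⁻¹ := fun g => by rw [hy, ← map_inv]; exact sGL_comm _ g
  have cx : ∀ g, x * g = g * x := fun g => by rw [hx]; exact sGL_comm _ g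
  have cw : ∀ g, w * g = g * w := fun g => by rw [hw]; exact sGL_comm _ g
  rw [map_mul, map_mul, map_mul, map_inv, map_inv, ← hp, ← hz, ← hy, ← hx, ← hw]
  have e1 : h' * (z * p) * h⁻¹ * (x * (h * (glMap κ h)⁻¹)) * (glMap κ h' * (y * p) * (glMap κ h)⁻¹)⁻¹ =
      h' * (z * (p * (h⁻¹ * (x * (h * (p⁻¹ * (y⁻¹ * (glMap κ h')⁻¹))))))) := by group
  have e2 : x * z * y⁻¹ * w⁻¹ * (w * (h' * (glMap κ h')⁻¹)) = x * (z * (y⁻¹ * (h' * (glMap κ h')⁻¹))) := by group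
  have e3 : h' * (z * (p * (h⁻¹ * (x * (h * (p⁻¹ * (y⁻¹ * (glMap κ h')⁻¹))))))) = h' * (glMap κ h')⁻¹ * y⁻¹ * (x * z) := by
    rw [cy, cx, cz]; group
  have e4 : x * (z * (y⁻¹ * (h' * (glMap κ h')⁻¹))) = h' * (glMap κ h')⁻¹ * y⁻¹ * (z * x) := by
    rw [cy, cz, cx]; group
  rw [e1, e2, e3, e4, cx z]

end st

end Cfsg.Agent.H6
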