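import Mathlib
import Cfsg.Agent.H6.IvJ

set_option autoImplicit false

/-! Graph automorphisms of `PSU_n(q)`: transfer to `PGL_n(q)`, second part. -/

open Cfsg Cfsg.Agent.H5 Cfsg.Agent.H17
open scoped MatrixGroups Matrix

namespace Cfsg.Agent.H6

/-- the fields -/
structure SetU (F F₀ : Type*) [Field F] [Fintype F] [Field F₀] (q : ℕ) (κ : F ≃+* F) (j : F₀ →+* F) : Prop where
  hF : Fintype.card F = q ^ 2
  hκ : ∀ x, κ x = x ^ q
  h2 : κ * κ = 1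
  ho : orderOf κ = 2
  hj : ∀ x, κ x = x ↔ ∃ y, j y = x

section tu

variable {F F₀ : Type*} [Field F] [Fintype F] [Field F₀] [Finite F₀] {n q : ℕ} {κ : F ≃+* F} {j : F₀ →+* F}

/-- graph automorphism of `PSU` -/
def gU (κ : F ≃+* F) (A : GU n F q) : MulAut (PSU n F q) := cU n F q A * fU n F q κ

omit [Fintype F] in
theorem guMap_inv' (κ : F ≃+* F) (g : GU n F q) : guMap n q κ g⁻¹ = (guMap n q κ g)⁻¹ := Subtype.ext (map_inv (glMap κ) _)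

omit [Fintype F] in
theorem gU_conj (g A : GU n F q) :
    cU n F q g * gU κ A * (cU n F q g)⁻¹ = cU n F q (g * A * (guMap n q κ g)⁻¹) * fU n F q κ := by
  unfold gU
  rw [← map_inv, mul_assoc, mul_assoc, fU_cU, guMap_inv', ← mul_assoc, ← mul_assoc, ← map_mul, ← map_mul]

theorem cU_congr (S : SetU F F₀ q κ j) (hn : 3 ≤ n) {g h : GU n F q} {c : Fˣ} (e : (g : GL (Fin n) F) = sGL n c * h) : cU n F q g = cU n F q h := by
  rw [← mul_inv_eq_one, ← map_inv, ← map_mul, cU_eq_one_iff' S.hF hn]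
  refine ⟨c, ?_⟩
  rw [Subgroup.coe_mul, e, Subgroup.coe_inv, mul_inv_cancel_right]

theorem cU_inj (S : SetU F F₀ q κ j) (hn : 3 ≤ n) {g h : GU n F q} (e : cU n F q g = cU n F q h) : ∃ c : Fˣ, (g : GL (Fin n) F) = sGL n c * h := by
  rw [← mul_inv_eq_one, ← map_inv, ← map_mul, cU_eq_one_iff' S.hF hn] at e
  obtain ⟨c, hc⟩ := e
  refine ⟨c, ?_⟩
  rw [← hc, Subgroup.coe_mul, Subgroup.coe_inv, inv_mul_cancel_right]

variable {A A' : GU n F q} {A₀ A₀' : GL (Fin n) F₀} {h h' : GL (Fin n) F} {ε ε' lam lam' : Fˣ}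

theorem T3c (S : SetU F F₀ q κ j) (hn : 3 ≤ n) (R : RelU κ j (A : GL (Fin n) F) A₀ h ε lam) (R' : RelU κ j (A' : GL (Fin n) F) A₀' h' ε' lam')
    {g : GU n F q} {d : Fˣ} {P : GL (Fin n) F₀} (hP : h'⁻¹ * (g : GL (Fin n) F) * h = sGL n d * jM n j P) :
    cU n F q g * gU κ A * (cU n F q g)⁻¹ = gU κ A' := by
  rw [gU_conj]
  unfold gU
  congr 1
  exact cU_congr S hn (T3b R R' S.hj hP)

theorem T2 (S : SetU F F₀ q κ j) (hn : 3 ≤ n) (R : RelU κ j (A : GL (Fin n) F) A₀ h ε lam) (R' : RelU κ j (A' : GL (Fin n) F) A₀' h' ε' lam')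
    {g : GU n F q} (hg : cU n F q g * gU κ A * (cU n F q g)⁻¹ = gU κ A') :
    ∃ (d : Fˣ) (P : GL (Fin n) F₀), h'⁻¹ * (g : GL (Fin n) F) * h = sGL n d * jM n j P := by
  rw [gU_conj] at hg
  unfold gU at hg
  obtain ⟨c, hc⟩ := cU_inj S hn (mul_right_cancel hg)
  have hc' : (g : GL (Fin n) F) * A * (glMap κ (g : GL (Fin n) F))⁻¹ = sGL n c * A' := hc
  obtain ⟨k, hk⟩ : ∃ k, k = h'⁻¹ * (g : GL (Fin n) F) * h := ⟨_, rfl⟩
  obtain ⟨K, hK⟩ : ∃ K, K = glMap κ k := ⟨_, rfl⟩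
  -- `k` is a scalar multiple of its conjugate
  have h1 : k = sGL n (ε⁻¹ * c * ε') * K := by
    obtain ⟨u, hu⟩ : ∃ u, u = sGL n ε := ⟨_, rfl⟩
    obtain ⟨v, hv⟩ : ∃ v, v = sGL n ε' := ⟨_, rfl⟩
    obtain ⟨w, hw⟩ : ∃ w, w = sGL n c := ⟨_, rfl⟩
    have cu : ∀ g, u * g = g * u := fun g => by rw [hu]; exact sGL_comm _ g
    have cv : ∀ g, v * g = g * v := fun g => by rw [hv]; exact sGL_comm _ g
    have cw : ∀ g, w * g = g * w := fun g => by rw [hw]; exact sGL_comm _ g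
    rw [R.r1, R'.r1, ← hu, ← hv, ← hw] at hc'
    have e1 : K = (glMap κ h')⁻¹ * glMap κ (g : GL (Fin n) F) * glMap κ h := by
      rw [hK, hk, map_mul, map_mul, map_inv]
    have e2 : (g : GL (Fin n) F) * (u * (h * (glMap κ h)⁻¹)) * (glMap κ (g : GL (Fin n) F))⁻¹ = u * ((g : GL (Fin n) F) * h * (glMap κ h)⁻¹ * (glMap κ (g : GL (Fin n) F))⁻¹) := by
      rw [← mul_assoc (g : GL (Fin n) F) u, ← cu]
      group
    have e3 : w * (v * (h' * (glMap κ h')⁻¹)) = (w * v) * (h' * (glMap κ h')⁻¹) := by group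
    rw [e2, e3] at hc'
    have e4 : (g : GL (Fin n) F) * h = u⁻¹ * ((w * v) * (h' * (glMap κ h')⁻¹)) * glMap κ (g : GL (Fin n) F) * glMap κ h := by
      rw [← hc']; group
    have cwv : ∀ g, (u⁻¹ * w * v) * g = g * (u⁻¹ * w * v) := fun g => by
      rw [hu, hv, hw, ← map_inv, ← map_mul, ← map_mul]; exact sGL_comm _ g
    have e5 : h'⁻¹ * (u⁻¹ * ((w * v) * (h' * (glMap κ h')⁻¹)) * glMap κ (g : GL (Fin n) F) * glMap κ h) =
        (h'⁻¹ * (u⁻¹ * w * v)) * h' * ((glMap κ h')⁻¹ * glMap κ (g : GL (Fin n) F) * glMap κ h) := by group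
    rw [hk, mul_assoc, e4, e5, e1, map_mul, map_mul, map_inv, ← hu, ← hv, ← hw, ← cwv, inv_mul_cancel_right]
  have h3 : K = sGL n (uM κ (ε⁻¹ * c * ε')) * k := by
    rw [hK]
    conv_lhs => rw [h1]
    rw [map_mul, glMap_sGL, hK, glMap_glMap S.h2]
  obtain ⟨c₁, hc₁⟩ : ∃ c₁, c₁ = ε⁻¹ * c * ε' := ⟨_, rfl⟩
  rw [← hc₁] at h1 h3
  have h4 : c₁ * uM κ c₁ = 1 := by
    have h5 : sGL n (c₁ * uM κ c₁) = sGL n 1 := by
      rw [h3, ← mul_assoc, ← map_mul] at h1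
      rw [map_one]
      exact mul_right_cancel (b := k) (by rw [← h1, one_mul])
    exact sGL_inj (by omega) h5
  obtain ⟨y, hy⟩ := hilbert90_u κ S.ho (by norm_num) c₁ (by
    rw [uN_succ, uN_succ, uN_zero, map_one, mul_one]; exact h4)
  obtain ⟨P, hP⟩ := exists_descend S.hj (k := sGL n y⁻¹ * k) (by
    rw [map_mul, glMap_sGL, ← hK]
    conv_rhs => rw [h1]
    rw [← mul_assoc, ← map_mul]
    congr 2
    rw [map_inv, eq_inv_mul_iff_mul_eq, mul_inv_eq_iff_eq_mul]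
    exact hy.symm)
  exact ⟨y, P, by rw [hP, ← hk, ← mul_assoc, ← map_mul, mul_inv_cancel, map_one, one_mul]⟩

theorem T1 (S : SetU F F₀ q κ j) (R : RelU κ j (A : GL (Fin n) F) A₀ h ε lam) (R' : RelU κ j (A' : GL (Fin n) F) A₀' h' ε' lam')
    (hl : uM κ (lam * lam'⁻¹) = lam * lam'⁻¹) {P : GL (Fin n) F₀} {c₀ : F₀ˣ} (hP : P * A₀ * trG P = sGL n c₀ * A₀') :
    ∃ (d : Fˣ) (g : GU n F q), h'⁻¹ * (g : GL (Fin n) F) * h = sGL n d * jM n j P := by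
  obtain ⟨cj, hcj⟩ : ∃ cj, cj = Units.map (j : F₀ →* F) c₀ := ⟨_, rfl⟩
  have hcf : uM κ cj = cj := by
    apply Units.ext
    rw [hcj]
    exact (S.hj _).mpr ⟨_, rfl⟩
  obtain ⟨d, hd⟩ := uNorm_surj κ S.ho (by norm_num) (cj⁻¹ * (lam * lam'⁻¹)) (by
    have : uM κ (cj⁻¹ * (lam * lam'⁻¹)) = cj⁻¹ * (lam * lam'⁻¹) := by rw [map_mul, map_inv, hcf, hl]
    exact congrArg Units.val this)
  rw [uN_succ, uN_succ, uN_zero, map_one, mul_one] at hd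
  refine ⟨d, ⟨h' * (sGL n d * jM n j P) * h⁻¹, ?_⟩, ?_⟩
  · rw [mem_GU_st S.hκ, st_prod, st_key S.hj R', R.r2, (sim_flip _ _ _ _).mp hP, map_mul (jM n j), jM_sGL, ← hcj, ← mul_assoc, ← map_mul (sGL n)]
    congr 2
    have : uM κ d * lam' * d * cj = (d * uM κ d) * (lam' * cj) := by ac_rfl
    rw [this, hd, mul_comm lam' cj, ← mul_assoc, mul_comm cj⁻¹, inv_mul_cancel_right, inv_mul_cancel_right]
  · change h'⁻¹ * (h' * (sGL n d * jM n j P) * h⁻¹) * h = _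
    group

omit [Fintype F] in
theorem two_groups {X Y₁ Y₂ : Type*} [Group X] [Group Y₁] [Group Y₂] (φ₁ : X →* Y₁) (φ₂ : X →* Y₂) (h : φ₁.ker = φ₂.ker)
    {H₁ : Subgroup Y₁} {H₂ : Subgroup Y₂} (h₁ : φ₁.range = H₁) (h₂ : φ₂.range = H₂) : Nonempty (H₁ ≃* H₂) := by
  subst h₁ h₂
  exact ⟨(QuotientGroup.quotientKerEquivRange φ₁).symm.trans ((QuotientGroup.quotientMulEquivOfEq h).trans (QuotientGroup.quotientKerEquivRange φ₂))⟩

omit [Fintype F] [Finite F₀] in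
theorem sGL_comm_inv (d : Fˣ) (g : GL (Fin n) F) : (sGL n d)⁻¹ * g = g * (sGL n d)⁻¹ := by
  rw [← map_inv]; exact Matrix.GeneralLinearGroup.scalar_commute _ _

/-- the group of pairs -/
def XU (h : GL (Fin n) F) (j : F₀ →+* F) (q : ℕ) : Subgroup (GU n F q × GL (Fin n) F₀) where
  carrier := {x | ∃ d : Fˣ, h⁻¹ * (x.1 : GL (Fin n) F) * h = sGL n d * jM n j x.2}
  one_mem' := ⟨1, by
    rw [map_one, one_mul]
    change h⁻¹ * 1 * h = jM n j 1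
    rw [map_one]; group⟩
  mul_mem' := by
    rintro ⟨a, b⟩ ⟨a', b'⟩ ⟨d, hd⟩ ⟨d', hd'⟩
    refine ⟨d * d', ?_⟩
    change h⁻¹ * ((a : GL (Fin n) F) * a') * h = sGL n (d * d') * jM n j (b * b')
    rw [show h⁻¹ * ((a : GL (Fin n) F) * a') * h = (h⁻¹ * (a : GL (Fin n) F) * h) * (h⁻¹ * (a' : GL (Fin n) F) * h) by group]
    change h⁻¹ * (a : GL (Fin n) F) * h = _ at hd
    change h⁻¹ * (a' : GL (Fin n) F) * h = _ at hd'
    rw [hd, hd', map_mul, map_mul, mul_assoc, mul_assoc]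
    congr 1
    rw [← mul_assoc, ← sGL_comm, mul_assoc]
  inv_mem' := by
    rintro ⟨a, b⟩ ⟨d, hd⟩
    refine ⟨d⁻¹, ?_⟩
    change h⁻¹ * (a : GL (Fin n) F)⁻¹ * h = sGL n d⁻¹ * jM n j b⁻¹
    change h⁻¹ * (a : GL (Fin n) F) * h = _ at hd
    have e : sGL n d * jM n j b = h⁻¹ * (a : GL (Fin n) F) * h := hd.symm
    rw [map_inv, map_inv, sGL_comm_inv, show (jM n j b)⁻¹ * (sGL n d)⁻¹ = (sGL n d * jM n j b)⁻¹ from (_root_.mul_inv_rev _ _).symm, e]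
    group

end tu

end Cfsg.Agent.H6
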