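import Mathlib
import Cfsg.Agent.H6.IvK

set_option autoImplicit false

/-! Graph automorphisms of `PSU_n(q)`: transfer to `PGL_n(q)`, third part. -/

open Cfsg Cfsg.Agent.H5 Cfsg.Agent.H17
open scoped MatrixGroups Matrix

namespace Cfsg.Agent.H6

section tu

variable {F F₀ : Type*} [Field F] [Fintype F] [Field F₀] [Finite F₀] {n q : ℕ} {κ : F ≃+* F} {j : F₀ →+* F}
variable {A A' : GU n F q} {A₀ A₀' : GL (Fin n) F₀} {h h' : GL (Fin n) F} {ε ε' lam lam' : Fˣ}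

theorem cent_U (S : SetU F F₀ q κ j) (hn : 3 ≤ n) (R : RelU κ j (A : GL (Fin n) F) A₀ h ε lam) :
    Nonempty (↥(inndiagPSU n F q ⊓ Subgroup.centralizer {gU κ A}) ≃* ↥(inndiagPSL n F₀ ⊓ Subgroup.centralizer {cP A₀ * iP F₀ n})) := by
  have hll : uM κ (lam * lam⁻¹) = lam * lam⁻¹ := by rw [mul_inv_cancel, map_one]
  refine two_groups ((cU n F q).comp ((MonoidHom.fst (GU n F q) (GL (Fin n) F₀)).comp (XU h j q).subtype))
    ((cPh F₀ n).comp ((MonoidHom.snd (GU n F q) (GL (Fin n) F₀)).comp (XU h j q).subtype)) ?_ ?_ ?_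
  · ext x
    obtain ⟨⟨a, b⟩, d, hd⟩ := x
    change h⁻¹ * (a : GL (Fin n) F) * h = sGL n d * jM n j b at hd
    rw [MonoidHom.mem_ker, MonoidHom.mem_ker]
    change cU n F q a = 1 ↔ cP b = 1
    rw [cU_eq_one_iff' S.hF hn, cP_eq_one_iff' (by omega)]
    constructor
    · rintro ⟨c, hc⟩
      rw [hc, ← sGL_comm, mul_assoc, inv_mul_cancel, mul_one] at hd
      have h3 : jM n j b = sGL n (d⁻¹ * c) := by
        rw [map_mul, hd, ← mul_assoc, ← map_mul, inv_mul_cancel, map_one, one_mul]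
      exact jM_eq_sGL (by omega) h3
    · rintro ⟨c, rfl⟩
      rw [jM_sGL, ← map_mul] at hd
      refine ⟨d * Units.map (j : F₀ →* F) c, ?_⟩
      have h3 : (a : GL (Fin n) F) = h * (h⁻¹ * (a : GL (Fin n) F) * h) * h⁻¹ := by group
      rw [h3, hd, ← sGL_comm, mul_assoc, mul_inv_cancel, mul_one]
  · rw [inndiagPSU_eq]
    ext y
    constructor
    · rintro ⟨⟨⟨a, b⟩, d, hd⟩, rfl⟩
      refine ⟨⟨a, rfl⟩, Subgroup.mem_centralizer_singleton_iff.mpr ?_⟩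
      have h3 := T3c S hn R R (g := a) hd
      rw [mul_inv_eq_iff_eq_mul] at h3
      exact h3
    · rintro ⟨⟨a, rfl⟩, hy⟩
      replace hy := Subgroup.mem_centralizer_singleton_iff.mp hy
      obtain ⟨d, P, hP⟩ := T2 S hn R R (g := a) (by rw [hy, mul_inv_cancel_right])
      exact ⟨⟨⟨a, P⟩, d, hP⟩, rfl⟩
  · rw [inndiag_eq]
    ext y
    constructor
    · rintro ⟨⟨⟨a, b⟩, d, hd⟩, rfl⟩
      refine ⟨⟨b, rfl⟩, Subgroup.mem_centralizer_singleton_iff.mpr ?_⟩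
      exact ((gr_comm (by omega) A₀ b).mpr (T3a (by omega) S.hj R R ((mem_GU_st S.hκ _).mp a.2) hd)).symm
    · rintro ⟨⟨b, rfl⟩, hy⟩
      replace hy := Subgroup.mem_centralizer_singleton_iff.mp hy
      obtain ⟨c, hc⟩ := (gr_comm (by omega) A₀ b).mp hy.symm
      obtain ⟨d, g, hg⟩ := T1 S R R hll hc
      exact ⟨⟨⟨g, b⟩, d, hg⟩, rfl⟩

/-- the relation between graph involutions of `PSU_n(q)` and of `PSL_n(q)` -/
def RelV (κ : F ≃+* F) (j : F₀ →+* F) (A : GU n F q) (A₀ : GL (Fin n) F₀) : Prop :=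
  ∃ (h : GL (Fin n) F) (ε lam : Fˣ) (s₀ : F₀ˣ), RelU κ j (A : GL (Fin n) F) A₀ h ε lam ∧ trG A₀ = sGL n s₀ * A₀ ∧
    uM κ lam = Units.map (j : F₀ →* F) s₀ * lam

theorem cent_V (S : SetU F F₀ q κ j) (hn : 3 ≤ n) (R : RelV κ j A A₀) :
    Nonempty (↥(inndiagPSU n F q ⊓ Subgroup.centralizer {gU κ A}) ≃* ↥(inndiagPSL n F₀ ⊓ Subgroup.centralizer {cP A₀ * iP F₀ n})) := by
  obtain ⟨h, ε, lam, s₀, hR, _, _⟩ := R
  exact cent_U S hn hR

theorem conj_V (S : SetU F F₀ q κ j) (hn : 3 ≤ n) (R : RelV κ j A A₀) (R' : RelV κ j A' A₀') :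
    IsConjUnder (inndiagPSU n F q) (gU κ A) (gU κ A') ↔ IsConjUnder (inndiagPSL n F₀) (cP A₀ * iP F₀ n) (cP A₀' * iP F₀ n) := by
  obtain ⟨h, ε, lam, s₀, hR, hs, hl⟩ := R
  obtain ⟨h', ε', lam', s₀', hR', hs', hl'⟩ := R'
  constructor
  · rintro ⟨y, hy, e⟩
    rw [inndiagPSU_eq] at hy
    obtain ⟨g, rfl⟩ := hy
    obtain ⟨d, P, hP⟩ := T2 S hn hR hR' (g := g) e.symm
    obtain ⟨c, hc⟩ := T3a (by omega) S.hj hR hR' ((mem_GU_st S.hκ _).mp g.2) hP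
    refine ⟨cP P, ?_, ?_⟩
    · rw [inndiag_eq]; exact ⟨P, rfl⟩
    · rw [gr_conj, hc, cP_mul, cP_sGL (by omega), one_mul]
  · intro hc
    obtain ⟨P, c, hP⟩ := conj_form (by omega) hc
    have hss : s₀ = s₀' := by
      have h1 := congrArg trG hP
      rw [trG_mul, trG_mul, trG_trG, hs, trG_mul, hs', trG_sGL, ← sGL_comm] at h1
      have h4 : P * (sGL n s₀ * A₀ * trG P) = sGL n s₀ * (P * A₀ * trG P) := by
        rw [← mul_assoc, ← mul_assoc, ← sGL_comm, mul_assoc (sGL n s₀), mul_assoc (sGL n s₀)]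
      rw [h4, hP, ← mul_assoc, ← mul_assoc, ← map_mul, ← map_mul] at h1
      have h5 := sGL_inj (by omega) (mul_right_cancel h1)
      rw [mul_comm c] at h5
      exact mul_right_cancel h5
    obtain ⟨d, g, hg⟩ := T1 S hR hR' (by
      rw [map_mul, map_inv, hl, hl', hss, _root_.mul_inv_rev, mul_comm (lam'⁻¹), ← mul_assoc, mul_comm _ lam, mul_assoc lam, mul_inv_cancel, mul_one]) hP
    have h3 := T3c S hn hR hR' hg
    refine ⟨cU n F q g, ?_, h3.symm⟩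
    rw [inndiagPSU_eq]; exact ⟨g, rfl⟩

omit [Fintype F] in
theorem st_A [Finite F] (h2 : κ * κ = 1) (x : GL (Fin n) F) (e : Fˣ) :
    stG κ (sGL n e * (x * (glMap κ x)⁻¹)) * (sGL n e * (x * (glMap κ x)⁻¹)) =
      sGL n (e * uM κ e) * ((trG x)⁻¹ * (stG κ x * x) * (glMap κ x)⁻¹) := by
  have h3 : stG κ ((glMap κ x)⁻¹) = (trG x)⁻¹ := by
    rw [stG_inv, stG_eq', glMap_glMap h2]
  rw [stG_mul, stG_mul, stG_sGL, h3, sGL_comm e, mul_comm e, map_mul]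
  obtain ⟨z, hz⟩ : ∃ z, z = sGL n e := ⟨_, rfl⟩
  obtain ⟨y, hy⟩ : ∃ y, y = sGL n (uM κ e) := ⟨_, rfl⟩
  have cz : ∀ g, z * g = g * z := fun g => by rw [hz]; exact sGL_comm _ g
  have cy : ∀ g, y * g = g * y := fun g => by rw [hy]; exact sGL_comm _ g
  rw [← hz, ← hy]
  rw [← cy, ← cz]
  have e1 : y * ((trG x)⁻¹ * stG κ x) * (z * (x * (glMap κ x)⁻¹)) = y * (((trG x)⁻¹ * stG κ x) * (z * (x * (glMap κ x)⁻¹))) := by group
  rw [e1, ← mul_assoc ((trG x)⁻¹ * stG κ x) z, ← cz]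
  group

theorem E1 (S : SetU F F₀ q κ j) (hn : 3 ≤ n) (A₀ : GL (Fin n) F₀) {s₀ : F₀ˣ} (hs2 : s₀ * s₀ = 1) (hs : trG A₀ = sGL n s₀ * A₀) :
    ∃ A : GU n F q, RelV κ j A A₀ ∧ (A : GL (Fin n) F) * glMap κ (A : GL (Fin n) F) = sGL n (Units.map (j : F₀ →* F) s₀) := by
  obtain ⟨t, ht⟩ : ∃ t, t = Units.map (j : F₀ →* F) s₀ := ⟨_, rfl⟩
  have ht2 : t * t = 1 := by rw [ht, ← map_mul, hs2, map_one]
  have htκ : uM κ t = t := by
    apply Units.ext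
    rw [ht]
    exact (S.hj _).mpr ⟨_, rfl⟩
  have hti : t⁻¹ = t := by rw [inv_eq_iff_mul_eq_one]; exact ht2
  obtain ⟨lam, hlam⟩ := hilbert90_u κ S.ho (by norm_num) t (by
    rw [uN_succ, uN_succ, uN_zero, map_one, mul_one, htκ, ht2])
  have hlam' : uM κ lam = t * lam := by
    rw [← inv_mul_eq_iff_eq_mul, hti] 
    exact hlam
  obtain ⟨ε, hε⟩ := uNorm_surj κ S.ho (by norm_num) t (congrArg Units.val htκ)
  rw [uN_succ, uN_succ, uN_zero, map_one, mul_one] at hε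
  obtain ⟨M, hM⟩ : ∃ M, M = sGL n lam * jM n j A₀⁻¹ := ⟨_, rfl⟩
  have htrA : trG A₀⁻¹ = sGL n s₀ * A₀⁻¹ := by
    rw [trG_inv, hs, _root_.mul_inv_rev, ← map_inv, ← sGL_comm]
    congr 2
    rw [inv_eq_iff_mul_eq_one]; exact hs2
  have hstM : stG κ M = M := by
    rw [hM, stG_mul, stG_jM S.hj, stG_sGL, htrA, map_mul (jM n j), jM_sGL, ← ht, hlam', ← sGL_comm, ← mul_assoc, ← map_mul]
    congr 2
    rw [mul_comm t lam, mul_assoc, ht2, mul_one]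
  obtain ⟨b, hb⟩ := herm_factor (σ := κ) (by
    intro h1
    have := S.ho
    rw [h1, orderOf_one] at this
    norm_num at this) S.h2 M (by rw [← inv_inv (gfM κ M)]; congr 1)
  have hMb : M = b * stG κ b := by rw [stG, eq_mul_inv_iff_mul_eq]; exact hb
  obtain ⟨h, hh⟩ : ∃ h, h = stG κ b := ⟨_, rfl⟩
  have hMh : stG κ h * h = M := by rw [hh, stG_stG S.h2, hMb]
  have htrM : trG M = sGL n t * M := by
    rw [hM, trG_mul, trG_jM, trG_sGL, htrA, map_mul (jM n j), jM_sGL, ← ht, ← sGL_comm, ← mul_assoc, ← mul_assoc, ← map_mul, ← map_mul, mul_comm]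
  have htr2 : trG M = trG h * glMap κ h := by
    rw [← hMh, trG_mul, stG_eq', trG_trG]
  have hA : stG κ (sGL n ε * (h * (glMap κ h)⁻¹)) * (sGL n ε * (h * (glMap κ h)⁻¹)) = 1 := by
    rw [st_A S.h2, hε, hMh]
    have h4 : M = sGL n t * (trG h * glMap κ h) := by
      rw [← htr2, htrM, ← mul_assoc, ← map_mul, ht2, map_one, one_mul]
    rw [h4]
    obtain ⟨z, hz⟩ : ∃ z, z = sGL n t := ⟨_, rfl⟩
    have cz : ∀ g, z * g = g * z := fun g => by rw [hz]; exact sGL_comm _ g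
    have zz : z * z = 1 := by rw [hz, ← map_mul, ht2, map_one]
    rw [← hz, cz (trG h * glMap κ h)]
    have e2 : z * ((trG h)⁻¹ * (trG h * glMap κ h * z) * (glMap κ h)⁻¹) = z * (glMap κ h * (z * (glMap κ h)⁻¹)) := by group
    rw [e2, cz (glMap κ h)⁻¹]
    have e3 : z * (glMap κ h * ((glMap κ h)⁻¹ * z)) = z * z := by group
    rw [e3, zz]
  refine ⟨⟨_, (mem_GU_st S.hκ _).mpr hA⟩, ⟨h, ε, lam, s₀, ⟨rfl, by rw [hMh, hM]⟩, hs, by rw [← ht]; exact hlam'⟩, ?_⟩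
  change sGL n ε * (h * (glMap κ h)⁻¹) * glMap κ (sGL n ε * (h * (glMap κ h)⁻¹)) = _
  rw [map_mul, map_mul, map_inv, glMap_glMap S.h2, glMap_sGL, ← ht, ← hε, map_mul]
  obtain ⟨z, hz⟩ : ∃ z, z = sGL n ε := ⟨_, rfl⟩
  obtain ⟨y, hy⟩ : ∃ y, y = sGL n (uM κ ε) := ⟨_, rfl⟩
  have cy : ∀ g, y * g = g * y := fun g => by rw [hy]; exact sGL_comm _ g
  rw [← hz, ← hy, cy (glMap κ h * h⁻¹)]
  group

end tu

end Cfsg.Agent.H6
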