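import Mathlib
import Cfsg.Agent.H6.IvL
import Cfsg.Agent.H6.IvE

set_option autoImplicit false

/-! Graph automorphisms of `PSU_n(q)`: transfer to `PGL_n(q)`, fourth part. -/

open Cfsg Cfsg.Agent.H5 Cfsg.Agent.H17
open scoped MatrixGroups Matrix

namespace Cfsg.Agent.H6

section tm

variable {F F₀ : Type*} [Field F] [Fintype F] [Field F₀] [Finite F₀] {n q : ℕ} {κ : F ≃+* F} {j : F₀ →+* F}

omit [Finite F₀] in
theorem gU_sq (S : SetU F F₀ q κ j) (A : GU n F q) : gU κ A * gU κ A = cU n F q (A * guMap n q κ A) := by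
  unfold gU
  rw [mul_assoc, ← mul_assoc (fU n F q κ), fU_cU, mul_assoc, ← map_mul (fU n F q), S.h2, map_one, mul_one, ← map_mul]

theorem gU_sq_iff (S : SetU F F₀ q κ j) (hn : 3 ≤ n) (A : GU n F q) :
    gU κ A * gU κ A = 1 ↔ ∃ c : Fˣ, (A : GL (Fin n) F) * glMap κ (A : GL (Fin n) F) = sGL n c := by
  rw [gU_sq S, cU_eq_one_iff' S.hF hn]
  rfl

omit [Finite F₀] in
theorem κ_ne (S : SetU F F₀ q κ j) : κ ≠ 1 := by
  intro h1
  have := S.ho
  rw [h1, orderOf_one] at this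
  norm_num at this

omit [Finite F₀] in
theorem gU_ord (S : SetU F F₀ q κ j) (hn : 3 ≤ n) {A : GU n F q} (h : gU κ A * gU κ A = 1) : orderOf (gU κ A) = 2 := by
  apply orderOf_eq_prime
  · rw [pow_two, h]
  · intro h1
    exact κ_ne S (cU_fU_eq_one S.hF hn A κ h1).1

omit [Finite F₀] in
theorem gU_isClass (S : SetU F F₀ q κ j) (hn : 3 ≤ n) (A : GU n F q) : IsGraphAutClassPSU (gU κ A) :=
  ⟨hn, _, _, κ, by rw [S.ho]; exact even_two, innDiagU_iff.mpr ⟨A, rfl⟩, fieldU_iff.mpr rfl, rfl⟩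

omit [Finite F₀] in
theorem gU_form (S : SetU F F₀ q κ j) (hn : 3 ≤ n) {γ : MulAut (PSU n F q)} (h : IsGraphAutClassPSU γ) (h2 : orderOf γ = 2) :
    ∃ A : GU n F q, γ = gU κ A ∧ gU κ A * gU κ A = 1 := by
  obtain ⟨_, δ, φ, σ, hev, hδ, hφ, rfl⟩ := h
  obtain ⟨A, rfl⟩ := innDiagU_iff.mp hδ
  obtain rfl := fieldU_iff.mp hφ
  have h3 := pow_orderOf_eq_one (cU n F q A * fU n F q σ)
  rw [h2] at h3
  obtain ⟨t, _, ht⟩ := cU_fU_pow σ A 2
  rw [ht] at h3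
  have h4 := (cU_fU_eq_one S.hF hn t _ h3).1
  have h5 : orderOf σ = 2 := by
    have h6 := orderOf_dvd_of_pow_eq_one h4
    rcases (Nat.dvd_prime Nat.prime_two).mp h6 with h7 | h7
    · rw [h7] at hev
      exact absurd hev (by decide)
    · exact h7
  have h8 : σ = κ := by
    obtain ⟨p, hp⟩ := CharP.exists F
    haveI : Fact p.Prime := ⟨CharP.char_is_prime F p⟩
    obtain ⟨f, hf, hcard⟩ := FiniteField.card F p
    haveI := (ringAut_cyclic (F := F) p f (by positivity) (by rw [Nat.card_eq_fintype_card, hcard])).1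
    haveI : Finite (F ≃+* F) := Finite.of_injective (fun σ : F ≃+* F => (σ : F → F)) DFunLike.coe_injective
    exact involution_unique h5 S.ho
  subst h8
  rw [← ht, pow_two] at h3
  exact ⟨A, rfl, h3⟩

theorem E2 (S : SetU F F₀ q κ j) (hn : 3 ≤ n) (A : GU n F q) (hA2 : gU κ A * gU κ A = 1) :
    ∃ (A₀ : GL (Fin n) F₀) (s₀ : F₀ˣ), s₀ * s₀ = 1 ∧ trG A₀ = sGL n s₀ * A₀ ∧ RelV κ j A A₀ := by
  obtain ⟨c, hc⟩ := (gU_sq_iff S hn A).mp hA2
  obtain ⟨a, ha⟩ : ∃ a, a = (A : GL (Fin n) F) := ⟨_, rfl⟩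
  rw [← ha] at hc
  have hst : stG κ a * a = 1 := by rw [ha]; exact (mem_GU_st S.hκ _).mp A.2
  -- `κ a = (trG a)⁻¹`
  have h1 : glMap κ a = (trG a)⁻¹ := by
    have h3 : stG κ a = a⁻¹ := eq_inv_of_mul_eq_one_left hst
    have h4 : trG (stG κ a) = (trG a)⁻¹ := by rw [h3, trG_inv]
    rw [stG_eq', trG_trG] at h4
    exact h4
  have h2 : a = sGL n c * trG a := by
    rw [h1, mul_inv_eq_iff_eq_mul] at hc
    exact hc
  have hcc : c * c = 1 := by
    have h3 := congrArg trG h2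
    rw [trG_mul, trG_trG, trG_sGL, ← sGL_comm] at h3
    rw [h3, ← mul_assoc, ← map_mul] at h2
    have h5 : sGL n (c * c) = sGL n 1 := by
      rw [map_one]
      exact mul_right_cancel (b := a) (by rw [← h2, one_mul])
    exact sGL_inj (by omega) h5
  obtain ⟨s₀, hs0, hs⟩ : ∃ s₀ : F₀ˣ, Units.map (j : F₀ →* F) s₀ = c ∧ s₀ * s₀ = 1 := by
    rcases unit_sq_one (u := c) (by rw [pow_two, hcc]) with h | h
    · exact ⟨1, by rw [h, map_one], by rw [mul_one]⟩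
    · refine ⟨-1, ?_, by rw [neg_mul_neg, mul_one]⟩
      rw [h]
      apply Units.ext
      change j ((-1 : F₀ˣ) : F₀) = _
      rw [Units.val_neg, Units.val_one, map_neg, map_one, Units.val_neg, Units.val_one]
  have hcκ : uM κ c = c := by
    apply Units.ext
    rw [← hs0]
    exact (S.hj _).mpr ⟨_, rfl⟩
  have hci : c⁻¹ = c := by rw [inv_eq_iff_mul_eq_one]; exact hcc
  obtain ⟨ε, hε⟩ := uNorm_surj κ S.ho (by norm_num) c (congrArg Units.val hcκ)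
  rw [uN_succ, uN_succ, uN_zero, map_one, mul_one] at hε
  obtain ⟨lam, hlam⟩ := hilbert90_u κ S.ho (by norm_num) c (by
    rw [uN_succ, uN_succ, uN_zero, map_one, mul_one, hcκ, hcc])
  have hlam' : uM κ lam = c * lam := by
    rw [← inv_mul_eq_iff_eq_mul, hci]
    exact hlam
  -- Hilbert 90
  obtain ⟨h, hh⟩ := hilbert90_gl κ S.ho (by norm_num) (sGL n ε⁻¹ * a) (by
    rw [tN_sGL_mul, tN_succ, tN_succ, tN_zero, map_one, mul_one, hc, uN_succ, uN_succ, uN_zero, map_one, mul_one, map_inv, ← mul_inv, hε,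
      ← map_mul, inv_mul_cancel, map_one])
  have r1 : a = sGL n ε * (h * (glMap κ h)⁻¹) := by
    have h3 : sGL n ε⁻¹ * a = h * (glMap κ h)⁻¹ := by rw [eq_mul_inv_iff_mul_eq]; exact hh
    rw [← h3, ← mul_assoc, ← map_mul, mul_inv_cancel, map_one, one_mul]
  obtain ⟨M, hM⟩ : ∃ M, M = stG κ h * h := ⟨_, rfl⟩
  -- `κ M = c M`
  have h6 : glMap κ M = trG h * glMap κ h := by
    rw [hM, map_mul, stG_eq, glMap_glMap S.h2]
  have h7 : M = sGL n c * glMap κ M := by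
    have h8 := hst
    rw [r1, st_A S.h2, hε, ← hM] at h8
    obtain ⟨z, hz⟩ : ∃ z, z = sGL n c := ⟨_, rfl⟩
    have cz : ∀ g, z * g = g * z := fun g => by rw [hz]; exact sGL_comm _ g
    have zz : z * z = 1 := by rw [hz, ← map_mul, hcc, map_one]
    rw [h6, ← hz]
    rw [← hz] at h8
    have h9 : M = trG h * (z⁻¹) * glMap κ h := by
      rw [mul_assoc, ← inv_mul_eq_iff_eq_mul, ← mul_inv_eq_iff_eq_mul, eq_inv_iff_mul_eq_one, ← cz]
      exact h8
    rw [h9, inv_eq_of_mul_eq_one_left zz, ← cz]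
    group
  have hstM : stG κ M = M := by rw [hM, stG_mul, stG_stG S.h2]
  obtain ⟨B, hB⟩ := exists_descend S.hj (k := sGL n lam⁻¹ * M) (by
    rw [map_mul, glMap_sGL, map_inv, hlam']
    conv_rhs => rw [h7]
    rw [← mul_assoc, ← map_mul]
    congr 2
    rw [mul_inv, hci, mul_comm])
  have hMB : M = sGL n lam * jM n j B := by
    rw [hB, ← mul_assoc, ← map_mul, mul_inv_cancel, map_one, one_mul]
  have htrB : trG B = sGL n s₀ * B := by
    apply jM_injective j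
    rw [map_mul, jM_sGL, hs0, ← trG_jM, hB, trG_mul, trG_sGL]
    have h10 : trG M = glMap κ M := by
      conv_rhs => rw [← hstM]
      rw [stG_eq, glMap_glMap S.h2]
    have h11 : glMap κ M = sGL n c * M := by
      conv_rhs => rw [h7]
      rw [← mul_assoc, ← map_mul, hcc, map_one, one_mul]
    rw [h10, h11, ← sGL_comm, ← mul_assoc, ← mul_assoc, ← map_mul, ← map_mul, mul_comm]
  refine ⟨B⁻¹, s₀, hs, ?_, h, ε, lam, s₀, ⟨by rw [← ha]; exact r1, by rw [inv_inv, ← hM, hMB]⟩, ?_, by rw [hs0]; exact hlam'⟩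
  all_goals
    rw [trG_inv, htrB, _root_.mul_inv_rev, ← map_inv, ← sGL_comm]
    congr 2
    rw [inv_eq_iff_mul_eq_one]; exact hs

theorem exists_SetU {F : Type*} [Field F] [Fintype F] {q : ℕ} (hF : Fintype.card F = q ^ 2) (F₀ : Type*) [Field F₀] [Fintype F₀]
    (hF₀ : Fintype.card F₀ = q) : ∃ (κ : F ≃+* F) (j : F₀ →+* F), SetU F F₀ q κ j := by
  obtain ⟨κ, h1, h2, h3⟩ := exists_frobE hF
  have ho := orderOf_two h3 h2
  obtain ⟨p, hp⟩ := CharP.exists F₀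
  haveI : Fact p.Prime := ⟨CharP.char_is_prime F₀ p⟩
  obtain ⟨f, hf, hcard⟩ := FiniteField.card F₀ p
  have hq : q = p ^ (f : ℕ) := by rw [← hF₀, hcard]
  obtain ⟨_, j, hj⟩ := exists_fixed_emb (F := F) (p := p) (f := 2 * f) (by rw [Nat.card_eq_fintype_card, hF, hq, ← pow_mul, mul_comm]) κ ho F₀ (by
    rw [Nat.card_eq_fintype_card, hcard, Nat.mul_div_cancel_left _ (by norm_num)])
  exact ⟨κ, j, hF, h1, h2, ho, hj⟩

/-- existence of a unitary partner of a graph involution of `PSL` -/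
theorem partner (S : SetU F F₀ q κ j) (hn : 3 ≤ n) {γ : MulAut (Matrix.ProjectiveSpecialLinearGroup (Fin n) F₀)} (hγ : IsGraphAutClassPSL γ)
    (hγ2 : orderOf γ = 2) : ∃ (A₀ : GL (Fin n) F₀) (A : GU n F q), γ = cP A₀ * iP F₀ n ∧ RelV κ j A A₀ ∧ gU κ A * gU κ A = 1 := by
  obtain ⟨A₀, rfl⟩ := gr_class hγ
  have hsq := pow_orderOf_eq_one (cP A₀ * iP F₀ n)
  rw [hγ2, pow_two] at hsq
  obtain ⟨s₀, hs2, hs⟩ : ∃ s₀ : F₀ˣ, s₀ * s₀ = 1 ∧ trG A₀ = sGL n s₀ * A₀ := by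
    rcases gr_sq (by omega) hsq with h | h
    · exact ⟨1, by rw [mul_one], by rw [h, map_one, one_mul]⟩
    · exact ⟨-1, by rw [neg_mul_neg, mul_one], h⟩
  obtain ⟨A, hR, hA⟩ := E1 S hn A₀ hs2 hs
  exact ⟨A₀, A, rfl, hR, (gU_sq_iff S hn A).mpr ⟨_, hA⟩⟩

/-- existence of a partner of a graph involution of `PSU` -/
theorem partner' (S : SetU F F₀ q κ j) (hn : 3 ≤ n) {γ : MulAut (PSU n F q)} (hγ : IsGraphAutClassPSU γ)
    (hγ2 : orderOf γ = 2) : ∃ (A₀ : GL (Fin n) F₀) (A : GU n F q), γ = gU κ A ∧ RelV κ j A A₀ ∧ IsGraphAutClassPSL (cP A₀ * iP F₀ n) ∧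
      orderOf (cP A₀ * iP F₀ n) = 2 := by
  obtain ⟨A, rfl, hA2⟩ := gU_form S hn hγ hγ2
  obtain ⟨A₀, s₀, _, hs, hR⟩ := E2 S hn A hA2
  exact ⟨A₀, A, rfl, hR, gr_isClass hn A₀, gr_ord hn ⟨s₀, hs⟩⟩

end tm

end Cfsg.Agent.H6
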