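import Mathlib
import Cfsg.Agent.H6.IvM
import Cfsg.Agent.H6.IvE

set_option autoImplicit false

/-! Splitting of the classes of graph involutions of `PSU_n(q)`. -/

open Cfsg Cfsg.Agent.H5 Cfsg.Agent.H17
open scoped MatrixGroups Matrix

namespace Cfsg.Agent.H6

section pl

variable {F : Type*} [Field F] [Finite F] {n m : ℕ}

theorem existsP_sym (h2 : (2 : F) ≠ 0) (hm : 1 ≤ m) (hnm : n = 2 * m) {A : GL (Fin n) F} (hA : trG A = A) (c : Fˣ) {w : Fˣ}
    (hw : w = 1 ∨ w = -1) : ∃ g : GL (Fin n) F, g * A * trG g = sGL n c * A ∧ Matrix.GeneralLinearGroup.det g = c ^ m * w := by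
  have hdet : ∀ (B : GL (Fin n) F) (c : Fˣ), B * A * trG B = sGL n c * A →
      Matrix.GeneralLinearGroup.det B = c ^ m ∨ Matrix.GeneralLinearGroup.det B = - c ^ m := by
    intro B c h
    have h1 := det_sq h
    have h3 : (Matrix.GeneralLinearGroup.det B * (c ^ m)⁻¹) ^ 2 = 1 := by
      rw [mul_pow, h1, inv_pow, ← pow_mul, hnm, mul_comm m 2, mul_inv_cancel]
    rcases unit_sq_one h3 with h4 | h4
    · left; rwa [mul_inv_eq_one] at h4
    · right
      rw [mul_inv_eq_iff_eq_mul, neg_one_mul] at h4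
      exact h4
  obtain ⟨B, hB⟩ := exists_simi h2 hnm hA c
  obtain ⟨R, hR, hRd⟩ := exists_rf h2 (by omega) hA
  rw [map_one, one_mul] at hR
  have hBR : (B * R) * A * trG (B * R) = sGL n c * A := by
    rw [trG_mul, ← hB]
    have : B * R * A * (trG R * trG B) = B * (R * A * trG R) * trG B := by group
    rw [this, hR]
  have hdBR : Matrix.GeneralLinearGroup.det (B * R) = - Matrix.GeneralLinearGroup.det B := by
    rw [map_mul, hRd, mul_neg_one]
  rcases hw with rfl | rfl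
  · rcases hdet B c hB with h | h
    · exact ⟨B, hB, by rw [h, mul_one]⟩
    · exact ⟨B * R, hBR, by rw [hdBR, h, neg_neg, mul_one]⟩
  · rcases hdet B c hB with h | h
    · exact ⟨B * R, hBR, by rw [hdBR, h, mul_neg_one]⟩
    · exact ⟨B, hB, by rw [h, mul_neg_one]⟩

theorem detP_alt (hm : 1 ≤ m) (hn : 2 ≤ n) {A : GL (Fin n) F} (e : (Fin m ⊕ Fin m → F) ≃ₗ[F] (Fin n → F))
    (he : ∀ x y, bA A (e x) (e y) = sympB m F x y) {g : GL (Fin n) F} {c : Fˣ} (hg : g * A * trG g = sGL n c * A) :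
    Matrix.GeneralLinearGroup.det g = c ^ m := by
  obtain ⟨g, rfl⟩ := (tE e).surjective g
  rw [form_iff] at hg
  have h1 : ∀ x y, sympB m F ((g : Matrix (Fin m ⊕ Fin m) (Fin m ⊕ Fin m) F) *ᵥ x) ((g : Matrix (Fin m ⊕ Fin m) (Fin m ⊕ Fin m) F) *ᵥ y) =
      (c : F) * sympB m F x y := by
    intro x y
    have h3 := hg (e x) (e y)
    rwa [tE_spec, tE_spec, he, he] at h3
  have hg' : g ∈ GSp m F := mem_GSp_iff.mpr ⟨c, h1⟩
  have h4 : muS hm ⟨g, hg'⟩ = c := Units.ext (muS_unique hm ⟨g, hg'⟩ _ h1)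
  have h5 := det_GSp hm ⟨g, hg'⟩
  rw [h4] at h5
  rw [det_tE]
  exact h5

theorem existsP_alt (hn : 2 ≤ n) {A : GL (Fin n) F} (e : (Fin m ⊕ Fin m → F) ≃ₗ[F] (Fin n → F))
    (he : ∀ x y, bA A (e x) (e y) = sympB m F x y) (c : Fˣ) : ∃ g : GL (Fin n) F, g * A * trG g = sGL n c * A := by
  refine ⟨tE e (dS m F c : GL (Fin m ⊕ Fin m) F), ?_⟩
  rw [form_iff]
  intro x y
  obtain ⟨x, rfl⟩ := e.surjective x
  obtain ⟨y, rfl⟩ := e.surjective y
  rw [tE_spec, tE_spec, he, he]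
  exact dMat_sim _ x y

end pl

section sn

variable {F F₀ : Type*} [Field F] [Fintype F] [Field F₀] [Finite F₀] {n m q : ℕ} {κ : F ≃+* F} {j : F₀ →+* F}

omit [Finite F₀] in
theorem memD (S : SetU F F₀ q κ j) (hn : 1 ≤ n) (u : Fˣ) :
    u ∈ (H5.detGU n F q).range ↔ u * uM κ u = 1 := by
  rw [H5.detGU_range (σ := (κ : F →+* F)) S.hκ hn]
  constructor
  · intro h
    apply Units.ext
    rw [Units.val_mul, mul_comm]
    exact h
  · intro h
    have := congrArg Units.val h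
    rw [Units.val_mul, mul_comm] at this
    exact this

theorem commU_det (S : SetU F F₀ q κ j) (hn : 3 ≤ n) {A g : GU n F q} (h : gU κ A * cU n F q g = cU n F q g * gU κ A) :
    ∃ c : Fˣ, c * uM κ c = 1 ∧ Matrix.GeneralLinearGroup.det (g : GL (Fin n) F) ^ 2 = c ^ n := by
  have h1 : cU n F q g * gU κ A * (cU n F q g)⁻¹ = gU κ A := by rw [← h, mul_inv_cancel_right]
  rw [gU_conj] at h1
  unfold gU at h1
  obtain ⟨c, hc⟩ := cU_inj S hn (mul_right_cancel h1)
  have hcG : sGL n c ∈ GU n F q := by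
    have h3 : sGL n c = ((g * A * (guMap n q κ g)⁻¹ * A⁻¹ : GU n F q) : GL (Fin n) F) := by
      rw [Subgroup.coe_mul, hc, Subgroup.coe_inv, mul_inv_cancel_right]
    rw [h3]
    exact (g * A * (guMap n q κ g)⁻¹ * A⁻¹ : GU n F q).2
  refine ⟨c, norm_one_of_mem S.hκ (by omega) hcG, ?_⟩
  have hc' : (g : GL (Fin n) F) * A * (glMap κ (g : GL (Fin n) F))⁻¹ = sGL n c * A := hc
  have h4 := congrArg Matrix.GeneralLinearGroup.det hc'
  have h5 := (memD S (by omega) _).mp ⟨g, rfl⟩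
  change Matrix.GeneralLinearGroup.det (g : GL (Fin n) F) * uM κ (Matrix.GeneralLinearGroup.det (g : GL (Fin n) F)) = 1 at h5
  rw [map_mul, map_mul, map_inv, det_glMap', map_mul, det_sGL, inv_eq_of_mul_eq_one_left h5] at h4
  apply mul_right_cancel (b := Matrix.GeneralLinearGroup.det (A : GL (Fin n) F))
  rw [← h4, pow_two]
  ac_rfl

/-- the finite cyclic group of norm one elements -/
theorem cardD (S : SetU F F₀ q κ j) (hn : 1 ≤ n) : Nat.card (H5.detGU n F q).range = q + 1 := by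
  rw [← H5.card_norm_eq (σ := (κ : F →+* F)) S.hF S.hκ (map_one _) one_ne_zero]
  apply Nat.card_congr
  exact
    { toFun := fun u => ⟨((u : Fˣ) : F), (H5.detGU_range (σ := (κ : F →+* F)) S.hκ hn _).mp u.2⟩
      invFun := fun x => ⟨H5.unitOfNorm x.2, (H5.detGU_range (σ := (κ : F →+* F)) S.hκ hn _).mpr x.2⟩
      left_inv := fun u => Subtype.ext (Units.ext rfl)
      right_inv := fun x => rfl }

theorem splitU (S : SetU F F₀ q κ j) (hn : 3 ≤ n) (A : GU n F q) (E : Subgroup (H5.detGU n F q).range)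
    (hE : ∀ g : GU n F q, gU κ A * cU n F q g = cU n F q g * gU κ A →
      (H5.detGU n F q).rangeRestrict g ∈ (powMonoidHom n : (H5.detGU n F q).range →* (H5.detGU n F q).range).range ⊔ E)
    (hE' : ∀ e ∈ E, ∃ g : GU n F q, gU κ A * cU n F q g = cU n F q g * gU κ A ∧ (H5.detGU n F q).rangeRestrict g = e) :
    splitClassCount (inndiagPSU n F q) (Inn (PSU n F q)) (gU κ A) = Nat.gcd n E.index := by
  haveI := Inn_normal (G := PSU n F q)
  rw [inndiagPSU_eq]
  exact splitCount_gen (cU n F q) (Inn (PSU n F q)) Inn_le_rangeU (H5.detGU n F q).rangeRestrict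
    (H5.detGU n F q).rangeRestrict_surjective n (cU_mem_Inn_iff' S.hF hn) (gU κ A) E hE hE'

theorem splitU_odd (S : SetU F F₀ q κ j) (hn : 3 ≤ n) (hodd : Odd n) (A : GU n F q) :
    splitClassCount (inndiagPSU n F q) (Inn (PSU n F q)) (gU κ A) = Nat.gcd n (q + 1) := by
  rw [← cardD S (show 1 ≤ n by omega), ← Subgroup.index_bot]
  apply splitU S hn
  · intro g hg
    obtain ⟨c, hcN, h1⟩ := commU_det S hn hg
    obtain ⟨k, hk⟩ := hodd
    apply Subgroup.mem_sup_left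
    obtain ⟨e, he⟩ : ∃ e, e = Matrix.GeneralLinearGroup.det (g : GL (Fin n) F) * (c ^ k)⁻¹ := ⟨_, rfl⟩
    have heD : e ∈ (H5.detGU n F q).range := by
      rw [he]
      exact Subgroup.mul_mem _ ⟨g, rfl⟩ (Subgroup.inv_mem _ (Subgroup.pow_mem _ ((memD S (by omega) c).mpr hcN) k))
    have hd : c = e ^ 2 := by
      rw [he, mul_pow, h1, hk, inv_pow, ← pow_mul, pow_succ, mul_comm k 2, mul_comm (c ^ (2 * k)) c, mul_inv_cancel_right]
    have h2 : (Matrix.GeneralLinearGroup.det (g : GL (Fin n) F) * (e ^ n)⁻¹) ^ 2 = 1 := by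
      rw [mul_pow, h1, hd, inv_pow, ← pow_mul, ← pow_mul, mul_comm n 2, mul_inv_cancel]
    have hneg : (-1 : Fˣ) ∈ (H5.detGU n F q).range := by
      rw [memD S (by omega)]
      have : uM κ (-1) = -1 := by
        apply Units.ext
        rw [coe_uM, Units.val_neg, Units.val_one, map_neg, map_one]
      rw [this, neg_mul_neg, mul_one]
    rcases unit_sq_one h2 with h3 | h3
    · rw [mul_inv_eq_one] at h3
      exact ⟨⟨e, heD⟩, Subtype.ext h3.symm⟩
    · rw [mul_inv_eq_iff_eq_mul] at h3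
      refine ⟨⟨-1 * e, Subgroup.mul_mem _ hneg heD⟩, Subtype.ext ?_⟩
      change (-1 * e) ^ n = Matrix.GeneralLinearGroup.det (g : GL (Fin n) F)
      rw [h3, mul_pow, Odd.neg_one_pow ⟨k, hk⟩]
  · intro e he
    rw [Subgroup.mem_bot] at he
    subst he
    exact ⟨1, by rw [map_one, mul_one, one_mul], map_one _⟩

theorem splitU_two (S : SetU F F₀ q κ j) (hn : 3 ≤ n) (h2 : (2 : F) = 0) (A : GU n F q) :
    splitClassCount (inndiagPSU n F q) (Inn (PSU n F q)) (gU κ A) = Nat.gcd n (q + 1) := by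
  rw [← cardD S (show 1 ≤ n by omega), ← Subgroup.index_bot]
  have h4 : (-1 : Fˣ) = 1 := by
    apply Units.ext
    rw [Units.val_neg, Units.val_one]
    linear_combination -h2
  have hinj : ∀ u : Fˣ, u ^ 2 = 1 → u = 1 := by
    intro u hu
    rcases unit_sq_one hu with h | h
    · exact h
    · rw [h, h4]
  apply splitU S hn
  · intro g hg
    obtain ⟨c, hcN, h1⟩ := commU_det S hn hg
    apply Subgroup.mem_sup_left
    obtain ⟨e, rfl⟩ : ∃ e : Fˣ, c = e ^ 2 := by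
      obtain ⟨d, hd⟩ := sq_char_two h2 (c : F)
      have hd0 : d ≠ 0 := by
        rintro rfl
        rw [mul_zero] at hd
        exact c.ne_zero hd
      exact ⟨Units.mk0 d hd0, Units.ext (by rw [Units.val_pow_eq_pow_val, Units.val_mk0, hd, pow_two])⟩
    have heD : e ∈ (H5.detGU n F q).range := by
      rw [memD S (by omega)]
      apply hinj
      rw [mul_pow, ← map_pow, hcN]
    refine ⟨⟨e, heD⟩, Subtype.ext ?_⟩
    change e ^ n = Matrix.GeneralLinearGroup.det (g : GL (Fin n) F)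
    have h5 := hinj (Matrix.GeneralLinearGroup.det (g : GL (Fin n) F) * (e ^ n)⁻¹) (by
      rw [mul_pow, h1, inv_pow, ← pow_mul, ← pow_mul, mul_comm n 2, mul_inv_cancel])
    rw [mul_inv_eq_one] at h5
    exact h5.symm
  · intro e he
    rw [Subgroup.mem_bot] at he
    subst he
    exact ⟨1, by rw [map_one, mul_one, one_mul], map_one _⟩

variable {A : GU n F q} {A₀ : GL (Fin n) F₀} {h : GL (Fin n) F} {ε lam : Fˣ}

/-- norm of the scalar part -/
theorem norm_rel (hn : n ≠ 0) (S : SetU F F₀ q κ j) (R : RelU κ j (A : GL (Fin n) F) A₀ h ε lam) {g : GU n F q} {d : Fˣ} {P : GL (Fin n) F₀}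
    (hP : h⁻¹ * (g : GL (Fin n) F) * h = sGL n d * jM n j P) {c₀ : F₀ˣ} (hc₀ : P * A₀ * trG P = sGL n c₀ * A₀) :
    (d * uM κ d) * Units.map (j : F₀ →* F) c₀ = 1 := by
  have hg := (mem_GU_st S.hκ _).mp g.2
  have hg' : (g : GL (Fin n) F) = h * (sGL n d * jM n j P) * h⁻¹ := by rw [← hP]; group
  rw [hg', st_prod, st_key S.hj R, R.r2, (sim_flip _ _ _ _).mp hc₀, map_mul (jM n j), jM_sGL, ← mul_assoc, ← map_mul (sGL n)] at hg
  have h1 := sGL_inj hn (mul_right_cancel hg)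
  apply mul_left_cancel (a := lam)
  rw [mul_one]
  conv_rhs => rw [← h1]
  ac_rfl

theorem det_rel (hnm : n = 2 * m) {g : GL (Fin n) F} {d : Fˣ} {P : GL (Fin n) F₀}
    (hP : h⁻¹ * g * h = sGL n d * jM n j P) : Matrix.GeneralLinearGroup.det g = (d ^ 2) ^ m * Units.map (j : F₀ →* F) (Matrix.GeneralLinearGroup.det P) := by
  have h1 := congrArg Matrix.GeneralLinearGroup.det hP
  rw [map_mul, map_mul, map_inv, map_mul, det_sGL, mul_comm, ← mul_assoc, mul_inv_cancel, one_mul] at h1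
  rw [h1, ← pow_mul, ← hnm]
  congr 1
  apply Units.ext
  exact (j.map_det _).symm

/-- existence with prescribed scalar part -/
theorem T1' (S : SetU F F₀ q κ j) (R : RelU κ j (A : GL (Fin n) F) A₀ h ε lam) {P : GL (Fin n) F₀} {c₀ : F₀ˣ}
    (hP : P * A₀ * trG P = sGL n c₀ * A₀) {d : Fˣ} (hd : (d * uM κ d) * Units.map (j : F₀ →* F) c₀ = 1) :
    ∃ g : GU n F q, h⁻¹ * (g : GL (Fin n) F) * h = sGL n d * jM n j P := by
  refine ⟨⟨h * (sGL n d * jM n j P) * h⁻¹, ?_⟩, ?_⟩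
  · rw [mem_GU_st S.hκ, st_prod, st_key S.hj R, R.r2, (sim_flip _ _ _ _).mp hP, map_mul (jM n j), jM_sGL, ← mul_assoc, ← map_mul (sGL n)]
    congr 2
    have : uM κ d * lam * d * Units.map (j : F₀ →* F) c₀ = lam * ((d * uM κ d) * Units.map (j : F₀ →* F) c₀) := by ac_rfl
    rw [this, hd, mul_one]
  · change h⁻¹ * (h * (sGL n d * jM n j P) * h⁻¹) * h = _
    group

/-- parametrization of norm one elements -/
theorem exists_y (S : SetU F F₀ q κ j) {u : Fˣ} (hu : u * uM κ u = 1) : ∃ (y : Fˣ) (c₀ : F₀ˣ),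
    (y * uM κ y) * Units.map (j : F₀ →* F) c₀ = 1 ∧ u = y ^ 2 * Units.map (j : F₀ →* F) c₀ := by
  obtain ⟨y, hy⟩ := hilbert90_u κ S.ho (by norm_num) u (by
    rw [uN_succ, uN_succ, uN_zero, map_one, mul_one]; exact hu)
  have hk2 : uM κ (uM κ y) = y := by rw [← uM_mul, S.h2, uM_one]
  have hfix : κ (((y * uM κ y)⁻¹ : Fˣ) : F) = (((y * uM κ y)⁻¹ : Fˣ) : F) := by
    have : uM κ ((y * uM κ y)⁻¹) = (y * uM κ y)⁻¹ := by rw [map_inv, map_mul, hk2, mul_comm]
    exact congrArg Units.val this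
  obtain ⟨z, hz⟩ := (S.hj _).mp hfix
  have hz0 : z ≠ 0 := by
    rintro rfl
    rw [map_zero] at hz
    exact ((y * uM κ y)⁻¹).ne_zero hz.symm
  have hc : Units.map (j : F₀ →* F) (Units.mk0 z hz0) = (y * uM κ y)⁻¹ := Units.ext hz
  refine ⟨y, Units.mk0 z hz0, by rw [hc, mul_inv_cancel], ?_⟩
  rw [hc, mul_inv, pow_two]
  have h3 : u = y * (uM κ y)⁻¹ := by rw [eq_mul_inv_iff_mul_eq]; exact hy
  rw [h3]
  rw [← mul_assoc, mul_inv_cancel_right]

theorem comm_of (S : SetU F F₀ q κ j) (hn : 3 ≤ n) (R : RelU κ j (A : GL (Fin n) F) A₀ h ε lam) {g : GU n F q} {d : Fˣ} {P : GL (Fin n) F₀}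
    (hP : h⁻¹ * (g : GL (Fin n) F) * h = sGL n d * jM n j P) : gU κ A * cU n F q g = cU n F q g * gU κ A := by
  have h3 := T3c S hn R R hP
  rw [mul_inv_eq_iff_eq_mul] at h3
  exact h3.symm

/-- symplectic type -/
theorem splitU_alt (S : SetU F F₀ q κ j) (hn : 3 ≤ n) (hm : 1 ≤ m) (hnm : n = 2 * m) (R : RelU κ j (A : GL (Fin n) F) A₀ h ε lam)
    (e : (Fin m ⊕ Fin m → F₀) ≃ₗ[F₀] (Fin n → F₀)) (he : ∀ x y, bA A₀ (e x) (e y) = sympB m F₀ x y) :
    splitClassCount (inndiagPSU n F q) (Inn (PSU n F q)) (gU κ A) =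
      Nat.gcd n ((powMonoidHom m : (H5.detGU n F q).range →* (H5.detGU n F q).range).range).index := by
  apply splitU S hn
  · intro g hg
    obtain ⟨d, P, hP⟩ := T2 S hn R R (g := g) (by rw [← hg, mul_inv_cancel_right])
    obtain ⟨c₀, hc₀⟩ := T3a (by omega) S.hj R R ((mem_GU_st S.hκ _).mp g.2) hP
    have h1 := norm_rel (by omega) S R hP hc₀
    have h3 := det_rel hnm hP
    rw [detP_alt hm (by omega) e he hc₀, map_pow, ← mul_pow] at h3
    apply Subgroup.mem_sup_right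
    have hk2 : uM κ (uM κ d) = d := by rw [← uM_mul, S.h2, uM_one]
    have hcf : uM κ (Units.map (j : F₀ →* F) c₀) = Units.map (j : F₀ →* F) c₀ := by
      apply Units.ext
      exact (S.hj _).mpr ⟨_, rfl⟩
    refine ⟨⟨d ^ 2 * Units.map (j : F₀ →* F) c₀, ?_⟩, Subtype.ext h3.symm⟩
    rw [memD S (by omega), map_mul, map_pow, hcf]
    have : d ^ 2 * Units.map (j : F₀ →* F) c₀ * (uM κ d ^ 2 * Units.map (j : F₀ →* F) c₀) =
      ((d * uM κ d) * Units.map (j : F₀ →* F) c₀) ^ 2 := by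
      simp only [pow_two]; ac_rfl
    rw [this, h1, one_pow]
  · rintro _ ⟨⟨u, hu⟩, rfl⟩
    obtain ⟨y, c₀, hy1, hy2⟩ := exists_y S ((memD S (by omega) u).mp hu)
    obtain ⟨P, hP⟩ := existsP_alt (by omega) e he c₀
    obtain ⟨g, hg⟩ := T1' S R hP hy1
    refine ⟨g, comm_of S hn R hg, Subtype.ext ?_⟩
    have h3 := det_rel hnm hg
    rw [detP_alt hm (by omega) e he hP, map_pow, ← mul_pow, ← hy2] at h3
    exact h3

/-- orthogonal type -/
theorem splitU_sym (S : SetU F F₀ q κ j) (h2 : (2 : F₀) ≠ 0) (hn : 3 ≤ n) (hm : 1 ≤ m) (hnm : n = 2 * m) (R : RelU κ j (A : GL (Fin n) F) A₀ h ε lam)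
    (hA₀ : trG A₀ = A₀) (neg : (H5.detGU n F q).range) (hneg : (neg : Fˣ) = -1) :
    splitClassCount (inndiagPSU n F q) (Inn (PSU n F q)) (gU κ A) =
      Nat.gcd n ((powMonoidHom m : (H5.detGU n F q).range →* (H5.detGU n F q).range).range ⊔ Subgroup.zpowers neg).index := by
  have hneg2 : neg * neg = 1 := Subtype.ext (by rw [Subgroup.coe_mul, hneg, neg_mul_neg, mul_one]; rfl)
  apply splitU S hn
  · intro g hg
    obtain ⟨c, hcN, h1⟩ := commU_det S hn hg
    have hcD := (memD S (n := n) (by omega) c).mpr hcN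
    have h3 : (Matrix.GeneralLinearGroup.det (g : GL (Fin n) F) * (c ^ m)⁻¹) ^ 2 = 1 := by
      rw [mul_pow, h1, inv_pow, ← pow_mul, hnm, mul_comm m 2, mul_inv_cancel]
    apply Subgroup.mem_sup_right
    have h5 : (⟨c, hcD⟩ : (H5.detGU n F q).range) ^ m ∈ (powMonoidHom m : (H5.detGU n F q).range →* (H5.detGU n F q).range).range := ⟨⟨c, hcD⟩, rfl⟩
    rcases unit_sq_one h3 with h4 | h4
    · rw [mul_inv_eq_one] at h4
      have h6 : (H5.detGU n F q).rangeRestrict g = (⟨c, hcD⟩ : (H5.detGU n F q).range) ^ m := Subtype.ext h4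
      rw [h6]
      exact Subgroup.mem_sup_left h5
    · rw [mul_inv_eq_iff_eq_mul] at h4
      have h6 : (H5.detGU n F q).rangeRestrict g = neg * (⟨c, hcD⟩ : (H5.detGU n F q).range) ^ m := Subtype.ext (by
        rw [Subgroup.coe_mul, hneg]
        exact h4)
      rw [h6]
      exact Subgroup.mul_mem _ (Subgroup.mem_sup_right (Subgroup.mem_zpowers _)) (Subgroup.mem_sup_left h5)
  · intro u hu
    obtain ⟨_, ⟨⟨c, hcD⟩, rfl⟩, w, hw, rfl⟩ := Subgroup.mem_sup.mp hu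
    have hw' : ∃ w₀ : F₀ˣ, (w₀ = 1 ∨ w₀ = -1) ∧ Units.map (j : F₀ →* F) w₀ = (w : Fˣ) := by
      obtain ⟨k, rfl⟩ := Subgroup.mem_zpowers_iff.mp hw
      rcases Int.even_or_odd' k with ⟨r, hk | hk⟩
      · refine ⟨1, Or.inl rfl, ?_⟩
        rw [map_one, hk, zpow_mul, zpow_two, hneg2, one_zpow]; rfl
      · refine ⟨-1, Or.inr rfl, ?_⟩
        rw [hk, zpow_add, zpow_mul, zpow_two, hneg2, one_zpow, one_mul, zpow_one, hneg]
        apply Units.ext
        change j ((-1 : F₀ˣ) : F₀) = _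
        rw [Units.val_neg, Units.val_one, map_neg, map_one, Units.val_neg, Units.val_one]
    obtain ⟨w₀, hw1, hw2⟩ := hw'
    obtain ⟨y, c₀, hy1, hy2⟩ := exists_y S ((memD S (by omega) c).mp hcD)
    obtain ⟨P, hP, hPd⟩ := existsP_sym h2 hm hnm hA₀ c₀ hw1
    obtain ⟨g, hg⟩ := T1' S R hP hy1
    refine ⟨g, comm_of S hn R hg, Subtype.ext ?_⟩
    have h3 := det_rel hnm hg
    rw [hPd, map_mul, map_pow, ← mul_assoc, ← mul_pow, ← hy2, hw2] at h3
    exact h3

end sn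

end Cfsg.Agent.H6
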