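import Cfsg.Agent.H6.StD
import Cfsg.Agent.H6.ChevInj

/-!
Embeddings of root data: `E₆`, `E₇` in `E₈`.
-/

set_option autoImplicit false
set_option linter.unusedSectionVars false
set_option maxHeartbeats 400000
set_option maxRecDepth 100000

namespace Cfsg.Agent.H6
open Cfsg.Lie
open scoped Matrix

structure Emb (D D' : ChevalleyDatum) (ι : ℕ → ℕ) : Prop where
  lt : ∀ r < D.nroots, ι r < D'.nroots
  inj : ∀ r < D.nroots, ∀ s < D.nroots, ι r = ι s → r = s
  neg : ∀ r < D.nroots, ι (D.neg r) = D'.neg (ι r)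
  simple : ∀ i < D.rank, ι (D.simple i) = D'.simple i
  rank : D.rank ≤ D'.rank
  chain : ∀ r < D.nroots, ∀ s < D.nroots, D'.chainEntry (ι r) (ι s) = (D.chainEntry r s).map (fun e => (ι e.1, e.2))

namespace Emb
variable {D D' : ChevalleyDatum} {ι : ℕ → ℕ} (hE : Emb D D' ι) (hS : Sem D)
include hE

theorem chainRoot {r s : ℕ} (hr : r < D.nroots) (hs : s < D.nroots) (i : ℕ) :
    D'.chainRoot (ι r) (ι s) i = (D.chainRoot r s i).map ι := by
  unfold ChevalleyDatum.chainRoot
  rw [hE.chain r hr s hs, List.getElem?_map, Option.map_map, Option.map_map]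
  rfl

theorem chainM {r s : ℕ} (hr : r < D.nroots) (hs : s < D.nroots) (i : ℕ) :
    D'.chainM (ι r) (ι s) i = D.chainM r s i := by
  unfold ChevalleyDatum.chainM
  rw [hE.chain r hr s hs, List.getElem?_map, Option.map_map]
  rfl

include hS

omit hE in
theorem chainRoot_lt {r s : ℕ} (hr : r < D.nroots) (hs : s < D.nroots) {i k : ℕ} (h : D.chainRoot r s i = some k) :
    k < D.nroots := by
  unfold ChevalleyDatum.chainRoot at h
  rw [Option.map_eq_some_iff] at h
  obtain ⟨e, he, rfl⟩ := h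
  exact hS.chain_lt r hr s hs e (List.mem_of_getElem? he)

theorem commTerms {r s : ℕ} (hr : r < D.nroots) (hs : s < D.nroots) :
    D'.commTerms (ι r) (ι s) = (D.commTerms r s).map (fun c => (ι c.1, c.2)) := by
  have e1 : ((D.chainRoot r s 3).map ι).bind (fun k => D'.chainRoot k (ι s) 1) =
      ((D.chainRoot r s 3).bind (fun k => D.chainRoot k s 1)).map ι := by
    cases h : D.chainRoot r s 3 with
    | none => rfl
    | some k => exact hE.chainRoot (chainRoot_lt hS hr hs h) hs 1
  have e2 : ((D.chainRoot s r 3).map ι).bind (fun k => D'.chainRoot k (ι r) 1) =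
      ((D.chainRoot s r 3).bind (fun k => D.chainRoot k r 1)).map ι := by
    cases h : D.chainRoot s r 3 with
    | none => rfl
    | some k => exact hE.chainRoot (chainRoot_lt hS hs hr h) hr 1
  have e3 : (((D.chainRoot r s 1).map ι).map fun k => D'.chainM k (ι r) 2 / 3) =
      (D.chainRoot r s 1).map fun k => D.chainM k r 2 / 3 := by
    cases h : D.chainRoot r s 1 with
    | none => rfl
    | some k => exact congrArg some (by dsimp only; rw [hE.chainM (chainRoot_lt hS hr hs h) hr 2])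
  have e4 : (((D.chainRoot r s 1).map ι).map fun k => -2 * D'.chainM k (ι s) 2 / 3) =
      (D.chainRoot r s 1).map fun k => -2 * D.chainM k s 2 / 3 := by
    cases h : D.chainRoot r s 1 with
    | none => rfl
    | some k => exact congrArg some (by dsimp only; rw [hE.chainM (chainRoot_lt hS hr hs h) hs 2])
  unfold ChevalleyDatum.commTerms
  dsimp only
  rw [hE.chainRoot hr hs, hE.chainRoot hr hs, hE.chainRoot hr hs, hE.chainRoot hs hr, hE.chainRoot hs hr,
    hE.chainM hr hs, hE.chainM hr hs, hE.chainM hr hs, hE.chainM hs hr, hE.chainM hs hr, e1, e2, e3, e4]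
  generalize (D.chainRoot r s 3).bind (fun k => D.chainRoot k s 1) = o1
  generalize (D.chainRoot s r 3).bind (fun k => D.chainRoot k r 1) = o2
  generalize Option.getD (Option.map (fun k => D.chainM k r 2 / 3) (D.chainRoot r s 1)) 0 = c1
  generalize Option.getD (Option.map (fun k => -2 * D.chainM k s 2 / 3) (D.chainRoot r s 1)) 0 = c2
  cases D.chainRoot r s 1 <;> cases D.chainRoot r s 2 <;> cases D.chainRoot s r 2 <;> cases D.chainRoot r s 3 <;>
    cases D.chainRoot s r 3 <;> cases o1 <;> cases o2 <;> rfl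

end Emb

section
variable {D D' : ChevalleyDatum} {ι : ℕ → ℕ} (hι : Emb D D' ι) {N N' : ℕ} {η η' : ℕ → ℕ → ℤ} {rc rc' : ℕ → ℕ → ℤ}
  (hG : Good D N η rc) (hG' : Good D' N' η' rc') (hE : Ext D rc) (hE' : Ext D' rc') {K : Type*} [Field K]
include hι hG hG' hE'

theorem Emb.rd : RD D (fun r t => if r < D.nroots then xg D' K (ι r) t else 1) where
  add r hr t u := by
    rw [if_pos hr, if_pos hr, if_pos hr]; exact hG'.xg_add _ _ _
  comm r hr s hs h1 h2 t u := by
    rw [if_pos hr, if_pos hs]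
    have h3 : ι s ≠ ι r := fun h => h1 (hι.inj s hs r hr h)
    have h4 : ι s ≠ D'.neg (ι r) := fun h => h2 (hι.inj s hs _ (hG.neg_lt' hr) (h.trans (hι.neg r hr).symm))
    rw [(hG'.rd (F := K) hE').comm (ι r) (hι.lt r hr) (ι s) (hι.lt s hs) h3 h4 t u]
    congr 1
    unfold xw ChevalleyDatum.commWord
    rw [hι.commTerms hG.toSem hr hs, List.map_map, List.map_map, List.map_map]
    congr 1
    apply List.map_congr_left
    intro c hc
    have := (hG.commTerms_spec hr hs c hc).1
    simp only [Function.comp]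
    rw [if_pos this]

theorem Emb.nX_eq {r : ℕ} (hr : r < D.nroots) (t : K) :
    nX D (fun r t => if r < D.nroots then xg D' K (ι r) t else 1) r t = nX D' (xg D' K) (ι r) t := by
  unfold nX
  dsimp only
  rw [if_pos hr, if_pos (hG.neg_lt' hr), hι.neg r hr]

theorem Emb.hX_eq {r : ℕ} (hr : r < D.nroots) (t : K) :
    hX D (fun r t => if r < D.nroots then xg D' K (ι r) t else 1) r t = hX D' (xg D' K) (ι r) t := by
  unfold hX
  rw [hι.nX_eq hG hG' hE' hr, hι.nX_eq hG hG' hE' hr]

include hE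
variable (hC : CWt D η) (hP : ∀ i < D.rank, PairOK D (D.simple i) ∧ PairOK D (D.neg (D.simple i)))
include hC hP

/-- the torus of the presented group is free when the datum embeds in one for which this is so -/
theorem Emb.Psi_inj (hinj : Function.Injective (PhiH D' K D'.rank)) {θ : D.SteinbergGroup K →* ↥(D.group K)}
    (hθ : ∀ r t, θ (D.stGen K r t) = Cfsg.Agent.H15.Chev.XX hG r t) :
    Function.Injective (Psi hG (rdn_st hG hE hC hP hθ)) := by
  let X' : ℕ → K → GL D'.Idx K := fun r t => if r < D.nroots then xg D' K (ι r) t else 1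
  let f : Fin D.nroots × K → GL D'.Idx K := fun p => X' p.1 p.2
  have hf : mX (FreeGroup.lift f) = X' := lift_stX f (fun r t => rfl) (fun r hr t => if_neg hr)
  have hX' : RD D X' := hι.rd hG hG' hE'
  have hm : ∀ r < D.nroots, ∀ c d : Kˣ, Cfsg.Agent.H6.hX D X' r (c : K) * Cfsg.Agent.H6.hX D X' r (d : K) =
      Cfsg.Agent.H6.hX D X' r ((c * d : Kˣ) : K) := by
    intro r hr c d
    rw [hι.hX_eq hG hG' hE' hr, hι.hX_eq hG hG' hE' hr, hι.hX_eq hG hG' hE' hr]
    exact hG'.hgr_mul (hι.lt r hr) c d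
  let m : D.SteinbergGroup K →* GL D'.Idx K := PresentedGroup.toGroup (lift_ABC hf hX' hm)
  have hmX : ∀ r t, m (mX (PresentedGroup.mk (D.steinbergRels K)) r t) = X' r t := fun r t => congrFun (congrFun hf r) t
  have hmh : ∀ r t, m (Cfsg.Agent.H6.hX D (mX (PresentedGroup.mk (D.steinbergRels K))) r t) = Cfsg.Agent.H6.hX D X' r t := by
    intro r t
    unfold Cfsg.Agent.H6.hX Cfsg.Agent.H6.nX
    simp only [map_mul, hmX]
  intro c d hcd
  have h1 : ∀ c : Fin D.rank → Kˣ, m (Psi hG (rdn_st hG hE hC hP hθ) c) =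
      PhiH D' K D'.rank (fun k => if h : (k : ℕ) < D.rank then c ⟨k, h⟩ else 1) := by
    intro c
    have h12 : PhiH D' K D'.rank (fun k => if h : (k : ℕ) < D.rank then c ⟨k, h⟩ else 1) =
        ((List.range D'.rank).map fun i => hgr D' K (D'.simple i) (((if h : i < D.rank then c ⟨i, h⟩ else 1 : Kˣ)) : K)).prod := by
      rw [← hG'.tor_eq_prod_hgr]
      change tor D' K _ = tor D' K _
      congr 1
      funext s
      rw [← Fin.prod_univ_eq_prod_range (fun k => (if hi : k < D.rank then c ⟨k, hi⟩ else 1 : Kˣ) ^ D'.cartan k s)]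
    rw [h12, Psi_apply, map_list_prod, List.map_map]
    have h13 : List.range D'.rank = List.range D.rank ++ (List.range' D.rank (D'.rank - D.rank)) := by
      have h15 := List.range'_append_1 (s := 0) (m := D.rank) (n := D'.rank - D.rank)
      rw [Nat.zero_add] at h15
      rw [List.range_eq_range', List.range_eq_range', h15]
      congr 1
      have := hι.rank
      omega
    rw [h13, List.map_append, List.prod_append]
    have h14 : ((List.range' D.rank (D'.rank - D.rank)).map fun i => hgr D' K (D'.simple i)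
        (((if h : i < D.rank then c ⟨i, h⟩ else 1 : Kˣ)) : K)).prod = 1 := by
      apply List.prod_eq_one
      intro x hx
      rw [List.mem_map] at hx
      obtain ⟨i, hi, rfl⟩ := hx
      rw [List.mem_range'_1] at hi
      rw [dif_neg (by omega)]
      have h1 := hG'.hgr_mul (F := K) (hG'.simple_lt i (by have := hι.rank; omega)) 1 1
      rw [mul_one] at h1
      exact mul_left_cancel (h1.trans (mul_one _).symm)
    rw [h14, mul_one, ← List.map_coe_finRange_eq_range, List.map_map]
    congr 1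
    apply List.map_congr_left
    intro i _
    simp only [Function.comp]
    rw [dif_pos i.2, hmh, hι.hX_eq hG hG' hE' (hG.simple_lt i i.2), hι.simple i i.2]
    rfl
  have h2 := h1 c
  rw [hcd, h1 d] at h2
  have h3 := hinj h2
  funext i
  have h4 := congrFun h3 ⟨i, lt_of_lt_of_le i.2 hι.rank⟩
  dsimp only at h4
  rw [dif_pos i.2, dif_pos i.2] at h4
  exact h4.symm

end

section
variable {D : ChevalleyDatum} {K : Type*} [Field K] {N : ℕ} {η : ℕ → ℕ → ℤ} {rc : ℕ → ℕ → ℤ} (hG : Good D N η rc)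
  (hE : Ext D rc) (hC : CWt D η) (hP : ∀ i < D.rank, PairOK D (D.simple i) ∧ PairOK D (D.neg (D.simple i)))
include hG hE hC hP

/-- the centre of the presented group as the kernel on the torus -/
theorem center_eq_map {θ : D.SteinbergGroup K →* ↥(D.group K)} (hθ : ∀ r t, θ (D.stGen K r t) = Cfsg.Agent.H15.Chev.XX hG r t) :
    Subgroup.center (D.SteinbergGroup K) = (PhiH D K D.rank).ker.map (Psi hG (rdn_st hG hE hC hP hθ)) := by
  have hAB : ∀ g ∈ D.steinbergRelsAB K, PresentedGroup.mk (D.steinbergRels K) g = 1 :=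
    fun g hg => PresentedGroup.one_of_mem (AB_le hg)
  have hO := ov_of hG (m := PresentedGroup.mk (D.steinbergRels K)) hAB hθ
  have hR := rdn_st hG hE hC hP hθ
  rw [← theta_ker hG hE hC hP hθ]
  ext g
  constructor
  · intro hg
    have h1 := theta_ker_le_HA hG hE hC hP hθ hg
    rw [← range_Psi hG hR] at h1
    obtain ⟨c, rfl⟩ := h1
    refine ⟨c, ?_, rfl⟩
    change PhiH D K D.rank c = 1
    rw [← hO.map_Psi hR hG c]
    change ((θ _ : ↥(D.group K)) : GL D.Idx K) = 1
    rw [MonoidHom.mem_ker.1 hg]; rfl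
  · rintro ⟨c, hc, rfl⟩
    replace hc : PhiH D K D.rank c = 1 := hc
    rw [← hO.map_Psi hR hG c] at hc
    rw [MonoidHom.mem_ker]
    exact Subtype.ext hc

theorem card_center_st {θ : D.SteinbergGroup K →* ↥(D.group K)} (hθ : ∀ r t, θ (D.stGen K r t) = Cfsg.Agent.H15.Chev.XX hG r t)
    (hinj : Function.Injective (Psi hG (rdn_st hG hE hC hP hθ))) :
    Nat.card (Subgroup.center (D.SteinbergGroup K)) = Nat.card (PhiH D K D.rank).ker := by
  rw [center_eq_map hG hE hC hP hθ]
  exact Nat.card_congr ((Subgroup.equivMapOfInjective _ _ hinj).symm).toEquiv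

theorem card_ker_PhiH [Fintype K] {q : ℕ} (hq : Fintype.card K = q) {m : ℕ}
    (h : m * Nat.card (D.diagonalSubgroup K) = (q - 1) ^ D.rank) : Nat.card (PhiH D K D.rank).ker = m := by
  classical
  have hF : Nat.card Kˣ = q - 1 := by rw [Nat.card_units, Nat.card_eq_fintype_card, hq]
  have h4 : Nat.card (Fin D.rank → Kˣ) = (q - 1) ^ D.rank := by
    rw [Nat.card_pi, hF, Finset.prod_const, Finset.card_univ, Fintype.card_fin]
  rw [← h4, ← Subgroup.card_mul_index (PhiH D K D.rank).ker, Subgroup.index_ker, hG.range_PhiH rfl] at h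
  refine (Nat.eq_of_mul_eq_mul_right ?_ h).symm
  haveI : Finite ↥(D.diagonalSubgroup K) := by
    rw [← hG.range_PhiH rfl]
    exact Set.finite_range _ |>.to_subtype
  exact Nat.card_pos

end

/-! ### tables -/

def ioF (IO r : ℕ) : ℕ := Nat.land (Nat.shiftRight IO (Nat.mul (nat_lit 8) r)) (nat_lit 255)

def chkEmb (n : ℕ) (G G' : List (List ℕ)) (IO : ℕ) : Bool :=
  allB n fun r => force (rowG G r) fun T => force (rowG G' (ioF IO r)) fun T' =>
    allB n fun s => force (fld (nat_lit 11) T s) fun f => force (fld (nat_lit 11) T' (ioF IO s)) fun f' =>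
      cond (Nat.beq (mkr f) (mkr f')) (cond (Nat.beq (mkr f) (nat_lit 0)) true
        (Nat.beq (ioF IO (Nat.land f (nat_lit 255))) (Nat.land f' (nat_lit 255)))) false

theorem decF_one_field {T s : ℕ} : decF 3 (fld 11 T s) = if mkr (fld 11 T s) = 0 then [] else
    [(Nat.land (fld 11 T s) 255, ((mkr (fld 11 T s) : ℕ) : ℤ) - 4)] := by
  have h1 : Nat.shiftRight (fld 11 T s) 11 = 0 := by
    change (T >>> (11 * s) &&& (2 ^ 11 - 1)) >>> 11 = 0
    rw [Nat.and_two_pow_sub_one_eq_mod, Nat.shiftRight_eq_div_pow]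
    exact Nat.div_eq_of_lt (Nat.mod_lt _ (by norm_num))
  rw [decF_succ, h1]
  have : decF 2 0 = [] := decF_zero (by rfl)
  rw [this]

theorem chkEmb_spec {n : ℕ} {G G' : List (List ℕ)} {IO : ℕ} (h : chkEmb n G G' IO = true) {r s : ℕ} (hr : r < n) (hs : s < n) :
    decF 3 (fld 11 (rowG G' (ioF IO r)) (ioF IO s)) = (decF 3 (fld 11 (rowG G r) s)).map (fun e => (ioF IO e.1, e.2)) := by
  unfold chkEmb at h
  have h1 := allB_spec h r hr
  rw [force_eq, force_eq] at h1
  have h2 := allB_spec h1 s hs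
  rw [force_eq, force_eq] at h2
  rw [decF_one_field, decF_one_field]
  cases h3 : Nat.beq (mkr (fld 11 (rowG G r) s)) (mkr (fld 11 (rowG G' (ioF IO r)) (ioF IO s))) with
  | false => rw [h3] at h2; exact absurd h2 (by simp)
  | true =>
    rw [h3, cond_true] at h2
    rw [← Nat.eq_of_beq_eq_true h3]
    by_cases h4 : mkr (fld 11 (rowG G r) s) = 0
    · rw [if_pos h4, if_pos h4]; rfl
    · rw [if_neg h4, if_neg h4]
      rw [bneg h4, cond_false] at h2
      rw [List.map_cons, List.map_nil, ← Nat.eq_of_beq_eq_true h2]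

def chkEmb2 (n n' l S S' IO : ℕ) : Bool :=
  allB n (fun r => Nat.ble (Nat.succ (ioF IO r)) n' && Nat.beq (ioF IO (Nat.sub (Nat.sub n 1) r)) (Nat.sub (Nat.sub n' 1) (ioF IO r))) &&
  (allB (Nat.sub n 1) (fun r => Nat.ble (Nat.succ (ioF IO r)) (ioF IO (Nat.succ r))) &&
  allB l fun i => Nat.beq (ioF IO (sP S i)) (sP S' i))

theorem emb_of_chk {D D' : ChevalleyDatum} {l n N S P E CA CO MO l' n' N' S' P' E' CA' CO' MO' : ℕ} {G G' : List (List ℕ)}
    (h : Chk D l n 11 N G S P E CA CO MO) (h' : Chk D' l' n' 11 N' G' S' P' E' CA' CO' MO') {IO : ℕ}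
    (hll : l ≤ l') (h1 : chkEmb n G G' IO = true) (h2 : chkEmb2 n n' l S S' IO = true) : Emb D D' (ioF IO) := by
  unfold chkEmb2 at h2
  rw [Bool.and_eq_true, Bool.and_eq_true] at h2
  obtain ⟨h3, h4, h5⟩ := h2
  have hlt : ∀ r < n, ioF IO r < n' := by
    intro r hr
    have := allB_spec h3 r hr
    rw [Bool.and_eq_true, Nat.ble_eq] at this
    exact this.1
  have hmono : ∀ r s, r < s → s < n → ioF IO r < ioF IO s := by
    intro r s hrs
    induction s with
    | zero => omega
    | succ s ih =>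
      intro hs
      have h6 := allB_spec h4 s (show s < n - 1 by omega)
      rw [Nat.ble_eq] at h6
      rcases Nat.lt_succ_iff_lt_or_eq.1 hrs with h7 | h7
      · have := ih h7 (by omega)
        change _ + 1 ≤ _ at h6
        change _ < ioF IO (s + 1)
        change _ + 1 ≤ ioF IO (s + 1) at h6
        omega
      · rw [h7]; exact h6
  refine ⟨?_, ?_, ?_, ?_, ?_, ?_⟩
  · intro r hr
    rw [h.nroots] at hr; rw [h'.nroots]
    exact hlt r hr
  · intro r hr s hs he
    rw [h.nroots] at hr hs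
    rcases lt_trichotomy r s with h6 | h6 | h6
    · have := hmono r s h6 hs; omega
    · exact h6
    · have := hmono s r h6 hr; omega
  · intro r hr
    rw [h.nroots] at hr
    rw [chkNeg_spec h.neg, chkNeg_spec h'.neg, ngF_lt hr, ngF_lt (hlt r hr)]
    have := allB_spec h3 r hr
    rw [Bool.and_eq_true] at this
    exact Nat.eq_of_beq_eq_true this.2
  · intro i hi
    rw [h.rank] at hi
    rw [chkSimple_spec h.simple, chkSimple_spec h'.simple, smF_lt hi, smF_lt (lt_of_lt_of_le hi hll)]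
    exact Nat.eq_of_beq_eq_true (allB_spec h5 i hi)
  · rw [h.rank, h'.rank]; exact hll
  · intro r hr s hs
    rw [h.nroots] at hr hs
    rw [(chkChain_spec h.chain).2, (chkChain_spec h'.chain).2, chE_of_lt hr hs, chE_of_lt (hlt r hr) (hlt s hs)]
    exact chkEmb_spec h1 hr hs

namespace TE6
def IO : ℕ := nat_lit 0xccc2bcb9b8b2afaeabaaa9a6a5a4a3a29c9998959493908f8e8d8a8988878483827f7e7b7471706d6c6b686766656261605f5c5b5a5756534d4c4b4a4946454441403d3736332d23
theorem emb_1 : chkEmb (nat_lit 72) G TE8.G IO = true := by decide +kernel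
theorem emb_2 : chkEmb2 (nat_lit 72) (nat_lit 240) (nat_lit 6) S TE8.S IO = true := by decide +kernel
theorem emb : Emb chevE6 chevE8 (ioF IO) := emb_of_chk chk TE8.chk (by norm_num) emb_1 emb_2
end TE6

namespace TE7
def IO : ℕ := nat_lit 0xe2dbd6d2cfcdccc8c5c3c2bfbdbcbab9b8b5b3b2b0afaeacabaaa9a7a6a5a4a3a29f9d9c9a99989695949391908f8e8d8b8a89888785848382807f7e7c7b7976747371706f6d6c6b6a68676665646261605f5e5c5b5a595756555352504d4c4b4a49484645444341403f3d3c3a3736353332302d2c2a272322201d19140d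
theorem emb_1 : chkEmb (nat_lit 126) G TE8.G IO = true := by decide +kernel
theorem emb_2 : chkEmb2 (nat_lit 126) (nat_lit 240) (nat_lit 7) S TE8.S IO = true := by decide +kernel
theorem emb : Emb chevE7 chevE8 (ioF IO) := emb_of_chk chk TE8.chk (by norm_num) emb_1 emb_2
end TE7

theorem card_center_E6 {K : Type*} [Field K] [Fintype K] {q : ℕ} (hq : Fintype.card K = q) :
    Nat.card (Subgroup.center (chevE6.SteinbergGroup K)) = Nat.gcd 3 (q - 1) := by
  obtain ⟨θ, hθ⟩ := exists_theta (K := K) TE6.good TE6.ext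
  rw [card_center_st TE6.good TE6.ext TE6.cw TE6.pairs hθ
    (TE6.emb.Psi_inj TE6.good TE8.good TE6.ext TE8.ext TE6.cw TE6.pairs PhiH_inj_E8 hθ)]
  refine card_ker_PhiH TE6.good TE6.ext TE6.cw TE6.pairs hq ?_
  have := TE6.card_diagonal hq
  have h2 : (∏ i, Nat.gcd (q - 1) (TE6.smd i)) = Nat.gcd 3 (q - 1) := by
    rw [Fin.prod_univ_six]
    simp [TE6.smd, Nat.gcd_comm]
  rw [h2] at this
  exact this

theorem card_center_E7 {K : Type*} [Field K] [Fintype K] {q : ℕ} (hq : Fintype.card K = q) :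
    Nat.card (Subgroup.center (chevE7.SteinbergGroup K)) = Nat.gcd 2 (q - 1) := by
  obtain ⟨θ, hθ⟩ := exists_theta (K := K) TE7.good TE7.ext
  rw [card_center_st TE7.good TE7.ext TE7.cw TE7.pairs hθ
    (TE7.emb.Psi_inj TE7.good TE8.good TE7.ext TE8.ext TE7.cw TE7.pairs PhiH_inj_E8 hθ)]
  refine card_ker_PhiH TE7.good TE7.ext TE7.cw TE7.pairs hq ?_
  have := TE7.card_diagonal hq
  have h2 : (∏ i, Nat.gcd (q - 1) (TE7.smd i)) = Nat.gcd 2 (q - 1) := by
    rw [Fin.prod_univ_seven]
    simp [TE7.smd, Nat.gcd_comm]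
  rw [h2] at this
  exact this

end Cfsg.Agent.H6
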