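import Cfsg.Agent.H6.StJ
import Cfsg.Agent.H6.StTab

/-!
Tables: pairing bounds, scaling and pair conditions.
-/

set_option autoImplicit false
set_option maxHeartbeats 400000
set_option maxRecDepth 100000

namespace Cfsg.Agent.H6
open Cfsg.Lie

namespace TG2
theorem pb_chk : chkPB (nat_lit 2) (nat_lit 12) S CA CO = true := by decide +kernel
theorem pb : PB chevG2 := pb_of_chk chk pb_chk
theorem sc : ∀ i < chevG2.rank, ScOK chevG2 (chevG2.simple i) ∨ SelfPair chevG2 (chevG2.simple i) := by
  intro i hi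
  match i, hi with
  | 0, _ => exact Or.inl ⟨6, by decide +kernel, Or.inr (by decide +kernel)⟩
  | 1, _ => exact Or.inl ⟨10, by decide +kernel, Or.inr (by decide +kernel)⟩
  | (k + 2), hk => exact absurd hk (by change ¬ (k + 2 < 2); omega)
end TG2

namespace TB2
theorem pb_chk : chkPB (nat_lit 2) (nat_lit 8) S CA CO = true := by decide +kernel
theorem pb : PB chevB2 := pb_of_chk chk pb_chk
theorem sc : ∀ i < chevB2.rank, ScOK chevB2 (chevB2.simple i) ∨ SelfPair chevB2 (chevB2.simple i) := by
  intro i hi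
  match i, hi with
  | 0, _ => exact Or.inl ⟨4, by decide +kernel, Or.inr (by decide +kernel)⟩
  | 1, _ => exact Or.inr (selfPair_of_chk (r := chevB2.simple 1) (a := 0) (b := 6) (k := 1) (by decide +kernel))
  | (k + 2), hk => exact absurd hk (by change ¬ (k + 2 < 2); omega)
end TB2

namespace TD4
theorem pb_chk : chkPB (nat_lit 4) (nat_lit 24) S CA CO = true := by decide +kernel
theorem pb : PB chevD4 := pb_of_chk chk pb_chk
theorem sc : ∀ i < chevD4.rank, ScOK chevD4 (chevD4.simple i) ∨ SelfPair chevD4 (chevD4.simple i) := by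
  intro i hi
  match i, hi with
  | 0, _ => exact Or.inl ⟨14, by decide +kernel, Or.inr (by decide +kernel)⟩
  | 1, _ => exact Or.inl ⟨12, by decide +kernel, Or.inr (by decide +kernel)⟩
  | 2, _ => exact Or.inl ⟨14, by decide +kernel, Or.inr (by decide +kernel)⟩
  | 3, _ => exact Or.inl ⟨14, by decide +kernel, Or.inr (by decide +kernel)⟩
  | (k + 4), hk => exact absurd hk (by change ¬ (k + 4 < 4); omega)
end TD4

namespace TF4
theorem pb_chk : chkPB (nat_lit 4) (nat_lit 48) S CA CO = true := by decide +kernel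
theorem pb : PB chevF4 := pb_of_chk chk pb_chk
theorem sc : ∀ i < chevF4.rank, ScOK chevF4 (chevF4.simple i) ∨ SelfPair chevF4 (chevF4.simple i) := by
  intro i hi
  match i, hi with
  | 0, _ => exact Or.inl ⟨27, by decide +kernel, Or.inr (by decide +kernel)⟩
  | 1, _ => exact Or.inl ⟨25, by decide +kernel, Or.inr (by decide +kernel)⟩
  | 2, _ => exact Or.inl ⟨24, by decide +kernel, Or.inr (by decide +kernel)⟩
  | 3, _ => exact Or.inl ⟨25, by decide +kernel, Or.inr (by decide +kernel)⟩
  | (k + 4), hk => exact absurd hk (by change ¬ (k + 4 < 4); omega)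
end TF4

namespace TE6
theorem pb_chk : chkPB (nat_lit 6) (nat_lit 72) S CA CO = true := by decide +kernel
theorem pb : PB chevE6 := pb_of_chk chk pb_chk
theorem sc : ∀ i < chevE6.rank, ScOK chevE6 (chevE6.simple i) ∨ SelfPair chevE6 (chevE6.simple i) := by
  intro i hi
  match i, hi with
  | 0, _ => exact Or.inl ⟨42, by decide +kernel, Or.inr (by decide +kernel)⟩
  | 1, _ => exact Or.inl ⟨39, by decide +kernel, Or.inr (by decide +kernel)⟩
  | 2, _ => exact Or.inl ⟨39, by decide +kernel, Or.inr (by decide +kernel)⟩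
  | 3, _ => exact Or.inl ⟨37, by decide +kernel, Or.inr (by decide +kernel)⟩
  | 4, _ => exact Or.inl ⟨36, by decide +kernel, Or.inr (by decide +kernel)⟩
  | 5, _ => exact Or.inl ⟨37, by decide +kernel, Or.inr (by decide +kernel)⟩
  | (k + 6), hk => exact absurd hk (by change ¬ (k + 6 < 6); omega)
end TE6

namespace TE7
theorem pb_chk : chkPB (nat_lit 7) (nat_lit 126) S CA CO = true := by decide +kernel
theorem pb : PB chevE7 := pb_of_chk chk pb_chk
theorem sc : ∀ i < chevE7.rank, ScOK chevE7 (chevE7.simple i) ∨ SelfPair chevE7 (chevE7.simple i) := by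
  intro i hi
  match i, hi with
  | 0, _ => exact Or.inl ⟨73, by decide +kernel, Or.inr (by decide +kernel)⟩
  | 1, _ => exact Or.inl ⟨69, by decide +kernel, Or.inr (by decide +kernel)⟩
  | 2, _ => exact Or.inl ⟨69, by decide +kernel, Or.inr (by decide +kernel)⟩
  | 3, _ => exact Or.inl ⟨66, by decide +kernel, Or.inr (by decide +kernel)⟩
  | 4, _ => exact Or.inl ⟨64, by decide +kernel, Or.inr (by decide +kernel)⟩
  | 5, _ => exact Or.inl ⟨63, by decide +kernel, Or.inr (by decide +kernel)⟩
  | 6, _ => exact Or.inl ⟨64, by decide +kernel, Or.inr (by decide +kernel)⟩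
  | (k + 7), hk => exact absurd hk (by change ¬ (k + 7 < 7); omega)
end TE7

namespace TE8
theorem pb_chk : chkPB (nat_lit 8) (nat_lit 240) S CA CO = true := by decide +kernel
theorem pb : PB chevE8 := pb_of_chk chk pb_chk
theorem sc : ∀ i < chevE8.rank, ScOK chevE8 (chevE8.simple i) ∨ SelfPair chevE8 (chevE8.simple i) := by
  intro i hi
  match i, hi with
  | 0, _ => exact Or.inl ⟨135, by decide +kernel, Or.inr (by decide +kernel)⟩
  | 1, _ => exact Or.inl ⟨130, by decide +kernel, Or.inr (by decide +kernel)⟩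
  | 2, _ => exact Or.inl ⟨130, by decide +kernel, Or.inr (by decide +kernel)⟩
  | 3, _ => exact Or.inl ⟨126, by decide +kernel, Or.inr (by decide +kernel)⟩
  | 4, _ => exact Or.inl ⟨123, by decide +kernel, Or.inr (by decide +kernel)⟩
  | 5, _ => exact Or.inl ⟨121, by decide +kernel, Or.inr (by decide +kernel)⟩
  | 6, _ => exact Or.inl ⟨120, by decide +kernel, Or.inr (by decide +kernel)⟩
  | 7, _ => exact Or.inl ⟨121, by decide +kernel, Or.inr (by decide +kernel)⟩
  | (k + 8), hk => exact absurd hk (by change ¬ (k + 8 < 8); omega)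
end TE8

end Cfsg.Agent.H6
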