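import Cfsg.Agent.H6.StKTab
import Cfsg.Agent.H6.ChevPerf

/-!
Perfectness of the presented groups; central extensions with kernel without `p`-torsion.
-/

set_option autoImplicit false
set_option linter.unusedSectionVars false
set_option maxHeartbeats 400000
set_option maxRecDepth 100000

namespace Cfsg.Agent.H6
open Cfsg.Lie Cfsg.Agent.H15.Chev
open scoped Matrix commutatorElement

/-! ### perfectness -/
section
variable {D : ChevalleyDatum} {N : ℕ} {η : ℕ → ℕ → ℤ} {rc : ℕ → ℕ → ℤ} {F : Type*} [Field F]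
  {A : Type*} [Group A] {X : ℕ → F → A}

theorem RD.commWord_mem (hR : RD D X) {r s : ℕ} (hr : r < D.nroots) (hs : s < D.nroots) (hrs : s ≠ r) (hneg : s ≠ D.neg r)
    (t u : F) : xw X (D.commWord F r s t u) ∈ commutator A := by
  have h3 := hR.comm r hr s hs hrs hneg t u
  have h4 : xw X (D.commWord F r s t u) = ⁅(X s u)⁻¹, (X r t)⁻¹⁆ := by
    rw [commutatorElement_def, inv_inv, inv_inv, mul_assoc _ (X s u), h3]
    group
  rw [h4]
  exact Subgroup.commutator_mem_commutator (Subgroup.mem_top _) (Subgroup.mem_top _)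

/-- a pure commutator -/
theorem RD.pure_mem (hR : RD D X) {r s k : ℕ} {c : ℤ} (hr : r < D.nroots) (hs : s < D.nroots) (hrs : s ≠ r) (hneg : s ≠ D.neg r)
    (hk : k < D.nroots) (hc : c = 1 ∨ c = -1) (hT : D.commTerms r s = [(k, c, 1, 1)]) (t u : F) :
    X k (t * u) ∈ commutator A := by
  have h3 := hR.commWord_mem hr hs hrs hneg t u
  unfold ChevalleyDatum.commWord xw at h3
  rw [hT] at h3
  simp only [List.map_cons, List.map_nil, List.prod_cons, List.prod_nil, mul_one, pow_one] at h3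
  rcases hc with rfl | rfl
  · have h4 := inv_mem h3
    rw [← hR.neg hk] at h4
    have : -(((1 : ℤ) : F) * -t * u) = t * u := by push_cast; ring
    rwa [this] at h4
  · have : (((-1 : ℤ) : F) * -t * u) = t * u := by push_cast; ring
    rwa [this] at h3

theorem RD.pure_of_chk (hR : RD D X) {k r s : ℕ} (hk : k < D.nroots) (h : chkPure D k r s = true) (t : F) : X k t ∈ commutator A := by
  unfold chkPure at h
  rw [Bool.and_eq_true, Bool.and_eq_true, Bool.and_eq_true, Bool.and_eq_true, decide_eq_true_eq, decide_eq_true_eq, Bool.or_eq_true,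
    beq_iff_eq, beq_iff_eq] at h
  obtain ⟨⟨⟨⟨h1, h2⟩, h3⟩, h4⟩, h5⟩ := h
  have h3' : s ≠ r := by
    intro he; rw [he, Nat.beq_refl] at h3; exact absurd h3 (by decide)
  have h4' : s ≠ D.neg r := by
    intro he; rw [he, Nat.beq_refl] at h4; exact absurd h4 (by decide)
  have h6 : ∃ c : ℤ, (c = 1 ∨ c = -1) ∧ D.commTerms r s = [(k, c, 1, 1)] := by
    rcases h5 with h5 | h5
    · exact ⟨1, Or.inl rfl, h5⟩
    · exact ⟨-1, Or.inr rfl, h5⟩
  obtain ⟨c, hc, hT⟩ := h6
  have := hR.pure_mem h1 h2 h3' h4' hk hc hT t 1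
  rwa [mul_one] at this

/-- a mixed commutator -/
theorem RD.mixed_mem (hRD : RD D X) {r s k₁ k₂ : ℕ} {c₁ c₂ : ℤ} {i j : ℕ} {R : List (ℕ × ℤ × ℕ × ℕ)}
    (hr : r < D.nroots) (hs : s < D.nroots) (hrs : s ≠ r) (hneg : s ≠ D.neg r) (hk₂ : k₂ < D.nroots)
    (hc₁ : c₁ = 1 ∨ c₁ = -1) (hc₂ : c₂ = 1 ∨ c₂ = -1) (hT : D.commTerms r s = (k₁, c₁, 1, 1) :: (k₂, c₂, i, j) :: R)
    (hij : (i = 1 ∧ j = 2) ∨ (i = 2 ∧ j = 1)) (hR : ∀ x ∈ R, ∀ t : F, X x.1 t ∈ commutator A)
    {a : F} (ha0 : a ≠ 0) (ha1 : a ≠ 1) : (∀ t : F, X k₁ t ∈ commutator A) ∧ ∀ t : F, X k₂ t ∈ commutator A := by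
  -- the product of the two factors
  have key : ∀ t u : F, X k₁ ((c₁ : F) * -t * u) * X k₂ ((c₂ : F) * (-t) ^ i * u ^ j) ∈ commutator A := by
    intro t u
    have h3 := hRD.commWord_mem hr hs hrs hneg t u
    unfold ChevalleyDatum.commWord xw at h3
    rw [hT] at h3
    simp only [List.map_cons, List.prod_cons, pow_one] at h3
    have h4 : ((R.map fun c => (c.1, (c.2.1 : F) * (-t) ^ c.2.2.1 * u ^ c.2.2.2)).map fun p => X p.1 p.2).prod ∈ commutator A := by
      apply Subgroup.list_prod_mem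
      intro x hx
      rw [List.mem_map] at hx
      obtain ⟨p, hp, rfl⟩ := hx
      rw [List.mem_map] at hp
      obtain ⟨c, hc, rfl⟩ := hp
      exact hR c hc _
    rw [← mul_assoc] at h3
    exact (Subgroup.mul_mem_cancel_right _ h4).1 h3
  have hsq : ∀ c : ℤ, c = 1 ∨ c = -1 → (c : F) * (c : F) = 1 := by
    rintro c (rfl | rfl) <;> simp
  -- difference
  have h2 : ∀ t u b : F, b ≠ 0 → X k₂ ((c₂ : F) * (-t) ^ i * u ^ j * (b ^ i * (b⁻¹) ^ j - 1)) ∈ commutator A := by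
    intro t u b hb
    have e1 := key t u
    have e2 := key (b * t) (b⁻¹ * u)
    have e3 : (c₁ : F) * -(b * t) * (b⁻¹ * u) = (c₁ : F) * -t * u := by field_simp
    rw [e3] at e2
    have e4 := mul_mem (inv_mem e1) e2
    rw [mul_inv_rev, mul_assoc, inv_mul_cancel_left, ← hRD.neg hk₂, ← hRD.add _ hk₂] at e4
    have e5 : -((c₂ : F) * (-t) ^ i * u ^ j) + (c₂ : F) * (-(b * t)) ^ i * (b⁻¹ * u) ^ j =
        (c₂ : F) * (-t) ^ i * u ^ j * (b ^ i * (b⁻¹) ^ j - 1) := by
      rw [mul_pow b⁻¹ u j, ← mul_neg b t, mul_pow b (-t) i]; ring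
    rwa [e5] at e4
  have h3 : ∀ t : F, X k₂ t ∈ commutator A := by
    intro v
    rcases hij with ⟨rfl, rfl⟩ | ⟨rfl, rfl⟩
    · -- use b = a⁻¹, t arbitrary, u = 1
      have e := h2 (-(c₂ * v * (a - 1)⁻¹)) 1 a⁻¹ (inv_ne_zero ha0)
      have e1 : (c₂ : F) * (-(-(c₂ * v * (a - 1)⁻¹))) ^ 1 * 1 ^ 2 * (a⁻¹ ^ 1 * (a⁻¹)⁻¹ ^ 2 - 1) = v := by
        have h5 : a - 1 ≠ 0 := sub_ne_zero.2 ha1
        have h6 : a⁻¹ ^ 1 * (a⁻¹)⁻¹ ^ 2 - 1 = a - 1 := by rw [inv_inv]; field_simp
        rw [h6, one_pow, mul_one, pow_one, neg_neg]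
        calc (c₂ : F) * (c₂ * v * (a - 1)⁻¹) * (a - 1) = ((c₂ : F) * c₂) * v * ((a - 1)⁻¹ * (a - 1)) := by ring
          _ = v := by rw [hsq c₂ hc₂, inv_mul_cancel₀ h5]; ring
      rwa [e1] at e
    · have e := h2 1 (c₂ * v * (a - 1)⁻¹) a ha0
      have e1 : (c₂ : F) * (-1) ^ 2 * (c₂ * v * (a - 1)⁻¹) ^ 1 * (a ^ 2 * a⁻¹ ^ 1 - 1) = v := by
        have h5 : a - 1 ≠ 0 := sub_ne_zero.2 ha1
        have h6 : a ^ 2 * a⁻¹ ^ 1 - 1 = a - 1 := by field_simp
        rw [h6, pow_one]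
        calc (c₂ : F) * (-1) ^ 2 * (c₂ * v * (a - 1)⁻¹) * (a - 1) = ((c₂ : F) * c₂) * v * ((a - 1)⁻¹ * (a - 1)) := by ring
          _ = v := by rw [hsq c₂ hc₂, inv_mul_cancel₀ h5]; ring
      rwa [e1] at e
  refine ⟨fun v => ?_, h3⟩
  have e := key (-(c₁ * v)) 1
  have e1 : (c₁ : F) * -(-(c₁ * v)) * 1 = v := by
    rw [neg_neg, mul_one, ← mul_assoc, hsq c₁ hc₁, one_mul]
  rw [e1] at e
  exact (Subgroup.mul_mem_cancel_right _ (h3 _)).1 e

/-- perfectness from the simple roots -/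
theorem RDC.perfect_of_simple (hR : RDC D η X) (hG : Good D N η rc) (hT : US X {r | r < D.nroots} = ⊤)
    (h : ∀ i < D.rank, ∀ t : F, X (D.simple i) t ∈ commutator A) : commutator A = ⊤ := by
  have key : ∀ r < D.nroots, ∀ t : F, X r t ∈ commutator A := by
    apply hG.root_induction (p := fun r => ∀ t : F, X r t ∈ commutator A) h
    intro i hi r hr ih t
    have hm := hR.mon_nX hG ⟨i, hi⟩ 1
    have h1 := hm.act ⟨r, hr⟩ ((((Good.etaU η F i r * (1 : Fˣ) ^ (-(D.cartan i r)))⁻¹ : Fˣ) : F) * t)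
    rw [← mul_assoc, Units.mul_inv, one_mul] at h1
    have h2 : ((((hG.s ⟨i, hi⟩ : hG.W).1 ⟨r, hr⟩ : Fin D.nroots)) : ℕ) = D.reflectRoot i r := rfl
    rw [h2] at h1
    rw [← h1]
    exact (inferInstance : (commutator A).Normal).conj_mem _ (ih _) _
  rw [eq_top_iff, ← hT, US_le]
  intro r hr t
  exact key r hr t

end

section
universe u v
variable {F : Type u} [Field F] {A : Type v} [Group A] {X : ℕ → F → A}

theorem TD4.sperf (hR : RDC chevD4 (etF TD4.E) X) (hT : US X {r | r < chevD4.nroots} = ⊤) : commutator A = ⊤ := by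
  have h : ∀ i < 4, chkPure chevD4 (chevD4.simple i) ([6, 1, 3, 2].getD i 0) ([22, 23, 22, 22].getD i 0) = true := by decide +kernel
  exact hR.perfect_of_simple TD4.good hT fun i hi t => hR.pure_of_chk (TD4.good.simple_lt i hi) (h i hi) t

theorem TF4.sperf (hR : RDC chevF4 (etF TF4.E) X) (hT : US X {r | r < chevF4.nroots} = ⊤) : commutator A = ⊤ := by
  have h : ∀ i < 4, chkPure chevF4 (chevF4.simple i) ([7, 8, 2, 1].getD i 0) ([44, 40, 46, 47].getD i 0) = true := by decide +kernel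
  exact hR.perfect_of_simple TF4.good hT fun i hi t => hR.pure_of_chk (TF4.good.simple_lt i hi) (h i hi) t

theorem TE6.sperf (hR : RDC chevE6 (etF TE6.E) X) (hT : US X {r | r < chevE6.nroots} = ⊤) : commutator A = ⊤ := by
  have h : ∀ i < 6, chkPure chevE6 (chevE6.simple i) ([16, 1, 5, 2, 3, 4].getD i 0) ([66, 71, 69, 70, 69, 68].getD i 0) = true := by decide +kernel
  exact hR.perfect_of_simple TE6.good hT fun i hi t => hR.pure_of_chk (TE6.good.simple_lt i hi) (h i hi) t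

theorem TE7.sperf (hR : RDC chevE7 (etF TE7.E) X) (hT : US X {r | r < chevE7.nroots} = ⊤) : commutator A = ⊤ := by
  have h : ∀ i < 7, chkPure chevE7 (chevE7.simple i) ([1, 7, 2, 3, 4, 5, 6].getD i 0) ([125, 122, 124, 123, 122, 121, 120].getD i 0) = true := by decide +kernel
  exact hR.perfect_of_simple TE7.good hT fun i hi t => hR.pure_of_chk (TE7.good.simple_lt i hi) (h i hi) t

theorem TE8.sperf (hR : RDC chevE8 (etF TE8.E) X) (hT : US X {r | r < chevE8.nroots} = ⊤) : commutator A = ⊤ := by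
  have h : ∀ i < 8, chkPure chevE8 (chevE8.simple i) ([14, 7, 6, 5, 4, 3, 2, 1].getD i 0) ([233, 234, 234, 235, 236, 237, 238, 239].getD i 0) = true := by decide +kernel
  exact hR.perfect_of_simple TE8.good hT fun i hi t => hR.pure_of_chk (TE8.good.simple_lt i hi) (h i hi) t

theorem TG2.sperf (hF : ∃ a : F, a ≠ 0 ∧ a ≠ 1) (hR : RDC chevG2 (etF TG2.E) X) (hT : US X {r | r < chevG2.nroots} = ⊤) : commutator A = ⊤ := by
  obtain ⟨a, ha0, ha1⟩ := hF
  have hc : ∀ k ∈ [(0, (1, 5)), (5, (0, 10)), (6, (1, 11))], chkPure chevG2 k.1 k.2.1 k.2.2 = true := by decide +kernel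
  have h0 : ∀ t : F, X 0 t ∈ commutator A := fun t => hR.pure_of_chk (by decide) (hc (0, (1, 5)) (by simp)) t
  have h5 : ∀ t : F, X 5 t ∈ commutator A := fun t => hR.pure_of_chk (by decide) (hc (5, (0, 10)) (by simp)) t
  have h6 : ∀ t : F, X 6 t ∈ commutator A := fun t => hR.pure_of_chk (by decide) (hc (6, (1, 11)) (by simp)) t
  have hT' : chevG2.commTerms 2 10 = (7, -1, 1, 1) :: (3, 1, 2, 1) :: [(0, 1, 3, 1), (5, 1, 3, 2)] := by decide +kernel
  have h7 := (hR.mixed_mem (r := 2) (s := 10) (by decide) (by decide) (by decide) (by decide +kernel) (by decide)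
    (Or.inr rfl) (Or.inl rfl) hT' (Or.inr ⟨rfl, rfl⟩) (by
      intro x hx t
      rw [List.mem_cons, List.mem_singleton] at hx
      rcases hx with rfl | rfl
      · exact h0 t
      · exact h5 t) ha0 ha1).1
  apply hR.perfect_of_simple TG2.good hT
  have hs : ∀ i < 2, chevG2.simple i = 7 ∨ chevG2.simple i = 6 := by decide +kernel
  intro i hi t
  rcases hs i hi with h | h <;> rw [h]
  · exact h7 t
  · exact h6 t

theorem TB2.sperf (hF : ∃ a : F, a ≠ 0 ∧ a ≠ 1) (hR : RDC chevB2 (etF TB2.E) X) (hT : US X {r | r < chevB2.nroots} = ⊤) : commutator A = ⊤ := by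
  obtain ⟨a, ha0, ha1⟩ := hF
  have hT1 : chevB2.commTerms 1 7 = (5, -1, 1, 1) :: (3, 1, 2, 1) :: [] := by decide +kernel
  have hT' : chevB2.commTerms 0 6 = (2, -1, 1, 1) :: (4, 1, 1, 2) :: [] := by decide +kernel
  have h5 := (hR.mixed_mem (r := 1) (s := 7) (by decide) (by decide) (by decide) (by decide +kernel) (by decide)
    (Or.inr rfl) (Or.inl rfl) hT1 (Or.inr ⟨rfl, rfl⟩) (by intro x hx; exact absurd hx List.not_mem_nil) ha0 ha1).1
  have h4 := (hR.mixed_mem (r := 0) (s := 6) (by decide) (by decide) (by decide) (by decide +kernel) (by decide)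
    (Or.inr rfl) (Or.inl rfl) hT' (Or.inl ⟨rfl, rfl⟩) (by intro x hx; exact absurd hx List.not_mem_nil) ha0 ha1).2
  apply hR.perfect_of_simple TB2.good hT
  have hs : ∀ i < 2, chevB2.simple i = 5 ∨ chevB2.simple i = 4 := by decide +kernel
  intro i hi t
  rcases hs i hi with h | h <;> rw [h]
  · exact h5 t
  · exact h4 t

end

/-! ### kernels without `p`-torsion -/
section
variable {E A : Type*} [Group E] [Group A] {π : E →* A}

theorem finite_commutator_of_central [Finite A] (hs : Function.Surjective π) (hc : π.ker ≤ Subgroup.center E) : Finite ↥(commutator E) := by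
  obtain ⟨σ, hσ⟩ := hs.hasRightInverse
  have h1 : commutatorSet E ⊆ Set.range (fun p : A × A => ⁅σ p.1, σ p.2⁆) := by
    rintro _ ⟨a, b, rfl⟩
    exact ⟨(π a, π b), comm_eq_of hc (hσ _) (hσ _)⟩
  have h2 : Finite (commutatorSet E) := ((Set.finite_range _).subset h1).to_subtype
  infer_instance

/-- lifts of order `p` -/
theorem exists_lift_ord [Finite A] (hs : Function.Surjective π) (hc : π.ker ≤ Subgroup.center E) (hperf : commutator A = ⊤)
    {p : ℕ} (hp : p.Prime) (hk : ∀ k : E, π k = 1 → k ^ p = 1 → k = 1) {x : A} (hx : x ^ p = 1) : ∃ y : E, π y = x ∧ y ^ p = 1 := by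
  haveI := finite_commutator_of_central hs hc
  have h1 : x ∈ (commutator E).map π := by
    rw [commutator_def, Subgroup.map_commutator, ← MonoidHom.range_eq_map, MonoidHom.range_eq_top.2 hs, ← commutator_def, hperf]
    exact Subgroup.mem_top x
  obtain ⟨y, hy, hyx⟩ := h1
  have hcm : y ^ p ∈ commutator E := pow_mem hy p
  have hck : π (y ^ p) = 1 := by rw [map_pow, hyx, hx]
  have hfin : IsOfFinOrder (y ^ p) := by
    have h2 := isOfFinOrder_of_finite (⟨y ^ p, hcm⟩ : ↥(commutator E))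
    exact (Submonoid.isOfFinOrder_coe (H := (commutator E).toSubmonoid) (x := ⟨y ^ p, hcm⟩)).2 h2
  set m := orderOf (y ^ p) with hm
  have hm0 : 0 < m := hfin.orderOf_pos
  have hcop : Nat.Coprime p m := by
    rw [hp.coprime_iff_not_dvd]
    rintro ⟨n, hn⟩
    have hn0 : 0 < n := by
      rcases Nat.eq_zero_or_pos n with h | h
      · rw [h, mul_zero] at hn; omega
      · exact h
    have h3 : ((y ^ p) ^ n) ^ p = 1 := by rw [← pow_mul, mul_comm n p, ← hn, hm, pow_orderOf_eq_one]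
    have h4 := hk _ (by rw [map_pow, hck, one_pow]) h3
    have h5 := Nat.le_of_dvd hn0 (orderOf_dvd_of_pow_eq_one h4)
    rw [← hm, hn] at h5
    have := hp.two_le
    nlinarith
  obtain ⟨k, hk1, hk2⟩ := Nat.chineseRemainder hcop 1 0
  refine ⟨y ^ k, ?_, ?_⟩
  · rw [map_pow, hyx]
    have h3 : x ^ k = x ^ 1 := by
      rw [pow_eq_pow_iff_modEq]
      exact Nat.ModEq.of_dvd (orderOf_dvd_of_pow_eq_one hx) hk1
    rw [h3, pow_one]
  · rw [← pow_mul, mul_comm, pow_mul]
    exact orderOf_dvd_iff_pow_eq_one.1 ((Nat.modEq_zero_iff_dvd).1 hk2)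

end

section
variable {D : ChevalleyDatum} {N : ℕ} {η : ℕ → ℕ → ℤ} {rc : ℕ → ℕ → ℤ} {F : Type*} [Field F]
  {A : Type*} [Group A] {X : ℕ → F → A} {φ : A →* GL D.Idx F} {E : Type*} [Group E] {π : E →* A}

theorem RD.pow (hRD : RD D X) {r : ℕ} (hr : r < D.nroots) (t : F) (n : ℕ) : X r t ^ n = X r ((n : F) * t) := by
  induction n with
  | zero => rw [pow_zero, Nat.cast_zero, zero_mul, hRD.zero hr]
  | succ n ih => rw [pow_succ, ih, ← hRD.add r hr, Nat.cast_succ]; congr 1; ring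

/-- the lifts of order `p` -/
theorem lf_ord (hG : Good D N η rc) [Finite A] (hs : Function.Surjective π) (hc : π.ker ≤ Subgroup.center E) (hperf : commutator A = ⊤)
    {p : ℕ} (hp : p.Prime) (hpF : (p : F) = 0) (hk : ∀ k : E, π k = 1 → k ^ p = 1 → k = 1) (hRD : RD D X)
    (hge : ∀ r, ¬ r < D.nroots → ∀ t, X r t = 1) : ∃ Y : ℕ → F → E, Lf hG X π Y := by
  have hXp : ∀ r t, X r t ^ p = 1 := by
    intro r t
    by_cases hr : r < D.nroots
    · rw [hRD.pow hr, hpF, zero_mul, hRD.zero hr]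
    · rw [hge r hr, one_pow]
  choose Y hY1 hY2 using fun (r : ℕ) (t : F) => exists_lift_ord hs hc hperf hp hk (hXp r t)
  have huniq : ∀ y y' : E, π y = π y' → y ^ p = 1 → y' ^ p = 1 → y = y' := by
    intro y y' h h1 h2
    obtain ⟨κ, hκ, rfl⟩ : ∃ κ, π κ = 1 ∧ y = y' * κ := ⟨y'⁻¹ * y, by rw [map_mul, map_inv, h, inv_mul_cancel], by group⟩
    have hcm : Commute y' κ := cen_comm hc hκ y'
    rw [hcm.mul_pow, h2, one_mul] at h1
    rw [hk κ hκ h1, mul_one]
  refine ⟨Y, hY1, ?_, ?_⟩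
  · intro e w χ hm r t
    apply huniq
    · rw [map_mul, map_mul, map_inv, hY1, hY1, hm.act]
    · rw [conj_pow, hY2, mul_one, mul_inv_cancel]
    · exact hY2 _ _
  · intro r hr t u
    have hcomm : Commute (Y r t) (Y r u) := by
      have h1 : Y r t * Y r u * (Y r t)⁻¹ = Y r u := by
        apply huniq
        · rw [map_mul, map_mul, map_inv, hY1, hY1, ← hRD.neg hr, ← hRD.add r hr, ← hRD.add r hr]
          congr 1; ring
        · rw [conj_pow, hY2, mul_one, mul_inv_cancel]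
        · exact hY2 _ _
      exact mul_inv_eq_iff_eq_mul.1 h1
    apply huniq
    · rw [map_mul, hY1, hY1, hY1, hRD.add r hr]
    · exact hY2 _ _
    · rw [hcomm.mul_pow, hY2, hY2, one_mul]

theorem lift_of_tf (hO : Ov D X φ) (hG : Good D N η rc) (hE : Ext D rc) (hC : CWt D η)
    (hP : ∀ i < D.rank, PairOK D (D.simple i) ∧ PairOK D (D.neg (D.simple i))) [Finite A] (hs : Function.Surjective π)
    (hc : π.ker ≤ Subgroup.center E) (hperf : commutator A = ⊤)
    {p : ℕ} (hp : p.Prime) (hpF : (p : F) = 0) (hk : ∀ k : E, π k = 1 → k ^ p = 1 → k = 1)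
    (hge : ∀ r, ¬ r < D.nroots → ∀ t, X r t = 1) :
    ∃ Y : ℕ → F → E, RD D Y ∧ ∀ r t, π (Y r t) = X r t := by
  have hR := hO.rdc hG hE hC hP
  obtain ⟨Y, hL⟩ := lf_ord hG hs hc hperf hp hpF hk hR.toRD hge
  exact ⟨Y, hL.rd hO hE hc hs (invTriv_of_tf hG hpF hk) hR hC, hL.map⟩

end

/-! ### finiteness -/
section
variable {D : ChevalleyDatum} {N : ℕ} {η : ℕ → ℕ → ℤ} {rc : ℕ → ℕ → ℤ} {K : Type*} [Field K]

theorem sc_finite (hG : Good D N η rc) (hE : Ext D rc) (hC : CWt D η)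
    (hP : ∀ i < D.rank, PairOK D (D.simple i) ∧ PairOK D (D.neg (D.simple i))) [Finite K] : Finite (D.SteinbergCover K) := by
  obtain ⟨θ, hθ⟩ := exists_theta' (K := K) hG hE
  have hO := sc_ov hG hθ
  have hR := sc_rdc hG hE hC hP hθ
  have hRN := hO.rdn_of_finite hR hG hE US_sX
  have h1 : Finite ↥(HA D (sX D K)) := by
    rw [← range_Psi hG hRN]
    exact (Set.finite_range _).to_subtype
  have h2 : Finite θ.ker := by
    have h3 : (θ.ker : Set (D.SteinbergCover K)) ⊆ (HA D (sX D K) : Set (D.SteinbergCover K)) := by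
      intro g hg
      apply hO.ker_HA' hR hG hE US_sX
      change ((θ g : ↥(D.group K)) : GL D.Idx K) = 1
      rw [MonoidHom.mem_ker.1 hg]; rfl
    exact (Set.Finite.subset (Set.toFinite _) h3).to_subtype
  have h3 : Finite ↥(D.group K) := inferInstance
  have h4 : Finite (D.SteinbergCover K ⧸ θ.ker) := Finite.of_injective _ (QuotientGroup.kerLift_injective θ)
  exact Finite.of_equiv _ (Subgroup.groupEquivQuotientProdSubgroup (s := θ.ker)).symm

end
end Cfsg.Agent.H6
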