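import Cfsg.Agent.H6.StL

/-!
Lifting projective representations in the natural characteristic.
-/

set_option autoImplicit false
set_option linter.unusedSectionVars false
set_option maxHeartbeats 400000

namespace Cfsg.Agent.H6
open Cfsg.Lie Cfsg.Agent.H15.Chev
open scoped Matrix commutatorElement

theorem center_gl_tf {L : Type*} [Field L] {n p : ℕ} (hp : p.Prime) (hpL : (p : L) = 0) {z : GL (Fin n) L}
    (hz : z ∈ Subgroup.center (GL (Fin n) L)) (h : z ^ p = 1) : z = 1 := by
  rw [Matrix.GeneralLinearGroup.center_eq_range_scalar] at hz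
  obtain ⟨u, rfl⟩ := hz
  rcases Nat.eq_zero_or_pos n with rfl | hn
  · apply Units.ext
    ext i
    exact i.elim0
  · haveI : Nonempty (Fin n) := ⟨⟨0, hn⟩⟩
    haveI : Fact p.Prime := ⟨hp⟩
    haveI : CharP L p := by
      rcases (Nat.dvd_prime hp).1 (ringChar.dvd hpL) with h1 | h1
      · exact absurd h1 CharP.ringChar_ne_one
      · rw [← h1]; exact ringChar.charP L
    have h1 : u = 1 := by
      rw [← map_pow] at h
      obtain ⟨v, hv⟩ : ∃ v, v = u ^ p := ⟨_, rfl⟩
      rw [← hv] at h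
      have h2 := congrArg (fun g : GL (Fin n) L => (g : Matrix (Fin n) (Fin n) L) ⟨0, hn⟩ ⟨0, hn⟩) h
      simp at h2
      rw [hv] at h2
      replace h2 : (u : L) ^ p = 1 := by rw [← Units.val_pow_eq_pow_val, h2, Units.val_one]
      apply Units.ext
      have h3 : ((u : L) - 1) ^ p = 0 := by rw [sub_pow_char, h2, one_pow, sub_self]
      rw [Units.val_one]
      exact sub_eq_zero.1 (pow_eq_zero_iff (hp.ne_zero) |>.1 h3)
    rw [h1, map_one]

theorem finite_of_not_big {K : Type*} [Field K] (h : ¬ ∃ s : Finset K, 4 < s.card) : Finite K := by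
  by_contra hf
  rw [not_finite_iff_infinite] at hf
  obtain ⟨s, hs⟩ := Infinite.exists_subset_card_eq K 5
  exact h ⟨s, by omega⟩

section
variable {D : ChevalleyDatum} {N : ℕ} {η : ℕ → ℕ → ℤ} {rc : ℕ → ℕ → ℤ} {K : Type*} [Field K]

theorem proj_lift (hG : Good D N η rc) (hE : Ext D rc) (hC : CWt D η)
    (hP : ∀ i < D.rank, PairOK D (D.simple i) ∧ PairOK D (D.neg (D.simple i)))
    (hPB : PB D) (hSc : ∀ i < D.rank, ScOK D (D.simple i) ∨ SelfPair D (D.simple i))
    (hperf : RDC D η (sX D K) → US (sX D K) {r | r < D.nroots} = ⊤ → commutator (D.SteinbergCover K) = ⊤)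
    {L : Type*} [Field L] (hL : ringChar L = ringChar K) {n : ℕ} {G₁ : Type*} [Group G₁]
    (π₁ : GL (Fin n) L →* G₁) (hπ : Function.Surjective π₁) (hc : π₁.ker = Subgroup.center (GL (Fin n) L)) (σ : D.SteinbergCover K →* G₁) :
    ∃! ψ : D.SteinbergCover K →* GL (Fin n) L, π₁.comp ψ = σ := by
  by_cases hK : ∃ s : Finset K, 4 < s.card
  · exact sc_univ_big hG hE hC hP hPB hSc hK π₁ hπ hc.le σ
  haveI := finite_of_not_big hK
  haveI := sc_finite hG hE hC hP (K := K)
  obtain ⟨θ, hθ⟩ := exists_theta' (K := K) hG hE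
  have hO := sc_ov hG hθ
  have hR := sc_rdc hG hE hC hP hθ
  have hpf := hperf hR US_sX
  have hp : (ringChar K).Prime := by
    haveI : CharP K (ringChar K) := ringChar.charP K
    rcases CharP.char_is_prime_or_zero K (ringChar K) with h | h
    · exact h
    · exact absurd h (CharP.ringChar_ne_zero_of_finite K)
  have hpK : ((ringChar K : ℕ) : K) = 0 := ringChar.Nat.cast_ringChar
  have hpL : ((ringChar K : ℕ) : L) = 0 := by rw [← hL]; exact ringChar.Nat.cast_ringChar
  refine univ_of_lift hG π₁ hπ hc.le σ ?_ hpf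
  intro E' π h1 h2 h3
  refine lift_of_tf hO hG hE hC hP h1 h2 hpf hp hpK ?_ sX_of_ge
  intro k hk hkp
  obtain ⟨h4, h5⟩ := h3 k hk
  apply Subtype.ext
  apply Prod.ext h4
  have h6 : (k : D.SteinbergCover K × GL (Fin n) L).2 ∈ Subgroup.center (GL (Fin n) L) := by
    rw [← hc]; exact MonoidHom.mem_ker.2 h5
  exact center_gl_tf hp hpL h6 (congrArg Prod.snd (congrArg Subtype.val hkp))

end
end Cfsg.Agent.H6
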