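import Cfsg.Agent.H6.StN

/-!
Simply laced types: lifting (R1), (R2) to central extensions over arbitrary fields by commutators.
-/

set_option autoImplicit false
set_option linter.unusedSectionVars false
set_option maxHeartbeats 400000

namespace Cfsg.Agent.H6
open Cfsg.Lie Cfsg.Agent.H15.Chev
open scoped Matrix commutatorElement

/-! ### combinatorics -/
section
variable (D : ChevalleyDatum)

/-- commuting pairs of roots -/
def OpR (r s : ℕ) : Prop := s ≠ D.neg r ∧ D.chainRoot r s 1 = none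

def RelR (a b a' b' : ℕ) : Prop := ∃ d < D.nroots, D.chainRoot a' d 1 = some a ∧ D.chainRoot d b 1 = some b' ∧ OpR D a' b ∧ OpR D a b'

def SplR (r : ℕ) : Prop := ∀ s < D.nroots, OpR D r s → ∃ a < D.nroots, ∃ b < D.nroots, D.chainRoot a b 1 = some s ∧ OpR D r a ∧ OpR D r b

def IndR (k : ℕ) : Prop := ∀ a < D.nroots, ∀ b < D.nroots, D.chainRoot a b 1 = some k →
   OpR D a k ∧ OpR D b k ∧ (∃ a' < D.nroots, ∃ b' < D.nroots, D.chainRoot a' b' 1 = some k ∧ a' ≠ a ∧ a' ≠ b) ∧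
   ∀ a' < D.nroots, ∀ b' < D.nroots, D.chainRoot a' b' 1 = some k →
    (a' = a ∧ b' = b) ∨ (a' = b ∧ b' = a) ∨ RelR D a b a' b' ∨ RelR D a b b' a'

/-- simply laced chains -/
structure SLC : Prop where
  one : ∀ r < D.nroots, ∀ s < D.nroots, ∀ k, D.chainRoot r s 1 = some k →
    s ≠ r ∧ s ≠ D.neg r ∧ ∃ c : ℤ, (c = 1 ∨ c = -1) ∧ D.commTerms r s = [(k, c, 1, 1)]
  non : ∀ r < D.nroots, ∀ s < D.nroots, D.chainRoot r s 1 = none → D.commTerms r s = []
  dec : ∀ k < D.nroots, ∃ a < D.nroots, ∃ b < D.nroots, D.chainRoot a b 1 = some k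
  ind : ∀ k < D.nroots, IndR D k

end

section
variable {D : ChevalleyDatum} {N : ℕ} {η : ℕ → ℕ → ℤ} {rc : ℕ → ℕ → ℤ} (hG : Good D N η rc)
include hG

theorem cr_w {i r s k : ℕ} (hi : i < D.rank) (hr : r < D.nroots) (hs : s < D.nroots) (h : D.chainRoot r s 1 = some k) :
    D.chainRoot (D.reflectRoot i r) (D.reflectRoot i s) 1 = some (D.reflectRoot i k) := by
  rw [hG.chainRoot_w hi hr hs, h]; rfl

theorem cr_lt {r s k : ℕ} (hr : r < D.nroots) (hs : s < D.nroots) (h : D.chainRoot r s 1 = some k) : k < D.nroots :=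
  (hG.chainRoot_spec hr hs (by norm_num) h).1

theorem OpR.w {i r s : ℕ} (hi : i < D.rank) (hr : r < D.nroots) (hs : s < D.nroots) (h : OpR D r s) :
    OpR D (D.reflectRoot i r) (D.reflectRoot i s) := by
  refine ⟨?_, ?_⟩
  · rw [← hG.w_neg i hi r hr]
    intro h1
    exact h.1 ((hG.w_eq_iff hi hs (hG.neg_lt' hr)).1 h1)
  · rw [hG.chainRoot_w hi hr hs, h.2]; rfl

theorem RelR.w {i a b a' b' : ℕ} (hi : i < D.rank) (ha : a < D.nroots) (hb : b < D.nroots) (ha' : a' < D.nroots) (hb' : b' < D.nroots)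
    (h : RelR D a b a' b') : RelR D (D.reflectRoot i a) (D.reflectRoot i b) (D.reflectRoot i a') (D.reflectRoot i b') := by
  obtain ⟨d, hd, h1, h2, h3, h4⟩ := h
  exact ⟨_, hG.w_lt i hi d hd, cr_w hG hi ha' hd h1, cr_w hG hi hd hb h2, h3.w hG hi ha' hb, h4.w hG hi ha hb'⟩

theorem cr_w_inv {i a b k : ℕ} (hi : i < D.rank) (ha : a < D.nroots) (hb : b < D.nroots)
    (h : D.chainRoot a b 1 = some (D.reflectRoot i k)) (hk : k < D.nroots) :
    D.chainRoot (D.reflectRoot i a) (D.reflectRoot i b) 1 = some k := by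
  have := cr_w hG hi ha hb h
  rwa [hG.w_w i hi k hk] at this

theorem SplR.w {i r : ℕ} (hi : i < D.rank) (hr : r < D.nroots) (h : SplR D r) : SplR D (D.reflectRoot i r) := by
  intro s hs h1
  have h2 := h1.w hG hi (hG.w_lt i hi r hr) hs
  rw [hG.w_w i hi r hr] at h2
  obtain ⟨a, ha, b, hb, h3, h4, h5⟩ := h _ (hG.w_lt i hi s hs) h2
  refine ⟨_, hG.w_lt i hi a ha, _, hG.w_lt i hi b hb, ?_, h4.w hG hi hr ha, h5.w hG hi hr hb⟩
  have := cr_w hG hi ha hb h3
  rwa [hG.w_w i hi s hs] at this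

theorem IndR.w {i k : ℕ} (hi : i < D.rank) (hk : k < D.nroots) (h : IndR D k) : IndR D (D.reflectRoot i k) := by
  have hw : ∀ {x}, x < D.nroots → D.reflectRoot i (D.reflectRoot i x) = x := fun {x} hx => hG.w_w i hi x hx
  have hl : ∀ {x}, x < D.nroots → D.reflectRoot i x < D.nroots := fun {x} hx => hG.w_lt i hi x hx
  intro a ha b hb hab
  obtain ⟨h1, h2, ⟨a₁, ha₁, b₁, hb₁, h3, h4, h5⟩, h6⟩ := h _ (hl ha) _ (hl hb) (cr_w_inv hG hi ha hb hab hk)
  refine ⟨?_, ?_, ⟨_, hl ha₁, _, hl hb₁, cr_w hG hi ha₁ hb₁ h3, ?_, ?_⟩, ?_⟩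
  · have := h1.w hG hi (hl ha) hk
    rwa [hw ha] at this
  · have := h2.w hG hi (hl hb) hk
    rwa [hw hb] at this
  · intro he; apply h4; rw [← he, hw ha₁]
  · intro he; apply h5; rw [← he, hw ha₁]
  · intro a' ha' b' hb' hab'
    have h7 := h6 _ (hl ha') _ (hl hb') (cr_w_inv hG hi ha' hb' hab' hk)
    have inj : ∀ {x y}, x < D.nroots → y < D.nroots → D.reflectRoot i x = D.reflectRoot i y → x = y := by
      intro x y hx hy hxy
      rw [← hw hx, hxy, hw hy]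
    rcases h7 with ⟨h8, h9⟩ | ⟨h8, h9⟩ | h8 | h8
    · exact Or.inl ⟨inj ha' ha h8, inj hb' hb h9⟩
    · exact Or.inr (Or.inl ⟨inj ha' hb h8, inj hb' ha h9⟩)
    · right; right; left
      have := h8.w hG hi (hl ha) (hl hb) (hl ha') (hl hb')
      rwa [hw ha, hw hb, hw ha', hw hb'] at this
    · right; right; right
      have := h8.w hG hi (hl ha) (hl hb) (hl hb') (hl ha')
      rwa [hw ha, hw hb, hw ha', hw hb'] at this

end

/-! ### commutators -/
section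
variable {E : Type*} [Group E]

/-- a case of the Hall–Witt identity -/
theorem hall_witt' {x y z : E} (hxz : x * z = z * x) (h1 : ⁅x, y⁆ * ⁅y, z⁆ = ⁅y, z⁆ * ⁅x, y⁆)
    (h2 : ⁅y, z⁆ * ⁅⁅x, y⁆, z⁆ = ⁅⁅x, y⁆, z⁆ * ⁅y, z⁆) : ⁅x, ⁅y, z⁆⁆ = ⁅⁅x, y⁆, z⁆ := by
  have e1 : x * ⁅y, z⁆ * x⁻¹ = ⁅x, y⁆ * ⁅y, z⁆ * ⁅x, y⁆⁻¹ * ⁅⁅x, y⁆, z⁆ := by
    have h3 : x⁻¹ * z = z * x⁻¹ := by
      calc x⁻¹ * z = x⁻¹ * (z * x) * x⁻¹ := by group
        _ = _ := by rw [← hxz]; group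
    have h4 : ⁅x, y⁆ * ⁅y, z⁆ * ⁅x, y⁆⁻¹ * ⁅⁅x, y⁆, z⁆ = (⁅x, y⁆ * y) * z * (⁅x, y⁆ * y)⁻¹ * z⁻¹ := by
      simp only [commutatorElement_def]; group
    have h5 : ⁅x, y⁆ * y = x * y * x⁻¹ := by rw [commutatorElement_def]; group
    rw [h4, h5, commutatorElement_def]
    calc x * (y * z * y⁻¹ * z⁻¹) * x⁻¹ = x * y * z * y⁻¹ * (z⁻¹ * x⁻¹) := by group
      _ = x * y * z * y⁻¹ * (x⁻¹ * z⁻¹) := by rw [← mul_inv_rev, hxz, mul_inv_rev]
      _ = x * y * (z * x⁻¹) * x * y⁻¹ * x⁻¹ * z⁻¹ := by group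
      _ = x * y * (x⁻¹ * z) * x * y⁻¹ * x⁻¹ * z⁻¹ := by rw [h3]
      _ = _ := by group
  have e2 : ⁅x, ⁅y, z⁆⁆ = x * ⁅y, z⁆ * x⁻¹ * ⁅y, z⁆⁻¹ := by rw [commutatorElement_def]
  rw [e2, e1, h1]
  calc ⁅y, z⁆ * ⁅x, y⁆ * ⁅x, y⁆⁻¹ * ⁅⁅x, y⁆, z⁆ * ⁅y, z⁆⁻¹ = ⁅y, z⁆ * ⁅⁅x, y⁆, z⁆ * ⁅y, z⁆⁻¹ := by group
    _ = _ := by rw [h2]; group

end

section
variable {D : ChevalleyDatum} {N : ℕ} {η : ℕ → ℕ → ℤ} {rc : ℕ → ℕ → ℤ} {F : Type*} [Field F]
  {A : Type*} [Group A] {X : ℕ → F → A} {φ : A →* GL D.Idx F} {E : Type*} [Group E] {π : E →* A}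

theorem SLC.val (hSL : SLC D) (hR : RD D X) {a b k : ℕ} (ha : a < D.nroots) (hb : b < D.nroots) (hk : k < D.nroots) (h : D.chainRoot a b 1 = some k) :
    ∃ c : ℤ, (c = 1 ∨ c = -1) ∧ ∀ t u : F, ⁅X a t, X b u⁆ = X k ((c : F) * (t * u)) := by
  obtain ⟨h1, h2, c, hc, hT⟩ := hSL.one a ha b hb k h
  refine ⟨c, hc, fun t u => ?_⟩
  have h3 := hR.comm a ha b hb h1 h2 (-t) (-u)
  unfold ChevalleyDatum.commWord xw at h3
  rw [hT] at h3
  simp only [List.map_cons, List.map_nil, List.prod_cons, List.prod_nil, mul_one, pow_one, neg_neg] at h3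
  rw [hR.neg ha, hR.neg hb] at h3
  have h4 : X k ((c : F) * t * -u) = (⁅X a t, X b u⁆)⁻¹ := by
    have h5 : X k ((c : F) * t * -u) = ((X a t)⁻¹ * (X b u)⁻¹)⁻¹ * ((X b u)⁻¹ * (X a t)⁻¹) := by rw [h3]; group
    rw [h5, commutatorElement_def]; group
  have h5 : ⁅X a t, X b u⁆ = (X k ((c : F) * t * -u))⁻¹ := by rw [h4, inv_inv]
  rw [h5, ← hR.neg hk]
  congr 1; ring

theorem SLC.comm (hSL : SLC D) (hR : RD D X) {a b : ℕ} (ha : a < D.nroots) (hb : b < D.nroots) (h : OpR D a b) (t u : F) :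
    X a t * X b u = X b u * X a t := by
  by_cases hab : b = a
  · rw [hab, ← hR.add a ha, ← hR.add a ha, add_comm]
  · have h3 := hR.comm a ha b hb hab h.1 t u
    unfold ChevalleyDatum.commWord xw at h3
    rw [hSL.non a ha b hb h.2] at h3
    simp only [List.map_nil, List.prod_nil, mul_one] at h3
    exact h3.symm

/-- commutators of lifts -/
def Cc (X : ℕ → F → A) (σ : A → E) (a b : ℕ) (t u : F) : E := ⁅σ (X a t), σ (X b u)⁆

variable {σ : A → E} (hσ : ∀ a, π (σ a) = a) (hc : π.ker ≤ Subgroup.center E) (hSL : SLC D) (hR : RD D X)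
include hσ

theorem Cc_map (a b : ℕ) (t u : F) : π (Cc X σ a b t u) = ⁅X a t, X b u⁆ := by
  unfold Cc; rw [map_commutatorElement, hσ, hσ]

include hc

theorem Cc_of {a b : ℕ} {t u : F} {x y : E} (hx : π x = X a t) (hy : π y = X b u) : ⁅x, y⁆ = Cc X σ a b t u :=
  comm_eq_of hc (by rw [hx, hσ]) (by rw [hy, hσ])

include hSL hR

theorem Cc_add1 {a b k : ℕ} (ha : a < D.nroots) (hb : b < D.nroots) (hk : k < D.nroots) (h : D.chainRoot a b 1 = some k)
    (h1 : Cm X π a k) (h2 : Cm X π k k) (t t' u : F) : Cc X σ a b (t + t') u = Cc X σ a b t u * Cc X σ a b t' u := by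
  obtain ⟨c, _, hv⟩ := hSL.val hR ha hb hk h
  have e0 : Cc X σ a b (t + t') u = ⁅σ (X a t) * σ (X a t'), σ (X b u)⁆ :=
    (Cc_of hσ hc (by rw [map_mul, hσ, hσ, hR.add a ha]) (hσ _)).symm
  have e1 : ⁅σ (X a t) * σ (X a t'), σ (X b u)⁆ = (σ (X a t) * Cc X σ a b t' u * (σ (X a t))⁻¹) * Cc X σ a b t u := by
    unfold Cc; simp only [commutatorElement_def]; group
  have e2 : σ (X a t) * Cc X σ a b t' u = Cc X σ a b t' u * σ (X a t) :=
    h1 _ _ _ _ (hσ _) (by rw [Cc_map hσ, hv])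
  have e3 : Cc X σ a b t' u * Cc X σ a b t u = Cc X σ a b t u * Cc X σ a b t' u :=
    h2 _ _ _ _ (by rw [Cc_map hσ, hv]) (by rw [Cc_map hσ, hv])
  rw [e0, e1, e2, mul_inv_cancel_right, e3]

omit hSL hR in
theorem Cc_symm (a b : ℕ) (t u : F) : Cc X σ b a u t = (Cc X σ a b t u)⁻¹ := by
  unfold Cc; rw [commutatorElement_inv]

theorem Cc_neg1 {a b k : ℕ} (ha : a < D.nroots) (hb : b < D.nroots) (hk : k < D.nroots) (h : D.chainRoot a b 1 = some k)
    (h1 : Cm X π a k) (h2 : Cm X π k k) (t u : F) : Cc X σ a b (-t) u = (Cc X σ a b t u)⁻¹ := by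
  have h0 := Cc_add1 hσ hc hSL hR ha hb hk h h1 h2 0 0 u
  rw [add_zero] at h0
  have h0' : Cc X σ a b 0 u = 1 := mul_eq_left.1 h0.symm
  rw [eq_inv_iff_mul_eq_one, ← Cc_add1 hσ hc hSL hR ha hb hk h h1 h2, neg_add_cancel, h0']

/-- the basic relation between two decompositions -/
theorem Cc_rel (hCm : ∀ r < D.nroots, ∀ s < D.nroots, OpR D r s → Cm X π r s) {a b a' b' d k : ℕ}
    (ha : a < D.nroots) (hb : b < D.nroots) (ha' : a' < D.nroots) (hb' : b' < D.nroots) (hd : d < D.nroots) (hk : k < D.nroots)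
    (h : D.chainRoot a b 1 = some k) (h1 : D.chainRoot a' d 1 = some a) (h2 : D.chainRoot d b 1 = some b')
    (h3 : OpR D a' b) (h4 : OpR D a b') (h5 : OpR D b' k) :
    ∃ c₁ c₂ : ℤ, (c₁ = 1 ∨ c₁ = -1) ∧ (c₂ = 1 ∨ c₂ = -1) ∧
      ∀ t v u : F, Cc X σ a' b' t ((c₂ : F) * (v * u)) = Cc X σ a b ((c₁ : F) * (t * v)) u := by
  obtain ⟨c, _, hv⟩ := hSL.val hR ha hb hk h
  obtain ⟨c₁, hc₁, hv₁⟩ := hSL.val hR ha' hd ha h1
  obtain ⟨c₂, hc₂, hv₂⟩ := hSL.val hR hd hb hb' h2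
  refine ⟨c₁, c₂, hc₁, hc₂, fun t v u => ?_⟩
  have e1 : π ⁅σ (X a' t), σ (X d v)⁆ = X a ((c₁ : F) * (t * v)) := by rw [map_commutatorElement, hσ, hσ, hv₁]
  have e2 : π ⁅σ (X d v), σ (X b u)⁆ = X b' ((c₂ : F) * (v * u)) := by rw [map_commutatorElement, hσ, hσ, hv₂]
  have e3 := hall_witt' (x := σ (X a' t)) (y := σ (X d v)) (z := σ (X b u))
    (hCm a' ha' b hb h3 _ _ _ _ (hσ _) (hσ _)) (hCm a ha b' hb' h4 _ _ _ _ e1 e2)
    (hCm b' hb' k hk h5 _ _ _ _ e2 (by rw [map_commutatorElement, e1, hσ, hv]))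
  rw [Cc_of hσ hc (hσ _) e2, Cc_of hσ hc e1 (hσ _)] at e3
  exact e3

omit hσ hc hSL hR in
theorem sgnF {c : ℤ} (h : c = 1 ∨ c = -1) : (c : F) * (c : F) = 1 := by
  rcases h with rfl | rfl <;> norm_num

theorem Cc_move (hCm : ∀ r < D.nroots, ∀ s < D.nroots, OpR D r s → Cm X π r s) {a b a' b' k : ℕ}
    (ha : a < D.nroots) (hb : b < D.nroots) (ha' : a' < D.nroots) (hb' : b' < D.nroots) (hk : k < D.nroots)
    (h : D.chainRoot a b 1 = some k) (hr : RelR D a b a' b') (h5 : OpR D b' k) :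
    (∀ t v u : F, Cc X σ a b (t * v) u = Cc X σ a b t (v * u)) ∧ ∀ t' u' : F, ∃ t u, Cc X σ a' b' t' u' = Cc X σ a b t u := by
  obtain ⟨d, hd, h1, h2, h3, h4⟩ := hr
  obtain ⟨c₁, c₂, hc₁, hc₂, hv⟩ := Cc_rel hσ hc hSL hR hCm ha hb ha' hb' hd hk h h1 h2 h3 h4 h5
  refine ⟨fun t v u => ?_, fun t' u' => ?_⟩
  · have e1 := hv ((c₁ : F) * t) v u
    have e2 := hv ((c₁ : F) * t) 1 (v * u)
    rw [one_mul, mul_one] at e2
    rw [e1] at e2
    have e3 : (c₁ : F) * ((c₁ : F) * t * v) = t * v := by linear_combination (t * v) * sgnF (F := F) hc₁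
    have e4 : (c₁ : F) * ((c₁ : F) * t) = t := by linear_combination t * sgnF (F := F) hc₁
    rwa [e3, e4] at e2
  · refine ⟨(c₁ : F) * t', (c₂ : F) * u', ?_⟩
    have e1 := hv t' 1 ((c₂ : F) * u')
    rw [one_mul, mul_one] at e1
    have e3 : (c₂ : F) * ((c₂ : F) * u') = u' := by linear_combination u' * sgnF (F := F) hc₂
    rwa [e3] at e1

end

section
variable {D : ChevalleyDatum} {N : ℕ} {η : ℕ → ℕ → ℤ} {rc : ℕ → ℕ → ℤ} {F : Type*} [Field F]
  {A : Type*} [Group A] {X : ℕ → F → A} {φ : A →* GL D.Idx F} {E : Type*} [Group E] {π : E →* A}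

/-- commuting with commutators -/
theorem cm_of_dec (hSL : SLC D) (hR : RD D X) (hs : Function.Surjective π) (hc : π.ker ≤ Subgroup.center E) {r s a b : ℕ}
    (hr : r < D.nroots) (hs' : s < D.nroots) (ha : a < D.nroots) (hb : b < D.nroots) (h : D.chainRoot a b 1 = some s)
    (h1 : OpR D r a) (h2 : OpR D r b) : Cm X π r s := by
  intro x y t u hx hy
  obtain ⟨σ, hσ⟩ := hs.hasRightInverse
  obtain ⟨c, hc1, hv⟩ := hSL.val hR ha hb hs' h
  have e1 : π ⁅σ (X a ((c : F) * u)), σ (X b 1)⁆ = π y := by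
    rw [map_commutatorElement, hσ, hσ, hv, hy]
    congr 1
    linear_combination u * sgnF (F := F) hc1
  have e2 : x * ⁅σ (X a ((c : F) * u)), σ (X b 1)⁆ * x⁻¹ = ⁅σ (X a ((c : F) * u)), σ (X b 1)⁆ := by
    have e3 : x * ⁅σ (X a ((c : F) * u)), σ (X b 1)⁆ * x⁻¹ = ⁅x * σ (X a ((c : F) * u)) * x⁻¹, x * σ (X b 1) * x⁻¹⁆ := by
      simp only [commutatorElement_def]; group
    rw [e3]
    apply comm_eq_of hc
    · rw [map_mul, map_mul, map_inv, hσ, hx, hSL.comm hR hr ha h1, mul_inv_cancel_right]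
    · rw [map_mul, map_mul, map_inv, hσ, hx, hSL.comm hR hr hb h2, mul_inv_cancel_right]
  obtain ⟨κ, hκ, rfl⟩ : ∃ κ, π κ = 1 ∧ y = ⁅σ (X a ((c : F) * u)), σ (X b 1)⁆ * κ :=
    ⟨⁅σ (X a ((c : F) * u)), σ (X b 1)⁆⁻¹ * y, by rw [map_mul, map_inv, e1, inv_mul_cancel], by group⟩
  have e4 := mul_inv_eq_iff_eq_mul.1 e2
  rw [← mul_assoc, e4, mul_assoc, cen_comm hc hκ x, mul_assoc]

/-- lifting when commuting root subgroups lift to commuting ones -/
theorem rd_of_cm (hG : Good D N η rc) (hE : Ext D rc) (hO : Ov D X φ) (hSL : SLC D) (hs : Function.Surjective π)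
    (hc : π.ker ≤ Subgroup.center E) (hge : ∀ r, ¬ r < D.nroots → ∀ t, X r t = 1)
    (hCm : ∀ r < D.nroots, ∀ s < D.nroots, OpR D r s → Cm X π r s) : ∃ Y : ℕ → F → E, RD D Y ∧ ∀ r t, π (Y r t) = X r t := by
  obtain ⟨σ, hσ⟩ := hs.hasRightInverse
  have hR := hO.rd
  have hinj : ∀ k < D.nroots, ∀ v v' : F, X k v = X k v' → v = v' := by
    intro k hk v v' h
    have h1 := congrArg φ h
    rw [hO.map, hO.map] at h1
    exact hG.xg_inj' hE hk h1
  have hkk : ∀ k < D.nroots, OpR D k k := by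
    intro k hk
    refine ⟨?_, ?_⟩
    · intro h
      obtain ⟨i, hi, h1⟩ := hG.cor_ne k hk
      have h2 := hG.cor_neg k hk i hi
      rw [← h] at h2
      omega
    · cases h : D.chainRoot k k 1 with
      | none => rfl
      | some j => exact absurd rfl (hSL.one k hk k hk j h).1
  -- values determine the commutators
  have Q : ∀ k < D.nroots, ∀ a < D.nroots, ∀ b < D.nroots, ∀ a' < D.nroots, ∀ b' < D.nroots, D.chainRoot a b 1 = some k →
      D.chainRoot a' b' 1 = some k → ∀ t u t' u' : F, ⁅X a t, X b u⁆ = ⁅X a' t', X b' u'⁆ → Cc X σ a b t u = Cc X σ a' b' t' u' := by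
    intro k hk a ha b hb a' ha' b' hb' h h' t u t' u' hval
    obtain ⟨p1, p2, ⟨a₁, ha₁, b₁, hb₁, h3, h4, h5⟩, h6⟩ := hSL.ind k hk a ha b hb h
    have h1 := hCm a ha k hk p1
    have h2 := hCm k hk k hk (hkk k hk)
    have hop : ∀ x < D.nroots, ∀ y < D.nroots, D.chainRoot x y 1 = some k → OpR D y k := fun x hx y hy hxy => (hSL.ind k hk x hx y hy hxy).2.1
    have hop' : ∀ x < D.nroots, ∀ y < D.nroots, D.chainRoot x y 1 = some k → OpR D x k := fun x hx y hy hxy => (hSL.ind k hk x hx y hy hxy).1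
    have hmul : ∀ t v u : F, Cc X σ a b (t * v) u = Cc X σ a b t (v * u) := by
      rcases h6 a₁ ha₁ b₁ hb₁ h3 with h7 | h7 | h7 | h7
      · exact absurd h7.1 h4
      · exact absurd h7.1 h5
      · exact (Cc_move hσ hc hSL hR hCm ha hb ha₁ hb₁ hk h h7 (hop _ ha₁ _ hb₁ h3)).1
      · exact (Cc_move hσ hc hSL hR hCm ha hb hb₁ ha₁ hk h h7 (hop' _ ha₁ _ hb₁ h3)).1
    obtain ⟨c, hcs, hv⟩ := hSL.val hR ha hb hk h
    have hself : ∀ t u t' u' : F, ⁅X a t, X b u⁆ = ⁅X a t', X b u'⁆ → Cc X σ a b t u = Cc X σ a b t' u' := by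
      intro t u t' u' hval
      rw [hv, hv] at hval
      have e1 := hinj k hk _ _ hval
      have e2 : t * u = t' * u' := by
        linear_combination (c : F) * e1 - (t * u - t' * u') * sgnF (F := F) hcs
      have e3 := hmul 1 t u
      have e4 := hmul 1 t' u'
      rw [one_mul] at e3 e4
      rw [e3, e4, e2]
    have hval' : ∀ (x : E) (t u : F), x = Cc X σ a b t u → π x = ⁅X a t, X b u⁆ := by
      intro x t u hx; rw [hx, Cc_map hσ]
    rcases h6 a' ha' b' hb' h' with h7 | h7 | h7 | h7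
    · obtain ⟨rfl, rfl⟩ := h7
      exact hself _ _ _ _ hval
    · obtain ⟨rfl, rfl⟩ := h7
      have e1 : Cc X σ a' b' t' u' = Cc X σ b' a' (-u') t' := by
        rw [Cc_neg1 hσ hc hSL hR ha hb hk h h1 h2, Cc_symm hσ hc]
      rw [e1]
      apply hself
      rw [hval, ← hval' _ _ _ e1, Cc_map hσ]
    · obtain ⟨t₁, u₁, e1⟩ := (Cc_move hσ hc hSL hR hCm ha hb ha' hb' hk h h7 (hop _ ha' _ hb' h')).2 t' u'
      rw [e1]
      apply hself
      rw [hval, ← hval' _ _ _ e1, Cc_map hσ]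
    · have h8 := (hop' _ ha' _ hb' h')
      obtain ⟨p1', p2', _, h6'⟩ := hSL.ind k hk a' ha' b' hb' h'
      have h1' := hCm a' ha' k hk p1'
      have e0 : Cc X σ b' a' u' t' = Cc X σ a' b' (-t') u' := by
        rw [Cc_neg1 hσ hc hSL hR ha' hb' hk h' h1' h2, Cc_symm hσ hc]
      obtain ⟨t₁, u₁, e1⟩ := (Cc_move hσ hc hSL hR hCm ha hb hb' ha' hk h h7 h8).2 u' (-t')
      have e2 : Cc X σ a' b' t' u' = Cc X σ a b t₁ u₁ := by
        rw [← e1]
        have e3 := Cc_neg1 hσ hc hSL hR ha' hb' hk h' h1' h2 (-t') u'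
        rw [neg_neg] at e3
        rw [e3, Cc_symm hσ hc a' b' (-t') u']
      rw [e2]
      apply hself
      rw [hval, ← hval' _ _ _ e2, Cc_map hσ]
  have hdec : ∀ k, ∃ (a b : ℕ) (c : ℤ), k < D.nroots → a < D.nroots ∧ b < D.nroots ∧ D.chainRoot a b 1 = some k ∧ (c = 1 ∨ c = -1) ∧
      ∀ t u : F, ⁅X a t, X b u⁆ = X k ((c : F) * (t * u)) := by
    intro k
    by_cases hk : k < D.nroots
    · obtain ⟨a, ha, b, hb, h⟩ := hSL.dec k hk
      obtain ⟨c, hc1, hv⟩ := hSL.val hR ha hb hk h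
      exact ⟨a, b, c, fun _ => ⟨ha, hb, h, hc1, hv⟩⟩
    · exact ⟨0, 0, 0, fun h => absurd h hk⟩
  choose a b c hd using hdec
  classical
  obtain ⟨Y, hY⟩ : ∃ Y : ℕ → F → E, Y = fun k t => if k < D.nroots then Cc X σ (a k) (b k) ((c k : F) * t) 1 else 1 := ⟨_, rfl⟩
  have hYlt : ∀ k < D.nroots, ∀ t, Y k t = Cc X σ (a k) (b k) ((c k : F) * t) 1 := by
    intro k hk t; rw [hY]; exact if_pos hk
  have hmap : ∀ k t, π (Y k t) = X k t := by
    intro k t
    by_cases hk : k < D.nroots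
    · obtain ⟨_, _, _, h4, h5⟩ := hd k hk
      rw [hYlt k hk, Cc_map hσ, h5]
      congr 1
      linear_combination t * sgnF (F := F) h4
    · rw [hY]; dsimp only; rw [if_neg hk, map_one, hge k hk]
  have key : ∀ k < D.nroots, ∀ a' < D.nroots, ∀ b' < D.nroots, D.chainRoot a' b' 1 = some k → ∀ (x y : E) (t u v : F),
      π x = X a' t → π y = X b' u → ⁅X a' t, X b' u⁆ = X k v → ⁅x, y⁆ = Y k v := by
    intro k hk a' ha' b' hb' h x y t u v hx hy hval
    obtain ⟨h1, h2, h3, h4, h5⟩ := hd k hk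
    rw [Cc_of hσ hc hx hy, hYlt k hk]
    apply Q k hk a' ha' b' hb' _ h1 _ h2 h h3
    rw [hval, h5]
    congr 1
    linear_combination -v * sgnF (F := F) h4
  refine ⟨Y, ⟨?_, ?_⟩, hmap⟩
  · intro k hk t u
    obtain ⟨h1, h2, h3, h4, h5⟩ := hd k hk
    rw [hYlt k hk, hYlt k hk, hYlt k hk, mul_add]
    exact Cc_add1 hσ hc hSL hR h1 h2 hk h3 (hCm _ h1 _ hk (hSL.ind k hk _ h1 _ h2 h3).1) (hCm _ hk _ hk (hkk k hk)) _ _ _
  · intro r hr s hs' h1 h2 t u
    cases h3 : D.chainRoot r s 1 with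
    | none =>
      unfold ChevalleyDatum.commWord xw
      rw [hSL.non r hr s hs' h3]
      simp only [List.map_nil, List.prod_nil, mul_one]
      exact (hCm r hr s hs' ⟨h2, h3⟩ _ _ _ _ (hmap _ _) (hmap _ _)).symm
    | some k =>
      have hk := cr_lt hG hr hs' h3
      obtain ⟨_, _, c', hc', hT⟩ := hSL.one r hr s hs' k h3
      have hv : ⁅X r t, X s u⁆ = X k ((c' : F) * (t * u)) := by
        have h4 := hR.comm r hr s hs' h1 h2 (-t) (-u)
        unfold ChevalleyDatum.commWord xw at h4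
        rw [hT] at h4
        simp only [List.map_cons, List.map_nil, List.prod_cons, List.prod_nil, mul_one, pow_one, neg_neg] at h4
        rw [hR.neg hr, hR.neg hs'] at h4
        have h5 : X k ((c' : F) * t * -u) = (⁅X r t, X s u⁆)⁻¹ := by
          have h6 : X k ((c' : F) * t * -u) = ((X r t)⁻¹ * (X s u)⁻¹)⁻¹ * ((X s u)⁻¹ * (X r t)⁻¹) := by rw [h4]; group
          rw [h6, commutatorElement_def]; group
        have h6 : ⁅X r t, X s u⁆ = (X k ((c' : F) * t * -u))⁻¹ := by rw [h5, inv_inv]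
        rw [h6, ← hR.neg hk]
        congr 1; ring
      have e1 := key k hk r hr s hs' h3 (Y r t) (Y s u) t u _ (hmap _ _) (hmap _ _) hv
      have h0 : Y k (-((c' : F) * (t * u))) = (Y k ((c' : F) * (t * u)))⁻¹ := by
        obtain ⟨g1, g2, g3, g4, g5⟩ := hd k hk
        rw [hYlt k hk, hYlt k hk, ← Cc_neg1 hσ hc hSL hR g1 g2 hk g3 (hCm _ g1 _ hk (hSL.ind k hk _ g1 _ g2 g3).1) (hCm _ hk _ hk (hkk k hk))]
        congr 1; ring
      obtain ⟨p1, p2, _⟩ := hSL.ind k hk r hr s hs' h3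
      have c1 : Y r t * Y k ((c' : F) * (t * u)) = Y k ((c' : F) * (t * u)) * Y r t := hCm r hr k hk p1 _ _ _ _ (hmap _ _) (hmap _ _)
      have c2 : Y s u * Y k ((c' : F) * (t * u)) = Y k ((c' : F) * (t * u)) * Y s u := hCm s hs' k hk p2 _ _ _ _ (hmap _ _) (hmap _ _)
      have e2 : xw Y (D.commWord F r s t u) = (Y k ((c' : F) * (t * u)))⁻¹ := by
        unfold ChevalleyDatum.commWord xw
        rw [hT]
        simp only [List.map_cons, List.map_nil, List.prod_cons, List.prod_nil, mul_one, pow_one]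
        rw [← h0]
        congr 1; ring
      rw [e2, ← e1]
      rw [← e1] at c1 c2
      have e3 : Y r t * Y s u = ⁅Y r t, Y s u⁆ * (Y s u * Y r t) := by rw [commutatorElement_def]; group
      have e4 : ⁅Y r t, Y s u⁆ * (Y s u * Y r t) = (Y s u * Y r t) * ⁅Y r t, Y s u⁆ := by
        rw [← mul_assoc, ← c2, mul_assoc, ← c1, mul_assoc]
      rw [e3, e4, mul_inv_cancel_right]

theorem rd_of_split (hG : Good D N η rc) (hE : Ext D rc) (hO : Ov D X φ) (hSL : SLC D) (hSp : ∀ r < D.nroots, SplR D r)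
    (hs : Function.Surjective π) (hc : π.ker ≤ Subgroup.center E) (hge : ∀ r, ¬ r < D.nroots → ∀ t, X r t = 1) :
    ∃ Y : ℕ → F → E, RD D Y ∧ ∀ r t, π (Y r t) = X r t := by
  refine rd_of_cm hG hE hO hSL hs hc hge fun r hr s hs' h => ?_
  obtain ⟨a, ha, b, hb, h1, h2, h3⟩ := hSp r hr s hs' h
  exact cm_of_dec hSL hO.rd hs hc hr hs' ha hb h1 h2 h3

end

/-! ### tables -/

def anyB (n : ℕ) (p : ℕ → Bool) : Bool :=
  Nat.rec (motive := fun _ => Bool) false (fun k ih => cond (p k) true ih) n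

theorem anyB_spec {n : ℕ} {p : ℕ → Bool} (h : anyB n p = true) : ∃ k < n, p k = true := by
  induction n with
  | zero => exact absurd h (by simp [anyB])
  | succ n ih =>
    change cond (p n) true (anyB n p) = true at h
    cases hp : p n with
    | true => exact ⟨n, by omega, hp⟩
    | false =>
      rw [hp, cond_false] at h
      obtain ⟨k, hk, h1⟩ := ih h
      exact ⟨k, by omega, h1⟩

/-- index of the sum, 256 if none -/
def cIx (T s : ℕ) : ℕ := force (fld (nat_lit 11) T s) fun f => cond (Nat.beq (mkr f) (nat_lit 0)) (nat_lit 256) (Nat.land f (nat_lit 255))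

def ngI (n r : ℕ) : ℕ := Nat.sub (Nat.sub n (nat_lit 1)) r

def chkSL1 (n : ℕ) (G : List (List ℕ)) : Bool :=
  allB n fun r => force (rowG G r) fun T => allB n fun s => force (fld (nat_lit 11) T s) fun f =>
    cond (Nat.beq (mkr f) (nat_lit 0)) true
      (cond (Nat.beq s r) false (cond (Nat.beq s (ngI n r)) false (cond (Nat.beq (mkr f) (nat_lit 3)) true (Nat.beq (mkr f) (nat_lit 5)))))

/-- commuting pairs; `T` is the row of `r` -/
def opB (n T r s : ℕ) : Bool := cond (Nat.beq (cIx T s) (nat_lit 256)) (cond (Nat.beq s (ngI n r)) false true) false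

def chkSpl (n : ℕ) (G : List (List ℕ)) (S i : ℕ) : Bool :=
  force (sP S i) fun r => force (rowG G r) fun T => allB n fun s => cond (opB n T r s)
    (force (rowG G s) fun Ts => anyB n fun a => cond (opB n T r a)
      (force (cIx Ts (ngI n a)) fun b => cond (Nat.ble (Nat.succ b) n) (cond (opB n T r b) (Nat.beq (cIx (rowG G a) b) s) false) false) false) true

def relB (n : ℕ) (G : List (List ℕ)) (a b a' b' Ta : ℕ) : Bool :=
  force (rowG G a') fun Ta' => force (cIx Ta' (ngI n a)) fun e => cond (Nat.ble (Nat.succ e) n)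
    (force (ngI n e) fun d => cond (Nat.beq (cIx Ta' d) a) (cond (Nat.beq (cIx (rowG G d) b) b') (cond (opB n Ta' a' b) (opB n Ta a b') false) false) false)
    false

def chkIndT (n : ℕ) (G : List (List ℕ)) (S P i : ℕ) : Bool :=
  force (sP S i) fun k => allB n fun a => force (rowG G a) fun Ta => allB n fun b => cond (Nat.beq (cIx Ta b) k)
    (cond (Nat.beq b (ngI n (wP P i a))) (cond (Nat.beq a (ngI n (wP P i b))) (cond (opB n Ta a k) (cond (opB n (rowG G b) b k)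
      (cond (anyB n fun a' => cond (Nat.beq a' a) false (cond (Nat.beq a' b) false (force (ngI n (wP P i a')) fun b' => cond (Nat.ble (Nat.succ b') n)
          (Nat.beq (cIx (rowG G a') b') k) false)))
        (allB n fun a' => cond (Nat.beq a' a) true (cond (Nat.beq a' b) true (force (ngI n (wP P i a')) fun b' =>
          cond (Nat.beq (cIx (rowG G a') b') k) (cond (relB n G a b a' b' Ta) true (relB n G a b b' a' Ta)) true)))
      false) false) false) false) false) true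

def chkDec (n : ℕ) (G : List (List ℕ)) (S P i : ℕ) : Bool :=
  force (sP S i) fun k => anyB n fun a => force (ngI n (wP P i a)) fun b => cond (Nat.ble (Nat.succ b) n) (Nat.beq (cIx (rowG G a) b) k) false

end Cfsg.Agent.H6
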