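import Cfsg.Agent.H6.StO
import Cfsg.Agent.H6.StE

/-!
Simply laced types: soundness of the tables.
-/

set_option autoImplicit false
set_option linter.unusedSectionVars false
set_option maxHeartbeats 400000
set_option maxRecDepth 100000

namespace Cfsg.Agent.H6
open Cfsg.Lie Cfsg.Agent.H15.Chev

theorem cond3 {a : Bool} {b : Bool} (h : cond a b false = true) : a = true ∧ b = true := by
  cases a
  · exact absurd h (by simp)
  · exact ⟨rfl, h⟩

theorem cond4 {a b : Bool} (h : cond a true b = true) : a = true ∨ b = true := by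
  cases a
  · exact Or.inr h
  · exact Or.inl rfl

theorem commTerms_len1 {D : ChevalleyDatum} (h1 : ∀ r < D.nroots, ∀ s < D.nroots, (D.chainEntry r s).length ≤ 1)
    {r s : ℕ} (hr : r < D.nroots) (hs : s < D.nroots) :
    D.commTerms r s = (((D.chainEntry r s)[0]?).map fun e => (e.1, e.2, 1, 1)).toList := by
  have h2 : ∀ r < D.nroots, ∀ s < D.nroots, ∀ k, (D.chainEntry r s)[k + 1]? = none := by
    intro r hr s hs k
    rw [List.getElem?_eq_none_iff]
    have := h1 r hr s hs
    omega
  unfold ChevalleyDatum.commTerms ChevalleyDatum.chainRoot ChevalleyDatum.chainM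
  simp only [Nat.sub_self, show 2 - 1 = 0 + 1 by rfl, show 3 - 1 = 1 + 1 by rfl, h2 r hr s hs, h2 s hs r hr, Option.map_none,
    Option.bind_none, List.filterMap_cons, List.filterMap_nil]
  cases (D.chainEntry r s)[0]? <;> rfl

section
variable {D : ChevalleyDatum} {N : ℕ} {G : List (List ℕ)} {S P E CA CO MO : ℕ}

theorem ch11 (h : Chk D D.rank D.nroots 11 N G S P E CA CO MO) {r s : ℕ} (hr : r < D.nroots) (hs : s < D.nroots) :
    D.chainEntry r s = if mkr (fld 11 (rowG G r) s) = 0 then [] else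
      [(Nat.land (fld 11 (rowG G r) s) 255, ((mkr (fld 11 (rowG G r) s) : ℕ) : ℤ) - 4)] := by
  obtain ⟨hkeys, hchain⟩ := chkChain_spec h.chain
  rw [hchain, chE_of_lt hr hs, decF_one_field]

theorem cr_some (h : Chk D D.rank D.nroots 11 N G S P E CA CO MO) {r s k : ℕ} (hr : r < D.nroots) (hs : s < D.nroots) :
    D.chainRoot r s 1 = some k ↔ cIx (rowG G r) s = k ∧ k < D.nroots ∧ mkr (fld 11 (rowG G r) s) ≠ 0 := by
  have hG := h.good
  have e1 : D.chainRoot r s 1 = ((D.chainEntry r s)[0]?).map Prod.fst := rfl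
  have e2 : cIx (rowG G r) s = if mkr (fld 11 (rowG G r) s) = 0 then 256 else Nat.land (fld 11 (rowG G r) s) 255 := by
    unfold cIx
    rw [force_eq]
    by_cases h0 : mkr (fld 11 (rowG G r) s) = 0
    · rw [if_pos h0, bpos h0]; rfl
    · rw [if_neg h0, bneg h0]; rfl
  constructor
  · intro h1
    have h2 := cr_lt hG hr hs h1
    rw [e1, ch11 h hr hs] at h1
    by_cases h0 : mkr (fld 11 (rowG G r) s) = 0
    · rw [if_pos h0] at h1; exact absurd h1 (by simp)
    · rw [if_neg h0] at h1
      rw [e2, if_neg h0]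
      exact ⟨by simpa using h1, h2, h0⟩
  · rintro ⟨h1, _, h0⟩
    rw [e1, ch11 h hr hs, if_neg h0]
    rw [e2, if_neg h0] at h1
    simpa using h1

theorem cr_none (h : Chk D D.rank D.nroots 11 N G S P E CA CO MO) (hn : D.nroots ≤ 256) {r s : ℕ} (hr : r < D.nroots) (hs : s < D.nroots) :
    D.chainRoot r s 1 = none ↔ cIx (rowG G r) s = 256 := by
  have e1 : D.chainRoot r s 1 = ((D.chainEntry r s)[0]?).map Prod.fst := rfl
  have e2 : cIx (rowG G r) s = if mkr (fld 11 (rowG G r) s) = 0 then 256 else Nat.land (fld 11 (rowG G r) s) 255 := by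
    unfold cIx
    rw [force_eq]
    by_cases h0 : mkr (fld 11 (rowG G r) s) = 0
    · rw [if_pos h0, bpos h0]; rfl
    · rw [if_neg h0, bneg h0]; rfl
  rw [e1, ch11 h hr hs, e2]
  by_cases h0 : mkr (fld 11 (rowG G r) s) = 0
  · rw [if_pos h0, if_pos h0]; simp
  · rw [if_neg h0, if_neg h0]
    have h3 : Nat.land (fld 11 (rowG G r) s) 255 < 256 := by
      change (fld 11 (rowG G r) s) &&& (2 ^ 8 - 1) < 2 ^ 8
      rw [Nat.and_two_pow_sub_one_eq_mod]
      exact Nat.mod_lt _ (by norm_num)
    simp only [List.getElem?_cons_zero, Option.map_some, reduceCtorEq, false_iff]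
    omega

theorem cr_some' (h : Chk D D.rank D.nroots 11 N G S P E CA CO MO) (hn : D.nroots ≤ 256) {r s k : ℕ} (hr : r < D.nroots) (hs : s < D.nroots)
    (hk : k < D.nroots) : D.chainRoot r s 1 = some k ↔ cIx (rowG G r) s = k := by
  rw [cr_some h hr hs]
  refine ⟨fun h1 => h1.1, fun h1 => ⟨h1, hk, fun h0 => ?_⟩⟩
  have h2 : cIx (rowG G r) s = 256 := by
    unfold cIx
    rw [force_eq, bpos h0]; rfl
  omega

theorem op_iff (h : Chk D D.rank D.nroots 11 N G S P E CA CO MO) (hn : D.nroots ≤ 256) {r s : ℕ} (hr : r < D.nroots) (hs : s < D.nroots) :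
    OpR D r s ↔ opB D.nroots (rowG G r) r s = true := by
  have hneg := chkNeg_spec h.neg
  have e : D.neg r = ngI D.nroots r := by rw [hneg, ngF_lt hr]; rfl
  unfold OpR opB
  rw [e, cr_none h hn hr hs]
  by_cases h1 : cIx (rowG G r) s = 256
  · by_cases h2 : s = ngI D.nroots r
    · rw [bpos h1, bpos h2]; simp [h2]
    · rw [bpos h1, bneg h2]; simp [h2, h1]
  · rw [bneg h1]; simp [h1]

theorem splR_of_chk (h : Chk D D.rank D.nroots 11 N G S P E CA CO MO) (hn : D.nroots ≤ 256)
    (h1 : ∀ i < D.rank, chkSpl D.nroots G S i = true) : ∀ r < D.nroots, SplR D r := by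
  have hG := h.good
  have hneg := chkNeg_spec h.neg
  have hsimple := chkSimple_spec h.simple
  apply hG.root_induction (p := fun r => SplR D r)
  · intro i hi
    have e : D.simple i = sP S i := by rw [hsimple, smF_lt hi]
    have hsi := hG.simple_lt i hi
    rw [e] at hsi ⊢
    intro s hs hop
    have h2 := h1 i hi
    unfold chkSpl at h2
    rw [force_eq, force_eq] at h2
    have h3 := allB_spec h2 s hs
    rw [(op_iff h hn hsi hs).1 hop, cond_true, force_eq] at h3
    obtain ⟨a, ha, h4⟩ := anyB_spec h3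
    obtain ⟨h5, h6⟩ := cond3 h4
    rw [force_eq] at h6
    obtain ⟨h7, h8⟩ := cond3 h6
    obtain ⟨h9, h10⟩ := cond3 h8
    have hb := ble_lt h7
    exact ⟨a, ha, _, hb, (cr_some' h hn ha hb hs).2 (Nat.eq_of_beq_eq_true h10), (op_iff h hn hsi ha).2 h5, (op_iff h hn hsi hb).2 h9⟩
  · intro i hi r hr h2
    exact h2.w hG hi hr

theorem rel_of_chk (h : Chk D D.rank D.nroots 11 N G S P E CA CO MO) (hn : D.nroots ≤ 256) {a b a' b' : ℕ}
    (ha : a < D.nroots) (hb : b < D.nroots) (ha' : a' < D.nroots) (hb' : b' < D.nroots)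
    (h1 : relB D.nroots G a b a' b' (rowG G a) = true) : RelR D a b a' b' := by
  unfold relB at h1
  rw [force_eq, force_eq] at h1
  obtain ⟨h2, h3⟩ := cond3 h1
  rw [force_eq] at h3
  obtain ⟨h4, h5⟩ := cond3 h3
  obtain ⟨h6, h7⟩ := cond3 h5
  obtain ⟨h8, h9⟩ := cond3 h7
  have he := ble_lt h2
  have hd : ngI D.nroots (cIx (rowG G a') (ngI D.nroots a)) < D.nroots := by
    unfold ngI
    change D.nroots - 1 - _ < D.nroots
    omega
  exact ⟨_, hd, (cr_some' h hn ha' hd ha).2 (Nat.eq_of_beq_eq_true h4), (cr_some' h hn hd hb hb').2 (Nat.eq_of_beq_eq_true h6),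
    (op_iff h hn ha' hb).2 h8, (op_iff h hn ha hb').2 h9⟩

theorem indR_of_chk (h : Chk D D.rank D.nroots 11 N G S P E CA CO MO) (hn : D.nroots ≤ 256)
    (h1 : ∀ i < D.rank, chkIndT D.nroots G S P i = true) : ∀ r < D.nroots, IndR D r := by
  have hG := h.good
  have hsimple := chkSimple_spec h.simple
  apply hG.root_induction (p := fun r => IndR D r)
  · intro i hi
    have e : D.simple i = sP S i := by rw [hsimple, smF_lt hi]
    have hsi := hG.simple_lt i hi
    rw [e] at hsi ⊢
    have h2 := h1 i hi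
    unfold chkIndT at h2
    rw [force_eq] at h2
    -- the partner is determined
    have hpart : ∀ a < D.nroots, ∀ b < D.nroots, D.chainRoot a b 1 = some (sP S i) → b = ngI D.nroots (wP P i a) ∧ a = ngI D.nroots (wP P i b) := by
      intro a ha b hb hab
      have h3 := allB_spec h2 a ha
      rw [force_eq] at h3
      have h4 := allB_spec h3 b hb
      rw [bpos ((cr_some' h hn ha hb hsi).1 hab), cond_true] at h4
      obtain ⟨h5, h6⟩ := cond3 h4
      obtain ⟨h7, h8⟩ := cond3 h6
      exact ⟨Nat.eq_of_beq_eq_true h5, Nat.eq_of_beq_eq_true h7⟩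
    intro a ha b hb hab
    have h3 := allB_spec h2 a ha
    rw [force_eq] at h3
    have h4 := allB_spec h3 b hb
    rw [bpos ((cr_some' h hn ha hb hsi).1 hab), cond_true] at h4
    obtain ⟨h5, h6⟩ := cond3 h4
    obtain ⟨h7, h8⟩ := cond3 h6
    obtain ⟨h9, h10⟩ := cond3 h8
    obtain ⟨h11, h12⟩ := cond3 h10
    obtain ⟨h13, h14⟩ := cond3 h12
    refine ⟨(op_iff h hn ha hsi).2 h9, (op_iff h hn hb hsi).2 h11, ?_, ?_⟩
    · obtain ⟨a', ha', h15⟩ := anyB_spec h13
      have hne : a' ≠ a := by intro he; rw [bpos he] at h15; exact absurd h15 (by simp)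
      rw [bneg hne, cond_false] at h15
      have hne' : a' ≠ b := by intro he; rw [bpos he] at h15; exact absurd h15 (by simp)
      rw [bneg hne', cond_false, force_eq] at h15
      obtain ⟨h16, h17⟩ := cond3 h15
      have hb' := ble_lt h16
      exact ⟨a', ha', _, hb', (cr_some' h hn ha' hb' hsi).2 (Nat.eq_of_beq_eq_true h17), hne, hne'⟩
    · intro a' ha' b' hb' hab'
      obtain ⟨q1, q2⟩ := hpart a' ha' b' hb' hab'
      obtain ⟨q3, q4⟩ := hpart a ha b hb hab
      by_cases hne : a' = a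
      · left; exact ⟨hne, by rw [q1, q3, hne]⟩
      by_cases hne' : a' = b
      · right; left; exact ⟨hne', by rw [q1, hne', ← q4]⟩
      right; right
      have h15 := allB_spec h14 a' ha'
      rw [bneg hne, cond_false, bneg hne', cond_false, force_eq, ← q1, bpos ((cr_some' h hn ha' hb' hsi).1 hab'), cond_true] at h15
      rcases cond4 h15 with h16 | h16
      · left; exact rel_of_chk h hn ha hb ha' hb' h16
      · right; exact rel_of_chk h hn ha hb hb' ha' h16
  · intro i hi r hr h2
    exact h2.w hG hi hr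

theorem slc_of_chk' (h : Chk D D.rank D.nroots 11 N G S P E CA CO MO) (hn : D.nroots ≤ 256)
    (h1 : chkSL1 D.nroots G = true) (h2 : ∀ i < D.rank, chkDec D.nroots G S P i = true)
    (h3 : ∀ i < D.rank, chkIndT D.nroots G S P i = true) : SLC D := by
  have hG := h.good
  have hneg := chkNeg_spec h.neg
  have hsimple := chkSimple_spec h.simple
  have hlen : ∀ r < D.nroots, ∀ s < D.nroots, (D.chainEntry r s).length ≤ 1 := by
    intro r hr s hs
    rw [ch11 h hr hs]
    split <;> simp
  refine ⟨?_, ?_, ?_, indR_of_chk h hn h3⟩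
  · intro r hr s hs k hk
    have h4 := allB_spec h1 r hr
    rw [force_eq] at h4
    have h5 := allB_spec h4 s hs
    rw [force_eq] at h5
    obtain ⟨h6, h7, h8⟩ := (cr_some h hr hs).1 hk
    rw [bneg h8, cond_false] at h5
    have hne : s ≠ r := by intro he; rw [bpos he] at h5; exact absurd h5 (by simp)
    rw [bneg hne, cond_false] at h5
    have hne' : s ≠ ngI D.nroots r := by intro he; rw [bpos he] at h5; exact absurd h5 (by simp)
    rw [bneg hne', cond_false] at h5
    have e : D.neg r = ngI D.nroots r := by rw [hneg, ngF_lt hr]; rfl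
    refine ⟨hne, by rw [e]; exact hne', ((mkr (fld 11 (rowG G r) s) : ℕ) : ℤ) - 4, ?_, ?_⟩
    · rcases cond4 h5 with h9 | h9
      · right; rw [Nat.eq_of_beq_eq_true h9]; norm_num
      · left; rw [Nat.eq_of_beq_eq_true h9]; norm_num
    · rw [commTerms_len1 hlen hr hs, ch11 h hr hs, if_neg h8]
      have h9 : Nat.land (fld 11 (rowG G r) s) 255 = k := by
        rw [← h6]; unfold cIx; rw [force_eq, bneg h8]; rfl
      rw [h9]; rfl
  · intro r hr s hs hk
    rw [commTerms_len1 hlen hr hs]
    have e1 : D.chainRoot r s 1 = ((D.chainEntry r s)[0]?).map Prod.fst := rfl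
    rw [e1, Option.map_eq_none_iff] at hk
    rw [hk]; rfl
  · apply hG.root_induction (p := fun k => ∃ a < D.nroots, ∃ b < D.nroots, D.chainRoot a b 1 = some k)
    · intro i hi
      have e : D.simple i = sP S i := by rw [hsimple, smF_lt hi]
      have hsi := hG.simple_lt i hi
      rw [e] at hsi ⊢
      have h4 := h2 i hi
      unfold chkDec at h4
      rw [force_eq] at h4
      obtain ⟨a, ha, h5⟩ := anyB_spec h4
      rw [force_eq] at h5
      obtain ⟨h6, h7⟩ := cond3 h5
      have hb := ble_lt h6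
      exact ⟨a, ha, _, hb, (cr_some' h hn ha hb hsi).2 (Nat.eq_of_beq_eq_true h7)⟩
    · rintro i hi k hk ⟨a, ha, b, hb, hab⟩
      exact ⟨_, hG.w_lt i hi a ha, _, hG.w_lt i hi b hb, cr_w hG hi ha hb hab⟩

end

section
variable {D : ChevalleyDatum} {l n N : ℕ} {G : List (List ℕ)} {S P E CA CO MO : ℕ}

theorem slc_of_chk (h : Chk D l n 11 N G S P E CA CO MO) (hn : n ≤ 256)
    (h1 : chkSL1 n G = true) (h2 : ∀ i < l, chkDec n G S P i = true) (h3 : ∀ i < l, chkIndT n G S P i = true) : SLC D := by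
  obtain rfl := h.rank
  obtain rfl := h.nroots
  exact slc_of_chk' h hn h1 h2 h3

theorem spl_of_chk (h : Chk D l n 11 N G S P E CA CO MO) (hn : n ≤ 256) (h1 : ∀ i < l, chkSpl n G S i = true) :
    ∀ r < D.nroots, SplR D r := by
  obtain rfl := h.rank
  obtain rfl := h.nroots
  exact splR_of_chk h hn h1

end
end Cfsg.Agent.H6
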