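import Cfsg.Agent.H6.StP

/-!
Simply laced types: tables.
-/

set_option autoImplicit false
set_option maxHeartbeats 400000
set_option maxRecDepth 100000

namespace Cfsg.Agent.H6
open Cfsg.Lie

namespace TE8
theorem sl1 : chkSL1 (nat_lit 240) G = true := by decide +kernel
theorem chkDec_0 : chkDec (nat_lit 240) G S P (nat_lit 0) = true := by decide +kernel
theorem chkDec_1 : chkDec (nat_lit 240) G S P (nat_lit 1) = true := by decide +kernel
theorem chkDec_2 : chkDec (nat_lit 240) G S P (nat_lit 2) = true := by decide +kernel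
theorem chkDec_3 : chkDec (nat_lit 240) G S P (nat_lit 3) = true := by decide +kernel
theorem chkDec_4 : chkDec (nat_lit 240) G S P (nat_lit 4) = true := by decide +kernel
theorem chkDec_5 : chkDec (nat_lit 240) G S P (nat_lit 5) = true := by decide +kernel
theorem chkDec_6 : chkDec (nat_lit 240) G S P (nat_lit 6) = true := by decide +kernel
theorem chkDec_7 : chkDec (nat_lit 240) G S P (nat_lit 7) = true := by decide +kernel
theorem chkDec_all : ∀ i < (nat_lit 8), chkDec (nat_lit 240) G S P i = true := by
  intro i hi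
  match i, hi with
  | 0, _ => exact chkDec_0
  | 1, _ => exact chkDec_1
  | 2, _ => exact chkDec_2
  | 3, _ => exact chkDec_3
  | 4, _ => exact chkDec_4
  | 5, _ => exact chkDec_5
  | 6, _ => exact chkDec_6
  | 7, _ => exact chkDec_7
  | (k + 8), hk => exact absurd hk (by change ¬ (k + 8 < 8); omega)
theorem chkIndT_0 : chkIndT (nat_lit 240) G S P (nat_lit 0) = true := by decide +kernel
theorem chkIndT_1 : chkIndT (nat_lit 240) G S P (nat_lit 1) = true := by decide +kernel
theorem chkIndT_2 : chkIndT (nat_lit 240) G S P (nat_lit 2) = true := by decide +kernel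
theorem chkIndT_3 : chkIndT (nat_lit 240) G S P (nat_lit 3) = true := by decide +kernel
theorem chkIndT_4 : chkIndT (nat_lit 240) G S P (nat_lit 4) = true := by decide +kernel
theorem chkIndT_5 : chkIndT (nat_lit 240) G S P (nat_lit 5) = true := by decide +kernel
theorem chkIndT_6 : chkIndT (nat_lit 240) G S P (nat_lit 6) = true := by decide +kernel
theorem chkIndT_7 : chkIndT (nat_lit 240) G S P (nat_lit 7) = true := by decide +kernel
theorem chkIndT_all : ∀ i < (nat_lit 8), chkIndT (nat_lit 240) G S P i = true := by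
  intro i hi
  match i, hi with
  | 0, _ => exact chkIndT_0
  | 1, _ => exact chkIndT_1
  | 2, _ => exact chkIndT_2
  | 3, _ => exact chkIndT_3
  | 4, _ => exact chkIndT_4
  | 5, _ => exact chkIndT_5
  | 6, _ => exact chkIndT_6
  | 7, _ => exact chkIndT_7
  | (k + 8), hk => exact absurd hk (by change ¬ (k + 8 < 8); omega)
theorem chkSpl_0 : chkSpl (nat_lit 240) G S (nat_lit 0) = true := by decide +kernel
theorem chkSpl_1 : chkSpl (nat_lit 240) G S (nat_lit 1) = true := by decide +kernel
theorem chkSpl_2 : chkSpl (nat_lit 240) G S (nat_lit 2) = true := by decide +kernel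
theorem chkSpl_3 : chkSpl (nat_lit 240) G S (nat_lit 3) = true := by decide +kernel
theorem chkSpl_4 : chkSpl (nat_lit 240) G S (nat_lit 4) = true := by decide +kernel
theorem chkSpl_5 : chkSpl (nat_lit 240) G S (nat_lit 5) = true := by decide +kernel
theorem chkSpl_6 : chkSpl (nat_lit 240) G S (nat_lit 6) = true := by decide +kernel
theorem chkSpl_7 : chkSpl (nat_lit 240) G S (nat_lit 7) = true := by decide +kernel
theorem chkSpl_all : ∀ i < (nat_lit 8), chkSpl (nat_lit 240) G S i = true := by
  intro i hi
  match i, hi with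
  | 0, _ => exact chkSpl_0
  | 1, _ => exact chkSpl_1
  | 2, _ => exact chkSpl_2
  | 3, _ => exact chkSpl_3
  | 4, _ => exact chkSpl_4
  | 5, _ => exact chkSpl_5
  | 6, _ => exact chkSpl_6
  | 7, _ => exact chkSpl_7
  | (k + 8), hk => exact absurd hk (by change ¬ (k + 8 < 8); omega)
theorem slc : SLC chevE8 := slc_of_chk chk (by decide) sl1 chkDec_all chkIndT_all
theorem spl : ∀ r < chevE8.nroots, SplR chevE8 r := spl_of_chk chk (by decide) chkSpl_all
end TE8

end Cfsg.Agent.H6
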