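import Cfsg.Agent.H6.StPTab
import Cfsg.Agent.H6.StPTab8

/-!
Schur multipliers of the groups of type E.
-/

set_option autoImplicit false
set_option linter.unusedSectionVars false
set_option maxHeartbeats 400000

namespace Cfsg.Agent.H6
open Cfsg.Lie Cfsg.Agent.H15.Chev Cfsg.Agent.H15.PExtN
open scoped Matrix commutatorElement

universe u

section
variable {D : ChevalleyDatum} {N : ℕ} {η : ℕ → ℕ → ℤ} {rc : ℕ → ℕ → ℤ} {K : Type u} [Field K]

theorem closed_of_spl (hG : Good D N η rc) (hE : Ext D rc) (hC : CWt D η)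
    (hP : ∀ i < D.rank, PairOK D (D.simple i) ∧ PairOK D (D.neg (D.simple i)))
    (hPB : PB D) (hSc : ∀ i < D.rank, ScOK D (D.simple i) ∨ SelfPair D (D.simple i)) [Finite K]
    (hperf : RDC D η (sX D K) → US (sX D K) {r | r < D.nroots} = ⊤ → commutator (D.SteinbergCover K) = ⊤)
    (hSL : SLC D) (hSp : ∀ r < D.nroots, SplR D r) :
    Finite (D.SteinbergCover K) ∧ commutator (D.SteinbergCover K) = ⊤ ∧ Cfsg.HasCyclicSchurMultiplier (D.SteinbergCover K) 1 := by
  refine sc_closed hG hE hC hP hPB hSc hperf ?_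
  intro _ E _ _ τ z hz
  obtain ⟨θ, hθ⟩ := exists_theta' (K := K) hG hE
  exact rd_of_split hG hE (sc_ov hG hθ) hSL hSp hz.surj (PExt_ker_le hz) sX_of_ge

end

section
variable {K : Type u} [Field K] [Fintype K]

theorem TE6.closed : Finite (chevE6.SteinbergCover K) ∧ commutator (chevE6.SteinbergCover K) = ⊤ ∧
    Cfsg.HasCyclicSchurMultiplier (chevE6.SteinbergCover K) 1 :=
  closed_of_spl TE6.good TE6.ext TE6.cw TE6.pairs TE6.pb TE6.sc TE6.sperf TE6.slc TE6.spl

theorem TE7.closed : Finite (chevE7.SteinbergCover K) ∧ commutator (chevE7.SteinbergCover K) = ⊤ ∧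
    Cfsg.HasCyclicSchurMultiplier (chevE7.SteinbergCover K) 1 :=
  closed_of_spl TE7.good TE7.ext TE7.cw TE7.pairs TE7.pb TE7.sc TE7.sperf TE7.slc TE7.spl

theorem TE8.closed : Finite (chevE8.SteinbergCover K) ∧ commutator (chevE8.SteinbergCover K) = ⊤ ∧
    Cfsg.HasCyclicSchurMultiplier (chevE8.SteinbergCover K) 1 :=
  closed_of_spl TE8.good TE8.ext TE8.cw TE8.pairs TE8.pb TE8.sc TE8.sperf TE8.slc TE8.spl

theorem TE6.schur {q : ℕ} (hq : Fintype.card K = q) : Cfsg.HasCyclicSchurMultiplier ↥(chevE6.group K) (Nat.gcd 3 (q - 1)) :=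
  schur_group TE6.good TE6.ext TE6.cw TE6.pairs TE6.closed (card_center_E6 hq) ((Nat.dvd_prime Nat.prime_three).1 (Nat.gcd_dvd_left _ _) |>.imp_right
    (fun h => by rw [h]; exact Nat.prime_three))

theorem TE7.schur {q : ℕ} (hq : Fintype.card K = q) : Cfsg.HasCyclicSchurMultiplier ↥(chevE7.group K) (Nat.gcd 2 (q - 1)) :=
  schur_group TE7.good TE7.ext TE7.cw TE7.pairs TE7.closed (card_center_E7 hq) ((Nat.dvd_prime Nat.prime_two).1 (Nat.gcd_dvd_left _ _) |>.imp_right
    (fun h => by rw [h]; exact Nat.prime_two))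

theorem TE8.schur : Cfsg.HasCyclicSchurMultiplier ↥(chevE8.group K) 1 := by
  refine schur_group TE8.good TE8.ext TE8.cw TE8.pairs TE8.closed ?_ (Or.inl rfl)
  rw [st_center_bot TE8.good TE8.ext TE8.cw TE8.pairs PhiH_inj_E8]
  simp

end
end Cfsg.Agent.H6
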