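import Cfsg.Agent.H6.StQ

/-!
Lifting the relations (R1), (R2): pairwise conditions.
-/

set_option autoImplicit false
set_option linter.unusedSectionVars false
set_option maxHeartbeats 400000

namespace Cfsg.Agent.H6
open Cfsg.Lie Cfsg.Agent.H15.Chev
open scoped Matrix commutatorElement

section
variable {D : ChevalleyDatum} {N : ℕ} {η : ℕ → ℕ → ℤ} {rc : ℕ → ℕ → ℤ} {F : Type*} [Field F]
  {A : Type*} [Group A] {X : ℕ → F → A} {φ : A →* GL D.Idx F} {E : Type*} [Group E] {π : E →* A} {Y : ℕ → F → E}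

/-- central functions invariant under the torus are trivial, for one pair -/
def InvP (hG : Good D N η rc) (X : ℕ → F → A) (π : E →* A) (r s : Fin D.nroots) : Prop :=
  ∀ f : F → E, (∀ u, π (f u) = 1) → (∀ u u', f (u + u') = f u * f u') →
    (∀ (h : A) (ψ : Fin D.nroots → Fˣ), Mon hG X h 1 ψ → ψ r = 1 → ∀ u, f ((ψ s : F) * u) = f u) → ∀ u, f u = 1

theorem invP_of_tor (hG : Good D N η rc) {r s : Fin D.nroots}
    (hT : ∃ (h : A) (ψ : Fin D.nroots → Fˣ), Mon hG X h 1 ψ ∧ ψ r = 1 ∧ ψ s ≠ 1) : InvP hG X π r s := by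
  intro f _ hf2 hf3 u
  obtain ⟨h, ψ, hm, hr, hs⟩ := hT
  have h3 := hf3 h ψ hm hr
  have h4 : ∀ u, f (((ψ s : F) - 1) * u) = 1 := by
    intro u
    have h5 := hf2 (((ψ s : F) - 1) * u) u
    have h6 : ((ψ s : F) - 1) * u + u = (ψ s : F) * u := by ring
    rw [h6, h3 u] at h5
    exact (mul_eq_right.1 h5.symm)
  have h5 : (ψ s : F) - 1 ≠ 0 := by
    intro h
    exact hs (Units.ext (by rw [Units.val_one]; exact sub_eq_zero.1 h))
  have h6 := h4 (((ψ s : F) - 1)⁻¹ * u)
  rwa [← mul_assoc, mul_inv_cancel₀ h5, one_mul] at h6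

namespace Lf
variable {hG : Good D N η rc} (hL : Lf hG X π Y) (hO : Ov D X φ) (hE : Ext D rc) (hc : π.ker ≤ Subgroup.center E)
  (hs : Function.Surjective π)
  (hI : ∀ r s : Fin D.nroots, N ≤ (r : ℕ) → (r : ℕ) < (s : ℕ) → InvP hG X π r s ∨ RelY D Y r s)
include hL hO hE hc hs hI

/-- the exact relations between positive root elements -/
theorem loopP : ∀ k m : ℕ, m + k = D.nroots → N ≤ m →
    (∀ r s : ℕ, m ≤ r → r < D.nroots → m ≤ s → s < D.nroots → s ≠ r → RelY D Y r s) ∧
    (∀ g ∈ US Y {r | m ≤ r ∧ r < D.nroots}, φ (π g) = 1 → g = 1) := by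
  intro k
  induction k with
  | zero =>
    intro m hm _
    refine ⟨fun r s h1 h2 => by omega, ?_⟩
    intro g hg _
    have h1 : {r | m ≤ r ∧ r < D.nroots} = (∅ : Set ℕ) := by
      ext r
      simp only [Set.mem_ofPred_eq, Set.mem_empty_iff_false, iff_false, not_and]
      omega
    rw [h1, US_empty] at hg
    exact hg
  | succ k ih =>
    intro m hm hNm
    obtain ⟨hrel, hinj⟩ := ih (m + 1) (by omega) (by omega)
    have hmn : m < D.nroots := by omega
    -- terms of the commutator formula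
    have hterm : ∀ r s : ℕ, m ≤ r → r < D.nroots → m ≤ s → s < D.nroots → (m < r ∨ m < s) → ∀ t u : F,
        xw Y (D.commWord F r s t u) ∈ US Y {r | m + 1 ≤ r ∧ r < D.nroots} := by
      intro r s h1 h2 h3 h4 h5 t u
      apply xw_mem
      intro c hcc
      unfold ChevalleyDatum.commWord at hcc
      rw [List.mem_map] at hcc
      obtain ⟨d, hd, rfl⟩ := hcc
      have h6 := hG.commTerms_gt h2 h4 (by omega) (by omega) hd
      exact mem_US (S := {r | m + 1 ≤ r ∧ r < D.nroots}) (show m + 1 ≤ d.1 ∧ d.1 < D.nroots from ⟨by omega, h6.2.2⟩) _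
    have hmemY : ∀ s, m + 1 ≤ s → s < D.nroots → ∀ u : F, Y s u ∈ US Y {r | m + 1 ≤ r ∧ r < D.nroots} := by
      intro s h1 h2 u
      exact mem_US (S := {r | m + 1 ≤ r ∧ r < D.nroots}) ⟨h1, h2⟩ u
    have hne : ∀ r s : ℕ, m ≤ r → r < D.nroots → m ≤ s → s < D.nroots → s ≠ D.neg r := by
      intro r s h1 h2 h3 h4
      exact hG.ne_neg_of_pos h2 (by omega) (by omega)
    have hms : ∀ s, m + 1 ≤ s → s < D.nroots → RelY D Y m s := by
      intro s h1 h2
      rcases hI ⟨m, hmn⟩ ⟨s, h2⟩ hNm h1 with hI' | hI'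
      swap
      · exact hI'
      intro t
      have hsm : s ≠ m := by omega
      have hsm' := hne m s le_rfl hmn (by omega) h2
      set P : F → E := fun u => xw Y (D.commWord F m s t u) with hP
      have hPm : ∀ u, P u ∈ US Y {r | m + 1 ≤ r ∧ r < D.nroots} := fun u => hterm m s le_rfl hmn (by omega) h2 (Or.inr (by omega)) t u
      obtain ⟨f, hf⟩ : ∃ f : F → E, f = fun u => (Y m t * Y s u * P u)⁻¹ * (Y s u * Y m t) := ⟨_, rfl⟩
      have hfe : ∀ u, Y s u * Y m t = Y m t * Y s u * P u * f u := by intro u; rw [hf]; group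
      have hf1 : ∀ u, π (f u) = 1 := by
        intro u
        have h3 := hO.rd.comm m hmn s h2 hsm hsm' t u
        rw [hf]; dsimp only
        rw [map_mul, map_inv, map_mul, map_mul, map_mul, hL.map, hL.map, hP]
        dsimp only
        rw [map_xw' hL.map, h3, inv_mul_cancel]
      have hcen : ∀ u x, x * f u = f u * x := fun u x => cen_comm hc (hf1 u) x
      have h0 : ∀ u, f u = 1 := by
        refine hI' f hf1 ?_ ?_
        · intro u u'
          have e1 := hfe u
          have e2 := hfe u'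
          have e3 := hfe (u + u')
          rw [hL.add s h2] at e3
          have e4 : Y s u * Y s u' * Y m t = Y m t * Y s u * P u * Y s u' * P u' * (f u * f u') := by
            rw [mul_assoc (Y s u), e2]
            calc Y s u * (Y m t * Y s u' * P u' * f u') = (Y s u * Y m t) * Y s u' * P u' * f u' := by group
              _ = Y m t * Y s u * P u * (f u * (Y s u' * P u')) * f u' := by rw [e1]; group
              _ = _ := by rw [← hcen u]; group
          rw [e3] at e4
          have e5 : (Y s u' * P (u + u'))⁻¹ * (P u * Y s u' * P u') = f (u + u') * (f u * f u')⁻¹ := by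
            have e6 : P u * Y s u' * P u' = (Y m t * Y s u)⁻¹ * (Y m t * Y s u * P u * Y s u' * P u' * (f u * f u')) * (f u * f u')⁻¹ := by group
            rw [e6, ← e4]; group
          have e7 : (Y s u' * P (u + u'))⁻¹ * (P u * Y s u' * P u') = 1 := by
            apply hinj
            · exact mul_mem (inv_mem (mul_mem (hmemY s h1 h2 _) (hPm _))) (mul_mem (mul_mem (hPm _) (hmemY s h1 h2 _)) (hPm _))
            · have e8 : π (f (u + u') * (f u * f u')⁻¹) = 1 := by
                rw [map_mul, map_inv, map_mul, hf1, hf1, hf1]; simp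
              rw [e5, e8, map_one]
          rw [e7] at e5
          exact (mul_inv_eq_one.1 e5.symm)
        · intro h ψ hm hψ u
          obtain ⟨e, rfl⟩ := hs h
          have e1 := hL.eqv e 1 ψ hm ⟨m, hmn⟩ t
          have e2 := hL.eqv e 1 ψ hm ⟨s, h2⟩ u
          rw [hψ, Units.val_one, one_mul] at e1
          change e * Y m t * e⁻¹ = Y m t at e1
          change e * Y s u * e⁻¹ = Y s ((ψ ⟨s, h2⟩ : F) * u) at e2
          have e3 := hfe u
          have e4 : e * (Y s u * Y m t) * e⁻¹ = e * (Y m t * Y s u * P u * f u) * e⁻¹ := by rw [e3]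
          have e5 : e * (Y s u * Y m t) * e⁻¹ = Y s ((ψ ⟨s, h2⟩ : F) * u) * Y m t := by
            rw [← e2]; nth_rewrite 2 [← e1]; group
          have e6 : e * (Y m t * Y s u * P u * f u) * e⁻¹ = Y m t * Y s ((ψ ⟨s, h2⟩ : F) * u) * (e * P u * e⁻¹) * f u := by
            calc e * (Y m t * Y s u * P u * f u) * e⁻¹ = (e * Y m t * e⁻¹) * (e * Y s u * e⁻¹) * (e * P u * e⁻¹) * (e * f u * e⁻¹) := by group
              _ = _ := by rw [e1, e2, cen_conj hc (hf1 u)]
          rw [e5, e6, hfe] at e4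
          have hconj : e * P u * e⁻¹ ∈ US Y {r | m + 1 ≤ r ∧ r < D.nroots} := by
            have h3 : US Y {r | m + 1 ≤ r ∧ r < D.nroots} ≤
                (US Y {r | m + 1 ≤ r ∧ r < D.nroots}).comap (MulAut.conj e).toMonoidHom := by
              rw [US_le]
              rintro γ ⟨hγ1, hγ2⟩ x
              change e * Y γ x * e⁻¹ ∈ US Y {r | m + 1 ≤ r ∧ r < D.nroots}
              rw [hL.eqv e 1 ψ hm ⟨γ, hγ2⟩ x]
              exact hmemY γ hγ1 hγ2 _
            exact h3 (hPm u)
          set u₁ := (ψ ⟨s, h2⟩ : F) * u with hu₁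
          have e7 : (P u₁)⁻¹ * (e * P u * e⁻¹) = f u₁ * (f u)⁻¹ := by
            have e8 : e * P u * e⁻¹ = (Y m t * Y s u₁)⁻¹ * (Y m t * Y s u₁ * (e * P u * e⁻¹) * f u) * (f u)⁻¹ := by group
            rw [e8, ← e4]; group
          have e9 : (P u₁)⁻¹ * (e * P u * e⁻¹) = 1 := by
            apply hinj
            · exact mul_mem (inv_mem (hPm _)) hconj
            · have e8 : π (f u₁ * (f u)⁻¹) = 1 := by
                rw [map_mul, map_inv, hf1, hf1]; simp
              rw [e7, e8, map_one]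
          rw [e9] at e7
          exact mul_inv_eq_one.1 e7.symm
      intro u
      have := hfe u
      rw [h0 u, mul_one] at this
      exact this
    have hsm : ∀ s, m + 1 ≤ s → s < D.nroots → RelY D Y s m := by
      intro s h1 h2 t u
      have h3 := hms s h1 h2 u t
      have hsm : s ≠ m := by omega
      have hsm' := hne m s le_rfl hmn (by omega) h2
      have hsm'' := hne s m (by omega) h2 le_rfl hmn
      have h4 : xw Y (D.commWord F m s u t) * xw Y (D.commWord F s m t u) = 1 := by
        apply hinj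
        · exact mul_mem (hterm m s le_rfl hmn (by omega) h2 (Or.inr (by omega)) _ _)
            (hterm s m (by omega) h2 le_rfl hmn (Or.inl (by omega)) _ _)
        · have h5 := hO.rd.comm m hmn s h2 hsm hsm' u t
          have h6 := hO.rd.comm s h2 m hmn (Ne.symm hsm) hsm'' t u
          rw [map_mul, map_xw' hL.map, map_xw' hL.map]
          rw [h5] at h6
          have h7 : xw X (D.commWord F m s u t) * xw X (D.commWord F s m t u) = 1 := by
            have h8 : X m u * X s t * 1 = X m u * X s t * (xw X (D.commWord F m s u t) * xw X (D.commWord F s m t u)) := by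
              rw [mul_one, ← mul_assoc]; exact h6
            exact (mul_left_cancel h8).symm
          rw [h7, map_one]
      rw [h3]
      calc Y m u * Y s t = Y m u * Y s t * 1 := (mul_one _).symm
        _ = Y m u * Y s t * (xw Y (D.commWord F m s u t) * xw Y (D.commWord F s m t u)) := by rw [h4]
        _ = _ := by group
    refine ⟨?_, ?_⟩
    · intro r s h1 h2 h3 h4 h5
      rcases Nat.eq_or_lt_of_le h1 with h6 | h6
      · subst h6
        exact hms s (by omega) h4
      · rcases Nat.eq_or_lt_of_le h3 with h7 | h7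
        · subst h7
          exact hsm r h6 h2
        · exact hrel r s h6 h2 h7 h4 h5
    · -- normalisation
      have hnorm : ∀ (b : F), ∀ g ∈ US Y {r | m + 1 ≤ r ∧ r < D.nroots}, (Y m b)⁻¹ * g * Y m b ∈ US Y {r | m + 1 ≤ r ∧ r < D.nroots} := by
        intro b
        have h3 : US Y {r | m + 1 ≤ r ∧ r < D.nroots} ≤
            (US Y {r | m + 1 ≤ r ∧ r < D.nroots}).comap (MulAut.conj (Y m b)⁻¹).toMonoidHom := by
          rw [US_le]
          rintro γ ⟨hγ1, hγ2⟩ x
          change (Y m b)⁻¹ * Y γ x * (Y m b)⁻¹⁻¹ ∈ US Y {r | m + 1 ≤ r ∧ r < D.nroots}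
          have h4 := hms γ hγ1 hγ2 b x
          have h5 : (Y m b)⁻¹ * Y γ x * (Y m b)⁻¹⁻¹ = Y γ x * xw Y (D.commWord F m γ b x) := by
            calc _ = (Y m b)⁻¹ * (Y γ x * Y m b) := by group
              _ = _ := by rw [h4]; group
          rw [h5]
          exact mul_mem (hmemY γ hγ1 hγ2 _) (hterm m γ le_rfl hmn (by omega) hγ2 (Or.inr (by omega)) _ _)
        intro g hg
        have := h3 hg
        change (Y m b)⁻¹ * g * (Y m b)⁻¹⁻¹ ∈ US Y {r | m + 1 ≤ r ∧ r < D.nroots} at this
        rwa [inv_inv] at this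
      have hdec : ∀ g ∈ US Y {r | m ≤ r ∧ r < D.nroots}, ∃ (a : F) (g' : E), g' ∈ US Y {r | m + 1 ≤ r ∧ r < D.nroots} ∧
          g = Y m a * g' := by
        intro g hg
        unfold US at hg
        induction hg using Subgroup.closure_induction with
        | mem x hx =>
          obtain ⟨s, ⟨hs1, hs2⟩, u, rfl⟩ := hx
          rcases Nat.eq_or_lt_of_le hs1 with h6 | h6
          · subst h6
            exact ⟨u, 1, one_mem _, by rw [mul_one]⟩
          · exact ⟨0, Y s u, hmemY s h6 hs2 u, by rw [hL.zero hmn, one_mul]⟩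
        | one => exact ⟨0, 1, one_mem _, by rw [hL.zero hmn, one_mul]⟩
        | mul x y _ _ hx hy =>
          obtain ⟨a, g₁, h1, rfl⟩ := hx
          obtain ⟨b, g₂, h3, rfl⟩ := hy
          refine ⟨a + b, (Y m b)⁻¹ * g₁ * Y m b * g₂, mul_mem (hnorm b g₁ h1) h3, ?_⟩
          rw [hL.add m hmn]; group
        | inv x _ hx =>
          obtain ⟨a, g₁, h1, rfl⟩ := hx
          refine ⟨-a, (Y m (-a))⁻¹ * g₁⁻¹ * Y m (-a), hnorm (-a) _ (inv_mem h1), ?_⟩
          rw [hL.neg hmn]; group
      intro g hg h1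
      obtain ⟨a, g', hg', rfl⟩ := hdec g hg
      have h2 : φ (π g') ∈ US (xg D F) {r | m + 1 ≤ r ∧ r < D.nroots} := by
        have h3 : US Y {r | m + 1 ≤ r ∧ r < D.nroots} ≤ (US (xg D F) {r | m + 1 ≤ r ∧ r < D.nroots}).comap (φ.comp π) := by
          rw [US_le]
          intro γ hγ x
          change φ (π (Y γ x)) ∈ US (xg D F) {r | m + 1 ≤ r ∧ r < D.nroots}
          rw [hL.map, hO.map]
          exact mem_US hγ x
        exact h3 hg'
      rw [map_mul, map_mul, hL.map, hO.map] at h1
      have hS : {r | m + 1 ≤ r ∧ r < D.nroots} = ({r | N ≤ r ∧ r < D.nroots} ∩ {r | m + 1 ≤ r} : Set ℕ) := by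
        ext r
        simp only [Set.mem_ofPred_eq, Set.mem_inter_iff]
        omega
      rw [hS] at h2
      obtain ⟨τ, hτ1, hτ2⟩ := hG.exists_op (hG.rd hE) hG.pClo_all k (m + 1) (by omega) _ h2
      rw [hτ2] at h1
      have h3 : op (xg D F) (fun s => if s = m then a else τ s) m (k + 1) = op (xg D F) (fun _ => (0 : F)) m (k + 1) := by
        rw [op_succ, if_pos rfl]
        have h4 : op (xg D F) (fun s => if s = m then a else τ s) (m + 1) k = op (xg D F) τ (m + 1) k := by
          apply op_congr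
          intro s h _
          rw [if_neg (by omega)]
        rw [h4, h1]
        symm
        unfold op
        apply List.prod_eq_one
        intro x hx
        rw [List.mem_map] at hx
        obtain ⟨r, _, rfl⟩ := hx
        exact hG.xg_zero r
      have h4 := hG.op_inj hE _ _ (k + 1) m hm hNm h3 m le_rfl hmn
      rw [if_pos rfl] at h4
      subst h4
      rw [hG.xg_zero, one_mul, ← hτ2] at h1
      rw [hL.zero hmn, one_mul]
      exact hinj g' hg' h1

variable (hR : RDC D η X) (hC : CWt D η)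
include hR hC

/-- all the relations -/
theorem rdP : RD D Y where
  add := hL.add
  comm r hr s hs' h1 h2 t u := by
    obtain ⟨hrel, _⟩ := hL.loopP hO hE hc hs hI N N (by rw [hG.nroots_eq]; ring) le_rfl
    have h1' : (⟨s, hs'⟩ : Fin D.nroots) ≠ ⟨r, hr⟩ := fun h => h1 (congrArg Fin.val h)
    have h2' : (⟨s, hs'⟩ : Fin D.nroots) ≠ hG.ngf ⟨r, hr⟩ := fun h => h2 (congrArg Fin.val h)
    obtain ⟨w, hw1, hw2⟩ := pos_pair hG h2'
    obtain ⟨g, χ, hm, ht⟩ := exists_trA hR hG hC w
    obtain ⟨e, rfl⟩ := hs g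
    have h3 := hrel (w.1 ⟨r, hr⟩) (w.1 ⟨s, hs'⟩) hw1 (Fin.is_lt _) hw2 (Fin.is_lt _)
      (fun h => h1' (w.1.injective (Fin.ext h))) ((χ ⟨r, hr⟩ : F) * t) ((χ ⟨s, hs'⟩ : F) * u)
    rw [ht _ _ h1' h2', ← hL.eqv e w χ hm, ← hL.eqv e w χ hm] at h3
    have h4 : xw Y ((D.commWord F r s t u).map fun c => (wN w.1 c.1, (cN χ c.1 : F) * c.2)) =
        e * xw Y (D.commWord F r s t u) * e⁻¹ := by
      have key : ∀ L : List (ℕ × F), (∀ c ∈ L, c.1 < D.nroots) →
          xw Y (L.map fun c => (wN w.1 c.1, (cN χ c.1 : F) * c.2)) = e * xw Y L * e⁻¹ := by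
        intro L
        induction L with
        | nil => intro _; simp [xw]
        | cons c L ih =>
          intro hL'
          have ih' := ih (fun c hc => hL' c (List.mem_cons_of_mem _ hc))
          have hcl := hL' c List.mem_cons_self
          unfold xw at ih' ⊢
          rw [List.map_cons, List.map_cons, List.prod_cons, ih', List.map_cons, List.prod_cons]
          have h5 := hL.eqv e w χ hm ⟨c.1, hcl⟩ c.2
          have h6 : wN w.1 c.1 = w.1 ⟨c.1, hcl⟩ := by unfold wN; rw [dif_pos hcl]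
          have h7 : cN χ c.1 = χ ⟨c.1, hcl⟩ := by unfold cN; rw [dif_pos hcl]
          simp only
          rw [h6, h7, ← h5]
          group
      exact key _ (fun c hcc => mem_commWord_lt hG hr hs' hcc)
    simp only at h3
    rw [h4] at h3
    have h5 : e⁻¹ * (e * Y s u * e⁻¹ * (e * Y r t * e⁻¹)) * e =
        e⁻¹ * (e * Y r t * e⁻¹ * (e * Y s u * e⁻¹) * (e * xw Y (D.commWord F r s t u) * e⁻¹)) * e := by rw [h3]
    calc Y s u * Y r t = e⁻¹ * (e * Y s u * e⁻¹ * (e * Y r t * e⁻¹)) * e := by group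
      _ = _ := by rw [h5]; group

end Lf

end
end Cfsg.Agent.H6
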