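import Cfsg.Agent.H6.StR

/-!
Commuting lifts for single pairs, the torus lifts over the field with three elements.
-/

set_option autoImplicit false
set_option linter.unusedSectionVars false
set_option maxHeartbeats 400000

namespace Cfsg.Agent.H6
open Cfsg.Lie Cfsg.Agent.H15.Chev
open scoped Matrix commutatorElement

section
variable {E A : Type*} [Group E] [Group A] {π : E →* A} (hs : Function.Surjective π) (hc : π.ker ≤ Subgroup.center E)
include hs hc

/-- lifts of central elements of a perfect group are central -/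
theorem central_lift (hperf : commutator A = ⊤) {z : E} (hz : π z ∈ Subgroup.center A) (x : E) : z * x = x * z := by
  have h1 : commutator E ≤ Subgroup.centralizer {z} := by
    rw [commutator_def, Subgroup.commutator_le]
    intro a _ b _
    rw [Subgroup.mem_centralizer_singleton_iff]
    exact (mul_inv_eq_iff_eq_mul.1 (cen_lift hc hz a b)).symm
  have h2 : (commutator E).map π = ⊤ := by
    rw [commutator_def, Subgroup.map_commutator, ← MonoidHom.range_eq_map, MonoidHom.range_eq_top.2 hs, ← commutator_def, hperf]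
  have h3 : π x ∈ (commutator E).map π := by rw [h2]; exact Subgroup.mem_top _
  obtain ⟨c, hcc, hcx⟩ := h3
  obtain ⟨κ, hκ, rfl⟩ : ∃ κ, π κ = 1 ∧ x = c * κ := ⟨c⁻¹ * x, by rw [map_mul, map_inv, hcx, inv_mul_cancel], by group⟩
  have h4 := Subgroup.mem_centralizer_singleton_iff.1 (h1 hcc)
  calc z * (c * κ) = (z * c) * κ := by group
    _ = c * (z * κ) := by rw [← h4]; group
    _ = _ := by rw [cen_comm hc hκ z]; group

end

section
variable {D : ChevalleyDatum} {N : ℕ} {η : ℕ → ℕ → ℤ} {rc : ℕ → ℕ → ℤ} {F : Type*} [Field F]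
  {A : Type*} [Group A] {X : ℕ → F → A} {φ : A →* GL D.Idx F} {E : Type*} [Group E] {π : E →* A} {Y : ℕ → F → E}

theorem relY_of_cm (hm : ∀ r t, π (Y r t) = X r t) {r s : ℕ} (hct : D.commTerms r s = []) (hCm : Cm X π r s) : RelY D Y r s := by
  intro t u
  unfold ChevalleyDatum.commWord xw
  rw [hct]
  simp only [List.map_nil, List.prod_nil, mul_one]
  exact (hCm _ _ _ _ (hm _ _) (hm _ _)).symm

theorem Cm.symm' {r s : ℕ} (h : Cm X π r s) : Cm X π s r := fun x y t u hx hy => (h y x u t hy hx).symm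

section
variable (hs : Function.Surjective π) (hc : π.ker ≤ Subgroup.center E)
include hs hc

/-- commuting root subgroups lift to commuting ones, one pair -/
theorem cm_of_inv {hG : Good D N η rc} (hRD : RD D X) {r s : Fin D.nroots} (hI : InvP hG X π r s)
    (hct : ∀ t u : F, X r t * X s u = X s u * X r t) : Cm X π r s := by
  intro x y t u hx hy
  obtain ⟨σ, hσ⟩ := hs.hasRightInverse
  have h0 : ∀ u, ⁅x, σ (X s u)⁆ = 1 := by
    refine hI (fun u => ⁅x, σ (X s u)⁆) ?_ ?_ ?_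
    · intro u
      rw [commutatorElement_def, map_mul, map_mul, map_mul, map_inv, map_inv, hσ, hx, hct]
      group
    · intro u u'
      have e1 : ⁅x, σ (X s (u + u'))⁆ = ⁅x, σ (X s u) * σ (X s u')⁆ :=
        comm_eq_of hc rfl (by rw [hσ, map_mul, hσ, hσ, hRD.add s s.2])
      have e2 : ⁅x, σ (X s u) * σ (X s u')⁆ = ⁅x, σ (X s u)⁆ * (σ (X s u) * ⁅x, σ (X s u')⁆ * (σ (X s u))⁻¹) := by
        rw [commutatorElement_def, commutatorElement_def, commutatorElement_def]; group
      rw [e1, e2, cen_conj hc]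
      rw [commutatorElement_def, map_mul, map_mul, map_mul, map_inv, map_inv, hσ, hx, hct]
      group
    · intro h ψ hm hψ u
      obtain ⟨e, rfl⟩ := hs h
      have h3 : e * ⁅x, σ (X s u)⁆ * e⁻¹ = ⁅x, σ (X s u)⁆ := by
        apply cen_conj hc
        rw [commutatorElement_def, map_mul, map_mul, map_mul, map_inv, map_inv, hσ, hx, hct]
        group
      have h4 : e * ⁅x, σ (X s u)⁆ * e⁻¹ = ⁅e * x * e⁻¹, e * σ (X s u) * e⁻¹⁆ := by
        rw [commutatorElement_def, commutatorElement_def]; group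
      rw [← h3, h4]
      apply comm_eq_of hc
      · rw [map_mul, map_mul, map_inv, hx, hm.act r, hψ, Units.val_one, one_mul]; rfl
      · rw [map_mul, map_mul, map_inv, hσ, hσ, hm.act s]; rfl
  have h3 : ⁅x, y⁆ = 1 := by
    rw [comm_eq_of hc (rfl : π x = π x) (show π y = π (σ (X s u)) by rw [hσ, hy])]
    exact h0 u
  exact commutatorElement_eq_one_iff_mul_comm.1 h3

/-- the swap argument over the field with three elements -/
theorem cm_of_swap {hG : Good D N η rc} (hRD : RD D X) (hF : ∀ t : F, t = 0 ∨ t = 1 ∨ t = -1)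
    (hk : ∀ k : E, π k = 1 → k ^ 2 = 1 → k = 1) {r s : Fin D.nroots}
    (hct : ∀ t u : F, X r t * X s u = X s u * X r t) {n : A} {w : hG.W} {χ : Fin D.nroots → Fˣ} (hm : Mon hG X n w χ)
    (h1 : w.1 r = s) (h2 : w.1 s = r) (h3 : χ r * χ s = 1) : Cm X π r s := by
  obtain ⟨σ, hσ⟩ := hs.hasRightInverse
  obtain ⟨e, rfl⟩ := hs n
  obtain ⟨f, hf⟩ : ∃ f : F → F → E, f = fun t u => ⁅σ (X r t), σ (X s u)⁆ := ⟨_, rfl⟩
  have hft : ∀ t u, f t u = ⁅σ (X r t), σ (X s u)⁆ := fun t u => by rw [hf]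
  have hf0 : ∀ t u, π (f t u) = 1 := by
    intro t u
    rw [hft, commutatorElement_def, map_mul, map_mul, map_mul, map_inv, map_inv, hσ, hσ, hct]
    group
  have hadd2 : ∀ t u u', f t (u + u') = f t u * f t u' := by
    intro t u u'
    have e1 : ⁅σ (X r t), σ (X s (u + u'))⁆ = ⁅σ (X r t), σ (X s u) * σ (X s u')⁆ :=
      comm_eq_of hc rfl (by rw [hσ, map_mul, hσ, hσ, hRD.add s s.2])
    have e2 : ⁅σ (X r t), σ (X s u) * σ (X s u')⁆ = ⁅σ (X r t), σ (X s u)⁆ * (σ (X s u) * ⁅σ (X r t), σ (X s u')⁆ * (σ (X s u))⁻¹) := by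
      rw [commutatorElement_def, commutatorElement_def, commutatorElement_def]; group
    rw [hft, hft, hft, e1, e2, cen_conj hc]
    rw [← hft]; exact hf0 t u'
  have hadd1 : ∀ t t' u, f (t + t') u = f t u * f t' u := by
    intro t t' u
    have e1 : ⁅σ (X r (t + t')), σ (X s u)⁆ = ⁅σ (X r t) * σ (X r t'), σ (X s u)⁆ :=
      comm_eq_of hc (by rw [hσ, map_mul, hσ, hσ, hRD.add r r.2]) rfl
    have e2 : ⁅σ (X r t) * σ (X r t'), σ (X s u)⁆ = (σ (X r t) * ⁅σ (X r t'), σ (X s u)⁆ * (σ (X r t))⁻¹) * ⁅σ (X r t), σ (X s u)⁆ := by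
      rw [commutatorElement_def, commutatorElement_def, commutatorElement_def]; group
    rw [hft, hft, hft, e1, e2, cen_conj hc (by rw [← hft]; exact hf0 t' u), ← hft, ← hft]
    exact (cen_comm hc (hf0 t' u) _).symm
  have h0r : ∀ t, f t 0 = 1 := by
    intro t
    have := hadd2 t 0 0
    rw [add_zero] at this
    exact mul_eq_left.1 this.symm
  have h0l : ∀ u, f 0 u = 1 := by
    intro u
    have := hadd1 0 0 u
    rw [add_zero] at this
    exact mul_eq_left.1 this.symm
  have hnr : ∀ t u, f t (-u) = (f t u)⁻¹ := by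
    intro t u
    rw [eq_inv_iff_mul_eq_one, ← hadd2, neg_add_cancel, h0r]
  have hnl : ∀ t u, f (-t) u = (f t u)⁻¹ := by
    intro t u
    rw [eq_inv_iff_mul_eq_one, ← hadd1, neg_add_cancel, h0l]
  have hswap : f 1 1 = (f (χ s : F) (χ r : F))⁻¹ := by
    have e1 : e * f 1 1 * e⁻¹ = f 1 1 := cen_conj hc (hf0 1 1) e
    have e2 : e * f 1 1 * e⁻¹ = ⁅e * σ (X r 1) * e⁻¹, e * σ (X s 1) * e⁻¹⁆ := by
      rw [hft, commutatorElement_def, commutatorElement_def]; group
    rw [← e1, e2, hft, commutatorElement_inv]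
    apply comm_eq_of hc
    · rw [map_mul, map_mul, map_inv, hσ, hσ, hm.act r, h1, mul_one]
    · rw [map_mul, map_mul, map_inv, hσ, hσ, hm.act s, h2, mul_one]
  have hsgn : ∀ v : Fˣ, (v : F) = 1 ∨ (v : F) = -1 := by
    intro v
    rcases hF v with h | h | h
    · exact absurd h v.ne_zero
    · exact Or.inl h
    · exact Or.inr h
  have h11 : f 1 1 = 1 := by
    apply hk _ (hf0 1 1)
    have h4 : ((χ r : F)) * (χ s : F) = 1 := by rw [← Units.val_mul, h3, Units.val_one]
    have h5 : f (χ s : F) (χ r : F) = f 1 1 := by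
      rcases hsgn (χ s) with g1 | g1 <;> rcases hsgn (χ r) with g2 | g2
      · rw [g1, g2]
      · rw [g1, g2, mul_one] at h4
        rw [g1, g2, ← h4, h4]
        exact congrArg (fun x => f 1 x) h4
      · rw [g1, g2, one_mul] at h4
        rw [g1, g2]
        exact congrArg (fun x => f x 1) h4
      · rw [g1, g2, hnr, hnl, inv_inv]
    rw [h5] at hswap
    rw [pow_two]
    nth_rewrite 1 [hswap]
    rw [inv_mul_cancel]
  have hall : ∀ t u, f t u = 1 := by
    intro t u
    rcases hF t with rfl | rfl | rfl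
    · exact h0l u
    · rcases hF u with rfl | rfl | rfl
      · exact h0r _
      · exact h11
      · rw [hnr, h11, inv_one]
    · rw [hnl]
      rcases hF u with rfl | rfl | rfl
      · rw [h0r, inv_one]
      · rw [h11, inv_one]
      · rw [hnr, h11, inv_one, inv_one]
  intro x y t u hx hy
  apply commutatorElement_eq_one_iff_mul_comm.1
  rw [comm_eq_of hc (show π x = π (σ (X r t)) by rw [hσ, hx]) (show π y = π (σ (X s u)) by rw [hσ, hy]), ← hft]
  exact hall t u

end

/-! ### torus lifts over the field with three elements -/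

theorem Mon.conj1 {hG : Good D N η rc} {n h : A} {w : hG.W} {χ ψ : Fin D.nroots → Fˣ} (hm : Mon hG X n w χ)
    (hh : Mon hG X h 1 ψ) : Mon hG X (n * h * n⁻¹) 1 (fun x => ψ ((w⁻¹).1 x)) := by
  constructor
  · intro x t
    obtain ⟨y, rfl⟩ : ∃ y, x = w.1 y := ⟨(w⁻¹).1 x, by
      change x = (w * w⁻¹).1 x
      rw [mul_inv_cancel]; rfl⟩
    have e0 : (w⁻¹).1 (w.1 y) = y := by
      change (w⁻¹ * w).1 y = y
      rw [inv_mul_cancel]; rfl
    rw [e0]
    have e1 := hm.act y (((χ y)⁻¹ : Fˣ) * t)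
    rw [← mul_assoc, Units.mul_inv, one_mul] at e1
    have e2 := hh.act y (((χ y)⁻¹ : Fˣ) * t)
    have e3 := hm.act y ((ψ y : F) * (((χ y)⁻¹ : Fˣ) * t))
    have e4 : (χ y : F) * ((ψ y : F) * (((χ y)⁻¹ : Fˣ) * t)) = (ψ y : F) * t := by
      have := Units.mul_inv (χ y)
      calc (χ y : F) * ((ψ y : F) * (((χ y)⁻¹ : Fˣ) * t)) = ((χ y : F) * ((χ y)⁻¹ : Fˣ)) * ((ψ y : F) * t) := by ring
        _ = _ := by rw [this, one_mul]
    change h * X y (((χ y)⁻¹ : Fˣ) * t) * h⁻¹ = X y ((ψ y : F) * (((χ y)⁻¹ : Fˣ) * t)) at e2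
    rw [e4] at e3
    change n * h * n⁻¹ * X (w.1 y) t * (n * h * n⁻¹)⁻¹ = X (w.1 y) ((ψ y : F) * t)
    rw [← e3, ← e2, ← e1]
    group
  · intro x
    have e1 : (w⁻¹).1 (hG.ngf x) = hG.ngf ((w⁻¹).1 x) := hG.W_neg w⁻¹ x
    rw [e1, hh.neg]

section
variable {hG : Good D N η rc} (hs : Function.Surjective π) (hc : π.ker ≤ Subgroup.center E)
  (hF : ∀ t : F, t = 0 ∨ t = 1 ∨ t = -1) (hk : ∀ k : E, π k = 1 → k ^ 2 = 1 → k = 1)
  (hT : US X {r | r < D.nroots} = ⊤) (hperf : commutator A = ⊤) (hR : RD D X)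
include hF

omit hF in
theorem mon_central {k : A} {ψ : Fin D.nroots → Fˣ} (hT : US X {r | r < D.nroots} = ⊤) (hm : Mon hG X k 1 ψ) (h1 : ∀ x, ψ x = 1) :
    k ∈ Subgroup.center A := by
  have h2 : US X {r | r < D.nroots} ≤ Subgroup.centralizer {k} := by
    rw [US_le]
    intro r hr t
    rw [Subgroup.mem_centralizer_singleton_iff]
    have h3 := hm.act ⟨r, hr⟩ t
    rw [h1, Units.val_one, one_mul] at h3
    change k * X r t * k⁻¹ = X r t at h3
    exact (mul_inv_eq_iff_eq_mul.1 h3).symm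
  rw [hT] at h2
  rw [Subgroup.mem_center_iff]
  intro g
  exact Subgroup.mem_centralizer_singleton_iff.1 (h2 (Subgroup.mem_top g))

theorem unit_F3 (v : Fˣ) : v * v = 1 := by
  apply Units.ext
  rw [Units.val_mul, Units.val_one]
  rcases hF v with h | h | h
  · exact absurd h v.ne_zero
  · rw [h, one_mul]
  · rw [h]; ring

include hs hc hk hT hperf

/-- lifts of torus elements commute with the root elements they centralise -/
theorem tor_comm {k : A} {ψ : Fin D.nroots → Fˣ} (hm : Mon hG X k 1 ψ) {r : Fin D.nroots} (hr : ψ r = 1) {x y : E} {t : F}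
    (hx : π x = k) (hy : π y = X r t) : x * y = y * x := by
  have h1 : π (x * x) ∈ Subgroup.center A := by
    rw [map_mul, hx]
    have h2 := hm.mul hm
    rw [mul_one] at h2
    exact mon_central hT h2 (fun z => unit_F3 hF (ψ z))
  have h2 := central_lift hs hc hperf h1 y
  have h3 : π ⁅x, y⁆ = 1 := by
    rw [map_commutatorElement, hx, hy]
    have := hm.act r t
    rw [hr, Units.val_one, one_mul] at this
    rw [commutatorElement_def, this]
    change X r t * (X r t)⁻¹ = 1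
    rw [mul_inv_cancel]
  have h4 : ⁅x, y⁆ ^ 2 = 1 := by
    have h5 : ⁅x * x, y⁆ = (x * ⁅x, y⁆ * x⁻¹) * ⁅x, y⁆ := by simp only [commutatorElement_def]; group
    have h6 : ⁅x * x, y⁆ = 1 := by
      rw [commutatorElement_def, h2]; group
    rw [h6, cen_conj hc h3] at h5
    rw [pow_two, ← h5]
  exact commutatorElement_eq_one_iff_mul_comm.1 (hk _ h3 h4)

omit hk hT hperf in
include hR in
theorem cm_self_F3 {r : ℕ} (hr : r < D.nroots) : Cm X π r r := by
  obtain ⟨g, hg⟩ := hs (X r 1)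
  have key : ∀ (x : E) (t : F), π x = X r t → ∃ (i : ℤ) (κ : E), π κ = 1 ∧ x = g ^ i * κ := by
    intro x t hx
    have h0 : ∃ i : ℤ, X r t = (X r 1) ^ i := by
      rcases hF t with rfl | rfl | rfl
      · exact ⟨0, by rw [zpow_zero, hR.zero hr]⟩
      · exact ⟨1, by rw [zpow_one]⟩
      · exact ⟨-1, by rw [zpow_neg_one, hR.neg hr]⟩
    obtain ⟨i, hi⟩ := h0
    exact ⟨i, (g ^ i)⁻¹ * x, by rw [map_mul, map_inv, map_zpow, hg, hx, hi, inv_mul_cancel], by group⟩
  intro x y t u hx hy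
  obtain ⟨i, κ, hκ, rfl⟩ := key x t hx
  obtain ⟨j, l, hl, rfl⟩ := key y u hy
  have h1 := cen_comm hc hκ
  have h2 := cen_comm hc hl
  calc g ^ i * κ * (g ^ j * l) = g ^ i * (κ * g ^ j) * l := by group
    _ = g ^ i * g ^ j * (κ * l) := by rw [← h1]; group
    _ = g ^ j * g ^ i * (l * κ) := by rw [← zpow_add, add_comm, zpow_add, h1 l]
    _ = g ^ j * (g ^ i * l) * κ := by group
    _ = g ^ j * l * (g ^ i * κ) := by rw [h2]; group

/-- the lift defined by a torus element -/
theorem tor3_indep {h h' : A} {ψ ψ' : Fin D.nroots → Fˣ} (hm : Mon hG X h 1 ψ) (hm' : Mon hG X h' 1 ψ') {r : Fin D.nroots}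
    (h1 : ψ r ≠ 1) (h2 : ψ' r ≠ 1) {x x' y y' : E} {t : F} (hx : π x = h) (hx' : π x' = h') (hy : π y = X r t) (hy' : π y' = X r t) :
    ⁅x, y⁆ = ⁅x', y'⁆ := by
  have hval : ∀ v : Fˣ, v ≠ 1 → v = -1 := by
    intro v hv
    apply Units.ext
    rcases hF v with h | h | h
    · exact absurd h v.ne_zero
    · exact absurd (Units.ext h) hv
    · rw [h]; rfl
  have e1 : ⁅x', y'⁆ = ⁅x', y⁆ := comm_eq_of hc rfl (by rw [hy, hy'])
  rw [e1]
  have hm2 := hm.inv.mul hm'
  have hw : ((1 : hG.W)⁻¹ * 1) = 1 := by group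
  rw [hw] at hm2
  have e2 : x⁻¹ * x' * y = y * (x⁻¹ * x') := by
    refine tor_comm hs hc hF hk hT hperf hm2 (r := r) ?_ (by rw [map_mul, map_inv, hx, hx']) hy
    have h3 : ψ r = -1 := hval _ h1
    have h4 : ψ' r = -1 := hval _ h2
    change (ψ ((1 : hG.W)⁻¹.1 ((1 : hG.W).1 r)))⁻¹ * ψ' r = 1
    have e3 : (1 : hG.W)⁻¹.1 ((1 : hG.W).1 r) = r := by rw [inv_one]; rfl
    rw [e3, h3, h4]
    simp
  have e3 : x' = x * (x⁻¹ * x') := by group
  have e4 : ⁅x * (x⁻¹ * x'), y⁆ = x * ((x⁻¹ * x') * y * (x⁻¹ * x')⁻¹) * x⁻¹ * y⁻¹ := by rw [commutatorElement_def]; group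
  rw [e3, e4, e2, mul_inv_cancel_right, commutatorElement_def]

end

end
end Cfsg.Agent.H6
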