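import Cfsg.Agent.H6.StS

/-!
Torus elements and Weyl words with explicit characters; the torus lifts over the field with three elements.
-/

set_option autoImplicit false
set_option linter.unusedSectionVars false
set_option maxHeartbeats 400000

namespace Cfsg.Agent.H6
open Cfsg.Lie Cfsg.Agent.H15.Chev
open scoped Matrix commutatorElement

section
variable {D : ChevalleyDatum} {N : ℕ} {η : ℕ → ℕ → ℤ} {rc : ℕ → ℕ → ℤ} {F : Type*} [Field F]
  {A : Type*} [Group A] {X : ℕ → F → A} {φ : A →* GL D.Idx F} {E : Type*} [Group E] {π : E →* A} {Y : ℕ → F → E}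

theorem exists_torE (hG : Good D N η rc) (hR : RDC D η X) (c : Fˣ) (e : ℕ → ℕ) : ∀ m ≤ D.rank,
    ∃ h : A, Mon hG X h 1 (fun x => c ^ (((List.range m).map fun k => (e k : ℤ) * D.cartan k x).sum)) := by
  intro m
  induction m with
  | zero =>
    intro _
    refine ⟨1, ?_⟩
    have h : (fun x : Fin D.nroots => c ^ (((List.range 0).map fun k => (e k : ℤ) * D.cartan k x).sum)) = 1 := by
      funext x; simp
    rw [h]
    exact Mon.one
  | succ m ih =>
    intro hm
    obtain ⟨h, hh⟩ := ih (by omega)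
    have h1 := hR.mon_hX_simple hG ⟨m, hm⟩ (c ^ e m)
    have h2 := hh.mul h1
    rw [mul_one] at h2
    refine ⟨h * hX D X (D.simple m) ((c ^ e m : Fˣ) : F), ?_, ?_⟩
    · intro x t
      rw [h2.act x t]
      congr 3
      change c ^ _ * (c ^ e m) ^ D.pairing (D.simple m) x = _
      rw [hG.pairing_simple hm x.2, List.range_succ, List.map_append, List.sum_append, zpow_add]
      congr 1
      rw [List.map_singleton, List.sum_singleton, zpow_mul, zpow_natCast]
    · intro x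
      have : ∀ L : List ℕ, (∀ k ∈ L, k < D.rank) → (L.map fun k => (e k : ℤ) * D.cartan k (D.neg x)).sum =
          -(L.map fun k => (e k : ℤ) * D.cartan k x).sum := by
        intro L
        induction L with
        | nil => intro _; rfl
        | cons k L ih =>
          intro hL
          rw [List.map_cons, List.sum_cons, ih (fun k hk => hL k (List.mem_cons_of_mem _ hk)), List.map_cons, List.sum_cons,
            hG.cartan_neg (hL k List.mem_cons_self) x.2]
          ring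
      change c ^ (((List.range (m + 1)).map fun k => (e k : ℤ) * D.cartan k (D.neg x)).sum) = _
      rw [this _ (fun k hk => by rw [List.mem_range] at hk; omega), zpow_neg]

/-! ### words -/

def runW (P : ℕ) (L : List ℕ) (x : ℕ) : ℕ := List.rec (motive := fun _ => ℕ) x (fun i _ ih => wP P i ih) L
def parW (P E : ℕ) (L : List ℕ) (x : ℕ) : ℕ := List.rec (motive := fun _ => ℕ) 0 (fun i T ih => Nat.add ih (eB E i (runW P T x))) L

theorem mon_word {E₀ P : ℕ} (hG : Good D N (etF E₀) rc) (hw : ∀ i < D.rank, ∀ s < D.nroots, D.reflectRoot i s = wP P i s)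
    (hR : RDC D (etF E₀) X) (L : List ℕ) (hL : ∀ i ∈ L, i < D.rank) :
    ∃ (n : A) (w : hG.W) (χ : Fin D.nroots → Fˣ), Mon hG X n w χ ∧ ∀ x : Fin D.nroots, ((w.1 x : Fin D.nroots) : ℕ) = runW P L x ∧
      ((χ x : Fˣ) : F) = ((sg (parW P E₀ L x) : ℤ) : F) := by
  induction L with
  | nil =>
    refine ⟨1, 1, 1, Mon.one, fun x => ⟨rfl, ?_⟩⟩
    change ((1 : Fˣ) : F) = ((sg 0 : ℤ) : F)
    simp [sg]
  | cons i L ih =>
    obtain ⟨n, w, χ, hm, hx⟩ := ih (fun k hk => hL k (List.mem_cons_of_mem _ hk))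
    have hi := hL i List.mem_cons_self
    have h1 := hR.mon_nX hG ⟨i, hi⟩ 1
    refine ⟨_, _, _, h1.mul hm, fun x => ⟨?_, ?_⟩⟩
    · change D.reflectRoot i (w.1 x) = wP P i (runW P L x)
      rw [hw i hi _ (Fin.is_lt _), (hx x).1]
    · have e1 : parW P E₀ (i :: L) x = parW P E₀ L x + eB E₀ i (runW P L x) := rfl
      rw [e1, sg_add, Units.val_mul, (hx x).2, one_zpow, mul_one, hG.coe_etaU hi (Fin.is_lt _), etF_eq, (hx x).1]
      push_cast
      ring

/-! ### lifts over the field with three elements -/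

/-- the lift defined by a torus element -/
def Y3 (X : ℕ → F → A) (σ : A → E) (hx : Fin D.nroots → A) (r : Fin D.nroots) (t : F) : E := ⁅σ (hx r), σ (X r t)⁆

section
variable {hG : Good D N η rc} (hc : π.ker ≤ Subgroup.center E)
  (hF : ∀ t : F, t = 0 ∨ t = 1 ∨ t = -1) (hk : ∀ k : E, π k = 1 → k ^ 2 = 1 → k = 1)
  (hT : US X {r | r < D.nroots} = ⊤) (hperf : commutator A = ⊤) (hR : RD D X)
  {σ : A → E} (hσ : Function.RightInverse σ π) {hx : Fin D.nroots → A} {ψx : Fin D.nroots → Fin D.nroots → Fˣ}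
  (hmx : ∀ r, Mon hG X (hx r) 1 (ψx r)) {r : Fin D.nroots} (h1 : ψx r r ≠ 1)
include hF hσ hR hmx h1

theorem Y3_map (h3 : (3 : F) = 0) (t : F) : π (Y3 X σ hx r t) = X r t := by
  have hv : ((ψx r r : Fˣ) : F) = -1 := by
    rcases hF (ψx r r) with h | h | h
    · exact absurd h (ψx r r).ne_zero
    · exact absurd (Units.ext h) h1
    · exact h
  unfold Y3
  rw [map_commutatorElement, hσ, hσ, commutatorElement_def, (hmx r).act r t, hv]
  change X r (-1 * t) * (X r t)⁻¹ = X r t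
  rw [← hR.neg r.2, ← hR.add r r.2]
  congr 1
  linear_combination -t * h3

include hc hk hT hperf

theorem Y3_eqv {e : E} {w : hG.W} {χ : Fin D.nroots → Fˣ} (hm : Mon hG X (π e) w χ) (h2 : ψx (w.1 r) (w.1 r) ≠ 1) (t : F) :
    e * Y3 X σ hx r t * e⁻¹ = Y3 X σ hx (w.1 r) ((χ r : F) * t) := by
  unfold Y3
  have e1 : e * ⁅σ (hx r), σ (X r t)⁆ * e⁻¹ = ⁅e * σ (hx r) * e⁻¹, e * σ (X r t) * e⁻¹⁆ := by
    simp only [commutatorElement_def]; group
  rw [e1]
  have hm2 := hm.conj1 (hmx r)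
  have e2 : (w⁻¹).1 (w.1 r) = r := by
    change (w⁻¹ * w).1 r = r
    rw [inv_mul_cancel]; rfl
  exact tor3_indep hσ.surjective hc hF hk hT hperf hm2 (hmx (w.1 r)) (r := w.1 r) (by rw [e2]; exact h1) h2
    (by rw [map_mul, map_mul, map_inv, hσ]) (hσ _) (by rw [map_mul, map_mul, map_inv, hσ, hm.act]) (hσ _)

omit hk hT hperf in
theorem Y3_add (h3 : (3 : F) = 0) (t u : F) : Y3 X σ hx r (t + u) = Y3 X σ hx r t * Y3 X σ hx r u := by
  have hS := cm_self_F3 hσ.surjective hc hF hR r.2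
  have e0 : Y3 X σ hx r (t + u) = ⁅σ (hx r), σ (X r t) * σ (X r u)⁆ :=
    comm_eq_of hc rfl (by rw [hσ, map_mul, hσ, hσ, hR.add r r.2])
  have e1 : ⁅σ (hx r), σ (X r t) * σ (X r u)⁆ = Y3 X σ hx r t * (σ (X r t) * Y3 X σ hx r u * (σ (X r t))⁻¹) := by
    unfold Y3; simp only [commutatorElement_def]; group
  have e2 : σ (X r t) * Y3 X σ hx r u = Y3 X σ hx r u * σ (X r t) :=
    hS _ _ _ _ (hσ _) (Y3_map hF hR hσ hmx h1 h3 u)
  rw [e0, e1, e2, mul_inv_cancel_right]

end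

theorem lf_tor3 (hG : Good D N η rc) (hs : Function.Surjective π) (hc : π.ker ≤ Subgroup.center E) (hF : ∀ t : F, t = 0 ∨ t = 1 ∨ t = -1)
    (h3 : (3 : F) = 0) (hk : ∀ k : E, π k = 1 → k ^ 2 = 1 → k = 1) (hT : US X {r | r < D.nroots} = ⊤) (hperf : commutator A = ⊤)
    (hR : RD D X) (hge : ∀ r, ¬ r < D.nroots → ∀ t, X r t = 1)
    (htor : ∀ r : Fin D.nroots, ∃ (h : A) (ψ : Fin D.nroots → Fˣ), Mon hG X h 1 ψ ∧ ψ r ≠ 1) : ∃ Y : ℕ → F → E, Lf hG X π Y := by
  obtain ⟨σ, hσ⟩ := hs.hasRightInverse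
  choose hx ψx hmx hψ using htor
  classical
  obtain ⟨Y, hY⟩ : ∃ Y : ℕ → F → E, Y = fun r t => if h : r < D.nroots then Y3 X σ hx ⟨r, h⟩ t else 1 := ⟨_, rfl⟩
  have hYlt : ∀ (r : Fin D.nroots) (t : F), Y r t = Y3 X σ hx r t := by
    intro r t; rw [hY]; exact dif_pos r.2
  refine ⟨Y, ?_, ?_, ?_⟩
  · intro r t
    by_cases hr : r < D.nroots
    · rw [hYlt ⟨r, hr⟩, Y3_map hF hR hσ hmx (hψ _) h3]
    · rw [hY]; dsimp only; rw [dif_neg hr, map_one, hge r hr]
  · intro e w χ hm r t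
    rw [hYlt, hYlt]
    exact Y3_eqv hc hF hk hT hperf hR hσ hmx (hψ r) hm (hψ _) t
  · intro r hr t u
    rw [hYlt ⟨r, hr⟩, hYlt ⟨r, hr⟩, hYlt ⟨r, hr⟩]
    exact Y3_add hc hF hR hσ hmx (hψ _) h3 t u

end

/-! ### tables -/

def rawC (CA k v : ℕ) : ℕ := Nat.land (Nat.shiftRight CA (Nat.mul (nat_lit 4) (Nat.add (Nat.mul (nat_lit 256) k) v))) (nat_lit 15)
def dgt (M e k : ℕ) : ℕ := Nat.mod (Nat.div e (Nat.pow M k)) M
def dot1 (M CA e x l : ℕ) : ℕ := Nat.rec (motive := fun _ => ℕ) 0 (fun k ih => Nat.add ih (Nat.mul (dgt M e k) (rawC CA k x))) l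
def dot0 (M e l : ℕ) : ℕ := Nat.rec (motive := fun _ => ℕ) 0 (fun k ih => Nat.add ih (Nat.mul (dgt M e k) (nat_lit 8))) l
def trivB (M CA l e x : ℕ) : Bool := Nat.beq (Nat.mod (dot1 M CA e x l) M) (Nat.mod (dot0 M e l) M)
def torB (M CA l r s : ℕ) : Bool := anyB (Nat.pow M l) fun e => cond (trivB M CA l e r) (cond (trivB M CA l e s) false true) false

theorem rawC_eq (CA k v : ℕ) : cA CA k v = (rawC CA k v : ℤ) - 8 := rfl

theorem dot_eq (M CA e x l : ℕ) : (((List.range l).map fun k => (dgt M e k : ℤ) * cA CA k x).sum) = (dot1 M CA e x l : ℤ) - (dot0 M e l : ℤ) := by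
  induction l with
  | zero => rfl
  | succ l ih =>
    rw [List.range_succ, List.map_append, List.sum_append, ih]
    have e1 : dot1 M CA e x (l + 1) = dot1 M CA e x l + dgt M e l * rawC CA l x := rfl
    have e2 : dot0 M e (l + 1) = dot0 M e l + dgt M e l * 8 := rfl
    rw [e1, e2, List.map_singleton, List.sum_singleton, rawC_eq]
    push_cast
    ring

theorem triv_iff (M CA l e x : ℕ) : trivB M CA l e x = true ↔ (M : ℤ) ∣ (((List.range l).map fun k => (dgt M e k : ℤ) * cA CA k x).sum) := by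
  rw [dot_eq]
  unfold trivB
  rw [Nat.beq_eq]
  change dot1 M CA e x l % M = dot0 M e l % M ↔ _
  constructor
  · intro h
    have : dot0 M e l ≡ dot1 M CA e x l [MOD M] := h.symm
    exact (Nat.modEq_iff_dvd.1 this)
  · intro h
    exact (Nat.modEq_iff_dvd.2 h).symm

section
variable {D : ChevalleyDatum} {W N : ℕ} {G : List (List ℕ)} {S P E₀ CA CO MO : ℕ} {F : Type*} [Field F]
  {A : Type*} [Group A] {X : ℕ → F → A}

theorem tor_of_chk (h : Chk D D.rank D.nroots W N G S P E₀ CA CO MO) (hR : RDC D (etF E₀) X) {M : ℕ} {c : Fˣ}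
    (hc : ∀ n : ℤ, c ^ n = 1 ↔ (M : ℤ) ∣ n) {r s : Fin D.nroots} (h1 : torB M CA D.rank r s = true) :
    ∃ (g : A) (ψ : Fin D.nroots → Fˣ), Mon h.good X g 1 ψ ∧ ψ r = 1 ∧ ψ s ≠ 1 := by
  obtain ⟨e, _, h2⟩ := anyB_spec h1
  obtain ⟨h3, h4⟩ := cond3 h2
  obtain ⟨g, hg⟩ := exists_torE h.good hR c (dgt M e) D.rank le_rfl
  have hcart : ∀ x : Fin D.nroots, ((List.range D.rank).map fun k => (dgt M e k : ℤ) * D.cartan k x).sum =
      ((List.range D.rank).map fun k => (dgt M e k : ℤ) * cA CA k x).sum := by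
    intro x
    congr 1
    apply List.map_congr_left
    intro k hk
    rw [List.mem_range] at hk
    rw [chkCartan_spec h.cartan, caF_lt hk x.2]
  refine ⟨g, _, hg, ?_, ?_⟩
  · rw [hcart, hc]
    exact (triv_iff _ _ _ _ _).1 h3
  · rw [hcart, Ne, hc, ← triv_iff]
    intro h5
    rw [h5] at h4
    exact absurd h4 (by simp)

theorem tor1_of_chk (h : Chk D D.rank D.nroots W N G S P E₀ CA CO MO) (hR : RDC D (etF E₀) X) {M : ℕ} {c : Fˣ}
    (hc : ∀ n : ℤ, c ^ n = 1 ↔ (M : ℤ) ∣ n) {r : Fin D.nroots}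
    (h1 : anyB (Nat.pow M D.rank) (fun e => cond (trivB M CA D.rank e r) false true) = true) :
    ∃ (g : A) (ψ : Fin D.nroots → Fˣ), Mon h.good X g 1 ψ ∧ ψ r ≠ 1 := by
  obtain ⟨e, _, h4⟩ := anyB_spec h1
  obtain ⟨g, hg⟩ := exists_torE h.good hR c (dgt M e) D.rank le_rfl
  have hcart : ∀ x : Fin D.nroots, ((List.range D.rank).map fun k => (dgt M e k : ℤ) * D.cartan k x).sum =
      ((List.range D.rank).map fun k => (dgt M e k : ℤ) * cA CA k x).sum := by
    intro x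
    congr 1
    apply List.map_congr_left
    intro k hk
    rw [List.mem_range] at hk
    rw [chkCartan_spec h.cartan, caF_lt hk x.2]
  refine ⟨g, _, hg, ?_⟩
  rw [hcart, Ne, hc, ← triv_iff]
  intro h5
  rw [h5] at h4
  exact absurd h4 (by simp)

end
end Cfsg.Agent.H6
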