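import Cfsg.Agent.H6.StT

/-!
Lifting over the fields with three and four elements.
-/

set_option autoImplicit false
set_option linter.unusedSectionVars false
set_option maxHeartbeats 400000

namespace Cfsg.Agent.H6
open Cfsg.Lie Cfsg.Agent.H15.Chev
open scoped Matrix commutatorElement

/-- vanishing coefficients -/
def ZC (D : ChevalleyDatum) (F : Type*) [Field F] (r d : ℕ) : Prop := ∀ c ∈ D.commTerms r d, ((c.2.1 : ℤ) : F) = 0

/-- pair condition -/
def SelfPair2 (D : ChevalleyDatum) (F : Type*) [Field F] (r : ℕ) : Prop :=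
  ∃ a < D.nroots, ∃ b < D.nroots, b ≠ a ∧ b ≠ D.neg a ∧ (a ≠ r ∧ a ≠ D.neg r ∧ ZC D F r a) ∧
    (b ≠ r ∧ b ≠ D.neg r ∧ ZC D F r b) ∧
    ∃ (L₁ : List (ℕ × ℤ × ℕ × ℕ)) (c : ℕ × ℤ × ℕ × ℕ) (L₂ : List (ℕ × ℤ × ℕ × ℕ)), D.commTerms a b = L₁ ++ c :: L₂ ∧
      c.1 = r ∧ (c.2.1 = 1 ∨ c.2.1 = -1) ∧ (c.2.2.1 = 1 ∨ c.2.2.2 = 1) ∧
      (∀ d ∈ L₁, d.1 ≠ r ∧ d.1 ≠ D.neg r ∧ ZC D F r d.1) ∧ (∀ d ∈ L₂, d.1 ≠ r ∧ d.1 ≠ D.neg r ∧ ZC D F r d.1)

theorem SelfPair.to2 {D : ChevalleyDatum} {F : Type*} [Field F] {r : ℕ} (h : SelfPair D r) : SelfPair2 D F r := by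
  have key : ∀ d, D.commTerms r d = [] → ZC D F r d := by
    intro d hd c hc
    rw [hd] at hc
    exact absurd hc List.not_mem_nil
  obtain ⟨a, ha, b, hb, h1, h2, ⟨h3, h4, h5⟩, ⟨h6, h7, h8⟩, L₁, c, L₂, h9, h10, h11, h12, h13, h14⟩ := h
  exact ⟨a, ha, b, hb, h1, h2, ⟨h3, h4, key _ h5⟩, ⟨h6, h7, key _ h8⟩, L₁, c, L₂, h9, h10, h11, h12,
    fun d hd => ⟨(h13 d hd).1, (h13 d hd).2.1, key _ (h13 d hd).2.2⟩, fun d hd => ⟨(h14 d hd).1, (h14 d hd).2.1, key _ (h14 d hd).2.2⟩⟩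

section
variable {D : ChevalleyDatum} {N : ℕ} {η : ℕ → ℕ → ℤ} {rc : ℕ → ℕ → ℤ} {F : Type*} [Field F]
  {A : Type*} [Group A] {X : ℕ → F → A} {φ : A →* GL D.Idx F} {E : Type*} [Group E] {π : E →* A}
  (hG : Good D N η rc) (hs : Function.Surjective π) (hc : π.ker ≤ Subgroup.center E)
include hG hs hc

theorem cm_self_of_pair2 (hI : InvTriv hG X π) (hRD : RD D X) {r : ℕ} (hr : r < D.nroots) (h : SelfPair2 D F r) : Cm X π r r := by
  obtain ⟨a, ha, b, hb, hba, hba', hra, hrb, L₁, e, L₂, hL, he1, heC, hekl, hL₁, hL₂⟩ := h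
  have hcm : ∀ d, d < D.nroots → (d ≠ r ∧ d ≠ D.neg r ∧ ZC D F r d) → Cm X π r d := by
    rintro d hd ⟨h1, h2, h3⟩
    refine cm_of_comm hG hs hc hI hRD ⟨r, hr⟩ ⟨d, hd⟩ (fun h => h1 (congrArg Fin.val h)) (fun h => h2 (congrArg Fin.val h)) ?_
    intro t u
    have h4 := hRD.comm r hr d hd h1 h2 t u
    have h5 : xw X (D.commWord F r d t u) = 1 := by
      unfold ChevalleyDatum.commWord xw
      apply List.prod_eq_one
      intro x hx
      rw [List.mem_map] at hx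
      obtain ⟨p, hp, rfl⟩ := hx
      rw [List.mem_map] at hp
      obtain ⟨c, hc', rfl⟩ := hp
      dsimp only
      rw [h3 c hc', zero_mul, zero_mul, hRD.zero (hG.commTerms_spec hr hd c hc').1]
    rw [h5, mul_one] at h4
    exact h4.symm
  intro x y t u hx hy
  obtain ⟨p, q, hpq⟩ : ∃ p q : F, (e.2.1 : F) * (-p) ^ e.2.2.1 * q ^ e.2.2.2 = t := by
    have hCC : (e.2.1 : F) * (e.2.1 : F) = 1 := by rcases heC with h | h <;> rw [h] <;> norm_num
    rcases hekl with h | h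
    · refine ⟨-((e.2.1 : F) * t), 1, ?_⟩
      rw [h, pow_one, one_pow, neg_neg, mul_one, ← mul_assoc, hCC, one_mul]
    · refine ⟨-1, (e.2.1 : F) * t, ?_⟩
      rw [h, pow_one, neg_neg, one_pow, mul_one, ← mul_assoc, hCC, one_mul]
  -- the image of the centraliser
  set K : Subgroup A := (Subgroup.centralizer {y}).map π with hK
  have hKm : ∀ d, d < D.nroots → (d ≠ r ∧ d ≠ D.neg r ∧ ZC D F r d) → ∀ v : F, X d v ∈ K := by
    intro d hd h1 v
    obtain ⟨z, hz⟩ := hs (X d v)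
    refine ⟨z, ?_, hz⟩
    rw [SetLike.mem_coe, Subgroup.mem_centralizer_singleton_iff]
    exact (hcm d hd h1 y z u v hy hz).symm
  have hmem : ∀ d, d ∈ L₁ ∨ d ∈ L₂ → d ∈ D.commTerms a b := by
    intro d hd
    rw [hL, List.mem_append, List.mem_cons]
    rcases hd with h | h
    · exact Or.inl h
    · exact Or.inr (Or.inr h)
  have hxw : ∀ L : List (ℕ × ℤ × ℕ × ℕ), (∀ d ∈ L, d ∈ D.commTerms a b) →
      (∀ d ∈ L, d.1 ≠ r ∧ d.1 ≠ D.neg r ∧ ZC D F r d.1) →
      xw X (L.map fun c => (c.1, (c.2.1 : F) * (-p) ^ c.2.2.1 * q ^ c.2.2.2)) ∈ K := by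
    intro L h1 h2
    apply xw_mem
    intro c hc'
    rw [List.mem_map] at hc'
    obtain ⟨d, hd, rfl⟩ := hc'
    exact hKm d.1 (hG.commTerms_spec ha hb d (h1 d hd)).1 (h2 d hd) _
  have h5 := hRD.comm a ha b hb hba hba' p q
  have h6 : xw X (D.commWord F a b p q) ∈ K := by
    have : xw X (D.commWord F a b p q) = (X a p * X b q)⁻¹ * (X b q * X a p) := by rw [h5]; group
    rw [this]
    exact mul_mem (inv_mem (mul_mem (hKm a ha hra p) (hKm b hb hrb q))) (mul_mem (hKm b hb hrb q) (hKm a ha hra p))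
  unfold ChevalleyDatum.commWord at h6
  rw [hL, List.map_append, List.map_cons] at h6
  have hsplit : ∀ (M₁ M₂ : List (ℕ × F)) (p : ℕ × F), xw X (M₁ ++ p :: M₂) = xw X M₁ * (X p.1 p.2 * xw X M₂) := by
    intro M₁ M₂ p
    unfold xw
    rw [List.map_append, List.prod_append, List.map_cons, List.prod_cons]
  rw [hsplit] at h6
  dsimp only at h6
  rw [he1, hpq] at h6
  have h7 := hxw L₁ (fun d hd => hmem d (Or.inl hd)) hL₁
  have h8 := hxw L₂ (fun d hd => hmem d (Or.inr hd)) hL₂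
  have h9 : X r t ∈ K := by
    have h10 := mul_mem (mul_mem (inv_mem h7) h6) (inv_mem h8)
    have : (xw X (L₁.map fun c => (c.1, (c.2.1 : F) * (-p) ^ c.2.2.1 * q ^ c.2.2.2)))⁻¹ *
        (xw X (L₁.map fun c => (c.1, (c.2.1 : F) * (-p) ^ c.2.2.1 * q ^ c.2.2.2)) *
        (X r t * xw X (L₂.map fun c => (c.1, (c.2.1 : F) * (-p) ^ c.2.2.1 * q ^ c.2.2.2)))) *
        (xw X (L₂.map fun c => (c.1, (c.2.1 : F) * (-p) ^ c.2.2.1 * q ^ c.2.2.2)))⁻¹ = X r t := by group
    rw [this] at h10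
    exact h10
  obtain ⟨x', hx', hxx'⟩ := h9
  rw [SetLike.mem_coe, Subgroup.mem_centralizer_singleton_iff] at hx'
  obtain ⟨κ, hκ, rfl⟩ : ∃ κ, π κ = 1 ∧ x = x' * κ := ⟨x'⁻¹ * x, by rw [map_mul, map_inv, hxx', hx, inv_mul_cancel], by group⟩
  have h10 := cen_comm hc hκ
  calc x' * κ * y = x' * (κ * y) := by group
    _ = (x' * y) * κ := by rw [← h10 y]; group
    _ = y * (x' * κ) := by rw [hx']; group


end

section
variable {D : ChevalleyDatum} {N : ℕ} {η : ℕ → ℕ → ℤ} {rc : ℕ → ℕ → ℤ} {F : Type*} [Field F]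
  {A : Type*} [Group A] {X : ℕ → F → A} {φ : A →* GL D.Idx F} {E : Type*} [Group E] {π : E →* A}

/-- lifting from torus elements and self-commutation -/
theorem lift_tor (hO : Ov D X φ) (hG : Good D N η rc) (hE : Ext D rc) (hC : CWt D η)
    (hP : ∀ i < D.rank, PairOK D (D.simple i) ∧ PairOK D (D.neg (D.simple i)))
    (htor : ∀ r s : Fin D.nroots, s ≠ r → s ≠ hG.ngf r → ∃ (h : A) (ψ : Fin D.nroots → Fˣ), Mon hG X h 1 ψ ∧ ψ r = 1 ∧ ψ s ≠ 1)
    (hSc : ∀ i < D.rank, SelfPair2 D F (D.simple i))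
    (hT : US X {r | r < D.nroots} = ⊤) (hge : ∀ r, ¬ r < D.nroots → ∀ t, X r t = 1)
    (hs : Function.Surjective π) (hc : π.ker ≤ Subgroup.center E) {a : Fˣ} (ha : (a : F) ^ 2 - 1 ≠ 0) :
    ∃ Y : ℕ → F → E, RD D Y ∧ ∀ r t, π (Y r t) = X r t := by
  have hR := hO.rdc hG hE hC hP
  have hI : InvTriv hG X π := invTriv_of_tor hG htor
  have hS := cm_self_all hG hR hs hc (fun i hi => cm_self_of_pair2 hG hs hc hI hR.toRD (hG.simple_lt i hi) (hSc i hi))
  obtain ⟨σ, hσ⟩ := hs.hasRightInverse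
  have hL := lf_tor hσ hc hO hR hG hE hT hge ha hS
  exact ⟨_, hL.rd hO hE hc hs hI hR hC, hL.map⟩

end

/-! ### fields with three and four elements -/
section
variable {K : Type*} [Field K]

theorem field3 (h : Nat.card K = 3) : (∀ t : K, t = 0 ∨ t = 1 ∨ t = -1) ∧ (3 : K) = 0 ∧ ringChar K = 3 ∧
    ∀ n : ℤ, (-1 : Kˣ) ^ n = 1 ↔ ((2 : ℕ) : ℤ) ∣ n := by
  classical
  haveI : Finite K := Nat.finite_of_card_ne_zero (by omega)
  haveI := Fintype.ofFinite K
  have hc : Fintype.card K = 3 := by rw [← Nat.card_eq_fintype_card, h]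
  have h3 : (3 : K) = 0 := by
    have := FiniteField.cast_card_eq_zero K
    rw [hc] at this
    exact_mod_cast this
  have hchar : ringChar K = 3 := by
    have h1 : ringChar K ∣ 3 := ringChar.dvd (by exact_mod_cast h3)
    rcases (Nat.dvd_prime Nat.prime_three).1 h1 with h2 | h2
    · haveI : CharP K (ringChar K) := ringChar.charP K
      exact absurd h2 CharP.ringChar_ne_one
    · exact h2
  have h21 : (1 : K) ≠ -1 := by
    intro h1
    have h2 : (2 : K) = 0 := by linear_combination h1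
    have h4 : (1 : K) = 0 := by linear_combination h3 - h2
    exact one_ne_zero h4
  have hcard : ({0, 1, -1} : Finset K).card = 3 := by
    rw [Finset.card_insert_of_notMem, Finset.card_insert_of_notMem, Finset.card_singleton]
    · rw [Finset.mem_singleton]; exact h21
    · rw [Finset.mem_insert, Finset.mem_singleton]
      rintro (h1 | h1)
      · exact zero_ne_one h1
      · exact one_ne_zero (neg_eq_zero.1 h1.symm)
  have huniv : ({0, 1, -1} : Finset K) = Finset.univ := by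
    apply Finset.eq_univ_of_card
    rw [hcard, hc]
  refine ⟨fun t => ?_, h3, hchar, fun n => ?_⟩
  · have : t ∈ ({0, 1, -1} : Finset K) := by rw [huniv]; exact Finset.mem_univ t
    simpa using this
  · rcases Int.even_or_odd' n with ⟨m, rfl | rfl⟩
    · rw [zpow_mul]
      have : ((-1 : Kˣ) ^ (2 : ℤ)) = 1 := by norm_num
      rw [this, one_zpow]
      simp
    · rw [zpow_add, zpow_mul]
      have : ((-1 : Kˣ) ^ (2 : ℤ)) = 1 := by norm_num
      rw [this, one_zpow, one_mul, zpow_one]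
      constructor
      · intro h1
        exact absurd (by simpa using (congrArg Units.val h1).symm) h21
      · rintro ⟨k, hk⟩
        push_cast at hk
        omega

theorem field4 (h : Nat.card K = 4) : ringChar K = 2 ∧ (2 : K) = 0 ∧ ∃ c : Kˣ, (∀ n : ℤ, c ^ n = 1 ↔ ((3 : ℕ) : ℤ) ∣ n) ∧ (c : K) ^ 2 - 1 ≠ 0 := by
  classical
  haveI : Finite K := Nat.finite_of_card_ne_zero (by omega)
  haveI := Fintype.ofFinite K
  have hc : Fintype.card K = 4 := by rw [← Nat.card_eq_fintype_card, h]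
  have h4 : (4 : K) = 0 := by
    have := FiniteField.cast_card_eq_zero K
    rw [hc] at this
    exact_mod_cast this
  have h2 : (2 : K) = 0 := by
    have h5 : (2 : K) * 2 = 0 := by linear_combination h4
    exact (mul_self_eq_zero.1 h5)
  have hchar : ringChar K = 2 := by
    have h1 : ringChar K ∣ 2 := ringChar.dvd (by exact_mod_cast h2)
    rcases (Nat.dvd_prime Nat.prime_two).1 h1 with h3 | h3
    · haveI : CharP K (ringChar K) := ringChar.charP K
      exact absurd h3 CharP.ringChar_ne_one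
    · exact h3
  obtain ⟨c, hcg⟩ := IsCyclic.exists_generator (α := Kˣ)
  have hu : Nat.card Kˣ = 3 := by rw [Nat.card_units, h]
  have ho : orderOf c = 3 := by rw [orderOf_eq_card_of_forall_mem_zpowers hcg, hu]
  have hiff : ∀ n : ℤ, c ^ n = 1 ↔ ((3 : ℕ) : ℤ) ∣ n := by
    intro n
    rw [← ho, orderOf_dvd_iff_zpow_eq_one]
  refine ⟨hchar, h2, c, hiff, ?_⟩
  intro h5
  have h6 : c ^ (2 : ℤ) = 1 := by
    apply Units.ext
    have h7 : (c : K) ^ 2 = 1 := by linear_combination h5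
    rw [Units.val_one, ← h7]
    norm_cast
  rw [hiff] at h6
  norm_num at h6

end

/-! ### tables -/

def chkT4 (l n CA : ℕ) : Bool := allB n fun r => allB n fun s => cond (Nat.beq s r) true (cond (Nat.beq s (ngI n r)) true (torB (nat_lit 3) CA l r s))

def memB (L : List (ℕ × ℕ × List ℕ)) (r s : ℕ) : Bool :=
  List.rec (motive := fun _ => Bool) false (fun e _ ih => cond (Nat.beq e.1 r) (cond (Nat.beq e.2.1 s) true ih) ih) L

theorem memB_spec {L : List (ℕ × ℕ × List ℕ)} {r s : ℕ} (h : memB L r s = true) : ∃ w, (r, s, w) ∈ L := by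
  induction L with
  | nil => exact absurd h (by simp [memB])
  | cons e L ih =>
    change cond (Nat.beq e.1 r) (cond (Nat.beq e.2.1 s) true (memB L r s)) (memB L r s) = true at h
    cases h1 : Nat.beq e.1 r with
    | false =>
      rw [h1, cond_false] at h
      obtain ⟨w, hw⟩ := ih h
      exact ⟨w, List.mem_cons_of_mem _ hw⟩
    | true =>
      rw [h1, cond_true] at h
      cases h2 : Nat.beq e.2.1 s with
      | false =>
        rw [h2, cond_false] at h
        obtain ⟨w, hw⟩ := ih h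
        exact ⟨w, List.mem_cons_of_mem _ hw⟩
      | true =>
        refine ⟨e.2.2, ?_⟩
        rw [← Nat.eq_of_beq_eq_true h1, ← Nat.eq_of_beq_eq_true h2]
        exact List.mem_cons_self

def chkT3 (l n N CA : ℕ) (L : List (ℕ × ℕ × List ℕ)) : Bool :=
  allB n fun r => cond (Nat.ble N r) (allB n fun s => cond (Nat.ble (Nat.succ r) s) (cond (torB (nat_lit 2) CA l r s) true (memB L r s)) true) true

def chkM3 (l n CA : ℕ) : Bool := allB n fun r => anyB (Nat.pow (nat_lit 2) l) (fun e => cond (trivB (nat_lit 2) CA l e r) false true)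

def swB (D : ChevalleyDatum) (l P E : ℕ) (e : ℕ × ℕ × List ℕ) : Bool :=
  Nat.beq (runW P e.2.2 e.1) e.2.1 && (Nat.beq (runW P e.2.2 e.2.1) e.1 &&
    (Nat.beq (Nat.mod (Nat.add (parW P E e.2.2 e.1) (parW P E e.2.2 e.2.1)) (nat_lit 2)) (nat_lit 0) &&
    (decide (D.commTerms e.1 e.2.1 = []) && e.2.2.all (fun i => Nat.ble (Nat.succ i) l))))

end Cfsg.Agent.H6
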