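import Cfsg.Agent.H6.StU

/-!
Lifting over the fields with three and four elements: from the tables.
-/

set_option autoImplicit false
set_option linter.unusedSectionVars false
set_option maxHeartbeats 400000

namespace Cfsg.Agent.H6
open Cfsg.Lie Cfsg.Agent.H15.Chev Cfsg.Agent.H15.PExtN
open scoped Matrix commutatorElement

universe u

section
variable {D : ChevalleyDatum} {W N : ℕ} {G : List (List ℕ)} {S P E₀ CA CO MO : ℕ} {F : Type*} [Field F]
  {A : Type*} [Group A] {X : ℕ → F → A} {φ : A →* GL D.Idx F} {E : Type*} [Group E] {π : E →* A}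

theorem Chk.hw2 (h : Chk D D.rank D.nroots W N G S P E₀ CA CO MO) : ∀ i < D.rank, ∀ s < D.nroots, D.reflectRoot i s = wP P i s := by
  have hneg := chkNeg_spec h.neg
  have hsimple := chkSimple_spec h.simple
  have hcartan := chkCartan_spec h.cartan
  obtain ⟨hkeys, hchain⟩ := chkChain_spec h.chain
  intro i hi s hs
  rw [reflectRoot_eq, hneg, hsimple, hcartan, hchain]
  exact Nat.eq_of_beq_eq_true (allB_spec (allB_spec h.reflect i hi) s hs)

theorem tor4_of_chk (h : Chk D D.rank D.nroots W N G S P E₀ CA CO MO) (hR : RDC D (etF E₀) X) {c : Fˣ}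
    (hc : ∀ n : ℤ, c ^ n = 1 ↔ ((3 : ℕ) : ℤ) ∣ n) (h1 : chkT4 D.rank D.nroots CA = true) (r s : Fin D.nroots) (h2 : s ≠ r)
    (h3 : s ≠ h.good.ngf r) : ∃ (g : A) (ψ : Fin D.nroots → Fˣ), Mon h.good X g 1 ψ ∧ ψ r = 1 ∧ ψ s ≠ 1 := by
  have h4 := allB_spec (allB_spec h1 r r.2) s s.2
  have hneg := chkNeg_spec h.neg
  have e : D.neg r = ngI D.nroots r := by rw [hneg, ngF_lt r.2]; rfl
  rw [bneg (fun he => h2 (Fin.ext he)), cond_false, bneg (fun he => h3 (Fin.ext (by rw [he, ← e]; rfl))), cond_false] at h4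
  exact tor_of_chk h hR hc h4

/-- commuting lifts from a Weyl word -/
theorem cm_of_word (h : Chk D D.rank D.nroots W N G S P E₀ CA CO MO) (hR : RDC D (etF E₀) X) (hs : Function.Surjective π)
    (hc : π.ker ≤ Subgroup.center E) (hF : ∀ t : F, t = 0 ∨ t = 1 ∨ t = -1) (hk : ∀ k : E, π k = 1 → k ^ 2 = 1 → k = 1)
    {r s : Fin D.nroots} {L : List ℕ} (hsw : swB D D.rank P E₀ (r, s, L) = true) (h1 : s ≠ r) (h2 : s ≠ h.good.ngf r) :
    D.commTerms r s = [] ∧ Cm X π r s := by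
  unfold swB at hsw
  simp only [Bool.and_eq_true, decide_eq_true_eq, List.all_eq_true] at hsw
  obtain ⟨g1, g2, g3, g4, g5⟩ := hsw
  obtain ⟨n, w, χ, hm, hx⟩ := mon_word h.good h.hw2 hR L (fun i hi => ble_lt (g5 i hi))
  refine ⟨g4, ?_⟩
  refine cm_of_swap hs hc hR.toRD hF hk (n := n) (w := w) (χ := χ) ?_ hm ?_ ?_ ?_
  · intro t u
    have h3 := hR.comm r r.2 s s.2 (fun he => h1 (Fin.ext he)) (fun he => h2 (Fin.ext he)) t u
    unfold ChevalleyDatum.commWord xw at h3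
    rw [g4] at h3
    simp only [List.map_nil, List.prod_nil, mul_one] at h3
    exact h3.symm
  · exact Fin.ext (by rw [(hx r).1]; exact Nat.eq_of_beq_eq_true g1)
  · exact Fin.ext (by rw [(hx s).1]; exact Nat.eq_of_beq_eq_true g2)
  · apply Units.ext
    rw [Units.val_mul, (hx r).2, (hx s).2, Units.val_one, ← Int.cast_mul, ← sg_add]
    have h3 : (parW P E₀ L r + parW P E₀ L s) % 2 = 0 := Nat.eq_of_beq_eq_true g3
    unfold sg
    rw [if_pos h3, Int.cast_one]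

/-- lifting over the field with three elements -/
theorem lift_q3 (h : Chk D D.rank D.nroots W N G S P E₀ CA CO MO) (hE : Ext D (cO MO)) (hC : CWt D (etF E₀))
    (hP : ∀ i < D.rank, PairOK D (D.simple i) ∧ PairOK D (D.neg (D.simple i))) (hO : Ov D X φ)
    (hs : Function.Surjective π) (hc : π.ker ≤ Subgroup.center E) (hF : ∀ t : F, t = 0 ∨ t = 1 ∨ t = -1) (h3 : (3 : F) = 0)
    (hm1 : ∀ n : ℤ, (-1 : Fˣ) ^ n = 1 ↔ ((2 : ℕ) : ℤ) ∣ n)
    (hk : ∀ k : E, π k = 1 → k ^ 2 = 1 → k = 1) (hT : US X {r | r < D.nroots} = ⊤) (hperf : commutator A = ⊤)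
    (hge : ∀ r, ¬ r < D.nroots → ∀ t, X r t = 1) {L : List (ℕ × ℕ × List ℕ)}
    (t1 : chkM3 D.rank D.nroots CA = true) (t2 : chkT3 D.rank D.nroots N CA L = true) (t3 : ∀ e ∈ L, swB D D.rank P E₀ e = true) :
    ∃ Y : ℕ → F → E, RD D Y ∧ ∀ r t, π (Y r t) = X r t := by
  have hG := h.good
  have hR := hO.rdc hG hE hC hP
  obtain ⟨Y, hL⟩ := lf_tor3 hG hs hc hF h3 hk hT hperf hR.toRD hge (fun r => tor1_of_chk h hR hm1 (allB_spec t1 r r.2))
  refine ⟨Y, hL.rdP hO hE hc hs ?_ hR hC, hL.map⟩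
  intro r s hr hrs
  have h4 := allB_spec t2 r r.2
  rw [ble_true hr, cond_true] at h4
  have h5 := allB_spec h4 s s.2
  rw [ble_true (show (r : ℕ) + 1 ≤ s by omega), cond_true] at h5
  rcases cond4 h5 with h6 | h6
  · left; exact invP_of_tor hG (tor_of_chk h hR hm1 h6)
  · right
    obtain ⟨w, hw⟩ := memB_spec h6
    obtain ⟨g1, g2⟩ := cm_of_word h hR hs hc hF hk (t3 _ hw) (fun he => by rw [he] at hrs; omega)
      (fun he => hG.ne_neg_of_pos r.2 hr (show N ≤ (s : ℕ) by omega) (congrArg Fin.val he))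
    exact relY_of_cm hL.map g1 g2

end

section
variable {D : ChevalleyDatum} {W N : ℕ} {G : List (List ℕ)} {S P E₀ CA CO MO : ℕ} {K : Type u} [Field K]

theorem closed_q34' (h : Chk D D.rank D.nroots W N G S P E₀ CA CO MO) (hE : Ext D (cO MO)) (hC : CWt D (etF E₀))
    (hP : ∀ i < D.rank, PairOK D (D.simple i) ∧ PairOK D (D.neg (D.simple i)))
    (hPB : PB D) (hSc : ∀ i < D.rank, ScOK D (D.simple i) ∨ SelfPair D (D.simple i)) [Finite K]
    (hperf : RDC D (etF E₀) (sX D K) → US (sX D K) {r | r < D.nroots} = ⊤ → commutator (D.SteinbergCover K) = ⊤)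
    (hK : 3 ≤ Nat.card K) (h4a : chkT4 D.rank D.nroots CA = true) (h4b : (2 : K) = 0 → ∀ i < D.rank, SelfPair2 D K (D.simple i))
    {L : List (ℕ × ℕ × List ℕ)} (t1 : chkM3 D.rank D.nroots CA = true) (t2 : chkT3 D.rank D.nroots N CA L = true)
    (t3 : ∀ e ∈ L, swB D D.rank P E₀ e = true) :
    Finite (D.SteinbergCover K) ∧ commutator (D.SteinbergCover K) = ⊤ ∧ Cfsg.HasCyclicSchurMultiplier (D.SteinbergCover K) 1 := by
  have hG := h.good
  obtain ⟨θ, hθ⟩ := exists_theta' (K := K) hG hE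
  have hO := sc_ov hG hθ
  have hR := sc_rdc hG hE hC hP hθ
  refine sc_closed hG hE hC hP hPB hSc hperf ?_
  intro hcard E _ _ τ z hz
  have hc := PExt_ker_le hz
  have h34 : Nat.card K = 3 ∨ Nat.card K = 4 := by omega
  rcases h34 with h3 | h4
  · obtain ⟨q1, q2, q3, q4⟩ := field3 h3
    refine lift_q3 h hE hC hP hO hz.surj hc q1 q2 q4 ?_ US_sX (hperf hR US_sX) sX_of_ge t1 t2 t3
    intro k hk hk2
    obtain ⟨n, rfl⟩ := hz.eq_zpow hk
    have h5 : (z ^ n) ^ 3 = 1 := by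
      rw [← zpow_natCast, ← zpow_mul, mul_comm, zpow_mul, zpow_natCast]
      have := hz.zp
      rw [q3] at this
      rw [this, one_zpow]
    calc z ^ n = (z ^ n) ^ 3 * ((z ^ n) ^ 2)⁻¹ := by rw [pow_succ' (z ^ n) 2]; group
      _ = 1 := by rw [h5, hk2]; group
  · obtain ⟨q1, q2, c, q3, q4⟩ := field4 h4
    exact lift_tor hO hG hE hC hP (tor4_of_chk h hR q3 h4a) (h4b q2) US_sX sX_of_ge hz.surj hc q4

end

section
variable {D : ChevalleyDatum} {l n W N : ℕ} {G : List (List ℕ)} {S P E₀ CA CO MO : ℕ} {K : Type u} [Field K]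

theorem closed_q34 (h : Chk D l n W N G S P E₀ CA CO MO) (hE : Ext D (cO MO)) (hC : CWt D (etF E₀))
    (hP : ∀ i < D.rank, PairOK D (D.simple i) ∧ PairOK D (D.neg (D.simple i)))
    (hPB : PB D) (hSc : ∀ i < D.rank, ScOK D (D.simple i) ∨ SelfPair D (D.simple i)) [Finite K]
    (hperf : RDC D (etF E₀) (sX D K) → US (sX D K) {r | r < D.nroots} = ⊤ → commutator (D.SteinbergCover K) = ⊤)
    (hK : 3 ≤ Nat.card K) (h4a : chkT4 l n CA = true) (h4b : (2 : K) = 0 → ∀ i < D.rank, SelfPair2 D K (D.simple i))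
    {L : List (ℕ × ℕ × List ℕ)} (t1 : chkM3 l n CA = true) (t2 : chkT3 l n N CA L = true)
    (t3 : ∀ e ∈ L, swB D l P E₀ e = true) :
    Finite (D.SteinbergCover K) ∧ commutator (D.SteinbergCover K) = ⊤ ∧ Cfsg.HasCyclicSchurMultiplier (D.SteinbergCover K) 1 := by
  obtain rfl := h.rank
  obtain rfl := h.nroots
  exact closed_q34' h hE hC hP hPB hSc hperf hK h4a h4b t1 t2 t3

end
end Cfsg.Agent.H6
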