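import Cfsg.Agent.H6.StVTab

/-!
The group of type B2 over the field with three elements.
-/

set_option autoImplicit false
set_option linter.unusedSectionVars false
set_option maxHeartbeats 400000
set_option maxRecDepth 100000

namespace Cfsg.Agent.H6
open Cfsg.Lie Cfsg.Agent.H15.Chev Cfsg.Agent.H15.PExtN
open scoped Matrix commutatorElement

universe u

section
variable {D : ChevalleyDatum} {N : ℕ} {η : ℕ → ℕ → ℤ} {rc : ℕ → ℕ → ℤ} {F : Type*} [Field F]
  {A : Type*} [Group A] {X : ℕ → F → A} {φ : A →* GL D.Idx F} {E : Type*} [Group E] {π : E →* A} {Y : ℕ → F → E}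

theorem val_of_terms (hR : RD D X) {a b k : ℕ} {c : ℤ} (ha : a < D.nroots) (hb : b < D.nroots) (hk : k < D.nroots)
    (h1 : b ≠ a) (h2 : b ≠ D.neg a) (hT : D.commTerms a b = [(k, c, 1, 1)]) (t u : F) : ⁅X a t, X b u⁆ = X k ((c : F) * (t * u)) := by
  have h3 := hR.comm a ha b hb h1 h2 (-t) (-u)
  unfold ChevalleyDatum.commWord xw at h3
  rw [hT] at h3
  simp only [List.map_cons, List.map_nil, List.prod_cons, List.prod_nil, mul_one, pow_one, neg_neg] at h3
  rw [hR.neg ha, hR.neg hb] at h3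
  have h4 : X k ((c : F) * t * -u) = (⁅X a t, X b u⁆)⁻¹ := by
    have h5 : X k ((c : F) * t * -u) = ((X a t)⁻¹ * (X b u)⁻¹)⁻¹ * ((X b u)⁻¹ * (X a t)⁻¹) := by rw [h3]; group
    rw [h5, commutatorElement_def]; group
  have h5 : ⁅X a t, X b u⁆ = (X k ((c : F) * t * -u))⁻¹ := by rw [h4, inv_inv]
  rw [h5, ← hR.neg hk]
  congr 1; ring

section
variable {σ : A → E} (hσ : ∀ a, π (σ a) = a) (hc : π.ker ≤ Subgroup.center E) (hR : RD D X)
include hσ hc hR

theorem Cc_addL {a b k : ℕ} {c : F} (ha : a < D.nroots)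
    (hv : ∀ t u : F, ⁅X a t, X b u⁆ = X k (c * (t * u)))
    (h1 : Cm X π a k) (h2 : Cm X π k k) (t t' u : F) : Cc X σ a b (t + t') u = Cc X σ a b t u * Cc X σ a b t' u := by
  have e0 : Cc X σ a b (t + t') u = ⁅σ (X a t) * σ (X a t'), σ (X b u)⁆ :=
    (Cc_of hσ hc (by rw [map_mul, hσ, hσ, hR.add a ha]) (hσ _)).symm
  have e1 : ⁅σ (X a t) * σ (X a t'), σ (X b u)⁆ = (σ (X a t) * Cc X σ a b t' u * (σ (X a t))⁻¹) * Cc X σ a b t u := by
    unfold Cc; simp only [commutatorElement_def]; group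
  have e2 : σ (X a t) * Cc X σ a b t' u = Cc X σ a b t' u * σ (X a t) :=
    h1 _ _ _ _ (hσ _) (by rw [Cc_map hσ, hv])
  have e3 : Cc X σ a b t' u * Cc X σ a b t u = Cc X σ a b t u * Cc X σ a b t' u :=
    h2 _ _ _ _ (by rw [Cc_map hσ, hv]) (by rw [Cc_map hσ, hv])
  rw [e0, e1, e2, mul_inv_cancel_right, e3]

/-- over the field with three elements the commutator depends only on the product -/
theorem Cc_prod (hF : ∀ t : F, t = 0 ∨ t = 1 ∨ t = -1) {a b k : ℕ} {c : F} (ha : a < D.nroots) (hb : b < D.nroots) (hk : k < D.nroots)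
    (hv : ∀ t u : F, ⁅X a t, X b u⁆ = X k (c * (t * u)))
    (h1 : Cm X π a k) (h1' : Cm X π b k) (h2 : Cm X π k k) (t u : F) :
    Cc X σ a b t u = Cc X σ a b (t * u) 1 ∧ Cc X σ a b (-t) u = (Cc X σ a b t u)⁻¹ := by
  have hv' : ∀ t u : F, ⁅X b t, X a u⁆ = X k (-c * (t * u)) := by
    intro t u
    rw [← commutatorElement_inv, hv, ← hR.neg hk]
    congr 1; ring
  have hz : ∀ u, Cc X σ a b 0 u = 1 := by
    intro u
    have := Cc_addL hσ hc hR ha hv h1 h2 0 0 u
    rw [add_zero] at this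
    exact mul_eq_left.1 this.symm
  have hn : ∀ t u, Cc X σ a b (-t) u = (Cc X σ a b t u)⁻¹ := by
    intro t u
    rw [eq_inv_iff_mul_eq_one, ← Cc_addL hσ hc hR ha hv h1 h2, neg_add_cancel, hz]
  have hz' : ∀ u, Cc X σ b a 0 u = 1 := by
    intro u
    have := Cc_addL hσ hc hR hb hv' h1' h2 0 0 u
    rw [add_zero] at this
    exact mul_eq_left.1 this.symm
  have hn' : ∀ t u, Cc X σ b a (-t) u = (Cc X σ b a t u)⁻¹ := by
    intro t u
    rw [eq_inv_iff_mul_eq_one, ← Cc_addL hσ hc hR hb hv' h1' h2, neg_add_cancel, hz']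
  refine ⟨?_, hn t u⟩
  rcases hF u with rfl | rfl | rfl
  · rw [mul_zero, hz, ← inv_inv (Cc X σ a b t 0), ← Cc_symm hσ hc, hz', inv_one]
  · rw [mul_one]
  · have e : Cc X σ a b t (-1) = (Cc X σ a b t 1)⁻¹ := by
      rw [← inv_inv (Cc X σ a b t (-1)), ← Cc_symm hσ hc, hn', Cc_symm hσ hc a b t 1, inv_inv]
    rw [e, mul_neg, mul_one, hn]

end

theorem cr_W (hG : Good D N η rc) (w : hG.W) {a b r : Fin D.nroots} (h : D.chainRoot a b 1 = some (r : ℕ)) :
    D.chainRoot (w.1 a) (w.1 b) 1 = some ((w.1 r : Fin D.nroots) : ℕ) := by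
  induction w using hG.W_induction with
  | one => exact h
  | mul i w ih => exact cr_w hG i.2 (Fin.is_lt _) (Fin.is_lt _) ih

end

namespace TB2

set_option synthInstance.maxHeartbeats 400000
set_option synthInstance.maxSize 4000

def isL (r : ℕ) : Bool := Nat.beq r 0 || (Nat.beq r 3 || (Nat.beq r 4 || Nat.beq r 7))

theorem f_dec : ∀ r < 8, isL r = true → ∃ a < 8, ∃ b < 8, chevB2.chainRoot a b 1 = some r := by decide +kernel
theorem f_val : ∀ r < 8, ∀ a < 8, ∀ b < 8, (isL r = true ∧ chevB2.chainRoot a b 1 = some r) →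
    (b ≠ a ∧ b ≠ chevB2.neg a ∧ (chevB2.commTerms a b = [(r, 2, 1, 1)] ∨ chevB2.commTerms a b = [(r, -2, 1, 1)])) ∧
    (a ≠ r ∧ a ≠ chevB2.neg r ∧ chevB2.commTerms r a = [] ∧ torB 2 CA 2 r a = true) ∧
    (b ≠ r ∧ b ≠ chevB2.neg r ∧ chevB2.commTerms r b = [] ∧ torB 2 CA 2 r b = true) := by decide +kernel
theorem f_list : ∀ r < 8, ∀ a < 8, ∀ b < 8, (isL r = true ∧ chevB2.chainRoot a b 1 = some r) →
    (r, a, b) ∈ [(7, 5, 6), (7, 6, 5), (4, 2, 6), (4, 6, 2), (3, 1, 5), (3, 5, 1), (0, 1, 2), (0, 2, 1)] := by decide +kernel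
theorem f_w : ∀ i < 2, ∀ r < 8, isL (chevB2.reflectRoot i r) = isL r := by decide +kernel
theorem f_tor : ∀ r < 8, isL r = false → anyB (2 ^ 2) (fun e => cond (trivB 2 CA 2 e r) false true) = true := by decide +kernel
theorem f_pos : torB 2 CA 2 4 5 = true ∧ torB 2 CA 2 4 6 = true ∧ swB chevB2 2 P E (4, 7, [0]) = true ∧ chevB2.chainRoot 5 6 1 = some 7 ∧
    chevB2.commTerms 5 6 = [(7, 2, 1, 1)] ∧ chevB2.commTerms 5 7 = [] ∧ chevB2.commTerms 6 7 = [] := by decide +kernel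

theorem chkR : Chk chevB2 chevB2.rank chevB2.nroots 33 4 G S P E CA CO MO := by
  rw [chk.rank, chk.nroots]; exact chk

theorem isL_W (w : chkR.good.W) (r : Fin chevB2.nroots) : isL (w.1 r) = isL r := by
  induction w using chkR.good.W_induction with
  | one => rfl
  | mul i w ih =>
    have h1 : isL (chevB2.reflectRoot i (w.1 r)) = isL (w.1 r) := f_w i (lt_of_lt_of_eq i.2 chk.rank) _
      (lt_of_lt_of_eq (w.1 r).2 chk.nroots)
    rw [← ih, ← h1]; rfl

section
variable {F : Type*} [Field F] {A : Type*} [Group A] {X : ℕ → F → A} {φ : A →* GL chevB2.Idx F} {E' : Type*} [Group E'] {π : E' →* A}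

theorem lift_q3 (hO : Ov chevB2 X φ)
    (hs : Function.Surjective π) (hc : π.ker ≤ Subgroup.center E') (hF : ∀ t : F, t = 0 ∨ t = 1 ∨ t = -1) (h3 : (3 : F) = 0)
    (hm1 : ∀ n : ℤ, (-1 : Fˣ) ^ n = 1 ↔ ((2 : ℕ) : ℤ) ∣ n)
    (hk : ∀ k : E', π k = 1 → k ^ 2 = 1 → k = 1) (hT : US X {r | r < chevB2.nroots} = ⊤) (hperf : commutator A = ⊤)
    (hge : ∀ r, ¬ r < chevB2.nroots → ∀ t, X r t = 1) :
    ∃ Y : ℕ → F → E', RD chevB2 Y ∧ ∀ r t, π (Y r t) = X r t := by
  have hG := chkR.good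
  have hE : Ext chevB2 (cO MO) := ext
  have hR := hO.rdc hG hE cw pairs
  have n8 : chevB2.nroots = 8 := chk.nroots
  have l2 : chevB2.rank = 2 := chk.rank
  obtain ⟨σ, hσ⟩ := hs.hasRightInverse
  have hinj : ∀ k < chevB2.nroots, ∀ v v' : F, X k v = X k v' → v = v' := by
    intro k hk v v' h
    have h1 := congrArg φ h
    rw [hO.map, hO.map] at h1
    exact hG.xg_inj' hE hk h1
  -- torus elements
  have htor : ∀ r : Fin chevB2.nroots, ∃ (h : A) (ψ : Fin chevB2.nroots → Fˣ), Mon hG X h 1 ψ ∧ (isL r = false → ψ r ≠ 1) := by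
    intro r
    by_cases hr : isL r = true
    · exact ⟨1, 1, Mon.one, fun h => by rw [hr] at h; exact absurd h (by simp)⟩
    · rw [Bool.not_eq_true] at hr
      have h1 := f_tor r (by have := r.2; omega) hr
      rw [← l2] at h1
      obtain ⟨h, ψ, h2, h3⟩ := tor1_of_chk chkR hR hm1 (r := r) h1
      exact ⟨h, ψ, h2, fun _ => h3⟩
  choose hx ψx hmx hψ using htor
  have hself : ∀ r < chevB2.nroots, Cm X π r r := fun r hr => cm_self_F3 hs hc hF hR.toRD hr
  -- long and short roots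
  have hcml : ∀ r a : ℕ, r < 8 → a < 8 → (a ≠ r ∧ a ≠ chevB2.neg r ∧ chevB2.commTerms r a = [] ∧ torB 2 CA 2 r a = true) → Cm X π r a := by
    rintro r a hr ha ⟨g1, g2, g3, g4⟩
    have hr' : r < chevB2.nroots := by omega
    have ha' : a < chevB2.nroots := by omega
    rw [← l2] at g4
    refine cm_of_inv hs hc hR.toRD (hG := hG) (r := ⟨r, hr'⟩) (s := ⟨a, ha'⟩) (invP_of_tor hG (tor_of_chk chkR hR hm1 g4)) ?_
    intro t u
    have h4 := hR.comm r hr' a ha' g1 g2 t u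
    unfold ChevalleyDatum.commWord xw at h4
    rw [g3] at h4
    simp only [List.map_nil, List.prod_nil, mul_one] at h4
    exact h4.symm
  have hpair : ∀ r < 8, ∀ a < 8, ∀ b < 8, isL r = true → chevB2.chainRoot a b 1 = some r → Cm X π a r ∧ Cm X π b r ∧
      ∃ c : F, c * c = 1 ∧ ∀ t u : F, ⁅X a t, X b u⁆ = X r (c * (t * u)) := by
    intro r hr a ha b hb hl hab
    obtain ⟨⟨g1, g2, g3⟩, g4, g5⟩ := f_val r hr a ha b hb ⟨hl, hab⟩
    refine ⟨(hcml r a hr ha g4).symm', (hcml r b hr hb g5).symm', ?_⟩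
    have h4 : (4 : F) = 1 := by linear_combination h3
    rcases g3 with g3 | g3
    · refine ⟨((2 : ℤ) : F), by push_cast; linear_combination h4, fun t u => ?_⟩
      exact val_of_terms hR.toRD (by omega) (by omega) (by omega) g1 g2 g3 t u
    · refine ⟨((-2 : ℤ) : F), by push_cast; linear_combination h4, fun t u => ?_⟩
      exact val_of_terms hR.toRD (by omega) (by omega) (by omega) g1 g2 g3 t u
  -- values determine the commutators
  have Q : ∀ r < 8, isL r = true → ∀ a < 8, ∀ b < 8, ∀ a' < 8, ∀ b' < 8, chevB2.chainRoot a b 1 = some r →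
      chevB2.chainRoot a' b' 1 = some r → ∀ t u t' u' : F, ⁅X a t, X b u⁆ = ⁅X a' t', X b' u'⁆ → Cc X σ a b t u = Cc X σ a' b' t' u' := by
    intro r hr hl a ha b hb a' ha' b' hb' hab hab' t u t' u' hval
    obtain ⟨q1, q2, c, hcc, hv⟩ := hpair r hr a ha b hb hl hab
    have hrr := hself r (by omega)
    have hP := fun t u => Cc_prod hσ hc hR.toRD hF (by omega) (by omega) (show r < chevB2.nroots by omega) hv q1 q2 hrr t u
    have h5 : (a' = a ∧ b' = b) ∨ (a' = b ∧ b' = a) := by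
      have h6 := f_list r hr a ha b hb ⟨hl, hab⟩
      have h7 := f_list r hr a' ha' b' hb' ⟨hl, hab'⟩
      simp only [List.mem_cons, Prod.mk.injEq, List.not_mem_nil, or_false] at h6 h7
      omega
    rcases h5 with ⟨rfl, rfl⟩ | ⟨rfl, rfl⟩
    · rw [hv, hv] at hval
      have e1 := hinj r (by omega) _ _ hval
      have e2 : t * u = t' * u' := by linear_combination c * e1 - (t * u - t' * u') * hcc
      rw [(hP t u).1, (hP t' u').1, e2]
    · have e0 : ⁅X a' t', X b' u'⁆ = X r (c * (-u' * t')) := by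
        rw [← commutatorElement_inv, hv, ← hR.neg (show r < chevB2.nroots by omega)]
        congr 1; ring
      rw [hv, e0] at hval
      have e1 := hinj r (by omega) _ _ hval
      have e2 : t * u = -u' * t' := by linear_combination c * e1 - (t * u - -u' * t') * hcc
      rw [(hP t u).1, e2, ← (hP (-u') t').1, (hP u' t').2, Cc_symm hσ hc b' a' u' t']
  have hdec : ∀ k, ∃ (a b : ℕ) (c : F), k < 8 → isL k = true → a < 8 ∧ b < 8 ∧ chevB2.chainRoot a b 1 = some k ∧ c * c = 1 ∧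
      ∀ t u : F, ⁅X a t, X b u⁆ = X k (c * (t * u)) := by
    intro k
    by_cases hk : k < 8 ∧ isL k = true
    · obtain ⟨a, ha, b, hb, h⟩ := f_dec k hk.1 hk.2
      obtain ⟨_, _, c, hcc, hv⟩ := hpair k hk.1 a ha b hb hk.2 h
      exact ⟨a, b, c, fun _ _ => ⟨ha, hb, h, hcc, hv⟩⟩
    · exact ⟨0, 0, 0, fun h1 h2 => absurd ⟨h1, h2⟩ hk⟩
  choose aL bL cL hd using hdec
  classical
  obtain ⟨Y, hY⟩ : ∃ Y : ℕ → F → E', Y = fun k t => if h : k < chevB2.nroots then
      (if isL k = true then Cc X σ (aL k) (bL k) (cL k * t) 1 else Y3 X σ hx ⟨k, h⟩ t) else 1 := ⟨_, rfl⟩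
  have hYL : ∀ k < 8, isL k = true → ∀ t, Y k t = Cc X σ (aL k) (bL k) (cL k * t) 1 := by
    intro k hk hl t; rw [hY]; dsimp only; rw [dif_pos (by omega), if_pos hl]
  have hYS : ∀ k : Fin chevB2.nroots, isL k = false → ∀ t, Y k t = Y3 X σ hx k t := by
    intro k hl t; rw [hY]; dsimp only; rw [dif_pos k.2, if_neg (by rw [hl]; simp)]
  have hmap : ∀ k t, π (Y k t) = X k t := by
    intro k t
    by_cases hk' : k < chevB2.nroots
    · by_cases hl : isL k = true
      · obtain ⟨g1, g2, g3, g4, g5⟩ := hd k (by omega) hl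
        rw [hYL k (by omega) hl, Cc_map hσ, g5]
        congr 1
        linear_combination t * g4
      · rw [Bool.not_eq_true] at hl
        rw [hYS ⟨k, hk'⟩ hl, Y3_map hF hR.toRD hσ hmx (hψ _ hl) h3]
    · rw [hY]; dsimp only; rw [dif_neg hk', map_one, hge k hk']
  have key : ∀ k < 8, isL k = true → ∀ a' < 8, ∀ b' < 8, chevB2.chainRoot a' b' 1 = some k → ∀ (x y : E') (t u v : F),
      π x = X a' t → π y = X b' u → ⁅X a' t, X b' u⁆ = X k v → ⁅x, y⁆ = Y k v := by
    intro k hk hl a' ha' b' hb' h x y t u v hx' hy hval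
    obtain ⟨g1, g2, g3, g4, g5⟩ := hd k hk hl
    rw [Cc_of hσ hc hx' hy, hYL k hk hl]
    apply Q k hk hl a' ha' b' hb' _ g1 _ g2 h g3
    rw [hval, g5]
    congr 1
    linear_combination -v * g4
  have hL : Lf hG X π Y := by
    refine ⟨hmap, ?_, ?_⟩
    · intro e w χ hm r t
      have hwl := isL_W w r
      have hr8 : (r : ℕ) < 8 := by have := r.2; omega
      have hwr8 : ((w.1 r : Fin _) : ℕ) < 8 := by have := (w.1 r).2; omega
      by_cases hl : isL r = true
      · obtain ⟨g1, g2, g3, g4, g5⟩ := hd r hr8 hl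
        have ha' : aL r < chevB2.nroots := by omega
        have hb' : bL r < chevB2.nroots := by omega
        have e1 : e * Y r t * e⁻¹ = ⁅e * σ (X (aL r) (cL r * t)) * e⁻¹, e * σ (X (bL r) 1) * e⁻¹⁆ := by
          rw [hYL r hr8 hl]; unfold Cc; simp only [commutatorElement_def]; group
        have e2 := hm.act ⟨aL r, ha'⟩ (cL r * t)
        have e3 := hm.act ⟨bL r, hb'⟩ 1
        have e4 := hm.act r t
        have g3' := cr_W hG w (a := ⟨aL r, ha'⟩) (b := ⟨bL r, hb'⟩) (r := r) g3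
        rw [e1]
        refine key _ hwr8 (by rw [hwl]; exact hl) _ (by have := (w.1 ⟨aL r, ha'⟩).2; omega) _ (by have := (w.1 ⟨bL r, hb'⟩).2; omega) g3' _ _
          ((χ ⟨aL r, ha'⟩ : F) * (cL r * t)) ((χ ⟨bL r, hb'⟩ : F) * 1) _ ?_ ?_ ?_
        · rw [map_mul, map_mul, map_inv, hσ]; exact e2
        · rw [map_mul, map_mul, map_inv, hσ]; exact e3
        · rw [← e2, ← e3, ← e4]
          have e5 : ⁅X (aL r) (cL r * t), X (bL r) 1⁆ = X r t := by
            rw [g5]; congr 1; linear_combination t * g4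
          change ⁅π e * X (aL r) (cL r * t) * (π e)⁻¹, π e * X (bL r) 1 * (π e)⁻¹⁆ = π e * X r t * (π e)⁻¹
          rw [← e5]
          simp only [commutatorElement_def]; group
      · rw [Bool.not_eq_true] at hl
        rw [hYS r hl, hYS (w.1 r) (by rw [hwl]; exact hl)]
        exact Y3_eqv hc hF hk hT hperf hR.toRD hσ hmx (hψ r hl) hm (hψ _ (by rw [hwl]; exact hl)) t
    · intro r hr t u
      by_cases hl : isL r = true
      · obtain ⟨g1, g2, g3, g4, g5⟩ := hd r (by omega) hl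
        obtain ⟨q1, q2, _⟩ := hpair r (by omega) _ g1 _ g2 hl g3
        rw [hYL r (by omega) hl, hYL r (by omega) hl, hYL r (by omega) hl, mul_add]
        exact Cc_addL hσ hc hR.toRD (by omega) g5 q1 (hself r hr) _ _ _
      · rw [Bool.not_eq_true] at hl
        rw [hYS ⟨r, hr⟩ hl, hYS ⟨r, hr⟩ hl, hYS ⟨r, hr⟩ hl]
        exact Y3_add hc hF hR.toRD hσ hmx (hψ _ hl) h3 t u
  refine ⟨Y, hL.rdP hO hE hc hs ?_ hR cw, hL.map⟩
  obtain ⟨p1, p2, p3, p4, p5, p6, p7⟩ := f_pos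
  rw [← l2] at p1 p2 p3
  intro r s hr hrs
  have hs8 : (s : ℕ) < 8 := by have := s.2; omega
  have h57 := hpair 7 (by norm_num) 5 (by norm_num) 6 (by norm_num) (by decide) p4
  have hcases : ((r : ℕ) = 4 ∧ (s : ℕ) = 5) ∨ ((r : ℕ) = 4 ∧ (s : ℕ) = 6) ∨ ((r : ℕ) = 4 ∧ (s : ℕ) = 7) ∨ ((r : ℕ) = 5 ∧ (s : ℕ) = 6) ∨
      ((r : ℕ) = 5 ∧ (s : ℕ) = 7) ∨ ((r : ℕ) = 6 ∧ (s : ℕ) = 7) := by omega
  rcases hcases with ⟨c1, c2⟩ | ⟨c1, c2⟩ | ⟨c1, c2⟩ | ⟨c1, c2⟩ | ⟨c1, c2⟩ | ⟨c1, c2⟩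
  · left; exact invP_of_tor hG (tor_of_chk chkR hR hm1 (by rw [c1, c2]; exact p1))
  · left; exact invP_of_tor hG (tor_of_chk chkR hR hm1 (by rw [c1, c2]; exact p2))
  · right
    obtain ⟨g1, g2⟩ := cm_of_word chkR hR hs hc hF hk (r := r) (s := s) (L := [0]) (by rw [c1, c2]; exact p3) (fun he => by rw [he] at hrs; omega)
      (fun he => hG.ne_neg_of_pos r.2 hr (show 4 ≤ (s : ℕ) by omega) (congrArg Fin.val he))
    exact relY_of_cm hL.map g1 g2
  · right
    rw [c1, c2]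
    intro t u
    have e1 := key 7 (by norm_num) (by decide) 5 (by norm_num) 6 (by norm_num) p4 (Y 5 t) (Y 6 u) t u ((((2 : ℤ)) : F) * (t * u)) (hmap _ _) (hmap _ _)
      (val_of_terms hR.toRD (by omega) (by omega) (by omega) (by decide) (by decide +kernel) p5 t u)
    have m1 : Y 5 t * Y 7 (((2 : ℤ) : F) * (t * u)) = Y 7 (((2 : ℤ) : F) * (t * u)) * Y 5 t := h57.1 _ _ _ _ (hmap _ _) (hmap _ _)
    have m2 : Y 6 u * Y 7 (((2 : ℤ) : F) * (t * u)) = Y 7 (((2 : ℤ) : F) * (t * u)) * Y 6 u := h57.2.1 _ _ _ _ (hmap _ _) (hmap _ _)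
    have e2 : xw Y (chevB2.commWord F 5 6 t u) = (Y 7 (((2 : ℤ) : F) * (t * u)))⁻¹ := by
      unfold ChevalleyDatum.commWord xw
      rw [p5]
      simp only [List.map_cons, List.map_nil, List.prod_cons, List.prod_nil, mul_one, pow_one]
      rw [← hL.neg (show 7 < chevB2.nroots by omega)]
      congr 1; ring
    rw [e2, ← e1]
    rw [← e1] at m1 m2
    have e3 : Y 5 t * Y 6 u = ⁅Y 5 t, Y 6 u⁆ * (Y 6 u * Y 5 t) := by rw [commutatorElement_def]; group
    have e4 : ⁅Y 5 t, Y 6 u⁆ * (Y 6 u * Y 5 t) = (Y 6 u * Y 5 t) * ⁅Y 5 t, Y 6 u⁆ := by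
      rw [← mul_assoc, ← m2, mul_assoc, ← m1, mul_assoc]
    rw [e3, e4, mul_inv_cancel_right]
  · right; rw [c1, c2]; exact relY_of_cm hL.map p6 h57.1
  · right; rw [c1, c2]; exact relY_of_cm hL.map p7 h57.2.1

end

theorem t4 : chkT4 (nat_lit 2) (nat_lit 8) CA = true := by decide +kernel

theorem self5 {K : Type*} [Field K] (h2 : (2 : K) = 0) : SelfPair2 chevB2 K 5 := by
  have hz : ∀ d, chevB2.commTerms 5 d = [] → ZC chevB2 K 5 d := by
    intro d hd c hc
    rw [hd] at hc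
    exact absurd hc List.not_mem_nil
  have t36 : chevB2.commTerms 3 6 = [] ++ (5, 1, 1, 1) :: [(7, 1, 1, 2)] := by decide +kernel
  have t53 : chevB2.commTerms 5 3 = [] := by decide +kernel
  have t57 : chevB2.commTerms 5 7 = [] := by decide +kernel
  have t56 : chevB2.commTerms 5 6 = [(7, 2, 1, 1)] := by decide +kernel
  refine ⟨3, by decide, 6, by decide, by decide, by decide +kernel, ⟨by decide, by decide +kernel, hz 3 t53⟩, ⟨by decide, by decide +kernel, ?_⟩,
    [], (5, 1, 1, 1), [(7, 1, 1, 2)], t36, rfl, Or.inl rfl, Or.inl rfl, fun d hd => absurd hd List.not_mem_nil, ?_⟩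
  · intro c hc
    rw [t56, List.mem_singleton] at hc
    rw [hc]
    exact_mod_cast h2
  · intro d hd
    rw [List.mem_singleton] at hd
    rw [hd]
    exact ⟨by decide, by decide +kernel, hz 7 t57⟩

theorem self {K : Type*} [Field K] (h2 : (2 : K) = 0) : ∀ i < chevB2.rank, SelfPair2 chevB2 K (chevB2.simple i) := by
  intro i hi
  match i, hi with
  | 0, _ =>
    have : chevB2.simple 0 = 5 := by decide +kernel
    rw [this]; exact self5 h2
  | 1, _ => exact (selfPair_of_chk (r := chevB2.simple 1) (a := 0) (b := 6) (k := 1) (by decide +kernel)).to2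
  | (k + 2), hk => exact absurd hk (by change ¬ (k + 2 < 2); omega)

theorem closed {K : Type u} [Field K] [Finite K] (hK : 3 ≤ Nat.card K) : Finite (chevB2.SteinbergCover K) ∧
    commutator (chevB2.SteinbergCover K) = ⊤ ∧ Cfsg.HasCyclicSchurMultiplier (chevB2.SteinbergCover K) 1 := by
  have hG := chkR.good
  have hE : Ext chevB2 (cO MO) := ext
  obtain ⟨θ, hθ⟩ := exists_theta' (K := K) hG hE
  have hO := sc_ov hG hθ
  have hR := sc_rdc hG hE cw pairs hθ
  have hne : ∃ a : K, a ≠ 0 ∧ a ≠ 1 := by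
    by_contra hcon
    push Not at hcon
    haveI := Fintype.ofFinite K
    classical
    have h1 : (Finset.univ : Finset K) ⊆ {0, 1} := by
      intro x _
      rw [Finset.mem_insert, Finset.mem_singleton]
      by_cases h : x = 0
      · exact Or.inl h
      · exact Or.inr (hcon x h)
    have h2 := Finset.card_le_card h1
    rw [Finset.card_univ, ← Nat.card_eq_fintype_card] at h2
    have h3 : ({0, 1} : Finset K).card ≤ 2 := Finset.card_le_two
    omega
  have hperf : RDC chevB2 (etF E) (sX chevB2 K) → US (sX chevB2 K) {r | r < chevB2.nroots} = ⊤ → commutator (chevB2.SteinbergCover K) = ⊤ :=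
    fun h1 h2 => sperf hne h1 h2
  refine sc_closed hG hE cw pairs pb sc hperf ?_
  intro hcard E₁ _ _ τ z hz
  have hc := PExt_ker_le hz
  have h34 : Nat.card K = 3 ∨ Nat.card K = 4 := by omega
  rcases h34 with h3 | h4
  · obtain ⟨q1, q2, q3, q4⟩ := field3 h3
    refine lift_q3 hO hz.surj hc q1 q2 q4 ?_ US_sX (hperf hR US_sX) sX_of_ge
    intro k hk hk2
    obtain ⟨n, rfl⟩ := hz.eq_zpow hk
    have h5 : (z ^ n) ^ 3 = 1 := by
      rw [← zpow_natCast, ← zpow_mul, mul_comm, zpow_mul, zpow_natCast]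
      have := hz.zp
      rw [q3] at this
      rw [this, one_zpow]
    calc z ^ n = (z ^ n) ^ 3 * ((z ^ n) ^ 2)⁻¹ := by rw [pow_succ' (z ^ n) 2]; group
      _ = 1 := by rw [h5, hk2]; group
  · obtain ⟨q1, q2, c, q3, q4⟩ := field4 h4
    have t4' : chkT4 chevB2.rank chevB2.nroots CA = true := by rw [chk.rank, chk.nroots]; exact t4
    exact lift_tor hO hG hE cw pairs (tor4_of_chk chkR hR q3 t4') (self q2) US_sX sX_of_ge hz.surj hc q4

end TB2

section
variable {D : ChevalleyDatum} {N : ℕ} {η : ℕ → ℕ → ℤ} {rc : ℕ → ℕ → ℤ} {K : Type u} [Field K]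

theorem st_closed (hG : Good D N η rc) (hE : Ext D rc) (hC : CWt D η)
    (hP : ∀ i < D.rank, PairOK D (D.simple i) ∧ PairOK D (D.neg (D.simple i))) [Finite K]
    (h : Finite (D.SteinbergCover K) ∧ commutator (D.SteinbergCover K) = ⊤ ∧ Cfsg.HasCyclicSchurMultiplier (D.SteinbergCover K) 1) :
    Cfsg.HasCyclicSchurMultiplier (D.SteinbergGroup K) 1 := by
  obtain ⟨h1, h2, h3⟩ := h
  obtain ⟨e, he⟩ := sc_equiv hG hE hC hP (K := K)
  exact closed_equiv h2 h3 e

theorem st_schur {K : Type u} [Field K] [Fintype K] (e : ChevalleyDatum × ℕ)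
    (he : e ∈ [(chevE6, 0), (chevE7, 0), (chevB2, 2), (chevD4, 2)]) (hK : Fintype.card K ≠ e.2) :
    Cfsg.HasCyclicSchurMultiplier (e.1.SteinbergGroup K) 1 := by
  have h2 : 1 < Fintype.card K := Fintype.one_lt_card
  simp only [List.mem_cons, List.not_mem_nil, or_false] at he
  rcases he with rfl | rfl | rfl | rfl
  · exact st_closed TE6.good TE6.ext TE6.cw TE6.pairs TE6.closed
  · exact st_closed TE7.good TE7.ext TE7.cw TE7.pairs TE7.closed
  · refine st_closed TB2.good TB2.ext TB2.cw TB2.pairs (TB2.closed ?_)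
    rw [Nat.card_eq_fintype_card]
    dsimp only at hK
    omega
  · refine st_closed TD4.good TD4.ext TD4.cw TD4.pairs (TD4.closed ?_)
    rw [Nat.card_eq_fintype_card]
    dsimp only at hK
    omega

end

end Cfsg.Agent.H6
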