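import Mathlib

/-!
Rank one groups: homomorphisms between `⟨X, Y⟩` preserving the root subgroups come from field automorphisms.
-/

set_option autoImplicit false
set_option linter.unusedSectionVars false

namespace Cfsg.Agent.H6.TO

section RankOne
variable {G : Type*} [Group G] {k : Type*} [Field k]

/-- `n(t)` -/
def nn (X Y : k → G) (t : k) : G := X t * Y (-t⁻¹) * X t

/-- the relations of a group of rank one over `k` -/
structure R1 (X Y : k → G) : Prop where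
  Xa : ∀ t u, X (t + u) = X t * X u
  Ya : ∀ t u, Y (t + u) = Y t * Y u
  Xi : Function.Injective X
  Yi : Function.Injective Y
  XY : ∀ t u, X t = Y u → u = 0
  nX : ∀ t, t ≠ 0 → ∀ u, nn X Y t * X u * (nn X Y t)⁻¹ = Y (-(t⁻¹) ^ 2 * u)
  nY : ∀ t, t ≠ 0 → ∀ u, nn X Y t * Y u * (nn X Y t)⁻¹ = X (-t ^ 2 * u)

variable {X Y : k → G} (h : R1 X Y)
include h

theorem R1.X0 : X 0 = 1 := by
  have := h.Xa 0 0
  rw [add_zero] at this
  exact left_eq_mul.1 this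

theorem R1.Y0 : Y 0 = 1 := by
  have := h.Ya 0 0
  rw [add_zero] at this
  exact left_eq_mul.1 this

theorem R1.Xn (t : k) : X (-t) = (X t)⁻¹ := by
  rw [eq_inv_iff_mul_eq_one, ← h.Xa, neg_add_cancel, h.X0]

theorem R1.Yn (t : k) : Y (-t) = (Y t)⁻¹ := by
  rw [eq_inv_iff_mul_eq_one, ← h.Ya, neg_add_cancel, h.Y0]

theorem R1.Xc (t u : k) : X t * X u = X u * X t := by rw [← h.Xa, ← h.Xa, add_comm]

/-- `n(t)⁻¹` conjugates back -/
theorem R1.nYi {t : k} (ht : t ≠ 0) (w : k) : (nn X Y t)⁻¹ * Y w * nn X Y t = X (-t ^ 2 * w) := by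
  have h1 := h.nX t ht (-t ^ 2 * w)
  have e : -(t⁻¹) ^ 2 * (-t ^ 2 * w) = w := by field_simp
  rw [e] at h1
  rw [← h1]; group

theorem R1.nXi {t : k} (ht : t ≠ 0) (w : k) : (nn X Y t)⁻¹ * X w * nn X Y t = Y (-(t⁻¹) ^ 2 * w) := by
  have h1 := h.nY t ht (-(t⁻¹) ^ 2 * w)
  have e : -t ^ 2 * (-(t⁻¹) ^ 2 * w) = w := by field_simp
  rw [e] at h1
  rw [← h1]; group

theorem R1.norm0 {d : k} (hd : ∀ u, ∃ u', Y d * X u * (Y d)⁻¹ = X u') : d = 0 := by
  by_contra hd0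
  have h1 := h.nX (-d⁻¹) (neg_ne_zero.2 (inv_ne_zero hd0)) 1
  obtain ⟨u', hu'⟩ := hd 1
  have h2 : nn X Y (-d⁻¹) * X 1 * (nn X Y (-d⁻¹))⁻¹ = X u' := by
    unfold nn
    have e1 : -(-d⁻¹)⁻¹ = d := by rw [inv_neg, inv_inv, neg_neg]
    rw [e1]
    have e2 : X (-d⁻¹) * Y d * X (-d⁻¹) * X 1 * (X (-d⁻¹) * Y d * X (-d⁻¹))⁻¹ =
        X (-d⁻¹) * (Y d * (X (-d⁻¹) * X 1 * (X (-d⁻¹))⁻¹) * (Y d)⁻¹) * (X (-d⁻¹))⁻¹ := by group
    rw [e2, h.Xc (-d⁻¹) 1, mul_inv_cancel_right, hu', h.Xc (-d⁻¹) u', mul_inv_cancel_right]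
  rw [h2] at h1
  have h3 := h.XY _ _ h1
  have e1 : (-d⁻¹)⁻¹ = -d := by rw [inv_neg, inv_inv]
  rw [e1] at h3
  have : d ^ 2 = 0 := by linear_combination -h3
  exact hd0 (pow_eq_zero_iff two_ne_zero |>.1 this)

section
variable {f g : k → k} {θ : G →* G} (hi : Function.Injective θ) (hf : ∀ t, θ (X t) = X (f t)) (hg : ∀ t, θ (Y t) = Y (g t))
include hf hg hi

omit hg hi in
theorem R1.f_add (s t : k) : f (s + t) = f s + f t := by
  apply h.Xi
  rw [← hf, h.Xa, map_mul, hf, hf, ← h.Xa]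

omit hg in
theorem R1.f_inj : Function.Injective f := by
  intro s t hst
  apply h.Xi
  apply hi
  rw [hf, hf, hst]

omit hg hi in
theorem R1.f_zero : f 0 = 0 := by
  have := h.f_add hf 0 0
  rw [add_zero] at this
  exact left_eq_add.1 this

omit hg in
theorem R1.f_ne {t : k} (ht : t ≠ 0) : f t ≠ 0 := by
  intro h0
  exact ht (h.f_inj hi hf (h0.trans (h.f_zero hf).symm))

theorem R1.neg_eq [Finite k] {t : k} (ht : t ≠ 0) : g (-t⁻¹) = -(f t)⁻¹ := by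
  have hsurj : Function.Surjective f := Finite.injective_iff_surjective.1 (h.f_inj hi hf)
  have ha := h.f_ne hi hf ht
  have hd : g (-t⁻¹) + (f t)⁻¹ = 0 := by
    apply h.norm0
    intro v
    obtain ⟨v0, rfl⟩ := hsurj v
    set a := f t with ha'
    have hθ : θ (nn X Y t) = X a * Y (g (-t⁻¹)) * X a := by
      unfold nn
      rw [map_mul, map_mul, hf, hg]
    have h1 : θ (nn X Y t) * X (f v0) * (θ (nn X Y t))⁻¹ = Y (g (-(t⁻¹) ^ 2 * v0)) := by
      rw [← hf, ← map_inv, ← map_mul, ← map_mul, h.nX t ht, hg]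
    have h2 := h.nYi ha (g (-(t⁻¹) ^ 2 * v0))
    refine ⟨-a ^ 2 * g (-(t⁻¹) ^ 2 * v0), ?_⟩
    rw [← h2, ← h1, hθ]
    have e1 : Y (g (-t⁻¹) + a⁻¹) = (Y (-a⁻¹))⁻¹ * Y (g (-t⁻¹)) := by
      rw [h.Yn, inv_inv, ← h.Ya, add_comm]
    rw [e1]
    unfold nn
    have e2 : (X a * Y (-a⁻¹) * X a)⁻¹ * (X a * Y (g (-t⁻¹)) * X a * X (f v0) * (X a * Y (g (-t⁻¹)) * X a)⁻¹) *
        (X a * Y (-a⁻¹) * X a) = (X a)⁻¹ * ((Y (-a⁻¹))⁻¹ * Y (g (-t⁻¹)) * (X a * X (f v0) * (X a)⁻¹) *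
        ((Y (-a⁻¹))⁻¹ * Y (g (-t⁻¹)))⁻¹) * X a := by group
    rw [e2, h.Xc a (f v0), mul_inv_cancel_right]
    -- the middle is in `X`
    have e3 : (X a * Y (-a⁻¹) * X a)⁻¹ * (X a * Y (g (-t⁻¹)) * X a * X (f v0) * (X a * Y (g (-t⁻¹)) * X a)⁻¹) *
        (X a * Y (-a⁻¹) * X a) = X (-a ^ 2 * g (-(t⁻¹) ^ 2 * v0)) := by
      rw [← h2, ← h1, hθ]; rfl
    rw [e2, h.Xc a (f v0), mul_inv_cancel_right] at e3
    have e4 : (Y (-a⁻¹))⁻¹ * Y (g (-t⁻¹)) * X (f v0) * ((Y (-a⁻¹))⁻¹ * Y (g (-t⁻¹)))⁻¹ =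
        X a * X (-a ^ 2 * g (-(t⁻¹) ^ 2 * v0)) * (X a)⁻¹ := by rw [← e3]; group
    rw [e4, h.Xc a, mul_inv_cancel_right]
    group
    rw [mul_assoc, h.Xc, ← mul_assoc]
    simp
  linear_combination hd

theorem R1.map_nn [Finite k] {t : k} (ht : t ≠ 0) : θ (nn X Y t) = nn X Y (f t) := by
  unfold nn
  rw [map_mul, map_mul, hf, hg, h.neg_eq hi hf hg ht]

theorem R1.key [Finite k] {t : k} (ht : t ≠ 0) (u : k) : f (t ^ 2 * u) = f t ^ 2 * ((f 1)⁻¹ ^ 2 * f u) := by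
  have ha := h.f_ne hi hf ht
  have h1 := h.f_ne hi hf one_ne_zero
  apply h.Xi
  have e : ∀ s : k, s ≠ 0 → ∀ c : k, c ≠ 0 → ∀ v, (nn X Y s * (nn X Y c)⁻¹) * X v * (nn X Y s * (nn X Y c)⁻¹)⁻¹ = X (s ^ 2 * ((c⁻¹) ^ 2 * v)) := by
    intro s hs c hc v
    have e1 : (nn X Y s * (nn X Y c)⁻¹) * X v * (nn X Y s * (nn X Y c)⁻¹)⁻¹ =
      nn X Y s * ((nn X Y c)⁻¹ * X v * nn X Y c) * (nn X Y s)⁻¹ := by group
    rw [e1, h.nXi hc, h.nY s hs]
    congr 1; ring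
  rw [← e _ ha _ h1, ← h.map_nn hi hf hg ht, ← h.map_nn hi hf hg one_ne_zero, ← hf, ← hf, ← map_inv, ← map_mul, ← map_mul, ← map_inv, ← map_mul,
    e _ ht _ one_ne_zero, inv_one, one_pow, one_mul]

omit h hf hg hi in
/-- every element of a finite field is a difference of two squares -/
theorem exists_sq_sub_sq [Finite k] (x : k) : ∃ a b : k, x = a ^ 2 - b ^ 2 := by
  have := Fintype.ofFinite k
  by_cases h2 : (2 : k) = 0
  · have hch : ringChar k = 2 := by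
      have : CharP k 2 := CharTwo.of_one_ne_zero_of_two_eq_zero one_ne_zero h2
      exact ringChar.eq k 2 ▸ rfl
    obtain ⟨a, ha⟩ := FiniteField.isSquare_of_char_two hch x
    exact ⟨a, 0, by rw [ha]; ring⟩
  · refine ⟨(x + 1) / 2, (x - 1) / 2, ?_⟩
    field_simp
    ring

/-- the form of the automorphism on a rank one group -/
theorem R1.form [Finite k] : ∃ (τ : k ≃+* k) (c : k), c ≠ 0 ∧ (∀ t, f t = c * τ t) ∧ (∀ t, g t = c⁻¹ * τ t) := by
  have h1 := h.f_ne hi hf one_ne_zero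
  set c := f 1 with hc
  have hsub : ∀ a b : k, f (a - b) = f a - f b := by
    intro a b
    have := h.f_add hf (a - b) b
    rw [sub_add_cancel] at this
    rw [this]; ring
  have hkey : ∀ t u : k, f (t ^ 2 * u) = f t ^ 2 * (c⁻¹ ^ 2 * f u) := by
    intro t u
    by_cases ht : t = 0
    · subst ht
      rw [h.f_zero hf, zero_pow two_ne_zero, zero_mul, zero_mul, h.f_zero hf]
    · exact h.key hi hf hg ht u
  have hsq : ∀ t : k, f (t ^ 2) = f t ^ 2 * c⁻¹ := by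
    intro t
    have := hkey t 1
    rw [mul_one, ← hc] at this
    rw [this]; field_simp
  have hmul : ∀ x u : k, f (x * u) = f x * f u * c⁻¹ := by
    intro x u
    obtain ⟨a, b, rfl⟩ := exists_sq_sub_sq x
    rw [sub_mul, hsub, hsub, hkey, hkey, hsq, hsq]
    ring
  let φ : k →+* k :=
    { toFun := fun t => c⁻¹ * f t
      map_one' := by rw [← hc]; exact inv_mul_cancel₀ h1
      map_mul' := fun x y => by rw [hmul]; ring
      map_zero' := by rw [h.f_zero hf, mul_zero]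
      map_add' := fun x y => by rw [h.f_add hf]; ring }
  have hφ : Function.Bijective φ := Finite.injective_iff_bijective.1 φ.injective
  refine ⟨RingEquiv.ofBijective φ hφ, c, h1, fun t => ?_, fun t => ?_⟩
  · change f t = c * (c⁻¹ * f t)
    rw [mul_inv_cancel_left₀ h1]
  · change g t = c⁻¹ * (c⁻¹ * f t)
    by_cases ht : t = 0
    · subst ht
      rw [h.f_zero hf, mul_zero, mul_zero]
      apply h.Yi
      rw [← hg, h.Y0, map_one]
    · have h2 := h.neg_eq hi hf hg (t := -t⁻¹) (neg_ne_zero.2 (inv_ne_zero ht))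
      have e1 : -(-t⁻¹)⁻¹ = t := by rw [inv_neg, inv_inv, neg_neg]
      rw [e1] at h2
      rw [h2]
      have h3 : f (-t⁻¹) = -f t⁻¹ := by
        have := hsub 0 t⁻¹
        rw [zero_sub, h.f_zero hf, zero_sub] at this
        exact this
      have h4 : f t * f t⁻¹ * c⁻¹ = c := by rw [← hmul, mul_inv_cancel₀ ht]
      have h5 : f t⁻¹ ≠ 0 := h.f_ne hi hf (inv_ne_zero ht)
      have h6 : f t * f t⁻¹ = c * c := by
        have := congrArg (· * c) h4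
        change f t * f t⁻¹ * c⁻¹ * c = c * c at this
        rwa [inv_mul_cancel_right₀ h1] at this
      rw [h3, inv_neg, neg_neg]
      apply mul_left_cancel₀ h5
      rw [mul_inv_cancel₀ h5]
      have h7 : (1 : k) = (c⁻¹ * c⁻¹) * (c * c) := by field_simp
      rw [h7, ← h6]; ring

end
end RankOne

end Cfsg.Agent.H6.TO
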