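import Cfsg.Agent.H6.ToA
import Cfsg.Agent.H6.BN2

/-!
Automorphisms of a finite group with a (B,N)-pair and root subgroups over fields: reduction to standard automorphisms.
-/

set_option autoImplicit false
set_option linter.unusedSectionVars false

namespace Cfsg.Agent.H6.TO
open Cfsg Cfsg.Agent.H6.BN

/-- the data -/
structure OD {G : Type*} [Group G] {ι : Type*} {K : Type*} [Field K] (P : BNPair G) (U V : Subgroup G) (n0 : G)
    (s : ι → G) (k : ι → Subfield K) (X Y : (j : ι) → k j → G) : Prop where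
  S_eq : P.S = Set.range s
  s_inj : Function.Injective s
  U_le : U ≤ P.B
  U_norm : ∀ b ∈ P.B, ∀ u ∈ U, b * u * b⁻¹ ∈ U
  B_eq : ∀ b ∈ P.B, ∃ u ∈ U, ∃ t ∈ P.B ⊓ P.N, b = u * t
  n0_mem : n0 ∈ P.N
  n0U : ∀ g, g ∈ V ↔ n0⁻¹ * g * n0 ∈ U
  n0V : ∀ g, g ∈ U ↔ n0⁻¹ * g * n0 ∈ V
  VB : ∀ g ∈ V, g ∈ P.B → g = 1
  opp : ∀ m ∈ P.N, (∀ u ∈ U, m * u * m⁻¹ ∈ U → u = 1) → n0⁻¹ * m ∈ P.B
  syl : ∀ θ : G ≃* G, ∃ x, ∀ g, g ∈ U ↔ x * θ g * x⁻¹ ∈ U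
  X_mem : ∀ j t, X j t ∈ U
  Y_mem : ∀ j t, Y j t ∈ V
  r1 : ∀ j, R1 (X j) (Y j)
  nn_N : ∀ j t, t ≠ 0 → nn (X j) (Y j) t ∈ P.N
  nn_s : ∀ j t, t ≠ 0 → nn (X j) (Y j) t * (s j)⁻¹ ∈ P.B
  sB : ∀ j, ∀ b ∈ P.B, ∃ b' ∈ P.B, ∃ t, s j * b = b' * s j * X j t
  n0Y : ∀ j t, ∃ u, n0 * Y j t * n0⁻¹ = X j u
  TX : ∀ h ∈ P.B ⊓ P.N, ∀ j t, ∃ u, h * X j t * h⁻¹ = X j u
  gen : ∀ M : Subgroup G, (∀ j t, X j t ∈ M) → (∀ j t, Y j t ∈ M) → M = ⊤
  core : P.B.normalCore = ⊥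

/-- standard automorphisms -/
structure Sd {G : Type*} [Group G] (U V : Subgroup G) (θ : G ≃* G) : Prop where
  pos : ∀ g, θ g ∈ U ↔ g ∈ U
  neg : ∀ g, θ g ∈ V ↔ g ∈ V

namespace OD
variable {G : Type*} [Group G] {ι : Type*} {K : Type*} [Field K] {P : BNPair G} {U V : Subgroup G} {n0 : G}
    {s : ι → G} {k : ι → Subfield K} {X Y : (j : ι) → k j → G} (h : OD P U V n0 s k X Y)
include h

theorem sN (j : ι) : s j ∈ P.N := P.subset (by rw [h.S_eq]; exact ⟨j, rfl⟩)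
theorem sS (j : ι) : s j ∈ P.S := by rw [h.S_eq]; exact ⟨j, rfl⟩
theorem sNB (j : ι) : s j ∉ P.B := sm_not_mem_B P ⟨s j, h.sS j⟩
theorem sq (j : ι) : s j * s j ∈ P.B := P.sq_mem _ (h.sS j)

theorem VU : ∀ g ∈ V, g ∈ U → g = 1 := fun g hg hu => h.VB g hg (h.U_le hu)

theorem U_norm' {b u : G} (hb : b ∈ P.B) : u ∈ U ↔ b * u * b⁻¹ ∈ U := by
  refine ⟨h.U_norm b hb u, fun hu => ?_⟩
  have := h.U_norm b⁻¹ (inv_mem hb) _ hu
  have e : b⁻¹ * (b * u * b⁻¹) * b⁻¹⁻¹ = u := by group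
  rwa [e] at this

/-- the normalizer of `U` is `B` -/
theorem mem_B_iff {g : G} : g ∈ P.B ↔ ∀ u, u ∈ U ↔ g * u * g⁻¹ ∈ U := by
  refine ⟨fun hg u => h.U_norm' hg, fun hg => ?_⟩
  let M : Subgroup G :=
    { carrier := {g | ∀ u, u ∈ U ↔ g * u * g⁻¹ ∈ U}
      mul_mem' := by
        intro a b ha hb u
        rw [hb u, ha (b * u * b⁻¹)]
        have e : a * (b * u * b⁻¹) * a⁻¹ = a * b * u * (a * b)⁻¹ := by group
        rw [e]
      one_mem' := by intro u; simp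
      inv_mem' := by
        intro a ha u
        rw [ha (a⁻¹ * u * a⁻¹⁻¹)]
        have e : a * (a⁻¹ * u * a⁻¹⁻¹) * a⁻¹ = u := by group
        rw [e] }
  have hM : P.B ≤ M := fun b hb u => h.U_norm' hb
  have h1 := eq_parabolic P M hM
  have h2 : P.S ∩ (M : Set G) = ∅ := by
    rw [Set.eq_empty_iff_forall_notMem]
    rintro x ⟨hx, hxM⟩
    rw [h.S_eq] at hx
    obtain ⟨j, rfl⟩ := hx
    have h3 : nn (X j) (Y j) 1 ∈ M := by
      have := M.mul_mem (hM (h.nn_s j 1 one_ne_zero)) hxM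
      rwa [inv_mul_cancel_right] at this
    have h4 := (h3 (X j 1)).1 (h.X_mem j 1)
    rw [(h.r1 j).nX 1 one_ne_zero] at h4
    have h5 := h.VU _ (h.Y_mem j _) h4
    rw [← (h.r1 j).Y0] at h5
    have h6 := (h.r1 j).Yi h5
    simp at h6
  rw [h2] at h1
  have h3 : P.parabolic ∅ = P.B := by
    unfold BNPair.parabolic
    rw [Subgroup.closure_empty, sup_bot_eq]
  rw [h3] at h1
  rw [← h1]
  exact hg

theorem center (g : G) (hg : ∀ x, g * x = x * g) : g = 1 := by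
  have h1 : ∀ x, x * g * x⁻¹ = g := fun x => by rw [← hg x, mul_inv_cancel_right]
  have h2 : g ∈ P.B := by
    rw [h.mem_B_iff]
    intro u
    rw [hg u, mul_inv_cancel_right]
  have h3 : g ∈ P.B.normalCore := fun x => by rw [h1]; exact h2
  rwa [h.core, Subgroup.mem_bot] at h3

theorem n0_conj_V {u : G} (hu : u ∈ U) : n0 * u * n0⁻¹ ∈ V := by
  rw [h.n0U]
  have e : n0⁻¹ * (n0 * u * n0⁻¹) * n0 = u := by group
  rwa [e]

theorem n0_conj_U {u : G} (hu : u ∈ V) : n0 * u * n0⁻¹ ∈ U := by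
  rw [h.n0V]
  have e : n0⁻¹ * (n0 * u * n0⁻¹) * n0 = u := by group
  rwa [e]

/-- elements of `T` normalise `V` -/
theorem T_norm {t : G} (ht : t ∈ P.B ⊓ P.N) {v : G} (hv : v ∈ V) : t * v * t⁻¹ ∈ V := by
  rw [h.n0U] at hv ⊢
  have h1 : n0⁻¹ * t * n0 ∈ P.B := by
    have := P.conj_mem n0⁻¹ (inv_mem h.n0_mem) t ht
    rwa [inv_inv] at this
  have h2 := h.U_norm _ h1 _ hv
  have e : n0⁻¹ * t * n0 * (n0⁻¹ * v * n0) * (n0⁻¹ * t * n0)⁻¹ = n0⁻¹ * (t * v * t⁻¹) * n0 := by group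
  rwa [e] at h2

theorem exists_bruhat (g : G) : ∃ b ∈ P.B, ∃ n ∈ P.N, ∃ b' ∈ P.B, g = b * n * b' := by
  obtain ⟨w, n, -, b, hb, b', hb', e⟩ := exists_mem_C P g
  exact ⟨b, hb, n, n.2, b', hb', e⟩

/-- every automorphism is standard up to an inner one -/
theorem exists_std (θ : G ≃* G) : ∃ x, Sd U V (MulAut.conj x * θ) := by
  obtain ⟨x, hx⟩ := h.syl θ
  obtain ⟨b, hb, n, hn, b', hb', e⟩ := h.exists_bruhat (x * θ n0 * x⁻¹)
  set φ : MulAut G := MulAut.conj x * θ with hφ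
  have hφa : ∀ g, φ g = x * θ g * x⁻¹ := fun g => rfl
  have hφU : ∀ g, φ g ∈ U ↔ g ∈ U := fun g => by rw [hφa]; exact (hx g).symm
  have hn0 : φ n0 = b * n * b' := by rw [hφa, e]
  have h1 : ∀ u ∈ U, n * u * n⁻¹ ∈ U → u = 1 := by
    intro u hu hnu
    -- `u = b' φ(u') b'⁻¹`
    have h2 : b'⁻¹ * u * b' ∈ U := by
      have := h.U_norm b'⁻¹ (inv_mem hb') u hu
      rwa [inv_inv] at this
    set u' := φ.symm (b'⁻¹ * u * b') with hu'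
    have h3 : φ u' = b'⁻¹ * u * b' := MulEquiv.apply_symm_apply _ _
    have h4 : u' ∈ U := by rw [← hφU, h3]; exact h2
    have h5 : φ (n0 * u' * n0⁻¹) = b * (n * u * n⁻¹) * b⁻¹ := by
      rw [map_mul, map_mul, map_inv, hn0, h3]; group
    have h6 : n0 * u' * n0⁻¹ ∈ U := by
      rw [← hφU, h5]; exact h.U_norm b hb _ hnu
    have h7 := h.VU _ (h.n0_conj_V h4) h6
    have h8 : u' = 1 := by
      rw [mul_inv_eq_one] at h7
      exact mul_left_cancel (h7.trans (mul_one n0).symm)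
    rw [h8, map_one] at h3
    have h9 : u = b' * (b'⁻¹ * u * b') * b'⁻¹ := by group
    rw [h9, ← h3]; group
  have h2 := h.opp n hn h1
  refine ⟨b⁻¹ * x, ?_, ?_⟩
  · intro g
    have e1 : (MulAut.conj (b⁻¹ * x) * θ) g = b⁻¹ * φ g * b := by
      change (b⁻¹ * x) * θ g * (b⁻¹ * x)⁻¹ = b⁻¹ * (x * θ g * x⁻¹) * b
      group
    rw [e1]
    have h3 := h.U_norm' (b := b⁻¹) (u := φ g) (inv_mem hb)
    rw [inv_inv] at h3
    rw [← h3, hφU]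
  · intro g
    have e1 : (MulAut.conj (b⁻¹ * x) * θ) g = b⁻¹ * φ g * b := by
      change (b⁻¹ * x) * θ g * (b⁻¹ * x)⁻¹ = b⁻¹ * (x * θ g * x⁻¹) * b
      group
    rw [e1, h.n0U, h.n0U g, ← hφU (n0⁻¹ * g * n0)]
    have e2 : φ (n0⁻¹ * g * n0) = (n0⁻¹ * n * b')⁻¹ * (n0⁻¹ * (b⁻¹ * φ g * b) * n0) * (n0⁻¹ * n * b')⁻¹⁻¹ := by
      rw [map_mul, map_mul, map_inv, hn0]; group
    rw [e2]
    exact h.U_norm' (inv_mem (mul_mem h2 hb'))

theorem Sd.symm {θ : G ≃* G} (hθ : Sd U V θ) : Sd U V θ.symm := by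
  constructor
  · intro g
    rw [← hθ.pos, MulEquiv.apply_symm_apply]
  · intro g
    rw [← hθ.neg, MulEquiv.apply_symm_apply]

theorem Sd.B {θ : G ≃* G} (hθ : Sd U V θ) (g : G) : θ g ∈ P.B ↔ g ∈ P.B := by
  rw [h.mem_B_iff, h.mem_B_iff]
  constructor
  · intro hg u
    rw [← hθ.pos u, hg (θ u), ← map_inv, ← map_mul, ← map_mul, hθ.pos]
  · intro hg u
    obtain ⟨v, rfl⟩ := θ.surjective u
    rw [hθ.pos, ← map_inv, ← map_mul, ← map_mul, hθ.pos]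
    exact hg v

/-! ### minimal parabolics -/

/-- elements of minimal parabolics -/
theorem mem_P1 {j : ι} {g : G} (hg : g ∈ P.parabolic {s j}) : g ∈ P.B ∨ ∃ b ∈ P.B, ∃ t, g = b * s j * X j t := by
  have hJ : {s j} ⊆ P.S := by rw [Set.singleton_subset_iff]; exact h.sS j
  rw [mem_parabolic_iff' P hJ] at hg
  obtain ⟨n, hn, hgn⟩ := hg
  rw [DoubleCoset.mem_doubleCoset] at hgn
  obtain ⟨b, hb, b', hb', rfl⟩ := hgn
  rw [Subgroup.mem_closure_singleton] at hn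
  obtain ⟨z, rfl⟩ := hn
  have h1 : ∀ m : ℤ, (s j * s j) ^ m ∈ P.B := fun m => zpow_mem (h.sq j) m
  rcases Int.even_or_odd' z with ⟨m, hm | hm⟩
  · left
    have e : s j ^ z = (s j * s j) ^ m := by rw [hm, zpow_mul, zpow_two]
    rw [e]
    exact mul_mem (mul_mem hb (h1 m)) hb'
  · right
    have e : s j ^ z = s j * (s j * s j) ^ m := by rw [hm, add_comm, zpow_add, zpow_mul, zpow_two, zpow_one]
    obtain ⟨c, hc, t, ht⟩ := h.sB j ((s j * s j) ^ m * b') (mul_mem (h1 m) hb')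
    refine ⟨b * c, mul_mem hb hc, t, ?_⟩
    rw [e]
    calc b * (s j * (s j * s j) ^ m) * b' = b * (s j * ((s j * s j) ^ m * b')) := by group
      _ = _ := by rw [ht]; group

theorem B_le_P1 (j : ι) : P.B ≤ P.parabolic {s j} := B_le_parabolic P _
theorem s_mem_P1 (j : ι) : s j ∈ P.parabolic {s j} := subset_parabolic P _ rfl

theorem P1_eq {i j : ι} (hs : s j ∈ P.parabolic {s i}) : i = j := by
  have hJ : {s i} ⊆ P.S := by rw [Set.singleton_subset_iff]; exact h.sS i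
  have := mem_of_mem_parabolic P hJ (i := ⟨s j, h.sS j⟩) hs
  exact (h.s_inj this).symm

theorem X_mem_P1 (i j : ι) (t : k j) : X j t ∈ P.parabolic {s i} := h.B_le_P1 i (h.U_le (h.X_mem j t))

theorem s_of_Y {j : ι} {t : k j} (ht : t ≠ 0) {M : Subgroup G} (hM : P.B ≤ M) (hY : Y j t ∈ M) : s j ∈ M := by
  have h1 : nn (X j) (Y j) (-t⁻¹) ∈ M := by
    unfold nn
    have e1 : -(-t⁻¹)⁻¹ = t := by rw [inv_neg, inv_inv, neg_neg]
    rw [e1]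
    exact mul_mem (mul_mem (hM (h.U_le (h.X_mem _ _))) hY) (hM (h.U_le (h.X_mem _ _)))
  have h2 := mul_mem (inv_mem (hM (h.nn_s j (-t⁻¹) (neg_ne_zero.2 (inv_ne_zero ht))))) h1
  have e : (nn (X j) (Y j) (-t⁻¹) * (s j)⁻¹)⁻¹ * nn (X j) (Y j) (-t⁻¹) = s j := by group
  rwa [e] at h2

theorem Y_mem_P1 (j : ι) (t : k j) : Y j t ∈ P.parabolic {s j} := by
  by_cases ht : t = 0
  · subst ht; rw [(h.r1 j).Y0]; exact one_mem _
  · have h0 : -t⁻¹ ≠ 0 := neg_ne_zero.2 (inv_ne_zero ht)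
    have h1 : nn (X j) (Y j) (-t⁻¹) ∈ P.parabolic {s j} := by
      have := mul_mem (h.B_le_P1 j (h.nn_s j (-t⁻¹) h0)) (h.s_mem_P1 j)
      rwa [inv_mul_cancel_right] at this
    have h2 : Y j t = (X j (-t⁻¹))⁻¹ * nn (X j) (Y j) (-t⁻¹) * (X j (-t⁻¹))⁻¹ := by
      unfold nn
      have e1 : -(-t⁻¹)⁻¹ = t := by rw [inv_neg, inv_inv, neg_neg]
      rw [e1]; group
    rw [h2]
    exact mul_mem (mul_mem (inv_mem (h.X_mem_P1 _ _ _)) h1) (inv_mem (h.X_mem_P1 _ _ _))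

/-- `V ∩ P_j = Y_j` -/
theorem V_inf_P1 {j : ι} {v : G} (hv : v ∈ V) (hP : v ∈ P.parabolic {s j}) : ∃ t, v = Y j t := by
  rcases h.mem_P1 hP with hB | ⟨b, hb, t, e⟩
  · exact ⟨0, by rw [(h.r1 j).Y0]; exact h.VB v hv hB⟩
  · by_cases ht : t = 0
    · exfalso
      subst ht
      rw [(h.r1 j).X0, mul_one] at e
      have h1 : n0⁻¹ * v * n0 ∈ P.B := h.U_le ((h.n0U v).1 hv)
      have h2 : pr P (⟨s j, h.sN j⟩ * ⟨n0, h.n0_mem⟩) = pr P ⟨n0, h.n0_mem⟩ := by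
        apply C_unique P (g := s j * n0) (mem_C_pr P (⟨s j, h.sN j⟩ * ⟨n0, h.n0_mem⟩))
        refine ⟨⟨n0, h.n0_mem⟩, rfl, b⁻¹, inv_mem hb, n0⁻¹ * v * n0, h1, ?_⟩
        change s j * n0 = b⁻¹ * n0 * (n0⁻¹ * v * n0)
        rw [e]; group
      rw [map_mul, mul_eq_right, pr_eq_one_iff] at h2
      exact h.sNB j h2
    · refine ⟨t⁻¹, ?_⟩
      have h1 := h.nn_s j (-t) (neg_ne_zero.2 ht)
      set c := nn (X j) (Y j) (-t) * (s j)⁻¹ with hc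
      have h2 : s j = c⁻¹ * nn (X j) (Y j) (-t) := by rw [hc]; group
      have h3 : nn (X j) (Y j) (-t) * X j t = X j (-t) * Y j t⁻¹ := by
        unfold nn
        have e1 : -(-t)⁻¹ = t⁻¹ := by rw [inv_neg, neg_neg]
        rw [e1, (h.r1 j).Xn]; group
      have h4 : v = (b * c⁻¹ * X j (-t)) * Y j t⁻¹ := by
        rw [e, h2]
        calc b * (c⁻¹ * nn (X j) (Y j) (-t)) * X j t = b * c⁻¹ * (nn (X j) (Y j) (-t) * X j t) := by group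
          _ = _ := by rw [h3]; group
      have h5 : v * (Y j t⁻¹)⁻¹ ∈ P.B := by
        rw [h4, mul_inv_cancel_right]
        exact mul_mem (mul_mem hb (inv_mem h1)) (h.U_le (h.X_mem _ _))
      have h6 := h.VB _ (mul_mem hv (inv_mem (h.Y_mem j _))) h5
      rwa [mul_inv_eq_one] at h6

theorem TN {t n : G} (hn : n ∈ P.N) (ht : t ∈ P.B ⊓ P.N) : n * t * n⁻¹ ∈ P.B ⊓ P.N :=
  ⟨P.conj_mem n hn t ht, P.N.mul_mem (P.N.mul_mem hn ht.2) (P.N.inv_mem hn)⟩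

theorem TY {c : G} (hc : c ∈ P.B ⊓ P.N) (j : ι) (t : k j) : ∃ u, c * Y j t * c⁻¹ = Y j u := by
  set n := nn (X j) (Y j) 1 with hn
  have hnN : n ∈ P.N := h.nn_N j 1 one_ne_zero
  have h1 : Y j t = n * X j (-t) * n⁻¹ := by
    rw [hn, (h.r1 j).nX 1 one_ne_zero]; congr 1; simp
  have h2 : n⁻¹ * c * n ∈ P.B ⊓ P.N := by
    have := h.TN (inv_mem hnN) hc
    rwa [inv_inv] at this
  obtain ⟨u, hu⟩ := h.TX _ h2 j (-t)
  refine ⟨-u, ?_⟩
  have h3 : Y j (-u) = n * X j u * n⁻¹ := by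
    rw [hn, (h.r1 j).nX 1 one_ne_zero]; congr 1; simp
  rw [h3, h1, ← hu]; group

theorem mem_T_of_norm {x : G} (hB : x ∈ P.B) (hV : ∀ v ∈ V, x * v * x⁻¹ ∈ V) (hV' : ∀ v ∈ V, x⁻¹ * v * x ∈ V) : x ∈ P.B ⊓ P.N := by
  obtain ⟨u, hu, t, ht, rfl⟩ := h.B_eq x hB
  have hu1 : u = 1 := by
    have h1 : n0⁻¹ * u * n0 ∈ P.B := by
      rw [h.mem_B_iff]
      have key : ∀ v ∈ V, u * v * u⁻¹ ∈ V := by
        intro v hv
        have h2 := hV _ (h.T_norm (t := t⁻¹) (inv_mem ht) hv)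
        have e : u * t * (t⁻¹ * v * t⁻¹⁻¹) * (u * t)⁻¹ = u * v * u⁻¹ := by group
        rwa [e] at h2
      have key' : ∀ v ∈ V, u⁻¹ * v * u ∈ V := by
        intro v hv
        have h2 := h.T_norm ht (hV' v hv)
        have e : t * ((u * t)⁻¹ * v * (u * t)) * t⁻¹ = u⁻¹ * v * u := by group
        rwa [e] at h2
      intro y
      constructor
      · intro hy
        have h2 := key _ (h.n0_conj_V hy)
        rw [h.n0U] at h2
        have e : n0⁻¹ * (u * (n0 * y * n0⁻¹) * u⁻¹) * n0 = n0⁻¹ * u * n0 * y * (n0⁻¹ * u * n0)⁻¹ := by group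
        rwa [e] at h2
      · intro hy
        have h2 := key' _ (h.n0_conj_V hy)
        rw [h.n0U] at h2
        have e : n0⁻¹ * (u⁻¹ * (n0 * (n0⁻¹ * u * n0 * y * (n0⁻¹ * u * n0)⁻¹) * n0⁻¹) * u) * n0 = y := by group
        rwa [e] at h2
    have h2 := h.VB _ ((h.n0V u).1 hu) h1
    have e : u = n0 * (n0⁻¹ * u * n0) * n0⁻¹ := by group
    rw [e, h2]; group
  rw [hu1, one_mul]
  exact ht

/-- the image of `n₀` -/
theorem Sd.n0T {θ : G ≃* G} (hθ : Sd U V θ) : n0⁻¹ * θ n0 ∈ P.B ⊓ P.N := by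
  apply h.mem_T_of_norm
  · rw [h.mem_B_iff]
    intro u
    obtain ⟨v, rfl⟩ := θ.surjective u
    have e : n0⁻¹ * θ n0 * θ v * (n0⁻¹ * θ n0)⁻¹ = n0⁻¹ * θ (n0 * v * n0⁻¹) * n0 := by
      rw [map_mul, map_mul, map_inv]; group
    rw [e, ← h.n0U, hθ.neg, hθ.pos, h.n0U]
    have e2 : n0⁻¹ * (n0 * v * n0⁻¹) * n0 = v := by group
    rw [e2]
  · intro u hu
    obtain ⟨v, rfl⟩ := θ.surjective u
    have e : n0⁻¹ * θ n0 * θ v * (n0⁻¹ * θ n0)⁻¹ = n0⁻¹ * θ (n0 * v * n0⁻¹) * n0 := by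
      rw [map_mul, map_mul, map_inv]; group
    rw [e, ← h.n0V, hθ.pos]
    exact h.n0_conj_U ((hθ.neg v).1 hu)
  · intro u hu
    have e : (n0⁻¹ * θ n0)⁻¹ * u * (n0⁻¹ * θ n0) = θ (n0⁻¹ * θ.symm (n0 * u * n0⁻¹) * n0) := by
      rw [map_mul, map_mul, map_inv, MulEquiv.apply_symm_apply]; group
    rw [e, hθ.neg, ← h.n0V, ← hθ.pos, MulEquiv.apply_symm_apply]
    exact h.n0_conj_U hu

end OD
end Cfsg.Agent.H6.TO
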