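import Cfsg.Agent.H6.ToB
import Cfsg.Prelude.Def_KGroupFacts

/-!
Standard automorphisms: the action on the root subgroups, and the order of the outer automorphism group.
-/

set_option autoImplicit false
set_option linter.unusedSectionVars false

namespace Cfsg.Agent.H6.TO
open Cfsg Cfsg.Agent.H6.BN

/-- rigidity of the diagram -/
def Rigid {G : Type*} [Group G] {ι : Type*} {K : Type*} [Field K] (k : ι → Subfield K) (X : (j : ι) → k j → G) : Prop :=
  ∀ π : ι → ι, Function.Injective π → (∀ j, Nat.card (k j) = Nat.card (k (π j))) →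
    (∀ i j, (∀ t u, Commute (X i t) (X j u)) → ∀ t u, Commute (X (π i) t) (X (π j) u)) → ∀ j, π j = j

/-- `h_i(t)` acts on `X_j` by `t⁻¹` -/
def CrossRel {G : Type*} [Group G] {ι : Type*} {K : Type*} [Field K] {k : ι → Subfield K} (X Y : (j : ι) → k j → G) (i j : ι) : Prop :=
  ∀ (t : k i) (t' : k j), (t' : K) = t → t ≠ 0 → ∀ u, (nn (X i) (Y i) t * (nn (X i) (Y i) 1)⁻¹) * X j u *
    (nn (X i) (Y i) t * (nn (X i) (Y i) 1)⁻¹)⁻¹ = X j (t'⁻¹ * u)

/-- the form of standard automorphisms -/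
structure Form {G : Type*} [Group G] {ι : Type*} {K : Type*} [Field K] {k : ι → Subfield K} (X Y : (j : ι) → k j → G)
    (θ : G ≃* G) (σ : K ≃+* K) (c : (j : ι) → (k j)ˣ) : Prop where
  X : ∀ j (t t' : k j), (t' : K) = (c j : k j) * σ t → θ (X j t) = X j t'
  Y : ∀ j (t t' : k j), (t' : K) = (((c j)⁻¹ : (k j)ˣ) : k j) * σ t → θ (Y j t) = Y j t'

namespace OD
variable {G : Type*} [Group G] {ι : Type*} {K : Type*} [Field K] {P : BNPair G} {U V : Subgroup G} {n0 : G}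
    {s : ι → G} {k : ι → Subfield K} {X Y : (j : ι) → k j → G} (h : OD P U V n0 s k X Y)
include h

theorem exists_pi {θ : G ≃* G} (hθ : Sd U V θ) (j : ι) : ∃ i, ∀ g, g ∈ P.parabolic {s j} ↔ θ g ∈ P.parabolic {s i} := by
  let M : Subgroup G := (P.parabolic {s j}).comap θ.symm.toMonoidHom
  have hMm : ∀ g, g ∈ M ↔ θ.symm g ∈ P.parabolic {s j} := fun g => Iff.rfl
  have hθs : Sd U V θ.symm := Sd.symm h hθ
  have hBM : P.B ≤ M := fun b hb => (hMm b).2 (h.B_le_P1 j ((Sd.B h hθs b).2 hb))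
  have h1 := eq_parabolic P M hBM
  have h2 : ∃ i, s i ∈ M := by
    by_contra hc
    push Not at hc
    have h3 : P.S ∩ (M : Set G) = ∅ := by
      rw [Set.eq_empty_iff_forall_notMem]
      rintro x ⟨hx, hxM⟩
      rw [h.S_eq] at hx
      obtain ⟨i, rfl⟩ := hx
      exact hc i hxM
    have h4 : P.parabolic ∅ = P.B := by
      unfold BNPair.parabolic
      rw [Subgroup.closure_empty, sup_bot_eq]
    rw [h3, h4] at h1
    have h5 : θ (s j) ∈ M := by rw [hMm, MulEquiv.symm_apply_apply]; exact h.s_mem_P1 j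
    rw [h1, Sd.B h hθ] at h5
    exact h.sNB j h5
  obtain ⟨i, hi⟩ := h2
  have h3 : P.parabolic {s i} ≤ M := by
    unfold BNPair.parabolic
    refine sup_le hBM ?_
    rw [Subgroup.closure_le, Set.singleton_subset_iff]
    exact hi
  let M' : Subgroup G := (P.parabolic {s i}).comap θ.toMonoidHom
  have hMm' : ∀ g, g ∈ M' ↔ θ g ∈ P.parabolic {s i} := fun g => Iff.rfl
  have hBM' : P.B ≤ M' := fun b hb => (hMm' b).2 (h.B_le_P1 i ((Sd.B h hθ b).2 hb))
  have h4 : s j ∈ M' := by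
    have h5 : θ.symm (s i) ∈ P.parabolic {s j} := hi
    have h6 : θ.symm (s i) ∉ P.B := by rw [Sd.B h hθs]; exact h.sNB i
    rcases h.mem_P1 h5 with h7 | ⟨b, hb, t, e⟩
    · exact absurd h7 h6
    · have h8 : θ.symm (s i) ∈ M' := by
        rw [hMm', MulEquiv.apply_symm_apply]; exact h.s_mem_P1 i
      have e2 : s j = b⁻¹ * θ.symm (s i) * (X j t)⁻¹ := by rw [e]; group
      rw [e2]
      exact mul_mem (mul_mem (inv_mem (hBM' hb)) h8) (inv_mem (hBM' (h.U_le (h.X_mem j t))))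
  have h5 : P.parabolic {s j} ≤ M' := by
    have : P.parabolic {s j} = P.B ⊔ Subgroup.closure {s j} := rfl
    rw [this]
    refine sup_le hBM' ?_
    rw [Subgroup.closure_le, Set.singleton_subset_iff]
    exact h4
  refine ⟨i, fun g => ⟨fun hg => h5 hg, fun hg => ?_⟩⟩
  have := h3 hg
  rwa [hMm, MulEquiv.symm_apply_apply] at this

theorem n0Y_surj [Finite G] (j : ι) (t : k j) : ∃ u, n0 * Y j u * n0⁻¹ = X j t := by
  have : Finite (k j) := Finite.of_injective (X j) (h.r1 j).Xi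
  choose φ hφ using h.n0Y j
  have hinj : Function.Injective φ := by
    intro a b hab
    have h1 := hφ a
    rw [hab, ← hφ b] at h1
    exact (h.r1 j).Yi (mul_left_cancel (mul_right_cancel h1))
  obtain ⟨u, hu⟩ := Finite.injective_iff_surjective.1 hinj t
  exact ⟨u, by rw [hφ, hu]⟩

theorem mapY {θ : G ≃* G} (hθ : Sd U V θ) {i j : ι} (hij : ∀ g, g ∈ P.parabolic {s j} ↔ θ g ∈ P.parabolic {s i}) (t : k j) :
    ∃ u, θ (Y j t) = Y i u :=
  h.V_inf_P1 ((hθ.neg _).2 (h.Y_mem j t)) ((hij _).1 (h.Y_mem_P1 j t))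

theorem mapX [Finite G] {θ : G ≃* G} (hθ : Sd U V θ) {i j : ι} (hij : ∀ g, g ∈ P.parabolic {s j} ↔ θ g ∈ P.parabolic {s i}) (t : k j) :
    ∃ u, θ (X j t) = X i u := by
  obtain ⟨v, hv⟩ := h.n0Y_surj j t
  obtain ⟨w, hw⟩ := h.mapY hθ hij v
  obtain ⟨w', hw'⟩ := h.TY (Sd.n0T h hθ) i w
  obtain ⟨w'', hw''⟩ := h.n0Y i w'
  refine ⟨w'', ?_⟩
  rw [← hv, map_mul, map_mul, map_inv, hw, ← hw'', ← hw']
  group

theorem exists_perm [Finite G] {θ : G ≃* G} (hθ : Sd U V θ) : ∃ (π : ι → ι) (f g : (j : ι) → k j → k (π j)),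
    (∀ j t, θ (X j t) = X (π j) (f j t)) ∧ (∀ j t, θ (Y j t) = Y (π j) (g j t)) ∧ Function.Injective π ∧
      ∀ j, Nat.card (k j) = Nat.card (k (π j)) := by
  have hfin : ∀ j, Finite (k j) := fun j => Finite.of_injective (X j) (h.r1 j).Xi
  have hθs : Sd U V θ.symm := Sd.symm h hθ
  choose π hπ using h.exists_pi hθ
  choose f hf using fun j => h.mapX hθ (hπ j)
  choose g hg using fun j => h.mapY hθ (hπ j)
  choose π' hπ' using h.exists_pi hθs
  choose f' hf' using fun j => h.mapX hθs (hπ' j)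
  have hinj : Function.Injective π := by
    intro i j hij
    apply h.P1_eq
    rw [hπ i, hij, ← hπ j]
    exact h.s_mem_P1 j
  have hfi : ∀ j, Function.Injective (f j) := by
    intro j a b hab
    have := hf j a
    rw [hab, ← hf j b] at this
    exact (h.r1 j).Xi (θ.injective this)
  have hfi' : ∀ j, Function.Injective (f' j) := by
    intro j a b hab
    have := hf' j a
    rw [hab, ← hf' j b] at this
    exact (h.r1 j).Xi (θ.symm.injective this)
  refine ⟨π, f, g, hf, hg, hinj, fun j => le_antisymm (Nat.card_le_card_of_injective _ (hfi j)) ?_⟩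
  have h1 : π' (π j) = j := by
    apply h.P1_eq
    rw [← MulEquiv.symm_apply_apply θ (s j), ← hπ' (π j), ← hπ j]
    exact h.s_mem_P1 j
  have h2 := Nat.card_le_card_of_injective _ (hfi' (π j))
  rwa [h1] at h2

theorem exists_fg [Finite G] (hr : Rigid k X) {θ : G ≃* G} (hθ : Sd U V θ) : ∃ (f g : (j : ι) → k j → k j),
    (∀ j t, θ (X j t) = X j (f j t)) ∧ (∀ j t, θ (Y j t) = Y j (g j t)) := by
  have hfin : ∀ j, Finite (k j) := fun j => Finite.of_injective (X j) (h.r1 j).Xi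
  obtain ⟨π, f, g, hf, hg, hinj, hcard⟩ := h.exists_perm hθ
  have hπ : π = id := by
    funext j
    apply hr π hinj hcard
    intro i j hij t u
    have hsurj : ∀ j, Function.Surjective (f j) := by
      intro j
      refine (Function.Injective.bijective_of_nat_card_le ?_ (hcard j).ge).2
      intro a b hab
      have := hf j a
      rw [hab, ← hf j b] at this
      exact (h.r1 j).Xi (θ.injective this)
    obtain ⟨t', rfl⟩ := hsurj i t
    obtain ⟨u', rfl⟩ := hsurj j u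
    rw [← hf, ← hf]
    exact (hij t' u').map θ
  subst hπ
  exact ⟨f, g, hf, hg⟩

theorem exists_local [Finite G] (hr : Rigid k X) {θ : G ≃* G} (hθ : Sd U V θ) : ∃ (τ : (j : ι) → k j ≃+* k j) (c : (j : ι) → (k j)ˣ),
    (∀ j t, θ (X j t) = X j ((c j : k j) * τ j t)) ∧ (∀ j t, θ (Y j t) = Y j (((c j)⁻¹ : (k j)ˣ) * τ j t)) := by
  have hfin : ∀ j, Finite (k j) := fun j => Finite.of_injective (X j) (h.r1 j).Xi
  obtain ⟨f, g, hf, hg⟩ := h.exists_fg hr hθ
  choose τ c hc h1 h2 using fun j => (h.r1 j).form (θ := θ.toMonoidHom) θ.injective (f := f j) (g := g j) (hf j) (hg j)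
  refine ⟨τ, fun j => Units.mk0 (c j) (hc j), fun j t => ?_, fun j t => ?_⟩
  · rw [hf, h1]; rfl
  · rw [hg, h2]
    congr 1

theorem cross {θ : G ≃* G} {τ : (j : ι) → k j ≃+* k j} {c : (j : ι) → (k j)ˣ}
    (hX : ∀ j t, θ (X j t) = X j ((c j : k j) * τ j t)) (hY : ∀ j t, θ (Y j t) = Y j (((c j)⁻¹ : (k j)ˣ) * τ j t))
    {i j : ι} (hij : CrossRel X Y i j) (hle : k i ≤ k j) (t : k i) (t' : k j) (ht : (t' : K) = t) : ((τ j t' : k j) : K) = (τ i t : k i) := by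
  by_cases ht0 : t = 0
  · subst ht0
    have : t' = 0 := Subtype.ext ht
    rw [this, map_zero, map_zero]; rfl
  have ht0' : t' ≠ 0 := by
    rintro rfl
    exact ht0 (Subtype.ext ht.symm)
  set n : k i → G := nn (X i) (Y i) with hn
  have hθn : ∀ t : k i, t ≠ 0 → θ (n t) = n ((c i : k i) * τ i t) := by
    intro t ht
    rw [hn]
    unfold nn
    rw [map_mul, map_mul, hX, hY]
    congr 3
    rw [map_neg, map_inv₀, mul_inv, Units.val_inv_eq_inv_val, mul_neg]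
  have hci : (c i : k i) ≠ 0 := (c i).ne_zero
  have hτt : τ i t ≠ 0 := by rwa [Ne, map_eq_zero_iff _ (τ i).injective]
  set T : k j := ⟨(τ i t : k i), hle (τ i t).2⟩ with hT
  set C : k j := ⟨((c i : k i) : K), hle (c i : k i).2⟩ with hC
  have hT0 : T ≠ 0 := by
    intro h0
    have h00 : ((τ i t : k i) : K) = 0 := congrArg Subtype.val h0
    exact hτt (Subtype.ext h00)
  have hC0 : C ≠ 0 := by
    intro h0
    have h00 : ((c i : k i) : K) = 0 := congrArg Subtype.val h0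
    exact hci (Subtype.ext h00)
  have h1 := congrArg θ (hij t t' ht ht0 1)
  have h2 : ∀ u, (n ((c i : k i) * τ i t) * (n 1)⁻¹) * X j u * (n ((c i : k i) * τ i t) * (n 1)⁻¹)⁻¹ = X j ((C * T)⁻¹ * u) :=
    hij ((c i : k i) * τ i t) (C * T) rfl (mul_ne_zero hci hτt)
  have h3 : ∀ u, (n (c i : k i) * (n 1)⁻¹) * X j u * (n (c i : k i) * (n 1)⁻¹)⁻¹ = X j (C⁻¹ * u) := hij (c i : k i) C rfl hci
  rw [map_mul, map_mul, map_inv, map_mul, map_inv, hθn t ht0, hθn 1 one_ne_zero, map_one, mul_one, hX, hX, map_one, mul_one, mul_one,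
    map_inv₀] at h1
  have h4 : n ((c i : k i) * τ i t) * (n (c i : k i))⁻¹ =
      (n ((c i : k i) * τ i t) * (n 1)⁻¹) * (n (c i : k i) * (n 1)⁻¹)⁻¹ := by group
  have h5 : (n ((c i : k i) * τ i t) * (n (c i : k i))⁻¹) * X j (c j : k j) * (n ((c i : k i) * τ i t) * (n (c i : k i))⁻¹)⁻¹ =
      X j (T⁻¹ * (c j : k j)) := by
    have h6 : (n (c i : k i) * (n 1)⁻¹)⁻¹ * X j (c j : k j) * (n (c i : k i) * (n 1)⁻¹) = X j (C * (c j : k j)) := by
      have h7 := h3 (C * (c j : k j))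
      rw [inv_mul_cancel_left₀ hC0] at h7
      rw [← h7]; group
    rw [h4]
    calc _ = (n ((c i : k i) * τ i t) * (n 1)⁻¹) * ((n (c i : k i) * (n 1)⁻¹)⁻¹ * X j (c j : k j) * (n (c i : k i) * (n 1)⁻¹)) *
        (n ((c i : k i) * τ i t) * (n 1)⁻¹)⁻¹ := by group
      _ = _ := by
        rw [h6, h2]
        congr 1
        field_simp
  rw [h5] at h1
  have h6 := (h.r1 j).Xi h1
  have h7 : T⁻¹ = (τ j t')⁻¹ := by
    have hcj : (c j : k j) ≠ 0 := (c j).ne_zero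
    apply mul_left_cancel₀ hcj
    rw [← h6, mul_comm]
  rw [inv_inj] at h7
  rw [← h7]

/-- the subgroup of standard automorphisms -/
def A0 (U V : Subgroup G) : Subgroup (MulAut G) where
  carrier := {θ | Sd U V θ}
  mul_mem' := by
    intro a b ha hb
    exact ⟨fun g => (ha.pos (b g)).trans (hb.pos g), fun g => (ha.neg (b g)).trans (hb.neg g)⟩
  one_mem' := ⟨fun g => Iff.rfl, fun g => Iff.rfl⟩
  inv_mem' := by
    intro a ha
    constructor
    · intro g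
      change a.symm g ∈ U ↔ _
      rw [← ha.pos, MulEquiv.apply_symm_apply]
    · intro g
      change a.symm g ∈ V ↔ _
      rw [← ha.neg, MulEquiv.apply_symm_apply]

omit h in
theorem mem_A0 {θ : MulAut G} : θ ∈ A0 U V ↔ Sd U V θ := Iff.rfl

theorem conj_mem_A0 {x : G} : MulAut.conj x ∈ A0 U V ↔ x ∈ P.B ⊓ P.N := by
  constructor
  · intro hx
    have hx' := (A0 U V).inv_mem hx
    rw [← map_inv] at hx'
    apply h.mem_T_of_norm
    · rw [h.mem_B_iff]
      intro u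
      exact (hx.pos u).symm
    · intro v hv
      exact (hx.neg v).2 hv
    · intro v hv
      have := (hx'.neg v).2 hv
      rwa [MulAut.conj_apply, inv_inv] at this
  · intro hx
    constructor
    · intro g
      exact (h.U_norm' hx.1).symm
    · intro g
      constructor
      · intro hg
        have := h.T_norm (inv_mem hx) hg
        rw [MulAut.conj_apply] at this
        have e : x⁻¹ * (x * g * x⁻¹) * x⁻¹⁻¹ = g := by group
        rwa [e] at this
      · intro hg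
        exact h.T_norm hx hg

theorem conj_injective : Function.Injective (MulAut.conj : G →* MulAut G) := by
  refine (injective_iff_map_eq_one _).2 fun x hx => h.center x fun y => ?_
  have := DFunLike.congr_fun hx y
  rw [MulAut.conj_apply, MulAut.one_apply, mul_inv_eq_iff_eq_mul] at this
  exact this

/-- the map from standard automorphisms to `Out` -/
noncomputable def toOut (U V : Subgroup G) : ↥(A0 U V) →* Cfsg.Out G :=
  (QuotientGroup.mk' (Cfsg.Inn G)).comp (A0 U V).subtype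

theorem toOut_surj : Function.Surjective (toOut U V) := by
  intro y
  obtain ⟨θ, rfl⟩ := QuotientGroup.mk'_surjective _ y
  obtain ⟨x, hx⟩ := h.exists_std θ
  refine ⟨⟨_, hx⟩, ?_⟩
  change QuotientGroup.mk' _ (MulAut.conj x * θ) = QuotientGroup.mk' _ θ
  rw [map_mul]
  have h1 : QuotientGroup.mk' (Cfsg.Inn G) (MulAut.conj x) = 1 :=
    (QuotientGroup.eq_one_iff _).2 ⟨x, rfl⟩
  rw [h1, one_mul]

theorem mem_ker_toOut {θ : ↥(A0 U V)} : θ ∈ (toOut U V).ker ↔ ∃ x, x ∈ P.B ⊓ P.N ∧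
    (θ : MulAut G) = MulAut.conj x := by
  rw [MonoidHom.mem_ker]
  change QuotientGroup.mk' _ (θ : MulAut G) = 1 ↔ _
  rw [show (QuotientGroup.mk' (Cfsg.Inn G) (θ : MulAut G) = 1) ↔
    (θ : MulAut G) ∈ Cfsg.Inn G from QuotientGroup.eq_one_iff _]
  constructor
  · rintro ⟨x, hx⟩
    refine ⟨x, ?_, hx.symm⟩
    rw [← h.conj_mem_A0, hx]
    exact θ.2
  · rintro ⟨x, -, hx⟩
    exact ⟨x, hx.symm⟩

theorem card_ker_toOut : Nat.card (toOut U V).ker = Nat.card ↥(P.B ⊓ P.N) := by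
  have key : ∀ x : ↥(P.B ⊓ P.N), (⟨MulAut.conj (x : G), h.conj_mem_A0.2 x.2⟩ : ↥(A0 U V)) ∈ (toOut U V).ker := fun x =>
    h.mem_ker_toOut.2 ⟨x, x.2, rfl⟩
  symm
  refine Nat.card_congr (Equiv.ofBijective (fun x : ↥(P.B ⊓ P.N) => (⟨_, key x⟩ : (toOut U V).ker)) ⟨?_, ?_⟩)
  · intro x y hxy
    have h1 : MulAut.conj (x : G) = MulAut.conj (y : G) := congrArg (fun z : (toOut U V).ker => ((z : ↥(A0 U V)) : MulAut G)) hxy
    exact Subtype.ext (h.conj_injective h1)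
  · rintro ⟨θ, hθ⟩
    obtain ⟨x, hx, e⟩ := h.mem_ker_toOut.1 hθ
    exact ⟨⟨x, hx⟩, Subtype.ext (Subtype.ext e.symm)⟩

theorem card_A0 : Nat.card (A0 U V) = Nat.card (Cfsg.Out G) * Nat.card ↥(P.B ⊓ P.N) := by
  rw [← h.card_ker_toOut, Subgroup.card_eq_card_quotient_mul_card_subgroup (toOut U V).ker]
  congr 1
  exact Nat.card_congr (QuotientGroup.quotientKerEquivOfSurjective _ h.toOut_surj).toEquiv

/-- counting standard automorphisms -/
theorem card_A0' [Finite G] [Finite K] [Fintype ι] (hr : Rigid k X) (j0 : ι) (hj0 : ∀ x : K, x ∈ k j0)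
    (stab : ∀ (σ : K ≃+* K) (j : ι), ∀ t ∈ k j, σ t ∈ k j)
    (glob : ∀ τ : (j : ι) → k j ≃+* k j, (∀ i j, CrossRel X Y i j → k i ≤ k j → ∀ (t : k i) (t' : k j), (t' : K) = t →
      ((τ j t' : k j) : K) = (τ i t : k i)) → ∃ σ : K ≃+* K, ∀ j t, ((τ j t : k j) : K) = σ t)
    (real : ∀ (σ : K ≃+* K) (c : (j : ι) → (k j)ˣ), ∃ θ : G ≃* G, Sd U V θ ∧
      ∀ j (t t' : k j), (t' : K) = (c j : k j) * σ t → θ (X j t) = X j t') :
    Nat.card (A0 U V) = Nat.card (K ≃+* K) * ∏ j, Nat.card (k j)ˣ := by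
  have hex : ∀ θ : ↥(A0 U V), ∃ (σ : K ≃+* K) (c : (j : ι) → (k j)ˣ), Form X Y (θ : MulAut G) σ c := by
    rintro ⟨θ, hθ⟩
    obtain ⟨τ, c, hX, hY⟩ := h.exists_local hr hθ
    obtain ⟨σ, hσ⟩ := glob τ fun i j hij hle t t' ht => h.cross hX hY hij hle t t' ht
    refine ⟨σ, c, ⟨fun j t t' ht => ?_, fun j t t' ht => ?_⟩⟩
    · rw [hX]; congr 1; apply Subtype.ext; rw [ht, ← hσ]; rfl
    · rw [hY]; congr 1; apply Subtype.ext; rw [ht, ← hσ]; rfl
  choose σ c hF using hex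
  have huniq : ∀ (θ : G ≃* G) (σ₁ σ₂ : K ≃+* K) (c₁ c₂ : (j : ι) → (k j)ˣ),
      (∀ j (t t' : k j), (t' : K) = (c₁ j : k j) * σ₁ t → θ (X j t) = X j t') →
      (∀ j (t t' : k j), (t' : K) = (c₂ j : k j) * σ₂ t → θ (X j t) = X j t') → σ₁ = σ₂ ∧ c₁ = c₂ := by
    intro θ σ₁ σ₂ c₁ c₂ h1 h2
    have hc : c₁ = c₂ := by
      funext j
      have h3 := h1 j 1 (c₁ j) (by simp)
      have h4 := h2 j 1 (c₂ j) (by simp)
      rw [h3] at h4
      exact Units.ext ((h.r1 j).Xi h4)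
    subst hc
    refine ⟨?_, rfl⟩
    ext x
    have h3 := h1 j0 ⟨x, hj0 x⟩ ⟨(c₁ j0 : k j0) * σ₁ x, hj0 _⟩ rfl
    have h4 := h2 j0 ⟨x, hj0 x⟩ ⟨(c₁ j0 : k j0) * σ₂ x, hj0 _⟩ rfl
    rw [h3] at h4
    have h5 := congrArg Subtype.val ((h.r1 j0).Xi h4)
    have h6 : ((c₁ j0 : k j0) : K) ≠ 0 := fun h0 => (c₁ j0).ne_zero (Subtype.ext h0)
    exact mul_left_cancel₀ h6 h5
  rw [← Nat.card_pi, ← Nat.card_prod]
  refine Nat.card_congr (Equiv.ofBijective (fun θ => (σ θ, c θ)) ⟨?_, ?_⟩)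
  · intro θ₁ θ₂ he
    simp only [Prod.mk.injEq] at he
    obtain ⟨h1, h2⟩ := he
    have hF₁ := hF θ₁
    have hF₂ := hF θ₂
    rw [h1, h2] at hF₁
    apply Subtype.ext
    have hM := h.gen (MonoidHom.eqLocus ((θ₁ : MulAut G) : G ≃* G).toMonoidHom ((θ₂ : MulAut G) : G ≃* G).toMonoidHom)
      (fun j t => by
        have hm : ((c θ₂ j : k j) : K) * σ θ₂ t ∈ k j := mul_mem (c θ₂ j : k j).2 (stab _ _ _ t.2)
        exact (hF₁.X j t ⟨_, hm⟩ rfl).trans (hF₂.X j t ⟨_, hm⟩ rfl).symm)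
      (fun j t => by
        have hm : ((((c θ₂ j)⁻¹ : (k j)ˣ) : k j) : K) * σ θ₂ t ∈ k j := mul_mem (((c θ₂ j)⁻¹ : (k j)ˣ) : k j).2 (stab _ _ _ t.2)
        exact (hF₁.Y j t ⟨_, hm⟩ rfl).trans (hF₂.Y j t ⟨_, hm⟩ rfl).symm)
    apply MulEquiv.ext
    intro g
    have hg : g ∈ MonoidHom.eqLocus ((θ₁ : MulAut G) : G ≃* G).toMonoidHom ((θ₂ : MulAut G) : G ≃* G).toMonoidHom := by
      rw [hM]; trivial
    exact hg
  · rintro ⟨σ₁, c₁⟩
    obtain ⟨θ, hθ, h1⟩ := real σ₁ c₁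
    refine ⟨⟨θ, hθ⟩, ?_⟩
    obtain ⟨h2, h3⟩ := huniq θ _ _ _ _ (hF ⟨θ, hθ⟩).X h1
    rw [Prod.mk.injEq]
    exact ⟨h2, h3⟩

end OD
end Cfsg.Agent.H6.TO
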