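import Cfsg.Agent.H6.TwComm3
import Cfsg.Agent.H6.ToC

/-!
Products of commuting rank one elements.
-/

set_option autoImplicit false
set_option linter.unusedSectionVars false
set_option maxHeartbeats 400000

namespace Cfsg.Agent.H6
open Cfsg.Lie
open scoped Matrix

variable {D : ChevalleyDatum} {N : ℕ} {η : ℕ → ℕ → ℤ} {rc : ℕ → ℕ → ℤ} {F : Type*} [Field F]

/-- product of `n_i(c_i)` -/
noncomputable def pn (D : ChevalleyDatum) (F : Type*) [Field F] (A : List (Fin D.rank)) (c : ℕ → F) : GL D.Idx F :=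
  (A.map fun i : Fin D.rank => ngr D F (D.simple i) (c i)).prod

/-- product of `h_i(c_i)` -/
noncomputable def hp (D : ChevalleyDatum) (F : Type*) [Field F] (A : List (Fin D.rank)) (c : ℕ → F) : GL D.Idx F :=
  (A.map fun i : Fin D.rank => hgr D F (D.simple i) (c i)).prod

theorem pn_cons (a : Fin D.rank) (A : List (Fin D.rank)) (c : ℕ → F) : pn D F (a :: A) c = ngr D F (D.simple a) (c a) * pn D F A c := by
  unfold pn; rw [List.map_cons, List.prod_cons]

theorem hp_cons (a : Fin D.rank) (A : List (Fin D.rank)) (c : ℕ → F) : hp D F (a :: A) c = hgr D F (D.simple a) (c a) * hp D F A c := by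
  unfold hp; rw [List.map_cons, List.prod_cons]

theorem pw_cons (b : Bool) (a : Fin D.rank) (A : List (Fin D.rank)) (c : ℕ → F) : pw D F b (a :: A) c = sx D F b a (c a) * pw D F b A c := by
  unfold pw; rw [List.map_cons, List.prod_cons]

theorem COrb.pn_eq {A : List (Fin D.rank)} (h : COrb D F A) (c : ℕ → F) :
    pw D F true A c * pw D F false A (fun i => -(c i)⁻¹) * pw D F true A c = pn D F A c := by
  induction A with
  | nil => unfold pw pn; simp
  | cons a A ih =>
    rw [pn_cons, ← ih h.sub, pw_cons, pw_cons]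
    have hn : ngr D F (D.simple a) (c a) = sx D F true a (c a) * sx D F false a (-(c a)⁻¹) * sx D F true a (c a) := rfl
    rw [hn]
    have c1 := h.comm_pw true true (c a) c
    have c2 := h.comm_pw false true (-(c a)⁻¹) c
    have c3 := h.comm_pw true false (c a) (fun i => -(c i)⁻¹)
    set X := pw D F true A c
    set Y := pw D F false A (fun i => -(c i)⁻¹)
    set x := sx D F true a (c a)
    set y := sx D F false a (-(c a)⁻¹)
    symm
    calc x * y * x * (X * Y * X) = x * y * (x * X) * Y * X := by group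
      _ = x * (y * X) * (x * Y) * X := by rw [c1.eq]; group
      _ = x * (X * y) * (Y * x) * X := by rw [c2.eq, c3.eq]
      _ = x * X * (y * Y) * (x * X) := by group

theorem COrb.ngr_comm {A : List (Fin D.rank)} (h : COrb D F A) {i i' : Fin D.rank} (hi : i ∈ A) (hi' : i' ∈ A) (hne : i ≠ i') (c : F) (b : Bool) (t : F) :
    Commute (ngr D F (D.simple i) c) (sx D F b i' t) :=
  ((h.comm i hi i' hi' hne true b c t).mul_left (h.comm i hi i' hi' hne false b (-c⁻¹) t)).mul_left (h.comm i hi i' hi' hne true b c t)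

theorem COrb.ngr_ngr {A : List (Fin D.rank)} (h : COrb D F A) {i i' : Fin D.rank} (hi : i ∈ A) (hi' : i' ∈ A) (hne : i ≠ i') (c c' : F) :
    Commute (ngr D F (D.simple i) c) (ngr D F (D.simple i') c') :=
  ((h.ngr_comm hi hi' hne c true c').mul_right (h.ngr_comm hi hi' hne c false (-c'⁻¹))).mul_right (h.ngr_comm hi hi' hne c true c')

theorem COrb.pn_conj {A : List (Fin D.rank)} (h : COrb D F A) (c : ℕ → F) {i : Fin D.rank} (hi : i ∈ A) (b : Bool) (u : F) :
    pn D F A c * sx D F b i u * (pn D F A c)⁻¹ = ngr D F (D.simple i) (c i) * sx D F b i u * (ngr D F (D.simple i) (c i))⁻¹ := by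
  induction A with
  | nil => simp at hi
  | cons a A ih =>
    rw [pn_cons]
    have e : ngr D F (D.simple a) (c a) * pn D F A c * sx D F b i u * (ngr D F (D.simple a) (c a) * pn D F A c)⁻¹ =
        ngr D F (D.simple a) (c a) * (pn D F A c * sx D F b i u * (pn D F A c)⁻¹) * (ngr D F (D.simple a) (c a))⁻¹ := by group
    rw [e]
    by_cases hia : i = a
    · subst hia
      have hc : Commute (pn D F A c) (sx D F b i u) := by
        unfold pn
        apply Commute.list_prod_left
        intro x hx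
        rw [List.mem_map] at hx
        obtain ⟨l, hl, rfl⟩ := hx
        have hne : l ≠ i := by
          rintro rfl
          exact (List.nodup_cons.1 h.nodup).1 hl
        exact h.ngr_comm (List.mem_cons_of_mem _ hl) List.mem_cons_self hne _ _ _
      rw [hc.eq, mul_inv_cancel_right]
    · have hiA : i ∈ A := (List.mem_cons.1 hi).resolve_left hia
      rw [ih h.sub hiA]
      have h1 := h.ngr_comm List.mem_cons_self hi (fun he => hia he.symm) (c a) b u
      have h2 := h.ngr_ngr List.mem_cons_self hi (fun he => hia he.symm) (c a) (c i)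
      have h3 := (h2.mul_right h1).mul_right h2.inv_right
      rw [h3.eq, mul_inv_cancel_right]

theorem hgr_mul_ngr (hG : Good D N η rc) (r : ℕ) (c : F) : ngr D F r c = hgr D F r c * ngr D F r 1 := by
  unfold hgr
  rw [hG.ngr_neg_one]; group

theorem COrb.pn_hp (hG : Good D N η rc) {A : List (Fin D.rank)} (h : COrb D F A) (c : ℕ → F) :
    pn D F A c = hp D F A c * pn D F A (fun _ => 1) := by
  induction A with
  | nil => unfold pn hp; simp
  | cons a A ih =>
    rw [pn_cons, pn_cons, hp_cons, ih h.sub, hgr_mul_ngr hG]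
    have hc : Commute (ngr D F (D.simple a) 1) (hp D F A c) := by
      unfold hp
      apply Commute.list_prod_right
      intro x hx
      rw [List.mem_map] at hx
      obtain ⟨l, hl, rfl⟩ := hx
      have hne : a ≠ l := by
        rintro rfl
        exact (List.nodup_cons.1 h.nodup).1 hl
      exact (h.ngr_ngr List.mem_cons_self (List.mem_cons_of_mem _ hl) hne _ _).mul_right
        (h.ngr_ngr List.mem_cons_self (List.mem_cons_of_mem _ hl) hne _ _)
    calc _ = hgr D F (D.simple a) (c a) * (ngr D F (D.simple a) 1 * hp D F A c) * pn D F A (fun _ => 1) := by group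
      _ = _ := by rw [hc.eq]; group

variable (hG : Good D N η rc) (hE : Ext D rc)
include hG

/-- `h_i(c)` acts on root elements -/
theorem hgr_conj {i r : ℕ} (hi : i < D.rank) {c : F} (hc : c ≠ 0) (hr : r < D.nroots) (t : F) :
    hgr D F (D.simple i) c * xg D F r t * (hgr D F (D.simple i) c)⁻¹ = xg D F r (c ^ D.cartan i r * t) := by
  have h1 : hgr D F (D.simple i) c = hgr D F (D.simple i) ((Units.mk0 c hc : Fˣ) : F) := rfl
  rw [h1, hG.hgr_eq_tor _ (hG.simple_lt i hi) _, hG.tor_conj_xg (hG.isChr_pairing (D.simple i) _) hr, hG.pairing_simple hi hr]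
  congr 2
  push_cast
  rfl

theorem hp_conj {A : List (Fin D.rank)} {c : ℕ → F} (hc : ∀ i ∈ A, c (i : Fin D.rank) ≠ 0) {r : ℕ} (hr : r < D.nroots) (t : F) :
    hp D F A c * xg D F r t * (hp D F A c)⁻¹ = xg D F r ((A.map fun i : Fin D.rank => c i ^ D.cartan i r).prod * t) := by
  induction A with
  | nil => unfold hp; simp
  | cons a A ih =>
    rw [hp_cons, List.map_cons, List.prod_cons, mul_assoc (c a ^ _), ← hgr_conj hG a.2 (hc a List.mem_cons_self) hr,
      ← ih fun i hi => hc i (List.mem_cons_of_mem _ hi)]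
    group

/-- conjugation of words -/
theorem conj_pw (g : GL D.Idx F) (b b' : Bool) (A : List (Fin D.rank)) (f f' : ℕ → F)
    (h : ∀ i ∈ A, g * sx D F b (i : Fin D.rank) (f i) * g⁻¹ = sx D F b' i (f' i)) :
    g * pw D F b A f * g⁻¹ = pw D F b' A f' := by
  have h1 : g * pw D F b A f * g⁻¹ = (MulAut.conj g).toMonoidHom (pw D F b A f) := rfl
  rw [h1]
  unfold pw
  rw [map_list_prod, List.map_map]
  congr 1
  apply List.map_congr_left
  intro i hi
  exact h i hi

theorem pn_sx_pos {A : List (Fin D.rank)} (h : COrb D F A) {c : ℕ → F} {i : Fin D.rank} (hi : i ∈ A) (hc : c i ≠ 0) (u : F) :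
    pn D F A c * sx D F true i u * (pn D F A c)⁻¹ = sx D F false i (-((c i)⁻¹) ^ 2 * u) := by
  rw [h.pn_conj c hi]
  have h1 := hG.ngr_conj_xg (F := F) i.2 (Units.mk0 (c i) hc) (hG.simple_lt i i.2) u
  change ngr D F (D.simple i) (c i) * xg D F (D.simple i) u * (ngr D F (D.simple i) (c i))⁻¹ = _ at h1
  change ngr D F (D.simple i) (c i) * xg D F (D.simple i) u * (ngr D F (D.simple i) (c i))⁻¹ = xg D F (D.neg (D.simple i)) _
  rw [h1, hG.w_simple, hG.eta_simple i i.2, hG.cartan_diag i i.2]
  congr 1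
  push_cast
  have : (c i) ^ (-2 : ℤ) = ((c i)⁻¹) ^ 2 := by rw [zpow_neg, inv_pow, ← zpow_natCast]; rfl
  rw [Units.val_mk0, this]; ring

theorem pn_sx_neg {A : List (Fin D.rank)} (h : COrb D F A) {c : ℕ → F} {i : Fin D.rank} (hi : i ∈ A) (hc : c i ≠ 0) (u : F) :
    pn D F A c * sx D F false i u * (pn D F A c)⁻¹ = sx D F true i (-(c i) ^ 2 * u) := by
  rw [h.pn_conj c hi]
  have hs := hG.simple_lt i i.2
  have h1 := hG.ngr_conj_xg (F := F) i.2 (Units.mk0 (c i) hc) (hG.neg_lt' hs) u
  change ngr D F (D.simple i) (c i) * xg D F (D.neg (D.simple i)) u * (ngr D F (D.simple i) (c i))⁻¹ = _ at h1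
  change ngr D F (D.simple i) (c i) * xg D F (D.neg (D.simple i)) u * (ngr D F (D.simple i) (c i))⁻¹ = xg D F (D.simple i) _
  rw [h1, hG.w_neg i i.2 _ hs, hG.w_simple, hG.neg_neg' hs, hG.eta_neg i i.2 _ hs, hG.eta_simple i i.2, hG.cartan_neg i.2 hs, hG.cartan_diag i i.2]
  congr 1
  push_cast
  simp only [neg_neg, zpow_ofNat, Units.val_mk0]
  ring

include hE

theorem pn_mon {A : List (Fin D.rank)} {c : ℕ → F} (hc : ∀ i ∈ A, c (i : Fin D.rank) ≠ 0) :
    pn D F A c ∈ D.monomialSubgroup F ∧ ∃ χ, Mon hG (xg D F) (pn D F A c) (wp hG.s A) χ := by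
  induction A with
  | nil =>
    unfold pn
    exact ⟨one_mem _, 1, Mon.one⟩
  | cons a A ih =>
    obtain ⟨h1, χ, h2⟩ := ih fun i hi => hc i (List.mem_cons_of_mem _ hi)
    have ha := hc a List.mem_cons_self
    rw [pn_cons, wp_cons]
    have h3 := hG.mon_nX (hG.rdn (F := F) hE) a (Units.mk0 (c a) ha)
    refine ⟨mul_mem ?_ h1, _, h3.mul h2⟩
    rw [hgr_mul_ngr hG]
    refine mul_mem ?_ (hG.ngr_mem_monomial (hG.simple_lt a a.2))
    rw [hG.monomialSubgroup_eq]
    apply Subgroup.mem_sup_left
    rw [hG.diagonalSubgroup_eq]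
    exact Subgroup.subset_closure ⟨_, c a, hG.simple_lt a a.2, ha, rfl⟩

end Cfsg.Agent.H6
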