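import Cfsg.Agent.H6.ToD
import Cfsg.Agent.H6.TwCox
import Cfsg.Agent.H6.ChevLang2

/-!
The Sylow subgroup of a twisted group.
-/

set_option autoImplicit false
set_option linter.unusedSectionVars false
set_option maxHeartbeats 400000

namespace Cfsg.Agent.H6
open Cfsg.Lie
open scoped Matrix

variable {D : ChevalleyDatum} {N : ℕ} {η : ℕ → ℕ → ℤ} {rc : ℕ → ℕ → ℤ} {F : Type*} [Field F]
  {m : ℕ} {rho inv lam pi : ℕ → ℕ} {ep : ℕ → ℤ} {e : ℕ} {σ : ↥(D.group F) →* ↥(D.group F)}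
  {ι : Type} {L : ι → List (Fin D.rank)}

theorem isPGroup_posU (hG : Good D N η rc) (hE : Ext D rc) [Fintype F] (p : ℕ) [hp : Fact p.Prime] [CharP F p] :
    IsPGroup p (D.posUnipotent F) := by
  obtain ⟨n, -, hn⟩ := FiniteField.card F p
  apply IsPGroup.of_card (n := (n : ℕ) * N)
  rw [hG.card_pos hE, hn, pow_mul]

theorem diag_not_dvd (hG : Good D N η rc) [Fintype F] (p : ℕ) [hp : Fact p.Prime] [CharP F p] {H : Subgroup (GL D.Idx F)}
    (hH : H ≤ D.diagonalSubgroup F) : ¬ p ∣ Nat.card H := by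
  intro hd
  obtain ⟨⟨x, hx⟩, hxo⟩ := exists_prime_orderOf_dvd_card' p hd
  have h1 := diag_pow_card hG (hH hx)
  obtain ⟨n, -, hn⟩ := FiniteField.card F p
  have h2 : x ^ p = 1 := by
    have := pow_orderOf_eq_one (⟨x, hx⟩ : ↥H)
    rw [hxo] at this
    exact congrArg Subtype.val this
  have h3 : x ^ Fintype.card F = 1 := by
    rw [hn]
    obtain ⟨k, hk⟩ : p ∣ p ^ (n : ℕ) := dvd_pow_self p n.ne_zero
    rw [hk, pow_mul, h2, one_pow]
  rw [h3] at h1
  have h4 : orderOf (⟨x, hx⟩ : ↥H) = 1 := by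
    rw [orderOf_eq_one_iff]
    exact Subtype.ext h1.symm
  rw [h4] at hxo
  exact hp.out.one_lt.ne hxo

namespace TwGrp
variable {h : TwCtx D N η rc F m rho inv lam pi ep e σ} {G₁ : Subgroup (GL D.Idx F)} (hT : TwGrp h L G₁)
include hT

theorem sum_not_dvd [Fintype F] (p : ℕ) [hp : Fact p.Prime] [CharP F p] :
    ¬ p ∣ ∑ᶠ w : h.Wr, Nat.card ↥(US (xg D F) (h.G.Um w.1) ⊓ fixS σ) := by
  classical
  have : Finite h.G.W := inferInstance
  have : Fintype h.Wr := Fintype.ofFinite _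
  rw [finsum_eq_sum_of_fintype, ← Finset.add_sum_erase _ _ (Finset.mem_univ (1 : h.Wr))]
  intro hd
  have h1 : Nat.card ↥(US (xg D F) (h.G.Um (1 : h.Wr).1) ⊓ fixS σ) = 1 := by
    change Nat.card ↥(US (xg D F) (h.G.Um 1) ⊓ fixS σ) = 1
    rw [h.G.Um_one, US_empty, bot_inf_eq, Subgroup.card_bot]
  rw [h1] at hd
  have h2 : p ∣ ∑ x ∈ Finset.univ.erase (1 : h.Wr), Nat.card ↥(US (xg D F) (h.G.Um x.1) ⊓ fixS σ) := by
    apply Finset.dvd_sum
    intro w hw
    have hw1 : (w : h.G.W) ≠ 1 := fun he => (Finset.mem_erase.1 hw).1 (Subtype.ext he)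
    have hpg : IsPGroup p ↥(US (xg D F) (h.G.Um w.1) ⊓ fixS σ) :=
      (isPGroup_posU h.G h.E p).to_le (inf_le_left.trans (h.US_le_pos (h.G.Um_sub _)))
    rcases hpg.card_eq_or_dvd with h3 | h3
    · exfalso
      obtain ⟨j, hj⟩ := h.exists_desc hT.orb w.2 hw1
      obtain ⟨x, hx, hx1⟩ := hT.exists_ne j
      have h4 : x ∈ US (xg D F) (h.G.Um w.1) ⊓ fixS σ := Subgroup.mem_inf.2 ⟨US_mono hj hx.1, hx.2⟩
      rw [Subgroup.card_eq_one] at h3
      rw [h3, Subgroup.mem_bot] at h4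
      exact hx1 h4
    · exact h3
  have h3 := (Nat.dvd_add_iff_left h2).2 hd
  exact hp.out.one_lt.ne' (Nat.dvd_one.1 h3)

theorem exists_syl [Fintype F] (p : ℕ) [hp : Fact p.Prime] [CharP F p] :
    ∃ P : Sylow p ↥G₁, (P : Subgroup ↥G₁) = (D.posUnipotent F).subgroupOf G₁ := by
  have hfin : Finite ↥G₁ := inferInstance
  have h1 : IsPGroup p ((D.posUnipotent F).subgroupOf G₁) :=
    (isPGroup_posU h.G h.E p).comap_of_injective _ (Subgroup.subtype_injective G₁)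
  have hc : Nat.card ((D.posUnipotent F).subgroupOf G₁) = Nat.card ↥(D.posUnipotent F ⊓ G₁) := by
    rw [← Subgroup.inf_subgroupOf_right]
    exact Nat.card_congr (Subgroup.subgroupOfEquivOfLe inf_le_right).toEquiv
  have h2 : ((D.posUnipotent F).subgroupOf G₁).index = Nat.card ↥(D.diagonalSubgroup F ⊓ G₁) *
      ∑ᶠ w : h.Wr, Nat.card ↥(US (xg D F) (h.G.Um w.1) ⊓ fixS σ) := by
    have h3 := ((D.posUnipotent F).subgroupOf G₁).card_mul_index
    rw [hT.card_group₁, hc, mul_assoc] at h3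
    exact Nat.eq_of_mul_eq_mul_left Nat.card_pos h3
  have h3 : ¬ p ∣ ((D.posUnipotent F).subgroupOf G₁).index := by
    rw [h2, hp.out.dvd_mul]
    rintro (h4 | h4)
    · exact diag_not_dvd h.G p inf_le_left h4
    · exact hT.sum_not_dvd p h4
  exact ⟨h1.toSylow h3, rfl⟩

theorem syl [Finite F] (θ : ↥G₁ ≃* ↥G₁) : ∃ x : ↥G₁, ∀ g : ↥G₁, g ∈ (D.posUnipotent F).subgroupOf G₁ ↔
    x * θ g * x⁻¹ ∈ (D.posUnipotent F).subgroupOf G₁ := by
  have := Fintype.ofFinite F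
  obtain ⟨p, hc⟩ := CharP.exists F
  have hp : Fact p.Prime := ⟨(CharP.char_is_prime_or_zero F p).resolve_right (CharP.char_ne_zero_of_finite F p)⟩
  have hfin : Finite ↥G₁ := inferInstance
  obtain ⟨P, hP⟩ := hT.exists_syl p
  obtain ⟨x, hx⟩ := MulAction.exists_smul_eq (↥G₁) ((θ : MulAut ↥G₁) • P) P
  refine ⟨x, fun g => ?_⟩
  rw [← hP]
  have h2 : x * θ g * x⁻¹ ∈ (P : Subgroup ↥G₁) ↔ θ g ∈ (((θ : MulAut ↥G₁) • P : Sylow p _) : Subgroup ↥G₁) := by
    constructor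
    · intro h
      rw [← hx] at h
      obtain ⟨z, hz, hz'⟩ := h
      have hz'' : x * z * x⁻¹ = x * θ g * x⁻¹ := hz'
      have : z = θ g := mul_left_cancel (mul_right_cancel hz'')
      rw [← this]; exact hz
    · intro h
      rw [← hx]
      exact ⟨_, h, rfl⟩
  rw [h2]
  constructor
  · intro h
    exact ⟨g, h, rfl⟩
  · rintro ⟨z, hz, hz'⟩
    have : z = g := θ.injective hz'
    rw [← this]; exact hz

end TwGrp
end Cfsg.Agent.H6
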