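import Cfsg.Agent.H6.ToE

/-!
Twisted groups with root subgroups over fields.
-/

set_option autoImplicit false
set_option linter.unusedSectionVars false
set_option maxHeartbeats 400000

namespace Cfsg.Agent.H6
open Cfsg.Lie
open scoped Matrix

variable {D : ChevalleyDatum} {N : ℕ} {η : ℕ → ℕ → ℤ} {rc : ℕ → ℕ → ℤ} {F : Type*} [Field F]
  {m : ℕ} {rho inv lam pi : ℕ → ℕ} {ep : ℕ → ℤ} {e : ℕ} {σ : ↥(D.group F) →* ↥(D.group F)}
  {ι : Type} {L : ι → List (Fin D.rank)}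

theorem pw_congr {b : Bool} {A : List (Fin D.rank)} {f f' : ℕ → F} (h : ∀ i ∈ A, f (i : Fin D.rank) = f' i) : pw D F b A f = pw D F b A f' := by
  unfold pw
  congr 1
  apply List.map_congr_left
  intro i hi
  rw [h i hi]

theorem COrb.pw_add (hG : Good D N η rc) {A : List (Fin D.rank)} (h : COrb D F A) (b : Bool) (f f' : ℕ → F) :
    pw D F b A (fun i => f i + f' i) = pw D F b A f * pw D F b A f' := by
  induction A with
  | nil => unfold pw; simp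
  | cons a A ih =>
    rw [pw_cons, pw_cons, pw_cons, ih h.sub]
    have h1 : sx D F b a (f a + f' a) = sx D F b a (f a) * sx D F b a (f' a) := hG.xg_add _ _ _
    have h2 := h.comm_pw b b (f' a) f
    rw [h1]
    calc sx D F b a (f a) * sx D F b a (f' a) * (pw D F b A f * pw D F b A f') =
        sx D F b a (f a) * (sx D F b a (f' a) * pw D F b A f) * pw D F b A f' := by group
      _ = _ := by rw [h2.eq]; group

theorem simple_injF (hG : Good D N η rc) {i j : Fin D.rank} (h : D.simple i = D.simple j) : i = j := by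
  have h1 := hG.rc_simple i i.2 i i.2
  rw [h, hG.rc_simple j j.2 i i.2, if_pos rfl] at h1
  by_contra hne
  rw [if_neg (fun he => hne (Fin.ext he))] at h1
  exact zero_ne_one h1

theorem pw_mem_pos (hG : Good D N η rc) (A : List (Fin D.rank)) (f : ℕ → F) : pw D F true A f ∈ D.posUnipotent F := by
  unfold pw
  apply Subgroup.list_prod_mem
  intro x hx
  rw [List.mem_map] at hx
  obtain ⟨i, hi, rfl⟩ := hx
  exact hG.xg_mem_pos (hG.simple_pos i i.2) (hG.simple_lt i i.2) _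

theorem pw_mem_neg (hG : Good D N η rc) (A : List (Fin D.rank)) (f : ℕ → F) : pw D F false A f ∈ D.negUnipotent F := by
  unfold pw
  apply Subgroup.list_prod_mem
  intro x hx
  rw [List.mem_map] at hx
  obtain ⟨i, hi, rfl⟩ := hx
  exact hG.xg_mem_neg (hG.neg_lt_N (hG.simple_lt i i.2) (hG.simple_pos i i.2)) _

/-- a twisted group whose rank one groups are defined over fields -/
structure TF (h : TwCtx D N η rc F m rho inv lam pi ep e σ) (L : ι → List (Fin D.rank)) (G₁ : Subgroup (GL D.Idx F))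
    (k : ι → Subfield F) (ex : ℕ → ℕ) : Prop where
  T : TwGrp h L G₁
  corb : ∀ j, COrb D F (L j)
  umS : ∀ j, ∀ r ∈ h.G.Um (h.wJ L j), ∃ i ∈ L j, r = D.simple i
  exadd : ∀ i, ∀ t u : F, (t + u) ^ ex i = t ^ ex i + u ^ ex i
  fix : ∀ j, ∀ t ∈ k j, ∀ i ∈ L j, t ^ ex (pi i) = (t ^ ex i) ^ (lam (D.simple i) * e)
  surj : ∀ j, ∀ f : ℕ → F, (∀ i ∈ L j, f (pi i) = f i ^ (lam (D.simple i) * e)) → ∃ t ∈ k j, ∀ i ∈ L j, f i = t ^ ex i
  gmem : ∀ j b (f : ℕ → F), (∀ i ∈ L j, f (pi i) = f i ^ (lam (D.simple i) * e)) → pw D F b (L j) f ∈ G₁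
  ggen : ∀ M : Subgroup (GL D.Idx F), (∀ j b (f : ℕ → F), (∀ i ∈ L j, f (pi i) = f i ^ (lam (D.simple i) * e)) →
    pw D F b (L j) f ∈ M) → G₁ ≤ M
  opp : ∀ w : h.G.W, (∀ r : Fin D.nroots, N ≤ (r : ℕ) ↔ (w.1 r : ℕ) < N) → ∀ j, ∀ i ∈ L j, ∃ i' ∈ L j, w.1 (h.G.ngf (h.G.sr i)) = h.G.sr i'

namespace TF
variable {h : TwCtx D N η rc F m rho inv lam pi ep e σ} {G₁ : Subgroup (GL D.Idx F)} {k : ι → Subfield F} {ex : ℕ → ℕ}
  (hF : TF h L G₁ k ex)
include hF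

theorem memX (b : Bool) (j : ι) (t : k j) : pw D F b (L j) (fun i => (t : F) ^ ex i) ∈ G₁ :=
  hF.gmem j b _ fun i hi => hF.fix j t t.2 i hi

/-- root elements -/
noncomputable def X (b : Bool) (j : ι) (t : k j) : ↥G₁ := ⟨pw D F b (L j) (fun i => (t : F) ^ ex i), hF.memX b j t⟩

theorem coe_X (b : Bool) (j : ι) (t : k j) : ((hF.X b j t : ↥G₁) : GL D.Idx F) = pw D F b (L j) (fun i => (t : F) ^ ex i) := rfl

theorem ex_ne (i : ℕ) : ex i ≠ 0 := (zero_lt_of_add (hF.exadd i)).ne'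

theorem ex_neg (i : ℕ) (t : F) : (-t) ^ ex i = -t ^ ex i := neg_pow_of_add (hF.exadd i) t

theorem ex_inj {i : ℕ} {t u : F} (he : t ^ ex i = u ^ ex i) : t = u := by
  have h1 : (t - u) ^ ex i = 0 := by
    rw [sub_eq_add_neg, hF.exadd, hF.ex_neg, he, add_neg_cancel]
  exact sub_eq_zero.1 (pow_eq_zero_iff (hF.ex_ne i) |>.1 h1)

/-- elements of the root subgroup -/
theorem exists_X {j : ι} {x : ↥G₁} (hx : (x : GL D.Idx F) ∈ US (xg D F) (h.G.Um (h.wJ L j))) : ∃ t, x = hF.X true j t := by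
  have hxf : (x : GL D.Idx F) ∈ fixS σ := hF.T.le_fix x.2
  obtain ⟨t, ht, htx⟩ := h.G.exists_op' (h.G.rd h.E) (h.G.pClo_Um _) hx
  have h0 := htx
  have h1 := (h.corb_fix_iff hF.T.orb (hF.corb j) (hF.umS j) t ht).1 (htx ▸ hxf)
  obtain ⟨u, hu, hu'⟩ := hF.surj j (fun i => t (D.simple i)) h1
  refine ⟨⟨u, hu⟩, Subtype.ext ?_⟩
  rw [hF.coe_X, htx, h.op_eq_pw (hF.corb j) t]
  · exact pw_congr hu'
  · intro r hr
    apply ht
    intro h2
    obtain ⟨i, hi, hie⟩ := hF.umS j r h2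
    exact hr i hi hie

theorem X_mem_US (j : ι) (t : k j) : ((hF.X true j t : ↥G₁) : GL D.Idx F) ∈ US (xg D F) (h.G.Um (h.wJ L j)) := by
  rw [hF.coe_X]
  unfold pw
  apply Subgroup.list_prod_mem
  intro x hx
  rw [List.mem_map] at hx
  obtain ⟨i, hi, rfl⟩ := hx
  exact mem_US ((h.simple_mem_Um_wJ hF.T.orb).2 hi) _

theorem X_inj (j : ι) : Function.Injective (hF.X true j) := by
  classical
  intro t u htu
  have h1 := congrArg (fun z : ↥G₁ => (z : GL D.Idx F)) htu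
  simp only [hF.coe_X] at h1
  obtain ⟨i, hi⟩ := List.exists_mem_of_ne_nil _ (hF.T.orb.ne j)
  have hop : ∀ v : F, op (xg D F) (fun r => if r ∈ h.G.Um (h.wJ L j) then (if hh : ∃ l : Fin D.rank, r = D.simple l then v ^ ex hh.choose else 0) else 0) N N =
      pw D F true (L j) (fun i => v ^ ex i) := by
    intro v
    rw [h.op_eq_pw (hF.corb j)]
    · apply pw_congr
      intro l hl
      rw [if_pos ((h.simple_mem_Um_wJ hF.T.orb).2 hl)]
      have hh : ∃ l' : Fin D.rank, D.simple l = D.simple l' := ⟨l, rfl⟩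
      rw [dif_pos hh]
      have h3 : l = hh.choose := simple_injF h.G hh.choose_spec
      rw [← h3]
    · intro r hr
      rw [if_neg]
      intro h2
      obtain ⟨l, hl, hle⟩ := hF.umS j r h2
      exact hr l hl hle
  rw [← hop, ← hop] at h1
  have h2 := h.G.op_inj h.E _ _ N N (by rw [h.G.nroots_eq]; ring) le_rfl h1 (D.simple i) (h.G.simple_pos i i.2) (h.G.simple_lt i i.2)
  rw [if_pos ((h.simple_mem_Um_wJ hF.T.orb).2 hi), if_pos ((h.simple_mem_Um_wJ hF.T.orb).2 hi)] at h2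
  have hh : ∃ l' : Fin D.rank, D.simple i = D.simple l' := ⟨i, rfl⟩
  rw [dif_pos hh, dif_pos hh] at h2
  exact Subtype.ext (hF.ex_inj h2)

theorem X_add (b : Bool) (j : ι) (t u : k j) : hF.X b j (t + u) = hF.X b j t * hF.X b j u := by
  apply Subtype.ext
  rw [Subgroup.coe_mul, hF.coe_X, hF.coe_X, hF.coe_X, ← (hF.corb j).pw_add h.G]
  apply pw_congr
  intro i _
  exact hF.exadd _ _ _

theorem coe_nn (j : ι) (t : k j) : ((TO.nn (hF.X true j) (hF.X false j) t : ↥G₁) : GL D.Idx F) = pn D F (L j) (fun i => (t : F) ^ ex i) := by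
  unfold TO.nn
  rw [Subgroup.coe_mul, Subgroup.coe_mul, hF.coe_X, hF.coe_X, ← (hF.corb j).pn_eq]
  congr 2
  apply pw_congr
  intro i _
  push_cast
  rw [hF.ex_neg, inv_pow]

theorem pow_ne {j : ι} {t : k j} (ht : t ≠ 0) (i : ℕ) : (t : F) ^ ex i ≠ 0 :=
  pow_ne_zero _ fun h0 => ht (Subtype.ext h0)

theorem r1 (j : ι) : TO.R1 (hF.X true j) (hF.X false j) := by
  have hnX : ∀ t : k j, t ≠ 0 → ∀ u, TO.nn (hF.X true j) (hF.X false j) t * hF.X true j u * (TO.nn (hF.X true j) (hF.X false j) t)⁻¹ =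
      hF.X false j (-(t⁻¹) ^ 2 * u) := by
    intro t ht u
    apply Subtype.ext
    rw [Subgroup.coe_mul, Subgroup.coe_mul, Subgroup.coe_inv, hF.coe_nn, hF.coe_X, hF.coe_X]
    apply conj_pw h.G
    intro i hi
    rw [pn_sx_pos h.G (hF.corb j) hi (hF.pow_ne ht i)]
    congr 1
    push_cast
    rw [mul_pow, hF.ex_neg, inv_pow, inv_pow, inv_pow, ← pow_mul, ← pow_mul, mul_comm 2]
  have hnY : ∀ t : k j, t ≠ 0 → ∀ u, TO.nn (hF.X true j) (hF.X false j) t * hF.X false j u * (TO.nn (hF.X true j) (hF.X false j) t)⁻¹ =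
      hF.X true j (-t ^ 2 * u) := by
    intro t ht u
    apply Subtype.ext
    rw [Subgroup.coe_mul, Subgroup.coe_mul, Subgroup.coe_inv, hF.coe_nn, hF.coe_X, hF.coe_X]
    apply conj_pw h.G
    intro i hi
    rw [pn_sx_neg h.G (hF.corb j) hi (hF.pow_ne ht i)]
    congr 1
    push_cast
    rw [mul_pow, hF.ex_neg, ← pow_mul, ← pow_mul, mul_comm 2]
  have hYi : Function.Injective (hF.X false j) := by
    intro t u htu
    have h1 := hnY 1 one_ne_zero t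
    have h2 := hnY 1 one_ne_zero u
    rw [htu, h2] at h1
    have h3 := hF.X_inj j h1
    have e1 : (1 : k j) ^ 2 = 1 := one_pow 2
    rw [e1, neg_one_mul, neg_one_mul, neg_inj] at h3
    exact h3.symm
  refine ⟨hF.X_add true j, hF.X_add false j, hF.X_inj j, hYi, fun t u htu => ?_, hnX, hnY⟩
  have h1 : ((hF.X true j t : ↥G₁) : GL D.Idx F) ∈ D.posUnipotent F ⊓ D.negUnipotent F := by
    refine Subgroup.mem_inf.2 ⟨?_, ?_⟩
    · rw [hF.coe_X]; exact pw_mem_pos h.G _ _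
    · rw [htu, hF.coe_X]; exact pw_mem_neg h.G _ _
  rw [h.G.pos_inf_neg h.E, Subgroup.mem_bot] at h1
  have h4 : hF.X true j t = 1 := Subtype.ext h1
  have h3 : hF.X false j 0 = 1 := by
    have := hF.X_add false j 0 0
    rw [add_zero] at this
    exact left_eq_mul.1 this
  rw [h4, ← h3] at htu
  exact (hYi htu).symm

theorem mem_B {g : ↥G₁} : g ∈ hF.T.bnPair₁.B ↔ (g : GL D.Idx F) ∈ D.borelSubgroup F :=
  ⟨fun hg => hg.1, fun hg => ⟨hg, g.2⟩⟩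

theorem mem_N {g : ↥G₁} : g ∈ hF.T.bnPair₁.N ↔ (g : GL D.Idx F) ∈ D.monomialSubgroup F :=
  ⟨fun hg => hg.1, fun hg => ⟨hg, g.2⟩⟩

theorem mem_T {g : ↥G₁} : g ∈ hF.T.bnPair₁.B ⊓ hF.T.bnPair₁.N ↔ (g : GL D.Idx F) ∈ D.diagonalSubgroup F := by
  rw [Subgroup.mem_inf, hF.mem_B, hF.mem_N, ← h.G.borel_inf_monomial h.E, Subgroup.mem_inf]

/-- the generators -/
noncomputable def s (j : ι) : ↥G₁ := ⟨hF.T.nJ j, (hF.T.nJ_mem j).2⟩

theorem nn_mon {j : ι} {t : k j} (ht : t ≠ 0) : ((TO.nn (hF.X true j) (hF.X false j) t : ↥G₁) : GL D.Idx F) ∈ D.monomialSubgroup F ∧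
    ∃ χ, Mon h.G (xg D F) ((TO.nn (hF.X true j) (hF.X false j) t : ↥G₁) : GL D.Idx F) (h.wJ L j) χ := by
  rw [hF.coe_nn]
  exact pn_mon h.G h.E fun i _ => hF.pow_ne ht i

theorem nn_s {j : ι} {t : k j} (ht : t ≠ 0) : TO.nn (hF.X true j) (hF.X false j) t * (hF.s j)⁻¹ ∈ hF.T.bnPair₁.B := by
  rw [hF.mem_B]
  obtain ⟨h1, χ, h2⟩ := hF.nn_mon ht
  obtain ⟨χ', h3⟩ := hF.T.nJ_mon j
  have h4 := h2.mul h3.inv
  rw [mul_inv_cancel] at h4
  exact Subgroup.mem_sup_right (h.G.mem_diagonal_of_mon h.E (mul_mem h1 (inv_mem (hF.T.nJ_mem j).1)) h4)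

theorem mon_diag {c : GL D.Idx F} (hc : c ∈ D.diagonalSubgroup F) : ∃ χ, Mon h.G (xg D F) c 1 χ := by
  rw [← h.G.HA_eq] at hc
  exact h.G.HA_mon (h.G.rdn h.E) hc

theorem TX {c : ↥G₁} (hc : (c : GL D.Idx F) ∈ D.diagonalSubgroup F) (j : ι) (t : k j) : ∃ u, c * hF.X true j t * c⁻¹ = hF.X true j u := by
  obtain ⟨χ, hm⟩ := hF.mon_diag hc
  apply hF.exists_X
  exact hm.mem_US (fun r hr => hr.1) (fun r hr => hr) (hF.X_mem_US j t)

theorem sB (j : ι) {b : ↥G₁} (hb : (b : GL D.Idx F) ∈ D.borelSubgroup F) :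
    ∃ b' : ↥G₁, (b' : GL D.Idx F) ∈ D.borelSubgroup F ∧ ∃ t, hF.s j * b = b' * hF.s j * hF.X true j t := by
  obtain ⟨u, hu, t, ht, hbe⟩ := hF.T.mem_borel₁ (Subgroup.mem_inf.2 ⟨hb, b.2⟩)
  have huf : u ∈ US (xg D F) (posS D N) ⊓ fixS σ := by
    rw [hF.T.pos_inf, h.G.posUnipotent_eq_US] at hu
    exact hu
  obtain ⟨y, hy, x, hx, rfl⟩ := h.fix_union (h.G.pClo_all) (h.G.pClo_Upl (h.wJ L j)) (h.G.pClo_Um (h.wJ L j))
    (h.G.posS_eq_union (h.wJ L j)) (fun r h1 h2 => by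
      obtain ⟨a1, a2, a3⟩ := h1
      obtain ⟨b1, b2, b3⟩ := h2
      omega)
    (fun r hr => h.rho_mem_Upl (h.wJ_mem hF.T.orb j) hr) (fun r hr => h.rho_mem_Um (h.wJ_mem hF.T.orb j) hr) huf
  have hxG : x ∈ G₁ := hF.T.root j hx
  have hyG : y ∈ G₁ := hF.T.pos_le (Subgroup.mem_inf.2 ⟨h.US_le_pos (h.G.Upl_sub _) hy.1, hy.2⟩)
  obtain ⟨χ, hm⟩ := hF.T.nJ_mon j
  have hy' : hF.T.nJ j * y * (hF.T.nJ j)⁻¹ ∈ D.borelSubgroup F := Subgroup.mem_sup_left (h.G.Upl_conj h.E hm hy.1)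
  have ht' := hF.T.diag₁_conj (hF.T.nJ_mem j) ht
  obtain ⟨v, hv⟩ := hF.exists_X (j := j) (x := ⟨x, hxG⟩) hx.1
  obtain ⟨v', hv'⟩ := hF.TX (c := (⟨t, ht.2⟩ : ↥G₁)⁻¹) (inv_mem ht.1) j v
  refine ⟨⟨(hF.T.nJ j * y * (hF.T.nJ j)⁻¹) * (hF.T.nJ j * t * (hF.T.nJ j)⁻¹),
    mul_mem (mul_mem (mul_mem (hF.T.nJ_mem j).2 hyG) (inv_mem (hF.T.nJ_mem j).2)) ht'.2⟩,
    mul_mem hy' (Subgroup.mem_sup_right ht'.1), v', ?_⟩
  apply Subtype.ext
  rw [← hv', ← hv]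
  change hF.T.nJ j * (b : GL D.Idx F) = (hF.T.nJ j * y * (hF.T.nJ j)⁻¹) * (hF.T.nJ j * t * (hF.T.nJ j)⁻¹) * hF.T.nJ j * (t⁻¹ * x * t⁻¹⁻¹)
  rw [hbe]; group

end TF
end Cfsg.Agent.H6
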