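import Cfsg.Agent.H6.ToF

/-!
The data for the automorphism theory of a twisted group.
-/

set_option autoImplicit false
set_option linter.unusedSectionVars false
set_option maxHeartbeats 400000

namespace Cfsg.Agent.H6
open Cfsg.Lie
open scoped Matrix

variable {D : ChevalleyDatum} {N : ℕ} {η : ℕ → ℕ → ℤ} {rc : ℕ → ℕ → ℤ} {F : Type*} [Field F]
  {m : ℕ} {rho inv lam pi : ℕ → ℕ} {ep : ℕ → ℤ} {e : ℕ} {σ : ↥(D.group F) →* ↥(D.group F)}
  {ι : Type} {L : ι → List (Fin D.rank)}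

namespace TF
variable {h : TwCtx D N η rc F m rho inv lam pi ep e σ} {G₁ : Subgroup (GL D.Idx F)} {k : ι → Subfield F} {ex : ℕ → ℕ}
  (hF : TF h L G₁ k ex)
include hF

theorem s_inj : Function.Injective hF.s := by
  intro i j hij
  have h1 : hF.T.nJ i = hF.T.nJ j := congrArg (fun z : ↥G₁ => (z : GL D.Idx F)) hij
  obtain ⟨χ, h2⟩ := hF.T.nJ_mon i
  obtain ⟨χ', h3⟩ := hF.T.nJ_mon j
  rw [h1] at h2
  exact h.wJ_inj hF.T.orb (h.G.mon_unique h.E h2 h3)

theorem X_pos (j : ι) (t : k j) : ((hF.X true j t : ↥G₁) : GL D.Idx F) ∈ D.posUnipotent F := by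
  rw [hF.coe_X]; exact pw_mem_pos h.G _ _

theorem Y_neg (j : ι) (t : k j) : ((hF.X false j t : ↥G₁) : GL D.Idx F) ∈ D.negUnipotent F := by
  rw [hF.coe_X]; exact pw_mem_neg h.G _ _

theorem exists_OD [Finite F] : ∃ n0 : ↥G₁, TO.OD hF.T.bnPair₁ ((D.posUnipotent F).subgroupOf G₁) ((D.negUnipotent F).subgroupOf G₁) n0
    hF.s k (hF.X true) (hF.X false) := by
  obtain ⟨w, hw, hw0⟩ := h.exists_longest
  obtain ⟨n, hn, χ, hmn⟩ := hF.T.rep_all hw
  have hlt : ∀ r : Fin D.nroots, (r : ℕ) < N ↔ N ≤ (w.1 r : ℕ) := by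
    intro r
    have := hw0 r
    omega
  have hwi : ∀ r : Fin D.nroots, w.1 ((w⁻¹).1 r) = r := fun r => Equiv.apply_symm_apply w.1 r
  have a1 : ∀ u ∈ D.posUnipotent F, n * u * n⁻¹ ∈ D.negUnipotent F := by
    intro u hu
    rw [h.G.posUnipotent_eq_US] at hu
    rw [h.G.negUnipotent_eq_US]
    exact hmn.mem_US (fun r hr => hr.2) (fun r hr => (hw0 r).1 hr.1) hu
  have hnl : ∀ r : ℕ, r < N → r < D.nroots := fun r hr => by rw [h.G.nroots_eq]; omega
  have a2 : ∀ u ∈ D.negUnipotent F, n * u * n⁻¹ ∈ D.posUnipotent F := by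
    intro u hu
    rw [h.G.negUnipotent_eq_US] at hu
    rw [h.G.posUnipotent_eq_US]
    exact hmn.mem_US (T := posS D N) (fun r hr => hnl r hr) (fun r hr => ⟨(hlt r).1 hr, (w.1 r).2⟩) hu
  have a3 : ∀ u ∈ D.posUnipotent F, n⁻¹ * u * n ∈ D.negUnipotent F := by
    intro u hu
    rw [h.G.posUnipotent_eq_US] at hu
    rw [h.G.negUnipotent_eq_US]
    have := hmn.inv.mem_US (S := posS D N) (T := {r | r < N}) (fun r hr => hr.2) (fun r hr => by
      change (((w⁻¹).1 r : Fin D.nroots) : ℕ) < N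
      rw [hlt, hwi]; exact hr.1) hu
    rwa [inv_inv] at this
  have a4 : ∀ u ∈ D.negUnipotent F, n⁻¹ * u * n ∈ D.posUnipotent F := by
    intro u hu
    rw [h.G.negUnipotent_eq_US] at hu
    rw [h.G.posUnipotent_eq_US]
    have := hmn.inv.mem_US (S := {r | r < N}) (T := posS D N) (fun r hr => hnl r hr) (fun r hr => by
      refine ⟨?_, ((w⁻¹).1 r).2⟩
      rw [hw0, hwi]; exact hr) hu
    rwa [inv_inv] at this
  have hww : w * w = 1 := by
    apply h.G.eq_one_of_pos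
    intro i
    change N ≤ (w.1 (w.1 (h.G.sr i)) : ℕ)
    rw [← hlt, ← hw0]
    exact h.G.sr_pos i
  refine ⟨⟨n, hn.2⟩, ?_⟩
  refine
    { S_eq := ?_
      s_inj := hF.s_inj
      U_le := fun u hu => ⟨Subgroup.mem_sup_left hu, u.2⟩
      U_norm := fun b hb u hu => h.G.borel_conj_pos hb.1 hu
      B_eq := ?_
      n0_mem := ⟨hn.1, hn.2⟩
      n0U := ?_
      n0V := ?_
      VB := ?_
      opp := ?_
      syl := hF.T.syl
      X_mem := fun j t => Subgroup.mem_subgroupOf.2 (hF.X_pos j t)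
      Y_mem := fun j t => Subgroup.mem_subgroupOf.2 (hF.Y_neg j t)
      r1 := hF.r1
      nn_N := fun j t ht => hF.mem_N.2 (hF.nn_mon ht).1
      nn_s := fun j t ht => hF.nn_s ht
      sB := ?_
      n0Y := ?_
      TX := fun c hc j t => hF.TX (hF.mem_T.1 hc) j t
      gen := ?_
      core := hF.T.core₁ }
  · ext x
    constructor
    · rintro ⟨j, hj⟩
      exact ⟨j, Subtype.ext hj.symm⟩
    · rintro ⟨j, rfl⟩
      exact ⟨j, rfl⟩
  · intro b hb
    obtain ⟨u, hu, t, ht, he⟩ := hF.T.mem_borel₁ (Subgroup.mem_inf.2 ⟨hb.1, b.2⟩)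
    exact ⟨⟨u, hu.2⟩, hu.1, ⟨t, ht.2⟩, hF.mem_T.2 ht.1, Subtype.ext he⟩
  · intro g
    change (g : GL D.Idx F) ∈ D.negUnipotent F ↔ n⁻¹ * (g : GL D.Idx F) * n ∈ D.posUnipotent F
    refine ⟨fun hg => a4 _ hg, fun hg => ?_⟩
    have := a1 _ hg
    have e1 : n * (n⁻¹ * (g : GL D.Idx F) * n) * n⁻¹ = g := by group
    rwa [e1] at this
  · intro g
    change (g : GL D.Idx F) ∈ D.posUnipotent F ↔ n⁻¹ * (g : GL D.Idx F) * n ∈ D.negUnipotent F
    refine ⟨fun hg => a3 _ hg, fun hg => ?_⟩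
    have := a2 _ hg
    have e1 : n * (n⁻¹ * (g : GL D.Idx F) * n) * n⁻¹ = g := by group
    rwa [e1] at this
  · intro g hg hb
    have h1 : (g : GL D.Idx F) ∈ D.borelSubgroup F ⊓ D.negUnipotent F := Subgroup.mem_inf.2 ⟨hb.1, hg⟩
    rw [h.G.borel_inf_neg, Subgroup.mem_bot] at h1
    exact Subtype.ext h1
  · intro g hg hu
    obtain ⟨v, χ', hm⟩ := h.G.exists_mon h.E hg.1
    have hv : v ∈ h.Wr := h.mon_fix hg.1 (hF.T.le_fix g.2) hm
    have hneg : ∀ i : Fin D.rank, (v.1 (h.G.sr i) : ℕ) < N := by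
      intro i
      obtain ⟨j, hj⟩ := hF.T.orb.cover i
      rcases h.dich hF.T.orb hv j with h1 | h1
      · exfalso
        have h2 : ((g * hF.X true j 1 * g⁻¹ : ↥G₁) : GL D.Idx F) ∈ D.posUnipotent F := by
          change (g : GL D.Idx F) * ((hF.X true j 1 : ↥G₁) : GL D.Idx F) * (g : GL D.Idx F)⁻¹ ∈ _
          rw [h.G.posUnipotent_eq_US]
          exact hm.mem_US (T := posS D N) (fun r hr => hr.1) (fun r hr => ⟨h1 r hr, (v.1 r).2⟩) (hF.X_mem_US j 1)
        have h3 := hu (hF.X true j 1) (Subgroup.mem_subgroupOf.2 (hF.X_pos j 1)) (Subgroup.mem_subgroupOf.2 h2)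
        rw [← (hF.r1 j).X0] at h3
        exact one_ne_zero ((hF.r1 j).Xi h3)
      · exact h1 _ ((h.simple_mem_Um_wJ hF.T.orb).2 hj)
    have hwv : w * v = 1 := by
      apply h.G.eq_one_of_pos
      intro i
      change N ≤ (w.1 (v.1 (h.G.sr i)) : ℕ)
      rw [← hlt]
      exact hneg i
    have hvw : v = w := by
      rw [← mul_left_cancel_iff (a := w), hwv, hww]
    have h1 := hmn.inv.mul hm
    rw [hvw, inv_mul_cancel] at h1
    refine hF.mem_B.2 (Subgroup.mem_sup_right ?_)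
    exact h.G.mem_diagonal_of_mon h.E (mul_mem (inv_mem hn.1) hg.1) h1
  · intro j b hb
    obtain ⟨b', hb', t, ht⟩ := hF.sB j (hF.mem_B.1 hb)
    exact ⟨b', hF.mem_B.2 hb', t, ht⟩
  · intro j t
    apply hF.exists_X
    change n * ((hF.X false j t : ↥G₁) : GL D.Idx F) * n⁻¹ ∈ _
    rw [hF.coe_X]
    have h1 : n * pw D F false (L j) (fun i => (t : F) ^ ex i) * n⁻¹ = (MulAut.conj n).toMonoidHom (pw D F false (L j) (fun i => (t : F) ^ ex i)) := rfl
    rw [h1]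
    unfold pw
    rw [map_list_prod, List.map_map]
    apply Subgroup.list_prod_mem
    intro x hx
    rw [List.mem_map] at hx
    obtain ⟨i, hi, rfl⟩ := hx
    change n * xg D F (D.neg (D.simple i)) ((t : F) ^ ex i) * n⁻¹ ∈ _
    have h2 := hmn.act (h.G.ngf (h.G.sr i)) ((t : F) ^ ex i)
    obtain ⟨i', hi', hie⟩ := hF.opp w hw0 j i hi
    rw [hie] at h2
    change n * xg D F (D.neg (D.simple i)) ((t : F) ^ ex i) * n⁻¹ = xg D F (D.simple i') _ at h2
    rw [h2]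
    exact mem_US ((h.simple_mem_Um_wJ hF.T.orb).2 hi') _
  · intro M hX hY
    have h1 : G₁ ≤ M.map G₁.subtype := by
      apply hF.ggen
      intro j b f hf
      obtain ⟨t, ht, htf⟩ := hF.surj j f hf
      cases b with
      | true => exact ⟨hF.X true j ⟨t, ht⟩, hX j _, by rw [pw_congr (f' := fun i => t ^ ex i) htf]; rfl⟩
      | false => exact ⟨hF.X false j ⟨t, ht⟩, hY j _, by rw [pw_congr (f' := fun i => t ^ ex i) htf]; rfl⟩
    rw [eq_top_iff]
    rintro ⟨g, hg⟩ -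
    obtain ⟨x, hx, hxg⟩ := h1 hg
    have : x = ⟨g, hg⟩ := Subtype.ext hxg
    rw [← this]; exact hx

theorem coe_hn (i : ι) (t : k i) : ((TO.nn (hF.X true i) (hF.X false i) t * (TO.nn (hF.X true i) (hF.X false i) 1)⁻¹ : ↥G₁) : GL D.Idx F) =
    hp D F (L i) (fun l => (t : F) ^ ex l) := by
  rw [Subgroup.coe_mul, Subgroup.coe_inv, hF.coe_nn, hF.coe_nn, (hF.corb i).pn_hp h.G]
  have h1 : pn D F (L i) (fun l => (((1 : k i) : k i) : F) ^ ex l) = pn D F (L i) (fun _ => 1) := by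
    unfold pn
    congr 1
    apply List.map_congr_left
    intro l _
    beta_reduce
    rw [OneMemClass.coe_one, one_pow]
  rw [h1, mul_inv_cancel_right]

/-- the cross relation -/
theorem crossRel {i j : ι} (h0 : ∀ t : F, t ∈ k i → t ≠ 0 → ∀ l ∈ L j,
    ((L i).map fun l' : Fin D.rank => (t ^ ex l') ^ D.cartan l' (D.simple l)).prod = (t ^ ex l)⁻¹) :
    TO.CrossRel (hF.X true) (hF.X false) i j := by
  intro t t' htt ht u
  apply Subtype.ext
  rw [Subgroup.coe_mul, Subgroup.coe_mul, Subgroup.coe_inv, hF.coe_hn, hF.coe_X, hF.coe_X]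
  apply conj_pw h.G
  intro l hl
  change hp D F (L i) (fun l => (t : F) ^ ex l) * xg D F (D.simple l) _ * _ = xg D F (D.simple l) _
  rw [hp_conj h.G (fun l' _ => hF.pow_ne ht l') (h.G.simple_lt l l.2)]
  congr 1
  rw [h0 t t.2 (fun h1 => ht (Subtype.ext h1)) l hl]
  push_cast
  rw [htt, mul_pow, inv_pow]

end TF
end Cfsg.Agent.H6
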