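import Cfsg.Agent.H6.ToG
import Cfsg.Agent.H6.ChevFix

/-!
Diagonal and field automorphisms of a twisted group; the order of `Out`.
-/

set_option autoImplicit false
set_option linter.unusedSectionVars false
set_option maxHeartbeats 400000

namespace Cfsg.Agent.H6
open Cfsg.Lie
open scoped Matrix

theorem iff_of_map_le {G : Type*} [Group G] [Finite G] (θ : G ≃* G) (U : Subgroup G) (h : ∀ g ∈ U, θ g ∈ U) (g : G) : θ g ∈ U ↔ g ∈ U := by
  refine ⟨fun hg => ?_, h g⟩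
  have h1 : U.map θ.toMonoidHom ≤ U := by
    rintro _ ⟨x, hx, rfl⟩
    exact h x hx
  have h2 : U.map θ.toMonoidHom = U := by
    apply Subgroup.eq_of_le_of_card_ge h1
    rw [Nat.card_congr (U.equivMapOfInjective θ.toMonoidHom θ.injective).symm.toEquiv]
  rw [← h2] at hg
  obtain ⟨x, hx, hxg⟩ := hg
  have : x = g := θ.injective hxg
  rw [← this]; exact hx

variable {D : ChevalleyDatum} {N : ℕ} {η : ℕ → ℕ → ℤ} {rc : ℕ → ℕ → ℤ} {F : Type*} [Field F]
  {m : ℕ} {rho inv lam pi : ℕ → ℕ} {ep : ℕ → ℤ} {e : ℕ} {σ : ↥(D.group F) →* ↥(D.group F)}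
  {ι : Type} {L : ι → List (Fin D.rank)}

/-- diagonal times field automorphism of `GL` -/
noncomputable def dfm (D : ChevalleyDatum) (χ : ℕ → Fˣ) (s : F ≃+* F) : GL D.Idx F →* GL D.Idx F :=
  (MulAut.conj (tor D F χ)).toMonoidHom.comp (gmap D s)

theorem dfm_xg (hG : Good D N η rc) {χ : ℕ → Fˣ} (hχ : IsChr D χ) (s : F ≃+* F) {r : ℕ} (hr : r < D.nroots) (t : F) :
    dfm D χ s (xg D F r t) = xg D F r ((χ r : F) * s t) := by
  change tor D F χ * gmap D s (xg D F r t) * (tor D F χ)⁻¹ = _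
  rw [hG.gmap_xg, hG.tor_conj_xg hχ hr]

theorem dfm_inj (χ : ℕ → Fˣ) (s : F ≃+* F) : Function.Injective (dfm D χ s) := by
  intro a b hab
  have h1 : gmap D s a = gmap D s b := (MulAut.conj (tor D F χ)).injective hab
  apply Units.ext
  ext i j
  have h2 := congrArg (fun z : GL D.Idx F => (z : Matrix D.Idx D.Idx F) i j) h1
  exact s.injective h2

theorem dfm_US (hG : Good D N η rc) {χ : ℕ → Fˣ} (hχ : IsChr D χ) (s : F ≃+* F) {S : Set ℕ} (hS : ∀ r ∈ S, r < D.nroots) {g : GL D.Idx F}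
    (hg : g ∈ US (xg D F) S) : dfm D χ s g ∈ US (xg D F) S := by
  have h : US (xg D F) S ≤ (US (xg D F) S).comap (dfm D χ s) := by
    rw [US_le]
    intro r hr t
    rw [Subgroup.mem_comap, dfm_xg hG hχ s (hS r hr)]
    exact mem_US hr _
  exact h hg

namespace TF
variable {h : TwCtx D N η rc F m rho inv lam pi ep e σ} {G₁ : Subgroup (GL D.Idx F)} {k : ι → Subfield F} {ex : ℕ → ℕ}
  (hF : TF h L G₁ k ex)
include hF

/-- the values of the character -/
noncomputable def cc (c : (j : ι) → (k j)ˣ) (i : ℕ) : Fˣ :=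
  if hi : i < D.rank then (Units.map (k _).subtype.toMonoidHom (c (hF.T.orb.cover ⟨i, hi⟩).choose)) ^ ex i else 1

theorem cc_eq (c : (j : ι) → (k j)ˣ) {j : ι} {i : Fin D.rank} (hi : i ∈ L j) : (hF.cc c i : F) = ((c j : k j) : F) ^ ex i := by
  unfold cc
  rw [dif_pos i.2]
  have h1 : (hF.T.orb.cover ⟨i, i.2⟩).choose = j := hF.T.orb.disj _ _ i (hF.T.orb.cover ⟨i, i.2⟩).choose_spec hi
  rw [h1]
  rfl

theorem real [Finite F] (s : F ≃+* F) (c : (j : ι) → (k j)ˣ) : ∃ θ : ↥G₁ ≃* ↥G₁,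
    TO.Sd ((D.posUnipotent F).subgroupOf G₁) ((D.negUnipotent F).subgroupOf G₁) θ ∧
      ∀ j (t t' : k j), (t' : F) = (c j : k j) * s t → θ (hF.X true j t) = hF.X true j t' := by
  set χ : ℕ → Fˣ := chr D.rank rc (hF.cc c) with hχ
  have hχc : IsChr D χ := h.G.isChr_chr _
  have hpos : ∀ i : Fin D.rank, (χ (D.simple i) : F) = hF.cc c i := fun i => by
    rw [hχ, h.G.chr_simple _ i.2]
  have hneg : ∀ i : Fin D.rank, (χ (D.neg (D.simple i)) : F) = (hF.cc c i : F)⁻¹ := fun i => by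
    rw [hχc.neg _ (h.G.simple_lt i i.2), Units.val_inv_eq_inv_val, hpos]
  set Ψ := dfm D χ s with hΨ
  have hpw : ∀ b (A : List (Fin D.rank)) (f : ℕ → F), Ψ (pw D F b A f) =
      pw D F b A (fun i => (cond b (hF.cc c i : F) (hF.cc c i : F)⁻¹) * s (f i)) := by
    intro b A f
    unfold pw
    rw [map_list_prod, List.map_map]
    congr 1
    apply List.map_congr_left
    intro i _
    change Ψ (sx D F b i (f i)) = _
    unfold sx
    beta_reduce
    cases b with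
    | true =>
      rw [cond_true, cond_true, hΨ, dfm_xg h.G hχc s (h.G.simple_lt i i.2), hpos]
    | false =>
      rw [cond_false, cond_false, hΨ, dfm_xg h.G hχc s (h.G.neg_lt' (h.G.simple_lt i i.2)), hneg]
  have hG : ∀ g ∈ G₁, Ψ g ∈ G₁ := by
    have h1 : G₁ ≤ G₁.comap Ψ := by
      apply hF.ggen
      intro j b f hf
      rw [Subgroup.mem_comap, hpw]
      apply hF.gmem
      intro i hi
      obtain ⟨hp, hp'⟩ := hF.T.orb.orb' j i hi
      have h2 : (hF.cc c (pi i) : F) = (hF.cc c i : F) ^ (lam (D.simple i) * e) := by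
        rw [hF.cc_eq c hi, ← hF.fix j _ (c j : k j).2 i hi]
        exact hF.cc_eq c hp'
      rw [hf i hi, map_pow, h2]
      cases b with
      | true => rw [cond_true, cond_true, mul_pow]
      | false => rw [cond_false, cond_false, mul_pow, inv_pow]
    exact fun g hg => h1 hg
  let θ₀ : ↥G₁ →* ↥G₁ := (Ψ.comp G₁.subtype).codRestrict G₁ fun g => hG g g.2
  have hθ₀ : Function.Injective θ₀ := by
    intro a b hab
    have h0 : Ψ (a : GL D.Idx F) = Ψ (b : GL D.Idx F) := congrArg Subtype.val hab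
    exact Subtype.ext (dfm_inj χ s h0)
  have hfin : Finite ↥G₁ := inferInstance
  let θ : ↥G₁ ≃* ↥G₁ := MulEquiv.ofBijective θ₀ (Finite.injective_iff_bijective.1 hθ₀)
  have hθ : ∀ g : ↥G₁, ((θ g : ↥G₁) : GL D.Idx F) = Ψ g := fun g => rfl
  refine ⟨θ, ⟨iff_of_map_le θ _ ?_, iff_of_map_le θ _ ?_⟩, ?_⟩
  · intro g hg
    rw [Subgroup.mem_subgroupOf] at hg ⊢
    rw [hθ, h.G.posUnipotent_eq_US]
    rw [h.G.posUnipotent_eq_US] at hg
    exact dfm_US h.G hχc s (fun r hr => hr.2) hg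
  · intro g hg
    rw [Subgroup.mem_subgroupOf] at hg ⊢
    rw [hθ, h.G.negUnipotent_eq_US]
    rw [h.G.negUnipotent_eq_US] at hg
    exact dfm_US h.G hχc s (fun r hr => by
      have hr' : r < N := hr
      rw [h.G.nroots_eq]; omega) hg
  · intro j t t' ht
    apply Subtype.ext
    rw [hθ, hF.coe_X, hF.coe_X, hpw]
    apply pw_congr
    intro i hi
    rw [cond_true, hF.cc_eq c hi, ht, mul_pow, map_pow]

/-- the order of the outer automorphism group -/
theorem card_out [Finite F] [Fintype ι] (hr : TO.Rigid k (hF.X true)) (j0 : ι) (hj0 : ∀ x : F, x ∈ k j0)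
    (stab : ∀ (σ : F ≃+* F) (j : ι), ∀ t ∈ k j, σ t ∈ k j)
    (glob : ∀ τ : (j : ι) → k j ≃+* k j, (∀ i j, TO.CrossRel (hF.X true) (hF.X false) i j → k i ≤ k j → ∀ (t : k i) (t' : k j), (t' : F) = t →
      ((τ j t' : k j) : F) = (τ i t : k i)) → ∃ σ : F ≃+* F, ∀ j t, ((τ j t : k j) : F) = σ t) :
    Nat.card (Cfsg.Out ↥G₁) * Nat.card ↥(D.diagonalSubgroup F ⊓ G₁) = Nat.card (F ≃+* F) * ∏ j, Nat.card (k j)ˣ := by
  have hfin : Finite ↥G₁ := inferInstance
  obtain ⟨n0, hO⟩ := hF.exists_OD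
  rw [← hO.card_A0' hr j0 hj0 stab glob hF.real, hO.card_A0]
  congr 1
  symm
  refine Nat.card_congr ⟨fun x => ⟨x.1, hF.mem_T.1 x.2, x.1.2⟩, fun x => ⟨⟨x.1, x.2.2⟩, hF.mem_T.2 x.2.1⟩, fun x => rfl, fun x => rfl⟩

end TF
end Cfsg.Agent.H6
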