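import Cfsg.Agent.H6.ToH
import Cfsg.Agent.H6.TwWr
import Cfsg.Agent.H6.TwTorD4
import Cfsg.Agent.H6.TwTorE6
import Cfsg.Agent.H15.ChevOut1

/-!
The outer automorphism group of 3D4(q).
-/

set_option autoImplicit false
set_option linter.unusedSectionVars false
set_option maxHeartbeats 400000
set_option maxRecDepth 100000

namespace Cfsg.Agent.H6
open Cfsg.Lie
open scoped Matrix

/-- the word gives the longest element -/
def chkLong (n N P : ℕ) (L : List ℕ) : Bool := allB n fun r => Bool.not (Bool.xor (Nat.ble N r) (Nat.ble (Nat.succ (rfP P L r)) N))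

theorem opp_of_chk {D : ChevalleyDatum} {W N : ℕ} {G : List (List ℕ)} {S P E CA CO MO : ℕ} {η : ℕ → ℕ → ℤ} {rc : ℕ → ℕ → ℤ}
    {l n : ℕ} (h : Chk D l n W N G S P E CA CO MO) (hG : Good D N η rc) (hE : Ext D rc) (W0 : List (Fin D.rank))
    (h1 : chkLong n N P (W0.map Fin.val) = true) {ι : Type} (L : ι → List (Fin D.rank))
    (h2 : ∀ j, ∀ i ∈ L j, ∃ i' ∈ L j, rfP P (W0.map Fin.val) (D.neg (D.simple i)) = D.simple (i' : Fin D.rank)) :
    ∀ w : hG.W, (∀ r : Fin D.nroots, N ≤ (r : ℕ) ↔ (w.1 r : ℕ) < N) → ∀ j, ∀ i ∈ L j, ∃ i' ∈ L j, w.1 (hG.ngf (hG.sr i)) = hG.sr i' := by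
  obtain rfl := h.rank
  obtain rfl := h.nroots
  have hw := h.hw
  have hW0 : ∀ r : Fin D.nroots, N ≤ (r : ℕ) ↔ ((wp hG.s W0).1 r : ℕ) < N := by
    intro r
    rw [wp_val hG W0 r, (rfw_eq hw hG.w_lt W0 r.2).1]
    have h3 := allB_spec h1 r r.2
    have h4 : Nat.ble N r = Nat.ble (Nat.succ (rfP P (W0.map Fin.val) r)) N := by
      cases ha : Nat.ble N r <;> cases hb : Nat.ble (Nat.succ (rfP P (W0.map Fin.val) r)) N <;> simp_all
    constructor
    · intro h5
      have h6 := Nat.ble_eq_true_of_le h5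
      rw [h4] at h6
      exact Nat.le_of_ble_eq_true h6
    · intro h5
      have h6 : Nat.ble (Nat.succ (rfP P (W0.map Fin.val) r)) N = true := Nat.ble_eq_true_of_le h5
      rw [← h4] at h6
      exact Nat.le_of_ble_eq_true h6
  intro w hwl j i hi
  rw [hG.longest_unique hE hwl hW0]
  obtain ⟨i', hi', he⟩ := h2 j i hi
  refine ⟨i', hi', Fin.ext ?_⟩
  rw [wp_val hG W0, (rfw_eq hw hG.w_lt W0 (hG.ngf (hG.sr i)).2).1]
  exact he

section ff
variable {K : Type*} [Field K]

/-- the `q`-power map -/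
def frq (q : ℕ) (hq : q ≠ 0) (h : ∀ t u : K, (t + u) ^ q = t ^ q + u ^ q) : K →+* K where
  toFun := fun t => t ^ q
  map_one' := one_pow q
  map_mul' := fun a b => mul_pow a b q
  map_zero' := zero_pow hq
  map_add' := h

/-- the fixed field -/
def kq (q : ℕ) (hq : q ≠ 0) (h : ∀ t u : K, (t + u) ^ q = t ^ q + u ^ q) : Subfield K := (frq q hq h).eqLocusField (RingHom.id K)

theorem mem_kq {q : ℕ} {hq : q ≠ 0} {h : ∀ t u : K, (t + u) ^ q = t ^ q + u ^ q} {t : K} : t ∈ kq q hq h ↔ t ^ q = t := Iff.rfl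

theorem card_kq [Fintype K] {q n : ℕ} (hq : q ≠ 0) (h : ∀ t u : K, (t + u) ^ q = t ^ q + u ^ q) (hn : n ≠ 0) (hK : Fintype.card K = q ^ n) :
    Nat.card (kq (K := K) q hq h) = q := by
  obtain ⟨q, rfl⟩ := Nat.exists_eq_succ_of_ne_zero hq
  exact card_fixed hn hK

theorem card_units' {k : Type*} [Field k] [Finite k] : Nat.card kˣ = Nat.card k - 1 := by
  classical
  have := Fintype.ofFinite k
  rw [Nat.card_eq_fintype_card, Nat.card_eq_fintype_card, Fintype.card_units]

end ff

namespace WD4a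

def W0 : List (Fin 4) := powL 3 (L 0 ++ L 1)
theorem long0 : chkLong 24 12 TD4.P (W0.map Fin.val) = true := by decide +kernel
theorem opp0 : ∀ j, ∀ i ∈ L j, ∃ i' ∈ L j, rfP TD4.P (W0.map Fin.val) (chevD4.neg (chevD4.simple i)) = chevD4.simple (i' : Fin 4) := by
  decide +kernel
theorem car1 : ∀ l ∈ L 1, chevD4.cartan 1 (chevD4.simple l) = -1 := by decide +kernel

section
variable {K : Type*} [Field K] {q : ℕ}

def ex (q : ℕ) (i : ℕ) : ℕ := if i = 2 then q else if i = 3 then q ^ 2 else 1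
theorem ex0 : ex q 0 = 1 := rfl
theorem ex1 : ex q 1 = 1 := rfl
theorem ex2 : ex q 2 = q := rfl
theorem ex3 : ex q 3 = q ^ 2 := rfl

variable (hq : q ≠ 0) (hadd : ∀ t u : K, (t + u) ^ q = t ^ q + u ^ q)

/-- the fields -/
def kk : Fin 2 → Subfield K := ![kq q hq hadd, ⊤]

theorem mem_kk0 {t : K} : t ∈ kk hq hadd 0 ↔ t ^ q = t := Iff.rfl
theorem mem_kk1 {t : K} : t ∈ kk hq hadd 1 := Subfield.mem_top t

theorem tf {σ : ↥(chevD4.group K) →* ↥(chevD4.group K)} (h : Ctx K q σ) (hq3 : ∀ t : K, (t ^ q ^ 2) ^ q = t) :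
    TF h LL (twistedD4 K q) (kk hq hadd) (ex q) where
  T := grp h hq3
  corb := corb
  umS := fun j => TD4.chk.umS h j (ums j)
  exadd := by
    intro i t u
    by_cases h2 : i = 2
    · subst h2; rw [ex2]; exact hadd t u
    · by_cases h3 : i = 3
      · subst h3; rw [ex3, pow_two, pow_mul, pow_mul, pow_mul, hadd, hadd]
      · have : ex q i = 1 := by unfold ex; rw [if_neg h2, if_neg h3]
        rw [this, pow_one, pow_one, pow_one]
  fix := by
    intro j t ht i hi
    rw [lam_one, one_mul]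
    fin_cases j
    · have hi1 : (i : ℕ) = 1 := mem0 i hi
      rw [hi1, p1, ex1, pow_one]
      exact ((mem_kk0 hq hadd).1 ht).symm
    · rcases mem1 i hi with hi1 | hi1 | hi1
      · rw [hi1, p0, ex0, ex2, pow_one]
      · rw [hi1, p2, ex2, ex3, ← pow_mul, pow_two]
      · rw [hi1, p3, ex3, ex0, pow_one, hq3]
  surj := by
    intro j f hf
    fin_cases j
    · have h1 := hf _ in0
      rw [lam_one, one_mul] at h1
      change f (sP PT 1) = f 1 ^ q at h1
      rw [p1] at h1
      refine ⟨f 1, (mem_kk0 hq hadd).2 h1.symm, ?_⟩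
      intro i hi
      have hi1 : (i : ℕ) = 1 := mem0 i hi
      rw [hi1, ex1, pow_one]
    · have h1 := hf _ in1
      rw [lam_one, one_mul] at h1
      change f (sP PT 0) = f 0 ^ q at h1
      rw [p0] at h1
      have h2 := hf _ in1'
      rw [lam_one, one_mul] at h2
      change f (sP PT 2) = f 2 ^ q at h2
      rw [p2, h1, ← pow_mul, ← pow_two] at h2
      refine ⟨f 0, mem_kk1 hq hadd, ?_⟩
      intro i hi
      rcases mem1 i hi with hi1 | hi1 | hi1
      · rw [hi1, ex0, pow_one]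
      · rw [hi1, ex2, h1]
      · rw [hi1, ex3, h2]
  gmem := fun j b f hf => gen_mem j b f hf
  ggen := by
    intro M hM
    apply gen_le h.G
    intro w hw
    obtain ⟨j, b, f, hf, he⟩ := word_cases hq3 hw
    rw [he]
    exact hM j b f hf
  opp := opp_of_chk TD4.chk h.G h.E W0 long0 LL opp0

theorem out [Fintype K] {p f : ℕ} [hp : Fact p.Prime] [CharP K p] (hK : Fintype.card K = p ^ (3 * f)) (hf : 1 ≤ f) :
    Nat.card (Cfsg.Out ↥(twistedD4 K (p ^ f))) = 3 * f := by
  have hK3 : Fintype.card K = (p ^ f) ^ 3 := by rw [hK, ← pow_mul, mul_comm]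
  set q := p ^ f with hqd
  have hqp : IsPrimePow q := ⟨p, f, hp.out.prime, hf, rfl⟩
  have hadd : ∀ t u : K, (t + u) ^ q = t ^ q + u ^ q := ff_add hp.out (by omega : 3 * f ≠ 0) hK
  obtain ⟨σ, h⟩ := exists_ctx three_ne_zero hqp hK3
  have hq3 := pow_pow hK3
  have hF := tf hqp.ne_zero hadd h hq3
  have hc0 : Nat.card (kk (K := K) hqp.ne_zero hadd 0) = q := card_kq hqp.ne_zero hadd three_ne_zero hK3
  have hc1 : Nat.card (kk (K := K) hqp.ne_zero hadd 1) = q ^ 3 := by
    rw [← hK3, ← Nat.card_eq_fintype_card]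
    exact Nat.card_congr Subfield.topEquiv.toEquiv
  have hlt : q < q ^ 3 := by
    have := hqp.one_lt
    calc q = q ^ 1 := (pow_one q).symm
      _ < q ^ 3 := Nat.pow_lt_pow_right this (by norm_num)
  have hcr : TO.CrossRel (hF.X true) (hF.X false) 0 1 := by
    apply hF.crossRel
    intro t ht ht0 l hl
    have h1 : ((LL 0).map fun l' : Fin chevD4.rank => (t ^ ex q l') ^ chevD4.cartan l' (chevD4.simple l)).prod = (t ^ ex q 1) ^ chevD4.cartan 1 (chevD4.simple l) * 1 := rfl
    rw [h1, mul_one, car1 l hl, ex1, pow_one, zpow_neg_one]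
    have ht' := (mem_kk0 hqp.ne_zero hadd).1 ht
    congr 1
    rcases mem1 l hl with hi1 | hi1 | hi1
    · rw [hi1, ex0, pow_one]
    · rw [hi1, ex2, ht']
    · rw [hi1, ex3, pow_two, pow_mul, ht', ht']
  have hmain := hF.card_out (by
      intro π hπ hc _
      have h0 : π 0 = 0 := by
        have h1 := hc 0
        have h2 : π 0 = 0 ∨ π 0 = 1 := by
          have : ∀ x : Fin 2, x = 0 ∨ x = 1 := by decide
          exact this _
        rcases h2 with h2 | h2
        · exact h2
        · rw [h2, hc0, hc1] at h1; omega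
      have h1 : π 1 = 1 := by
        have h2 : π 1 = 0 ∨ π 1 = 1 := by
          have : ∀ x : Fin 2, x = 0 ∨ x = 1 := by decide
          exact this _
        rcases h2 with h2 | h2
        · rw [← h0] at h2
          exact absurd (hπ h2) (by decide)
        · exact h2
      intro j
      fin_cases j
      · exact h0
      · exact h1) 1 (fun x => mem_kk1 hqp.ne_zero hadd) (by
      intro s j t ht
      fin_cases j
      · have := (mem_kk0 hqp.ne_zero hadd).1 ht
        refine (mem_kk0 hqp.ne_zero hadd).2 ?_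
        rw [← map_pow, this]
      · exact mem_kk1 hqp.ne_zero hadd) (by
      intro τ hτ
      refine ⟨(Subfield.topEquiv.symm.trans (τ 1)).trans Subfield.topEquiv, ?_⟩
      have h1 : ∀ t : kk (K := K) hqp.ne_zero hadd 1, ((τ 1 t : kk (K := K) hqp.ne_zero hadd 1) : K) =
        ((Subfield.topEquiv.symm.trans (τ 1)).trans Subfield.topEquiv) t := fun t => rfl
      intro j t
      fin_cases j
      · have h2 := hτ 0 1 hcr (fun x _ => mem_kk1 hqp.ne_zero hadd) t ⟨t, mem_kk1 hqp.ne_zero hadd⟩ rfl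
        exact h2.symm.trans (h1 _)
      · exact h1 t)
  rw [Fin.prod_univ_two, card_units', card_units', hc0, hc1, card_diag hqp hK3,
    Cfsg.Agent.H15.Chev.card_ringAut p (3 * f) hK] at hmain
  have hpos : 0 < (q - 1) * (q ^ 3 - 1) := by
    have := hqp.one_lt
    exact Nat.mul_pos (by omega) (by omega)
  exact Nat.eq_of_mul_eq_mul_right hpos hmain

end
end WD4a
end Cfsg.Agent.H6
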