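import Cfsg.Agent.H6.ToI
import Cfsg.Agent.H15.ChevAut4

/-!
The outer automorphism group of 2E6(q).
-/

set_option autoImplicit false
set_option linter.unusedSectionVars false
set_option maxHeartbeats 400000
set_option maxRecDepth 100000

namespace Cfsg.Agent.H6
open Cfsg.Lie
open scoped Matrix

theorem commute_pw {D : ChevalleyDatum} {F : Type*} [Field F] {A B : List (Fin D.rank)} {b b' : Bool} {f f' : ℕ → F}
    (h : ∀ i ∈ A, ∀ i' ∈ B, Commute (sx D F b (i : Fin D.rank) (f i)) (sx D F b' (i' : Fin D.rank) (f' i'))) :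
    Commute (pw D F b A f) (pw D F b' B f') := by
  unfold pw
  apply Commute.list_prod_left
  intro x hx
  rw [List.mem_map] at hx
  obtain ⟨i, hi, rfl⟩ := hx
  apply Commute.list_prod_right
  intro y hy
  rw [List.mem_map] at hy
  obtain ⟨i', hi', rfl⟩ := hy
  exact h i hi i' hi'

namespace WE6

def W0 : List (Fin 6) := powL 6 (L 0 ++ (L 1 ++ (L 2 ++ L 3)))
theorem long0 : chkLong 72 36 TE6.P (W0.map Fin.val) = true := by decide +kernel
theorem opp0 : ∀ j, ∀ i ∈ L j, ∃ i' ∈ L j, rfP TE6.P (W0.map Fin.val) (chevE6.neg (chevE6.simple i)) = chevE6.simple (i' : Fin 6) := by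
  decide +kernel
theorem car01 : ∀ l ∈ L 1, chevE6.cartan 1 (chevE6.simple l) = -1 := by decide +kernel
theorem car12 : ∀ l ∈ L 2, chevE6.cartan 3 (chevE6.simple l) = -1 := by decide +kernel
theorem car20 : chevE6.cartan 2 (chevE6.simple 0) = -1 := by decide +kernel
theorem car40 : chevE6.cartan 4 (chevE6.simple 0) = 0 := by decide +kernel
theorem car25 : chevE6.cartan 2 (chevE6.simple 5) = 0 := by decide +kernel
theorem car45 : chevE6.cartan 4 (chevE6.simple 5) = -1 := by decide +kernel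

/-- orthogonal pairs -/
def pl : Fin 6 → List (Fin 6) := ![[1, 2], [1, 4], [1, 0], [1, 5], [3, 0], [3, 5]]
theorem pnd : ∀ j, (pl j).Nodup := by decide +kernel
theorem port : ∀ j, chkOrt 72 11 TE6.G TE6.S ((pl j).map Fin.val) = true := by decide +kernel
theorem pcorb {K : Type*} [Field K] (j : Fin 6) : COrb chevE6 K (pl j) := TE6.chk.corb TE6.ext (pnd j) (port j)
theorem pair : ∀ i i' : Fin 6, ((i = 1 ∨ i = 1) ∧ (i' ∈ L 2 ∨ i' ∈ L 3)) ∨ (i = 3 ∧ i' ∈ L 3) → i ≠ i' ∧ ∃ j, i ∈ pl j ∧ i' ∈ pl j := by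
  decide +kernel

theorem moved : rfP TE6.P ((L 2).map Fin.val) (chevE6.simple 3) ≠ chevE6.simple 3 := by decide +kernel

theorem comb : ∀ a b c d : Fin 4, a ≠ b → c ≠ d → (a = 0 ∨ a = 1) → (b = 0 ∨ b = 1) → (c = 2 ∨ c = 3) → (d = 2 ∨ d = 3) →
    ¬ (a = 1 ∧ c = 2) → ¬ (a = 1 ∧ d = 2) → ¬ (b = 1 ∧ d = 2) → a = 0 ∧ b = 1 ∧ c = 2 ∧ d = 3 := by
  decide +kernel

section
variable {K : Type*} [Field K] {q : ℕ}

def ex (q : ℕ) (i : ℕ) : ℕ := if i = 4 then q else if i = 5 then q else 1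
theorem ex0 : ex q 0 = 1 := rfl
theorem ex1 : ex q 1 = 1 := rfl
theorem ex2 : ex q 2 = 1 := rfl
theorem ex3 : ex q 3 = 1 := rfl
theorem ex4 : ex q 4 = q := rfl
theorem ex5 : ex q 5 = q := rfl

variable (hq : q ≠ 0) (hadd : ∀ t u : K, (t + u) ^ q = t ^ q + u ^ q)

/-- the fields -/
def kk : Fin 4 → Subfield K := ![kq q hq hadd, kq q hq hadd, ⊤, ⊤]

theorem mem_kk0 {t : K} : t ∈ kk hq hadd 0 ↔ t ^ q = t := Iff.rfl
theorem mem_kk1 {t : K} : t ∈ kk hq hadd 1 ↔ t ^ q = t := Iff.rfl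
theorem mem_kk2 {t : K} : t ∈ kk hq hadd 2 := Subfield.mem_top t
theorem mem_kk3 {t : K} : t ∈ kk hq hadd 3 := Subfield.mem_top t

theorem tf {σ : ↥(chevE6.group K) →* ↥(chevE6.group K)} (h : Ctx K q σ) (hq2 : ∀ t : K, (t ^ q) ^ q = t) :
    TF h LL (twistedE6 K q) (kk hq hadd) (ex q) where
  T := grp h hq2
  corb := corb
  umS := fun j => TE6.chk.umS h j (ums j)
  exadd := by
    intro i t u
    by_cases h2 : i = 4
    · subst h2; rw [ex4]; exact hadd t u
    · by_cases h3 : i = 5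
      · subst h3; rw [ex5]; exact hadd t u
      · have : ex q i = 1 := by unfold ex; rw [if_neg h2, if_neg h3]
        rw [this, pow_one, pow_one, pow_one]
  fix := by
    intro j t ht i hi
    rw [lam_one, one_mul]
    fin_cases j
    · have hi1 : (i : ℕ) = 1 := mem0 i hi
      rw [hi1, p1, ex1, pow_one]
      exact ((mem_kk0 hq hadd).1 ht).symm
    · have hi1 : (i : ℕ) = 3 := mem1 i hi
      rw [hi1, p3, ex3, pow_one]
      exact ((mem_kk1 hq hadd).1 ht).symm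
    · rcases mem2 i hi with hi1 | hi1
      · rw [hi1, p2, ex2, ex4, pow_one]
      · rw [hi1, p4, ex4, ex2, pow_one, hq2]
    · rcases mem3 i hi with hi1 | hi1
      · rw [hi1, p0, ex0, ex5, pow_one]
      · rw [hi1, p5, ex5, ex0, pow_one, hq2]
  surj := by
    intro j f hf
    fin_cases j
    · have h1 := hf _ in0
      rw [lam_one, one_mul] at h1
      change f (sP PT 1) = f 1 ^ q at h1
      rw [p1] at h1
      refine ⟨f 1, (mem_kk0 hq hadd).2 h1.symm, ?_⟩
      intro i hi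
      have hi1 : (i : ℕ) = 1 := mem0 i hi
      rw [hi1, ex1, pow_one]
    · have h1 := hf _ in1
      rw [lam_one, one_mul] at h1
      change f (sP PT 3) = f 3 ^ q at h1
      rw [p3] at h1
      refine ⟨f 3, (mem_kk1 hq hadd).2 h1.symm, ?_⟩
      intro i hi
      have hi1 : (i : ℕ) = 3 := mem1 i hi
      rw [hi1, ex3, pow_one]
    · have h1 := hf _ in2
      rw [lam_one, one_mul] at h1
      change f (sP PT 2) = f 2 ^ q at h1
      rw [p2] at h1
      refine ⟨f 2, mem_kk2 hq hadd, ?_⟩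
      intro i hi
      rcases mem2 i hi with hi1 | hi1
      · rw [hi1, ex2, pow_one]
      · rw [hi1, ex4, h1]
    · have h1 := hf _ in3
      rw [lam_one, one_mul] at h1
      change f (sP PT 0) = f 0 ^ q at h1
      rw [p0] at h1
      refine ⟨f 0, mem_kk3 hq hadd, ?_⟩
      intro i hi
      rcases mem3 i hi with hi1 | hi1
      · rw [hi1, ex0, pow_one]
      · rw [hi1, ex5, h1]
  gmem := fun j b f hf => gen_mem j b f hf
  ggen := by
    intro M hM
    apply gen_le h.G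
    intro w hw
    obtain ⟨j, b, f, hf, he⟩ := word_cases hq2 hw
    rw [he]
    exact hM j b f hf
  opp := opp_of_chk TE6.chk h.G h.E W0 long0 LL opp0

theorem comm_sx (b b' : Bool) (t u : K) {i i' : Fin 6} (h : ((i = 1 ∨ i = 1) ∧ (i' ∈ L 2 ∨ i' ∈ L 3)) ∨ (i = 3 ∧ i' ∈ L 3)) :
    Commute (sx chevE6 K b i t) (sx chevE6 K b' i' u) := by
  obtain ⟨hne, j, h1, h2⟩ := pair i i' h
  exact (pcorb j).comm i h1 i' h2 hne b b' t u

theorem L0 : ∀ i ∈ L 0, i = 1 := by decide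
theorem L1 : ∀ i ∈ L 1, i = 3 := by decide

variable {σ : ↥(chevE6.group K) →* ↥(chevE6.group K)} {h : Ctx K q σ} {k : Fin 4 → Subfield K} {e' : ℕ → ℕ} (hF : TF h LL (twistedE6 K q) k e')
include hF

theorem comm02 (t : k 0) (u : k 2) : Commute (hF.X true 0 t) (hF.X true 2 u) := by
  have h1 : Commute ((hF.X true 0 t : ↥(twistedE6 K q)) : GL chevE6.Idx K) ((hF.X true 2 u : ↥(twistedE6 K q)) : GL chevE6.Idx K) :=
    commute_pw fun i hi i' hi' => comm_sx true true _ _ (Or.inl ⟨Or.inl (L0 i hi), Or.inl hi'⟩)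
  exact Subtype.ext h1.eq

theorem comm03 (t : k 0) (u : k 3) : Commute (hF.X true 0 t) (hF.X true 3 u) := by
  have h1 : Commute ((hF.X true 0 t : ↥(twistedE6 K q)) : GL chevE6.Idx K) ((hF.X true 3 u : ↥(twistedE6 K q)) : GL chevE6.Idx K) :=
    commute_pw fun i hi i' hi' => comm_sx true true _ _ (Or.inl ⟨Or.inl (L0 i hi), Or.inr hi'⟩)
  exact Subtype.ext h1.eq

theorem comm13 (t : k 1) (u : k 3) : Commute (hF.X true 1 t) (hF.X true 3 u) := by
  have h1 : Commute ((hF.X true 1 t : ↥(twistedE6 K q)) : GL chevE6.Idx K) ((hF.X true 3 u : ↥(twistedE6 K q)) : GL chevE6.Idx K) :=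
    commute_pw fun i hi i' hi' => comm_sx true true _ _ (Or.inr ⟨L1 i hi, hi'⟩)
  exact Subtype.ext h1.eq

theorem ncomm12 : ¬ ∀ (t : k 1) (u : k 2), Commute (hF.X true 1 t) (hF.X true 2 u) := by
  intro hc
  have hneg : ∀ (t : k 1) (u : k 2), Commute (hF.X true 1 t) (hF.X false 2 u) := by
    intro t u
    have h1 : Commute ((hF.X true 1 t : ↥(twistedE6 K q)) : GL chevE6.Idx K) ((hF.X false 2 u : ↥(twistedE6 K q)) : GL chevE6.Idx K) := by
      apply commute_pw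
      intro i hi i' hi'
      have hne : i ≠ i' := by
        have : ∀ i ∈ L 1, ∀ i' ∈ L 2, i ≠ i' := by decide
        exact this i hi i' hi'
      exact congrArg Subtype.val (Cfsg.Agent.H15.Chev.comm_pos_neg h.G h.E hne _ _)
    exact Subtype.ext h1.eq
  have h1 : Commute (hF.X true 1 1) (TO.nn (hF.X true 2) (hF.X false 2) 1) :=
    ((hc 1 1).mul_right (hneg 1 _)).mul_right (hc 1 1)
  obtain ⟨-, χ, hm⟩ := hF.nn_mon (j := 2) (t := 1) one_ne_zero
  have h2 := hm.act (h.G.sr ⟨3, by decide⟩) 1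
  have h3 : ((hF.X true 1 1 : ↥(twistedE6 K q)) : GL chevE6.Idx K) = xg chevE6 K (chevE6.simple 3) 1 := by
    rw [hF.coe_X]
    have h4 : pw chevE6 K true (LL 1) (fun i => (((1 : k 1) : k 1) : K) ^ e' i) = xg chevE6 K (chevE6.simple 3) ((((1 : k 1) : k 1) : K) ^ e' 3) * 1 := rfl
    rw [h4, mul_one, OneMemClass.coe_one, one_pow]
  have h5 : ((TO.nn (hF.X true 2) (hF.X false 2) 1 : ↥(twistedE6 K q)) : GL chevE6.Idx K) * xg chevE6 K (chevE6.simple 3) 1 *
      ((TO.nn (hF.X true 2) (hF.X false 2) 1 : ↥(twistedE6 K q)) : GL chevE6.Idx K)⁻¹ = xg chevE6 K (chevE6.simple 3) 1 := by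
    rw [← h3]
    have h6 := congrArg (fun z : ↥(twistedE6 K q) => (z : GL chevE6.Idx K)) h1.eq
    simp only [Subgroup.coe_mul] at h6
    rw [← h6, mul_inv_cancel_right]
  have h7 : xg chevE6 K (chevE6.simple 3) 1 = xg chevE6 K ((h.wJ LL 2).1 (h.G.sr ⟨3, by decide⟩)) ((χ (h.G.sr ⟨3, by decide⟩) : K) * 1) :=
    h5.symm.trans h2
  have h8 := h.G.xg_inj h.E (h.G.simple_lt 3 (by decide)) ((h.wJ LL 2).1 (h.G.sr ⟨3, by decide⟩)).2 one_ne_zero h7
  apply moved
  have h9 : (((h.wJ LL 2).1 (h.G.sr ⟨3, by decide⟩) : Fin chevE6.nroots) : ℕ) = rfP TE6.P ((L 2).map Fin.val) (chevE6.simple 3) := by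
    unfold TwCtx.wJ
    rw [wp_val h.G]
    exact (rfw_eq (D := chevE6) (P := TE6.P) TE6.chk.hw h.G.w_lt (LL 2) (h.G.simple_lt 3 (by decide))).1
  rw [← h9]
  exact h8.symm

end
end WE6
end Cfsg.Agent.H6
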