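import Cfsg.Agent.H6.ToJ

/-!
The outer automorphism group of 2E6(q).
-/

set_option autoImplicit false
set_option linter.unusedSectionVars false
set_option maxHeartbeats 400000
set_option maxRecDepth 100000

namespace Cfsg.Agent.H6
open Cfsg.Lie
open scoped Matrix

namespace WE6

theorem out {K : Type*} [Field K] [Fintype K] {p f : ℕ} [hp : Fact p.Prime] [CharP K p] (hK : Fintype.card K = p ^ (2 * f)) (hf : 1 ≤ f) :
    Nat.card (Cfsg.Out ↥(twistedE6 K (p ^ f))) = 2 * Nat.gcd 3 (p ^ f + 1) * f := by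
  have hK2 : Fintype.card K = (p ^ f) ^ 2 := by rw [hK, ← pow_mul, mul_comm]
  set q := p ^ f with hqd
  have hqp : IsPrimePow q := ⟨p, f, hp.out.prime, hf, rfl⟩
  have hadd : ∀ t u : K, (t + u) ^ q = t ^ q + u ^ q := ff_add hp.out (by omega : 2 * f ≠ 0) hK
  obtain ⟨σ, h⟩ := exists_ctx two_ne_zero hqp hK2
  have hq2 := pow_pow hK2
  have hF := tf hqp.ne_zero hadd h hq2
  have hc0 : Nat.card (kk (K := K) hqp.ne_zero hadd 0) = q := card_kq hqp.ne_zero hadd two_ne_zero hK2
  have hc1 : Nat.card (kk (K := K) hqp.ne_zero hadd 1) = q := card_kq hqp.ne_zero hadd two_ne_zero hK2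
  have hc2 : Nat.card (kk (K := K) hqp.ne_zero hadd 2) = q ^ 2 := by
    rw [← hK2, ← Nat.card_eq_fintype_card]
    exact Nat.card_congr Subfield.topEquiv.toEquiv
  have hc3 : Nat.card (kk (K := K) hqp.ne_zero hadd 3) = q ^ 2 := hc2
  have hlt : q < q ^ 2 := by
    have := hqp.one_lt
    calc q = q ^ 1 := (pow_one q).symm
      _ < q ^ 2 := Nat.pow_lt_pow_right this (by norm_num)
  have hcr01 : TO.CrossRel (hF.X true) (hF.X false) 0 1 := by
    apply hF.crossRel
    intro t ht ht0 l hl
    have h1 : ((LL 0).map fun l' : Fin chevE6.rank => (t ^ ex q l') ^ chevE6.cartan l' (chevE6.simple l)).prod =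
      (t ^ ex q 1) ^ chevE6.cartan 1 (chevE6.simple l) * 1 := rfl
    rw [h1, mul_one, car01 l hl, ex1, pow_one, zpow_neg_one]
    rw [mem1 l hl, ex3, pow_one]
  have hcr12 : TO.CrossRel (hF.X true) (hF.X false) 1 2 := by
    apply hF.crossRel
    intro t ht ht0 l hl
    have h1 : ((LL 1).map fun l' : Fin chevE6.rank => (t ^ ex q l') ^ chevE6.cartan l' (chevE6.simple l)).prod =
      (t ^ ex q 3) ^ chevE6.cartan 3 (chevE6.simple l) * 1 := rfl
    rw [h1, mul_one, car12 l hl, ex3, pow_one, zpow_neg_one]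
    have ht' := (mem_kk1 hqp.ne_zero hadd).1 ht
    rcases mem2 l hl with hi1 | hi1
    · rw [hi1, ex2, pow_one]
    · rw [hi1, ex4, ht']
  have hcr23 : TO.CrossRel (hF.X true) (hF.X false) 2 3 := by
    apply hF.crossRel
    intro t ht ht0 l hl
    have h1 : ((LL 2).map fun l' : Fin chevE6.rank => (t ^ ex q l') ^ chevE6.cartan l' (chevE6.simple l)).prod =
      (t ^ ex q 2) ^ chevE6.cartan 2 (chevE6.simple l) * ((t ^ ex q 4) ^ chevE6.cartan 4 (chevE6.simple l) * 1) := rfl
    rw [h1, mul_one]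
    rcases mem3 l hl with hi1 | hi1
    · rw [hi1, car20, car40, ex0, ex2, pow_one, zpow_neg_one, zpow_zero, mul_one]
    · rw [hi1, car25, car45, ex4, ex5, zpow_zero, one_mul, zpow_neg_one]
  have hle : ∀ i, kk (K := K) hqp.ne_zero hadd i ≤ kk (K := K) hqp.ne_zero hadd 2 := fun i x _ => mem_kk2 hqp.ne_zero hadd
  have hle3 : ∀ i, kk (K := K) hqp.ne_zero hadd i ≤ kk (K := K) hqp.ne_zero hadd 3 := fun i x _ => mem_kk3 hqp.ne_zero hadd
  have hmain := hF.card_out (by
      intro π hπ hc hcomm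
      have hlow : ∀ x : Fin 4, Nat.card (kk (K := K) hqp.ne_zero hadd x) = q → x = 0 ∨ x = 1 := by
        intro x hx
        have : x = 0 ∨ x = 1 ∨ x = 2 ∨ x = 3 := by
          have : ∀ x : Fin 4, x = 0 ∨ x = 1 ∨ x = 2 ∨ x = 3 := by decide
          exact this _
        rcases this with rfl | rfl | rfl | rfl
        · exact Or.inl rfl
        · exact Or.inr rfl
        · rw [hc2] at hx; omega
        · rw [hc3] at hx; omega
      have hhigh : ∀ x : Fin 4, Nat.card (kk (K := K) hqp.ne_zero hadd x) = q ^ 2 → x = 2 ∨ x = 3 := by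
        intro x hx
        have : x = 0 ∨ x = 1 ∨ x = 2 ∨ x = 3 := by
          have : ∀ x : Fin 4, x = 0 ∨ x = 1 ∨ x = 2 ∨ x = 3 := by decide
          exact this _
        rcases this with rfl | rfl | rfl | rfl
        · rw [hc0] at hx; omega
        · rw [hc1] at hx; omega
        · exact Or.inl rfl
        · exact Or.inr rfl
      have hn := ncomm12 hF
      have hk := comb (π 0) (π 1) (π 2) (π 3) (fun he => absurd (hπ he) (by decide)) (fun he => absurd (hπ he) (by decide))
        (hlow _ ((hc 0).symm.trans hc0)) (hlow _ ((hc 1).symm.trans hc1)) (hhigh _ ((hc 2).symm.trans hc2)) (hhigh _ ((hc 3).symm.trans hc3))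
        (fun he => hn (by
          have := hcomm 0 2 (comm02 hF)
          rw [he.1, he.2] at this
          exact this))
        (fun he => hn (by
          have := hcomm 0 3 (comm03 hF)
          rw [he.1, he.2] at this
          exact this))
        (fun he => hn (by
          have := hcomm 1 3 (comm13 hF)
          rw [he.1, he.2] at this
          exact this))
      obtain ⟨h0, h1, h2, h3⟩ := hk
      intro j
      fin_cases j
      · exact h0
      · exact h1
      · exact h2
      · exact h3) 2 (fun x => mem_kk2 hqp.ne_zero hadd) (by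
      intro s j t ht
      fin_cases j
      · have := (mem_kk0 hqp.ne_zero hadd).1 ht
        refine (mem_kk0 hqp.ne_zero hadd).2 ?_
        rw [← map_pow, this]
      · have := (mem_kk1 hqp.ne_zero hadd).1 ht
        refine (mem_kk1 hqp.ne_zero hadd).2 ?_
        rw [← map_pow, this]
      · exact mem_kk2 hqp.ne_zero hadd
      · exact mem_kk3 hqp.ne_zero hadd) (by
      intro τ hτ
      refine ⟨(Subfield.topEquiv.symm.trans (τ 2)).trans Subfield.topEquiv, ?_⟩
      have h2 : ∀ t : kk (K := K) hqp.ne_zero hadd 2, ((τ 2 t : kk (K := K) hqp.ne_zero hadd 2) : K) =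
        ((Subfield.topEquiv.symm.trans (τ 2)).trans Subfield.topEquiv) t := fun t => rfl
      have h1 : ∀ t : kk (K := K) hqp.ne_zero hadd 1, ((τ 1 t : kk (K := K) hqp.ne_zero hadd 1) : K) =
        ((Subfield.topEquiv.symm.trans (τ 2)).trans Subfield.topEquiv) t := fun t =>
        (hτ 1 2 hcr12 (hle 1) t ⟨t, mem_kk2 hqp.ne_zero hadd⟩ rfl).symm.trans (h2 _)
      intro j t
      fin_cases j
      · exact (hτ 0 1 hcr01 le_rfl t ⟨t, t.2⟩ rfl).symm.trans (h1 _)
      · exact h1 t
      · exact h2 t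
      · exact (hτ 2 3 hcr23 (hle3 2) ⟨t, mem_kk2 hqp.ne_zero hadd⟩ t rfl).trans (h2 _))
  rw [Fin.prod_univ_four, card_units', card_units', card_units', card_units', hc0, hc1, hc2, hc3,
    Cfsg.Agent.H15.Chev.card_ringAut p (2 * f) hK] at hmain
  have hd := card_diag hqp hK2
  have hg : 0 < Nat.card ↥(chevE6.diagonalSubgroup K ⊓ twistedE6 K q) := by
    by_contra hc
    have hz : Nat.card ↥(chevE6.diagonalSubgroup K ⊓ twistedE6 K q) = 0 := by omega
    rw [hz, mul_zero] at hd
    have h1 := hqp.one_lt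
    have : 0 < (q - 1) ^ 4 * (q + 1) ^ 2 := Nat.mul_pos (Nat.pow_pos (by omega)) (Nat.pow_pos (by omega))
    omega
  have h4 : q ^ 2 - 1 = (q + 1) * (q - 1) := by
    have := Nat.sq_sub_sq q 1
    rwa [one_pow] at this
  apply Nat.eq_of_mul_eq_mul_right hg
  rw [hmain, h4]
  calc 2 * f * ((q - 1) * (q - 1) * ((q + 1) * (q - 1)) * ((q + 1) * (q - 1))) = 2 * f * ((q - 1) ^ 4 * (q + 1) ^ 2) := by ring
    _ = 2 * f * (Nat.gcd 3 (q + 1) * Nat.card ↥(chevE6.diagonalSubgroup K ⊓ twistedE6 K q)) := by rw [hd]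
    _ = _ := by ring

end WE6
end Cfsg.Agent.H6
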