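import Cfsg.Agent.H6.ToH

/-!
Standard automorphisms of a finite group with a (B,N)-pair (general form).
-/

set_option autoImplicit false
set_option linter.unusedSectionVars false
set_option maxHeartbeats 400000

namespace Cfsg.Agent.H6.TO
open Cfsg Cfsg.Agent.H6.BN

/-- the data -/
structure OD0 {G : Type*} [Group G] (P : BNPair G) (U V : Subgroup G) (n0 : G) : Prop where
  U_le : U ≤ P.B
  U_norm : ∀ b ∈ P.B, ∀ u ∈ U, b * u * b⁻¹ ∈ U
  B_eq : ∀ b ∈ P.B, ∃ u ∈ U, ∃ t ∈ P.B ⊓ P.N, b = u * t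
  n0_mem : n0 ∈ P.N
  n0U : ∀ g, g ∈ V ↔ n0⁻¹ * g * n0 ∈ U
  n0V : ∀ g, g ∈ U ↔ n0⁻¹ * g * n0 ∈ V
  VB : ∀ g ∈ V, g ∈ P.B → g = 1
  opp : ∀ m ∈ P.N, (∀ u ∈ U, m * u * m⁻¹ ∈ U → u = 1) → n0⁻¹ * m ∈ P.B
  syl : ∀ θ : G ≃* G, ∃ x, ∀ g, g ∈ U ↔ x * θ g * x⁻¹ ∈ U
  NU : ∀ g, (∀ u, u ∈ U ↔ g * u * g⁻¹ ∈ U) → g ∈ P.B
  core : P.B.normalCore = ⊥

namespace OD0
variable {G : Type*} [Group G] {P : BNPair G} {U V : Subgroup G} {n0 : G} (h : OD0 P U V n0)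
include h

theorem VU : ∀ g ∈ V, g ∈ U → g = 1 := fun g hg hu => h.VB g hg (h.U_le hu)

theorem U_norm' {b u : G} (hb : b ∈ P.B) : u ∈ U ↔ b * u * b⁻¹ ∈ U := by
  refine ⟨h.U_norm b hb u, fun hu => ?_⟩
  have := h.U_norm b⁻¹ (inv_mem hb) _ hu
  have e : b⁻¹ * (b * u * b⁻¹) * b⁻¹⁻¹ = u := by group
  rwa [e] at this

/-- the normalizer of `U` is `B` -/
theorem mem_B_iff {g : G} : g ∈ P.B ↔ ∀ u, u ∈ U ↔ g * u * g⁻¹ ∈ U :=
  ⟨fun hg _ => h.U_norm' hg, h.NU g⟩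

theorem center (g : G) (hg : ∀ x, g * x = x * g) : g = 1 := by
  have h1 : ∀ x, x * g * x⁻¹ = g := fun x => by rw [← hg x, mul_inv_cancel_right]
  have h2 : g ∈ P.B := by
    rw [h.mem_B_iff]
    intro u
    rw [hg u, mul_inv_cancel_right]
  have h3 : g ∈ P.B.normalCore := fun x => by rw [h1]; exact h2
  rwa [h.core, Subgroup.mem_bot] at h3

theorem n0_conj_V {u : G} (hu : u ∈ U) : n0 * u * n0⁻¹ ∈ V := by
  rw [h.n0U]
  have e : n0⁻¹ * (n0 * u * n0⁻¹) * n0 = u := by group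
  rwa [e]

theorem n0_conj_U {u : G} (hu : u ∈ V) : n0 * u * n0⁻¹ ∈ U := by
  rw [h.n0V]
  have e : n0⁻¹ * (n0 * u * n0⁻¹) * n0 = u := by group
  rwa [e]

/-- elements of `T` normalise `V` -/
theorem T_norm {t : G} (ht : t ∈ P.B ⊓ P.N) {v : G} (hv : v ∈ V) : t * v * t⁻¹ ∈ V := by
  rw [h.n0U] at hv ⊢
  have h1 : n0⁻¹ * t * n0 ∈ P.B := by
    have := P.conj_mem n0⁻¹ (inv_mem h.n0_mem) t ht
    rwa [inv_inv] at this
  have h2 := h.U_norm _ h1 _ hv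
  have e : n0⁻¹ * t * n0 * (n0⁻¹ * v * n0) * (n0⁻¹ * t * n0)⁻¹ = n0⁻¹ * (t * v * t⁻¹) * n0 := by group
  rwa [e] at h2

theorem exists_bruhat (g : G) : ∃ b ∈ P.B, ∃ n ∈ P.N, ∃ b' ∈ P.B, g = b * n * b' := by
  obtain ⟨w, n, -, b, hb, b', hb', e⟩ := exists_mem_C P g
  exact ⟨b, hb, n, n.2, b', hb', e⟩

/-- every automorphism is standard up to an inner one -/
theorem exists_std (θ : G ≃* G) : ∃ x, Sd U V (MulAut.conj x * θ) := by
  obtain ⟨x, hx⟩ := h.syl θ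
  obtain ⟨b, hb, n, hn, b', hb', e⟩ := h.exists_bruhat (x * θ n0 * x⁻¹)
  set φ : MulAut G := MulAut.conj x * θ with hφ
  have hφa : ∀ g, φ g = x * θ g * x⁻¹ := fun g => rfl
  have hφU : ∀ g, φ g ∈ U ↔ g ∈ U := fun g => by rw [hφa]; exact (hx g).symm
  have hn0 : φ n0 = b * n * b' := by rw [hφa, e]
  have h1 : ∀ u ∈ U, n * u * n⁻¹ ∈ U → u = 1 := by
    intro u hu hnu
    -- `u = b' φ(u') b'⁻¹`
    have h2 : b'⁻¹ * u * b' ∈ U := by
      have := h.U_norm b'⁻¹ (inv_mem hb') u hu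
      rwa [inv_inv] at this
    set u' := φ.symm (b'⁻¹ * u * b') with hu'
    have h3 : φ u' = b'⁻¹ * u * b' := MulEquiv.apply_symm_apply _ _
    have h4 : u' ∈ U := by rw [← hφU, h3]; exact h2
    have h5 : φ (n0 * u' * n0⁻¹) = b * (n * u * n⁻¹) * b⁻¹ := by
      rw [map_mul, map_mul, map_inv, hn0, h3]; group
    have h6 : n0 * u' * n0⁻¹ ∈ U := by
      rw [← hφU, h5]; exact h.U_norm b hb _ hnu
    have h7 := h.VU _ (h.n0_conj_V h4) h6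
    have h8 : u' = 1 := by
      rw [mul_inv_eq_one] at h7
      exact mul_left_cancel (h7.trans (mul_one n0).symm)
    rw [h8, map_one] at h3
    have h9 : u = b' * (b'⁻¹ * u * b') * b'⁻¹ := by group
    rw [h9, ← h3]; group
  have h2 := h.opp n hn h1
  refine ⟨b⁻¹ * x, ?_, ?_⟩
  · intro g
    have e1 : (MulAut.conj (b⁻¹ * x) * θ) g = b⁻¹ * φ g * b := by
      change (b⁻¹ * x) * θ g * (b⁻¹ * x)⁻¹ = b⁻¹ * (x * θ g * x⁻¹) * b
      group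
    rw [e1]
    have h3 := h.U_norm' (b := b⁻¹) (u := φ g) (inv_mem hb)
    rw [inv_inv] at h3
    rw [← h3, hφU]
  · intro g
    have e1 : (MulAut.conj (b⁻¹ * x) * θ) g = b⁻¹ * φ g * b := by
      change (b⁻¹ * x) * θ g * (b⁻¹ * x)⁻¹ = b⁻¹ * (x * θ g * x⁻¹) * b
      group
    rw [e1, h.n0U, h.n0U g, ← hφU (n0⁻¹ * g * n0)]
    have e2 : φ (n0⁻¹ * g * n0) = (n0⁻¹ * n * b')⁻¹ * (n0⁻¹ * (b⁻¹ * φ g * b) * n0) * (n0⁻¹ * n * b')⁻¹⁻¹ := by
      rw [map_mul, map_mul, map_inv, hn0]; group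
    rw [e2]
    exact h.U_norm' (inv_mem (mul_mem h2 hb'))

theorem Sd.symm {θ : G ≃* G} (hθ : Sd U V θ) : Sd U V θ.symm := by
  constructor
  · intro g
    rw [← hθ.pos, MulEquiv.apply_symm_apply]
  · intro g
    rw [← hθ.neg, MulEquiv.apply_symm_apply]

theorem Sd.B {θ : G ≃* G} (hθ : Sd U V θ) (g : G) : θ g ∈ P.B ↔ g ∈ P.B := by
  rw [h.mem_B_iff, h.mem_B_iff]
  constructor
  · intro hg u
    rw [← hθ.pos u, hg (θ u), ← map_inv, ← map_mul, ← map_mul, hθ.pos]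
  · intro hg u
    obtain ⟨v, rfl⟩ := θ.surjective u
    rw [hθ.pos, ← map_inv, ← map_mul, ← map_mul, hθ.pos]
    exact hg v

theorem mem_T_of_norm {x : G} (hB : x ∈ P.B) (hV : ∀ v ∈ V, x * v * x⁻¹ ∈ V) (hV' : ∀ v ∈ V, x⁻¹ * v * x ∈ V) : x ∈ P.B ⊓ P.N := by
  obtain ⟨u, hu, t, ht, rfl⟩ := h.B_eq x hB
  have hu1 : u = 1 := by
    have h1 : n0⁻¹ * u * n0 ∈ P.B := by
      rw [h.mem_B_iff]
      have key : ∀ v ∈ V, u * v * u⁻¹ ∈ V := by
        intro v hv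
        have h2 := hV _ (h.T_norm (t := t⁻¹) (inv_mem ht) hv)
        have e : u * t * (t⁻¹ * v * t⁻¹⁻¹) * (u * t)⁻¹ = u * v * u⁻¹ := by group
        rwa [e] at h2
      have key' : ∀ v ∈ V, u⁻¹ * v * u ∈ V := by
        intro v hv
        have h2 := h.T_norm ht (hV' v hv)
        have e : t * ((u * t)⁻¹ * v * (u * t)) * t⁻¹ = u⁻¹ * v * u := by group
        rwa [e] at h2
      intro y
      constructor
      · intro hy
        have h2 := key _ (h.n0_conj_V hy)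
        rw [h.n0U] at h2
        have e : n0⁻¹ * (u * (n0 * y * n0⁻¹) * u⁻¹) * n0 = n0⁻¹ * u * n0 * y * (n0⁻¹ * u * n0)⁻¹ := by group
        rwa [e] at h2
      · intro hy
        have h2 := key' _ (h.n0_conj_V hy)
        rw [h.n0U] at h2
        have e : n0⁻¹ * (u⁻¹ * (n0 * (n0⁻¹ * u * n0 * y * (n0⁻¹ * u * n0)⁻¹) * n0⁻¹) * u) * n0 = y := by group
        rwa [e] at h2
    have h2 := h.VB _ ((h.n0V u).1 hu) h1
    have e : u = n0 * (n0⁻¹ * u * n0) * n0⁻¹ := by group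
    rw [e, h2]; group
  rw [hu1, one_mul]
  exact ht

/-- the image of `n₀` -/
theorem Sd.n0T {θ : G ≃* G} (hθ : Sd U V θ) : n0⁻¹ * θ n0 ∈ P.B ⊓ P.N := by
  apply h.mem_T_of_norm
  · rw [h.mem_B_iff]
    intro u
    obtain ⟨v, rfl⟩ := θ.surjective u
    have e : n0⁻¹ * θ n0 * θ v * (n0⁻¹ * θ n0)⁻¹ = n0⁻¹ * θ (n0 * v * n0⁻¹) * n0 := by
      rw [map_mul, map_mul, map_inv]; group
    rw [e, ← h.n0U, hθ.neg, hθ.pos, h.n0U]
    have e2 : n0⁻¹ * (n0 * v * n0⁻¹) * n0 = v := by group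
    rw [e2]
  · intro u hu
    obtain ⟨v, rfl⟩ := θ.surjective u
    have e : n0⁻¹ * θ n0 * θ v * (n0⁻¹ * θ n0)⁻¹ = n0⁻¹ * θ (n0 * v * n0⁻¹) * n0 := by
      rw [map_mul, map_mul, map_inv]; group
    rw [e, ← h.n0V, hθ.pos]
    exact h.n0_conj_U ((hθ.neg v).1 hu)
  · intro u hu
    have e : (n0⁻¹ * θ n0)⁻¹ * u * (n0⁻¹ * θ n0) = θ (n0⁻¹ * θ.symm (n0 * u * n0⁻¹) * n0) := by
      rw [map_mul, map_mul, map_inv, MulEquiv.apply_symm_apply]; group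
    rw [e, hθ.neg, ← h.n0V, ← hθ.pos, MulEquiv.apply_symm_apply]
    exact h.n0_conj_U hu

theorem conj_mem_A0 {x : G} : MulAut.conj x ∈ OD.A0 U V ↔ x ∈ P.B ⊓ P.N := by
  constructor
  · intro hx
    have hx' := (OD.A0 U V).inv_mem hx
    rw [← map_inv] at hx'
    apply h.mem_T_of_norm
    · rw [h.mem_B_iff]
      intro u
      exact (hx.pos u).symm
    · intro v hv
      exact (hx.neg v).2 hv
    · intro v hv
      have := (hx'.neg v).2 hv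
      rwa [MulAut.conj_apply, inv_inv] at this
  · intro hx
    constructor
    · intro g
      exact (h.U_norm' hx.1).symm
    · intro g
      constructor
      · intro hg
        have := h.T_norm (inv_mem hx) hg
        rw [MulAut.conj_apply] at this
        have e : x⁻¹ * (x * g * x⁻¹) * x⁻¹⁻¹ = g := by group
        rwa [e] at this
      · intro hg
        exact h.T_norm hx hg

theorem conj_injective : Function.Injective (MulAut.conj : G →* MulAut G) := by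
  refine (injective_iff_map_eq_one _).2 fun x hx => h.center x fun y => ?_
  have := DFunLike.congr_fun hx y
  rw [MulAut.conj_apply, MulAut.one_apply, mul_inv_eq_iff_eq_mul] at this
  exact this

theorem toOut_surj : Function.Surjective (OD.toOut U V) := by
  intro y
  obtain ⟨θ, rfl⟩ := QuotientGroup.mk'_surjective _ y
  obtain ⟨x, hx⟩ := h.exists_std θ
  refine ⟨⟨_, hx⟩, ?_⟩
  change QuotientGroup.mk' _ (MulAut.conj x * θ) = QuotientGroup.mk' _ θ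
  rw [map_mul]
  have h1 : QuotientGroup.mk' (Cfsg.Inn G) (MulAut.conj x) = 1 :=
    (QuotientGroup.eq_one_iff _).2 ⟨x, rfl⟩
  rw [h1, one_mul]

theorem mem_ker_toOut {θ : ↥(OD.A0 U V)} : θ ∈ (OD.toOut U V).ker ↔ ∃ x, x ∈ P.B ⊓ P.N ∧
    (θ : MulAut G) = MulAut.conj x := by
  rw [MonoidHom.mem_ker]
  change QuotientGroup.mk' _ (θ : MulAut G) = 1 ↔ _
  rw [show (QuotientGroup.mk' (Cfsg.Inn G) (θ : MulAut G) = 1) ↔
    (θ : MulAut G) ∈ Cfsg.Inn G from QuotientGroup.eq_one_iff _]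
  constructor
  · rintro ⟨x, hx⟩
    refine ⟨x, ?_, hx.symm⟩
    rw [← h.conj_mem_A0, hx]
    exact θ.2
  · rintro ⟨x, -, hx⟩
    exact ⟨x, hx.symm⟩

theorem card_ker_toOut : Nat.card (OD.toOut U V).ker = Nat.card ↥(P.B ⊓ P.N) := by
  have key : ∀ x : ↥(P.B ⊓ P.N), (⟨MulAut.conj (x : G), h.conj_mem_A0.2 x.2⟩ : ↥(OD.A0 U V)) ∈ (OD.toOut U V).ker := fun x =>
    h.mem_ker_toOut.2 ⟨x, x.2, rfl⟩
  symm
  refine Nat.card_congr (Equiv.ofBijective (fun x : ↥(P.B ⊓ P.N) => (⟨_, key x⟩ : (OD.toOut U V).ker)) ⟨?_, ?_⟩)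
  · intro x y hxy
    have h1 : MulAut.conj (x : G) = MulAut.conj (y : G) := congrArg (fun z : (OD.toOut U V).ker => ((z : ↥(OD.A0 U V)) : MulAut G)) hxy
    exact Subtype.ext (h.conj_injective h1)
  · rintro ⟨θ, hθ⟩
    obtain ⟨x, hx, e⟩ := h.mem_ker_toOut.1 hθ
    exact ⟨⟨x, hx⟩, Subtype.ext (Subtype.ext e.symm)⟩

theorem card_A0 : Nat.card (OD.A0 U V) = Nat.card (Cfsg.Out G) * Nat.card ↥(P.B ⊓ P.N) := by
  rw [← h.card_ker_toOut, Subgroup.card_eq_card_quotient_mul_card_subgroup (OD.toOut U V).ker]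
  congr 1
  exact Nat.card_congr (QuotientGroup.quotientKerEquivOfSurjective _ h.toOut_surj).toEquiv

end OD0
end Cfsg.Agent.H6.TO
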