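import Cfsg.Agent.H6.ToL

/-!
The general data for the automorphism theory of a twisted group.
-/

set_option autoImplicit false
set_option linter.unusedSectionVars false
set_option maxHeartbeats 400000

namespace Cfsg.Agent.H6
open Cfsg.Lie
open scoped Matrix

variable {D : ChevalleyDatum} {N : ℕ} {η : ℕ → ℕ → ℤ} {rc : ℕ → ℕ → ℤ} {F : Type*} [Field F]
  {m : ℕ} {rho inv lam pi : ℕ → ℕ} {ep : ℕ → ℤ} {e : ℕ} {σ : ↥(D.group F) →* ↥(D.group F)}
  {ι : Type} {L : ι → List (Fin D.rank)}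

namespace TwGrp
variable {h : TwCtx D N η rc F m rho inv lam pi ep e σ} {G₁ : Subgroup (GL D.Idx F)} (hT : TwGrp h L G₁)
include hT

theorem mem_T {g : ↥G₁} : g ∈ hT.bnPair₁.B ⊓ hT.bnPair₁.N ↔ (g : GL D.Idx F) ∈ D.diagonalSubgroup F := by
  rw [Subgroup.mem_inf, ← h.G.borel_inf_monomial h.E, Subgroup.mem_inf]
  exact ⟨fun hg => ⟨hg.1.1, hg.2.1⟩, fun hg => ⟨⟨hg.1, g.2⟩, ⟨hg.2, g.2⟩⟩⟩

theorem NU (g : ↥G₁) (hg : ∀ u : ↥G₁, u ∈ (D.posUnipotent F).subgroupOf G₁ ↔ g * u * g⁻¹ ∈ (D.posUnipotent F).subgroupOf G₁) :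
    g ∈ hT.bnPair₁.B := by
  let M : Subgroup ↥G₁ :=
    { carrier := {g | ∀ u, u ∈ (D.posUnipotent F).subgroupOf G₁ ↔ g * u * g⁻¹ ∈ (D.posUnipotent F).subgroupOf G₁}
      mul_mem' := by
        intro a b ha hb u
        rw [hb u, ha (b * u * b⁻¹)]
        have e : a * (b * u * b⁻¹) * a⁻¹ = a * b * u * (a * b)⁻¹ := by group
        rw [e]
      one_mem' := by intro u; simp
      inv_mem' := by
        intro a ha u
        rw [ha (a⁻¹ * u * a⁻¹⁻¹)]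
        have e : a * (a⁻¹ * u * a⁻¹⁻¹) * a⁻¹ = u := by group
        rw [e] }
  have hM : hT.bnPair₁.B ≤ M := by
    intro b hb u
    constructor
    · intro hu
      exact h.G.borel_conj_pos hb.1 hu
    · intro hu
      have h1 : (b⁻¹ * (b * u * b⁻¹) * b⁻¹⁻¹ : ↥G₁) ∈ (D.posUnipotent F).subgroupOf G₁ := h.G.borel_conj_pos (inv_mem hb.1) hu
      have e : b⁻¹ * (b * u * b⁻¹) * b⁻¹⁻¹ = u := by group
      rwa [e] at h1
  have h1 := BN.eq_parabolic hT.bnPair₁ M hM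
  have h2 : hT.bnPair₁.S ∩ (M : Set ↥G₁) = ∅ := by
    rw [Set.eq_empty_iff_forall_notMem]
    rintro x ⟨⟨j, hj⟩, hxM⟩
    obtain ⟨y, hy, hy1⟩ := hT.exists_ne j
    obtain ⟨χ, hm⟩ := hT.nJ_mon j
    have hyG : y ∈ G₁ := hT.root j hy
    have h3 := (hxM ⟨y, hyG⟩).1 (h.US_le_pos (h.G.Um_sub _) hy.1)
    have h4 : (x : GL D.Idx F) * y * (x : GL D.Idx F)⁻¹ ∈ D.posUnipotent F := h3
    rw [hj] at h4
    exact hT.conj_notMem hm hy.1 hy1 (Subgroup.mem_sup_left h4)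
  rw [h2] at h1
  have h3 : hT.bnPair₁.parabolic ∅ = hT.bnPair₁.B := by
    unfold Cfsg.BNPair.parabolic
    rw [Subgroup.closure_empty, sup_bot_eq]
  rw [h3] at h1
  rw [← h1]
  exact hg

theorem exists_OD0 [Finite F] : ∃ n0 : ↥G₁, TO.OD0 hT.bnPair₁ ((D.posUnipotent F).subgroupOf G₁) ((D.negUnipotent F).subgroupOf G₁) n0 ∧
    ∃ w χ, (∀ r : Fin D.nroots, N ≤ (r : ℕ) ↔ (w.1 r : ℕ) < N) ∧ Mon h.G (xg D F) (n0 : GL D.Idx F) w χ := by
  obtain ⟨w, hw, hw0⟩ := h.exists_longest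
  obtain ⟨n, hn, χ, hmn⟩ := hT.rep_all hw
  have hlt : ∀ r : Fin D.nroots, (r : ℕ) < N ↔ N ≤ (w.1 r : ℕ) := by
    intro r
    have := hw0 r
    omega
  have hwi : ∀ r : Fin D.nroots, w.1 ((w⁻¹).1 r) = r := fun r => Equiv.apply_symm_apply w.1 r
  have a1 : ∀ u ∈ D.posUnipotent F, n * u * n⁻¹ ∈ D.negUnipotent F := by
    intro u hu
    rw [h.G.posUnipotent_eq_US] at hu
    rw [h.G.negUnipotent_eq_US]
    exact hmn.mem_US (fun r hr => hr.2) (fun r hr => (hw0 r).1 hr.1) hu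
  have hnl : ∀ r : ℕ, r < N → r < D.nroots := fun r hr => by rw [h.G.nroots_eq]; omega
  have a2 : ∀ u ∈ D.negUnipotent F, n * u * n⁻¹ ∈ D.posUnipotent F := by
    intro u hu
    rw [h.G.negUnipotent_eq_US] at hu
    rw [h.G.posUnipotent_eq_US]
    exact hmn.mem_US (T := posS D N) (fun r hr => hnl r hr) (fun r hr => ⟨(hlt r).1 hr, (w.1 r).2⟩) hu
  have a3 : ∀ u ∈ D.posUnipotent F, n⁻¹ * u * n ∈ D.negUnipotent F := by
    intro u hu
    rw [h.G.posUnipotent_eq_US] at hu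
    rw [h.G.negUnipotent_eq_US]
    have := hmn.inv.mem_US (S := posS D N) (T := {r | r < N}) (fun r hr => hr.2) (fun r hr => by
      change (((w⁻¹).1 r : Fin D.nroots) : ℕ) < N
      rw [hlt, hwi]; exact hr.1) hu
    rwa [inv_inv] at this
  have a4 : ∀ u ∈ D.negUnipotent F, n⁻¹ * u * n ∈ D.posUnipotent F := by
    intro u hu
    rw [h.G.negUnipotent_eq_US] at hu
    rw [h.G.posUnipotent_eq_US]
    have := hmn.inv.mem_US (S := {r | r < N}) (T := posS D N) (fun r hr => hnl r hr) (fun r hr => by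
      refine ⟨?_, ((w⁻¹).1 r).2⟩
      rw [hw0, hwi]; exact hr) hu
    rwa [inv_inv] at this
  have hww : w * w = 1 := by
    apply h.G.eq_one_of_pos
    intro i
    change N ≤ (w.1 (w.1 (h.G.sr i)) : ℕ)
    rw [← hlt, ← hw0]
    exact h.G.sr_pos i
  refine ⟨⟨n, hn.2⟩, ?_, w, χ, hw0, hmn⟩
  refine
    { U_le := fun u hu => ⟨Subgroup.mem_sup_left hu, u.2⟩
      U_norm := fun b hb u hu => h.G.borel_conj_pos hb.1 hu
      B_eq := ?_
      n0_mem := ⟨hn.1, hn.2⟩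
      n0U := ?_
      n0V := ?_
      VB := ?_
      opp := ?_
      syl := hT.syl
      NU := hT.NU
      core := hT.core₁ }
  · intro b hb
    obtain ⟨u, hu, t, ht, he⟩ := hT.mem_borel₁ (Subgroup.mem_inf.2 ⟨hb.1, b.2⟩)
    exact ⟨⟨u, hu.2⟩, hu.1, ⟨t, ht.2⟩, hT.mem_T.2 ht.1, Subtype.ext he⟩
  · intro g
    change (g : GL D.Idx F) ∈ D.negUnipotent F ↔ n⁻¹ * (g : GL D.Idx F) * n ∈ D.posUnipotent F
    refine ⟨fun hg => a4 _ hg, fun hg => ?_⟩
    have := a1 _ hg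
    have e1 : n * (n⁻¹ * (g : GL D.Idx F) * n) * n⁻¹ = g := by group
    rwa [e1] at this
  · intro g
    change (g : GL D.Idx F) ∈ D.posUnipotent F ↔ n⁻¹ * (g : GL D.Idx F) * n ∈ D.negUnipotent F
    refine ⟨fun hg => a3 _ hg, fun hg => ?_⟩
    have := a2 _ hg
    have e1 : n * (n⁻¹ * (g : GL D.Idx F) * n) * n⁻¹ = g := by group
    rwa [e1] at this
  · intro g hg hb
    have h1 : (g : GL D.Idx F) ∈ D.borelSubgroup F ⊓ D.negUnipotent F := Subgroup.mem_inf.2 ⟨hb.1, hg⟩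
    rw [h.G.borel_inf_neg, Subgroup.mem_bot] at h1
    exact Subtype.ext h1
  · intro g hg hu
    obtain ⟨v, χ', hm⟩ := h.G.exists_mon h.E hg.1
    have hv : v ∈ h.Wr := h.mon_fix hg.1 (hT.le_fix g.2) hm
    have hneg : ∀ i : Fin D.rank, (v.1 (h.G.sr i) : ℕ) < N := by
      intro i
      obtain ⟨j, hj⟩ := hT.orb.cover i
      rcases h.dich hT.orb hv j with h1 | h1
      · exfalso
        obtain ⟨y, hy, hy1⟩ := hT.exists_ne j
        have hyG : y ∈ G₁ := hT.root j hy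
        have h2 : (g : GL D.Idx F) * y * (g : GL D.Idx F)⁻¹ ∈ D.posUnipotent F := by
          rw [h.G.posUnipotent_eq_US]
          exact hm.mem_US (T := posS D N) (fun r hr => hr.1) (fun r hr => ⟨h1 r hr, (v.1 r).2⟩) hy.1
        have h3 := hu ⟨y, hyG⟩ (Subgroup.mem_subgroupOf.2 (h.US_le_pos (h.G.Um_sub _) hy.1)) (Subgroup.mem_subgroupOf.2 h2)
        exact hy1 (congrArg Subtype.val h3)
      · exact h1 _ ((h.simple_mem_Um_wJ hT.orb).2 hj)
    have hwv : w * v = 1 := by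
      apply h.G.eq_one_of_pos
      intro i
      change N ≤ (w.1 (v.1 (h.G.sr i)) : ℕ)
      rw [← hlt]
      exact hneg i
    have hvw : v = w := by
      rw [← mul_left_cancel_iff (a := w), hwv, hww]
    have h1 := hmn.inv.mul hm
    rw [hvw, inv_mul_cancel] at h1
    refine ⟨Subgroup.mem_sup_right ?_, G₁.mul_mem (G₁.inv_mem hn.2) g.2⟩
    exact h.G.mem_diagonal_of_mon h.E ((D.monomialSubgroup F).mul_mem ((D.monomialSubgroup F).inv_mem hn.1) hg.1) h1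

end TwGrp
end Cfsg.Agent.H6
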