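import Cfsg.Agent.H6.ToL

/-!
Automorphisms of the unipotent group of a small Ree group commuting with the torus.
-/

set_option autoImplicit false
set_option linter.unusedSectionVars false
set_option maxHeartbeats 400000

namespace Cfsg.Agent.H6.TO

/-- the unipotent group of a small Ree group with its torus action -/
structure RU {G : Type*} [Group G] {K : Type*} [Field K] (τ : K →+* K) (R : K → K → K → G) (H : Kˣ → G) : Prop where
  three : (3 : K) = 0
  ττ : ∀ t, τ (τ t) = t ^ 3
  ne : ∃ t, τ t ≠ t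
  inj : ∀ {t u v t' u' v'}, R t u v = R t' u' v' → t = t' ∧ u = u' ∧ v = v'
  mul : ∀ t u v t' u' v', R t u v * R t' u' v' = R (t + t') (u + u' - τ t' * t) (v + v' - τ t' * t ^ 2 - (u - τ t' * t) * t')
  act : ∀ (κ : Kˣ) t u v, H κ * R t u v * (H κ)⁻¹ = R (κ * t) (κ * τ κ * u) (κ ^ 2 * τ κ * v)
  cube0 : ∀ u v, R 0 u v ^ 3 = 1
  cube : ∀ t u v, t ≠ 0 → R t u v ^ 3 ≠ 1

namespace RU
variable {G : Type*} [Group G] {K : Type*} [Field K] {τ : K →+* K} {R : K → K → K → G} {H : Kˣ → G} (h : RU τ R H)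
include h

theorem two_ne : (2 : K) ≠ 0 := by
  intro h2
  have : (1 : K) = 3 - 2 := by norm_num
  rw [h.three, h2, sub_zero] at this
  exact one_ne_zero this

theorem zero_of_neg {a : K} (ha : a = -a) : a = 0 := by
  have h1 : 2 * a = 0 := by linear_combination ha
  exact (mul_eq_zero.1 h1).resolve_left h.two_ne

theorem split (t u v : K) : R t u v = R t 0 0 * R 0 u v := by
  rw [h.mul]
  congr 1 <;> simp

theorem mul0 (t u v u' v' : K) : R t u v * R 0 u' v' = R t (u + u') (v + v') := by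
  rw [h.mul]
  congr 1 <;> simp

theorem id_of {ψ : G →* G} (hψ : ∀ t u v, ∃ u' v', ψ (R t u v) = R t u' v') (hH : ∀ κ, ψ (H κ) = H κ) (t u v : K) :
    ψ (R t u v) = R t u v := by
  have hψ0 := fun u v => hψ 0 u v
  choose A B hAB using hψ0
  have hψt := fun t => hψ t 0 0
  choose a b hab using hψt
  have hm1 : ((-1 : Kˣ) : K) * τ ((-1 : Kˣ) : K) = 1 := by rw [Units.val_neg, Units.val_one, map_neg, map_one]; ring
  have hm2 : ((-1 : Kˣ) : K) ^ 2 * τ ((-1 : Kˣ) : K) = -1 := by rw [Units.val_neg, Units.val_one, map_neg, map_one]; ring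
  -- equivariance
  have eqA : ∀ (κ : Kˣ) (u v : K), A (κ * τ κ * u) (κ ^ 2 * τ κ * v) = κ * τ κ * A u v ∧
      B (κ * τ κ * u) (κ ^ 2 * τ κ * v) = κ ^ 2 * τ κ * B u v := by
    intro κ u v
    have h1 := congrArg ψ (h.act κ 0 u v)
    rw [map_mul, map_mul, map_inv, hH, hAB, mul_zero, hAB, h.act, mul_zero] at h1
    obtain ⟨-, h2, h3⟩ := h.inj h1
    exact ⟨h2.symm, h3.symm⟩
  have eqa : ∀ (κ : Kˣ) (t : K), a (κ * t) = κ * τ κ * a t ∧ b (κ * t) = κ ^ 2 * τ κ * b t := by
    intro κ t
    have h1 := congrArg ψ (h.act κ t 0 0)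
    rw [map_mul, map_mul, map_inv, hH, hab, mul_zero, mul_zero, hab, h.act] at h1
    obtain ⟨-, h2, h3⟩ := h.inj h1
    exact ⟨h2.symm, h3.symm⟩
  have addA : ∀ u v u' v' : K, A (u + u') (v + v') = A u v + A u' v' ∧ B (u + u') (v + v') = B u v + B u' v' := by
    intro u v u' v'
    have h1 := congrArg ψ (h.mul0 0 u v u' v')
    rw [map_mul, hAB, hAB, hAB, h.mul0] at h1
    obtain ⟨-, h2, h3⟩ := h.inj h1
    exact ⟨h2.symm, h3.symm⟩
  have A00 : A 0 0 = 0 ∧ B 0 0 = 0 := by
    have h1 := addA 0 0 0 0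
    rw [add_zero] at h1
    exact ⟨left_eq_add.1 h1.1, left_eq_add.1 h1.2⟩
  have A0v : ∀ v, A 0 v = 0 := by
    intro v
    have h1 := (eqA (-1) 0 v).1
    rw [hm1, hm2, mul_zero, one_mul, neg_one_mul] at h1
    have h2 := (addA 0 v 0 (-v)).1
    rw [add_zero, add_neg_cancel, A00.1, h1] at h2
    have h3 : A 0 v = -A 0 v := by linear_combination -h2
    exact h.zero_of_neg h3
  have Bu0 : ∀ u, B u 0 = 0 := by
    intro u
    have h1 := (eqA (-1) u 0).2
    rw [hm1, hm2, mul_zero, one_mul, neg_one_mul] at h1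
    exact h.zero_of_neg h1
  have Auv : ∀ u v, A u v = A u 0 := by
    intro u v
    have h1 := (addA u 0 0 v).1
    rw [add_zero, zero_add, A0v, add_zero] at h1
    exact h1
  have Buv : ∀ u v, B u v = B 0 v := by
    intro u v
    have h1 := (addA u 0 0 v).2
    rw [add_zero, zero_add, Bu0, zero_add] at h1
    exact h1
  -- linearity of B
  have Blin : ∀ v, B 0 v = v * B 0 1 := by
    intro v
    by_cases hv : v = 0
    · rw [hv, A00.2, zero_mul]
    · have hτv : τ v ≠ 0 := by rwa [Ne, map_eq_zero]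
      have h1 := (eqA (Units.mk0 (v ^ 2 / τ v) (div_ne_zero (pow_ne_zero 2 hv) hτv)) 0 1).2
      have h2 : (v ^ 2 / τ v) ^ 2 * τ (v ^ 2 / τ v) = v := by
        rw [map_div₀, map_pow, h.ττ]
        field_simp
      rw [Units.val_mk0, h2, mul_zero, mul_one] at h1
      exact h1
  have Asq : ∀ d u : K, A (d ^ 2 * u) 0 = d ^ 2 * A u 0 := by
    intro d u
    by_cases hd : d = 0
    · rw [hd, zero_pow two_ne_zero, zero_mul, zero_mul, A00.1]
    · have hτd : τ d ≠ 0 := by rwa [Ne, map_eq_zero]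
      have h1 := (eqA (Units.mk0 (τ d / d) (div_ne_zero hτd hd)) u 0).1
      have h2 : (τ d / d) * τ (τ d / d) = d ^ 2 := by
        rw [map_div₀, h.ττ]
        field_simp
      rw [Units.val_mk0, h2, mul_zero] at h1
      exact h1
  have Aneg : ∀ u, A (-u) 0 = -A u 0 := by
    intro u
    have h1 := (addA u 0 (-u) 0).1
    rw [add_neg_cancel, add_zero, A00.1] at h1
    linear_combination -h1
  have Alin : ∀ u, A u 0 = u * A 1 0 := by
    intro u
    have h1 : u = ((u + 1) / 2) ^ 2 * 1 + -(((u - 1) / 2) ^ 2 * 1) := by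
      have := h.two_ne
      field_simp
      ring
    have h2 := (addA (((u + 1) / 2) ^ 2 * 1) 0 (-(((u - 1) / 2) ^ 2 * 1)) 0).1
    rw [← h1, add_zero, Aneg, Asq, Asq] at h2
    rw [h2]
    have := h.two_ne
    field_simp
    ring
  set α := A 1 0 with hα
  set δ := B 0 1 with hδ
  have h0 : ∀ u v, ψ (R 0 u v) = R 0 (u * α) (v * δ) := by
    intro u v
    rw [hAB, Auv, Buv, Alin, Blin]
  -- the main relation
  have main : ∀ t t' : K, a (t + t') + (-(τ t' * t)) * α = a t + a t' - τ t' * t ∧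
      b (t + t') + (-(τ t' * t ^ 2) - (-(τ t' * t)) * t') * δ = b t + b t' - τ t' * t ^ 2 - (a t - τ t' * t) * t' := by
    intro t t'
    have h1 : R t 0 0 * R t' 0 0 = R (t + t') 0 0 * R 0 (-(τ t' * t)) (-(τ t' * t ^ 2) - (-(τ t' * t)) * t') := by
      rw [h.mul, h.mul0]
      congr 1 <;> ring
    have h2 := congrArg ψ h1
    rw [map_mul, map_mul, hab, hab, hab, h0, h.mul, h.mul0] at h2
    obtain ⟨-, h3, h4⟩ := h.inj h2
    exact ⟨h3.symm, h4.symm⟩
  obtain ⟨s, hs⟩ := h.ne
  have α1 : α = 1 := by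
    have h1 := (main s 1).1
    have h2 := (main 1 s).1
    rw [map_one, one_mul] at h1
    rw [mul_one, add_comm 1 s] at h2
    have h3 : (τ s - s) * (α - 1) = 0 := by linear_combination h1 - h2
    rcases mul_eq_zero.1 h3 with h4 | h4
    · exact absurd (sub_eq_zero.1 h4) hs
    · exact sub_eq_zero.1 h4
  have aadd : ∀ t t', a (t + t') = a t + a t' := by
    intro t t'
    have h1 := (main t t').1
    rw [α1] at h1
    linear_combination h1
  have a0 : a 0 = 0 := by
    have := aadd 0 0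
    rw [add_zero] at this
    exact left_eq_add.1 this
  have az : ∀ t, a t = 0 := by
    intro t
    have h1 := (eqa (-1) t).1
    rw [hm1, one_mul, Units.val_neg, Units.val_one, neg_one_mul] at h1
    have h2 := aadd t (-t)
    rw [add_neg_cancel, a0, h1] at h2
    apply h.zero_of_neg
    linear_combination -h2
  have hthree := h.three
  have δ1 : δ = 1 := by
    have h1 := (main (-1) 1).2
    have h2 := (main 1 (-1)).2
    rw [az, map_one] at h1
    rw [az, map_neg, map_one] at h2
    have e1 : (-1 : K) + 1 = 1 + -1 := by ring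
    rw [e1] at h1
    have h3 : δ - 1 = 0 := by linear_combination h2 - h1 - (δ - 1) * hthree
    exact sub_eq_zero.1 h3
  have badd : ∀ t t', b (t + t') = b t + b t' := by
    intro t t'
    have h1 := (main t t').2
    rw [δ1, az] at h1
    linear_combination h1
  have b0 : b 0 = 0 := by
    have := badd 0 0
    rw [add_zero] at this
    exact left_eq_add.1 this
  have bk : ∀ κ : K, κ ≠ 0 → b κ = κ ^ 2 * τ κ * b 1 := by
    intro κ hκ
    have h1 := (eqa (Units.mk0 κ hκ) 1).2
    rw [Units.val_mk0, mul_one] at h1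
    exact h1
  have b1 : b 1 = 0 := by
    have hs0 : s ≠ 0 := by rintro rfl; exact hs (map_zero τ)
    have hs1 : s - 1 ≠ 0 := by
      intro h1
      apply hs
      rw [sub_eq_zero.1 h1, map_one]
    have hs2 : s + 1 ≠ 0 := by
      intro h1
      apply hs
      rw [eq_neg_of_add_eq_zero_left h1, map_neg, map_one]
    have h1 := badd s 1
    rw [bk _ hs2, bk s hs0, map_add, map_one] at h1
    have h2 : ((s - τ s) * (s - 1)) * b 1 = 0 := by
      linear_combination h1 - (s * τ s * b 1 + s * b 1) * h.three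
    rcases mul_eq_zero.1 h2 with h3 | h3
    · rcases mul_eq_zero.1 h3 with h4 | h4
      · exact absurd (sub_eq_zero.1 h4).symm hs
      · exact absurd h4 hs1
    · exact h3
  have bz : ∀ t, b t = 0 := by
    intro t
    by_cases ht : t = 0
    · rw [ht, b0]
    · rw [bk t ht, b1, mul_zero]
  rw [h.split t u v, map_mul, hab, h0, az, bz, α1, δ1, mul_one, mul_one]

end RU
end Cfsg.Agent.H6.TO
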