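import Cfsg.Agent.H6.ToN

/-!
Counting the standard automorphisms of a small Ree group.
-/

set_option autoImplicit false
set_option linter.unusedSectionVars false
set_option maxHeartbeats 400000

namespace Cfsg.Agent.H6.TO
open Cfsg Cfsg.Agent.H6.BN

/-- data for a small Ree group -/
structure RD {G : Type*} [Group G] (P : BNPair G) (U V : Subgroup G) (n0 : G) {K : Type*} [Field K] (τ : K →+* K)
    (R : K → K → K → G) (H : Kˣ → G) : Prop where
  od : OD0 P U V n0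
  ru : RU τ R H
  memU : ∀ g, g ∈ U ↔ ∃ t u v, g = R t u v
  memT : ∀ g, g ∈ P.B ⊓ P.N ↔ ∃ κ, g = H κ
  Hinj : ∀ {κ κ'}, H κ = H κ' → κ = κ'
  br : ∀ g, g ∈ P.B ∨ ∃ b ∈ P.B, ∃ b' ∈ P.B, g = b * n0 * b'
  Vne : ∃ v ∈ V, v ≠ 1
  fld : ∀ s : K ≃+* K, ∃ θ : G ≃* G, Sd U V θ ∧ ∀ t, ∃ u v, θ (R t 0 0) = R (s t) u v

namespace RD
variable {G : Type*} [Group G] {P : BNPair G} {U V : Subgroup G} {n0 : G} {K : Type*} [Field K] {τ : K →+* K}
    {R : K → K → K → G} {H : Kˣ → G} (h : RD P U V n0 τ R H)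
include h

theorem R_mem (t u v : K) : R t u v ∈ U := (h.memU _).2 ⟨t, u, v, rfl⟩

theorem ker_img {θ : G ≃* G} (hθ : Sd U V θ) (u v : K) : ∃ u' v', θ (R 0 u v) = R 0 u' v' := by
  obtain ⟨t, a, b, hab⟩ := (h.memU _).1 ((hθ.pos _).2 (h.R_mem 0 u v))
  have ht : t = 0 := by
    by_contra ht
    apply h.ru.cube t a b ht
    rw [← hab, ← map_pow, h.ru.cube0, map_one]
  rw [ht] at hab
  exact ⟨a, b, hab⟩

theorem img {θ : G ≃* G} (hθ : Sd U V θ) {t t' u u' v v' : K} (h0 : θ (R t u v) = R t' u' v') (a b : K) : ∃ a' b', θ (R t a b) = R t' a' b' := by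
  obtain ⟨x, y, hxy⟩ := h.ker_img hθ (a - u) (b - v)
  have h1 : R t a b = R t u v * R 0 (a - u) (b - v) := by
    rw [h.ru.mul0, add_sub_cancel, add_sub_cancel]
  rw [h1, map_mul, h0, hxy, h.ru.mul0]
  exact ⟨_, _, rfl⟩

theorem T_img {θ : G ≃* G} (hθ : Sd U V θ) (κ : Kˣ) : ∃ κ', θ (H κ) = H κ' := by
  have h1 : H κ ∈ P.B ⊓ P.N := (h.memT _).2 ⟨κ, rfl⟩
  apply (h.memT _).1
  have hs := OD0.Sd.symm h.od hθ
  have k1 : ∀ {θ : G ≃* G}, Sd U V θ → ∀ v ∈ V, θ (H κ) * v * (θ (H κ))⁻¹ ∈ V := by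
    intro θ hθ v hv
    obtain ⟨w, rfl⟩ := θ.surjective v
    rw [← map_inv, ← map_mul, ← map_mul, hθ.neg]
    exact h.od.T_norm h1 ((hθ.neg w).1 hv)
  apply h.od.mem_T_of_norm
  · rw [OD0.Sd.B h.od hθ]
    exact h1.1
  · exact k1 hθ
  · intro v hv
    obtain ⟨w, rfl⟩ := θ.surjective v
    rw [← map_inv, ← map_mul, ← map_mul, hθ.neg]
    have h2 := h.od.T_norm (inv_mem h1) ((hθ.neg w).1 hv)
    rwa [inv_inv] at h2

/-- the form of a standard automorphism on the abelianisation -/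
theorem form [Finite K] {θ : G ≃* G} (hθ : Sd U V θ) : ∃ (s : K ≃+* K) (c : Kˣ), ∀ t, ∃ u v, θ (R t 0 0) = R (c * s t) u v := by
  have h0 : ∀ t : K, ∃ t' u v, θ (R t 0 0) = R t' u v := fun t => (h.memU _).1 ((hθ.pos _).2 (h.R_mem t 0 0))
  choose f p q hf using h0
  choose φ hφ using h.T_img hθ
  have hadd : ∀ t t', f (t + t') = f t + f t' := by
    intro t t'
    have h1 := congrArg θ (h.ru.mul t 0 0 t' 0 0)
    obtain ⟨a, b, hab⟩ := h.img hθ (hf (t + t')) (0 + 0 - τ t' * t) (0 + 0 - τ t' * t ^ 2 - (0 - τ t' * t) * t')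
    rw [map_mul, hf, hf, h.ru.mul, hab] at h1
    exact (h.ru.inj h1).1.symm
  have hmul : ∀ (κ : Kˣ) t, f (κ * t) = φ κ * f t := by
    intro κ t
    have h1 := congrArg θ (h.ru.act κ t 0 0)
    rw [map_mul, map_mul, map_inv, hφ, hf, h.ru.act, mul_zero, mul_zero, hf] at h1
    exact (h.ru.inj h1).1.symm
  have hf1 : f 1 ≠ 0 := by
    intro h1
    have h2 := hf 1
    rw [h1] at h2
    apply h.ru.cube 1 0 0 one_ne_zero
    apply θ.injective
    rw [map_pow, h2, h.ru.cube0, map_one]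
  have hf0 : f 0 = 0 := by
    have := hadd 0 0
    rw [add_zero] at this
    exact left_eq_add.1 this
  have hφ1 : ∀ κ : Kˣ, (φ κ : K) = f κ / f 1 := by
    intro κ
    have := hmul κ 1
    rw [mul_one] at this
    rw [this, mul_div_cancel_right₀ _ hf1]
  let s0 : K →+* K :=
    { toFun := fun t => f t / f 1
      map_one' := div_self hf1
      map_zero' := by rw [hf0, zero_div]
      map_add' := fun a b => by rw [hadd, add_div]
      map_mul' := fun a b => by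
        by_cases ha : a = 0
        · rw [ha, zero_mul, hf0, zero_div, zero_mul]
        · have h1 := hmul (Units.mk0 a ha) b
          rw [hφ1, Units.val_mk0] at h1
          rw [h1]
          field_simp }
  have hs0 : Function.Bijective s0 := Finite.injective_iff_bijective.1 s0.injective
  refine ⟨RingEquiv.ofBijective s0 hs0, Units.mk0 _ hf1, fun t => ?_⟩
  rw [Units.val_mk0]
  change ∃ u v, θ (R t 0 0) = R (f 1 * (f t / f 1)) u v
  rw [mul_div_cancel₀ _ hf1]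
  exact ⟨_, _, hf t⟩

/-- rigidity -/
theorem rigid {ψ : G ≃* G} (hψ : Sd U V ψ) (h1 : ∀ t, ∃ u v, ψ (R t 0 0) = R t u v) (g : G) : ψ g = g := by
  have h2 : ∀ t u v, ∃ u' v', ψ (R t u v) = R t u' v' := by
    intro t u v
    obtain ⟨a, b, hab⟩ := h1 t
    exact h.img hψ hab u v
  have h3 : ∀ κ, ψ (H κ) = H κ := by
    intro κ
    obtain ⟨κ', hκ⟩ := h.T_img hψ κ
    obtain ⟨a, b, hab⟩ := h1 1
    obtain ⟨a', b', hab'⟩ := h1 κ
    have h4 := congrArg ψ (h.ru.act κ 1 0 0)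
    rw [map_mul, map_mul, map_inv, hκ, hab, h.ru.act, mul_zero, mul_zero, mul_one, mul_one, hab'] at h4
    have h5 := (h.ru.inj h4).1
    rw [hκ, Units.ext h5]
  have h4 : ∀ u ∈ U, ψ u = u := by
    intro u hu
    obtain ⟨t, a, b, rfl⟩ := (h.memU u).1 hu
    exact h.ru.id_of (ψ := ψ.toMonoidHom) h2 h3 t a b
  have h5 : ∀ b ∈ P.B, ψ b = b := by
    intro b hb
    obtain ⟨u, hu, t, ht, rfl⟩ := h.od.B_eq b hb
    obtain ⟨κ, rfl⟩ := (h.memT t).1 ht
    rw [map_mul, h4 u hu, h3]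
  obtain ⟨v, hv, hv1⟩ := h.Vne
  have h6 := OD0.Sd.n0T h.od hψ
  have h7 : ψ n0 = n0 := by
    rcases h.br v with h8 | ⟨b, hb, b', hb', h8⟩
    · exact absurd (h.od.VB v hv h8) hv1
    · have h9 : v⁻¹ * ψ v = b'⁻¹ * (n0⁻¹ * ψ n0) * b' := by
        rw [h8, map_mul, map_mul, h5 b hb, h5 b' hb']; group
      have h10 : v⁻¹ * ψ v ∈ V := mul_mem (inv_mem hv) ((hψ.neg v).2 hv)
      have h11 : v⁻¹ * ψ v ∈ P.B := by
        rw [h9]
        exact mul_mem (mul_mem (inv_mem hb') h6.1) hb'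
      have h12 := h.od.VB _ h10 h11
      rw [h9] at h12
      have h13 : n0⁻¹ * ψ n0 = b' * (b'⁻¹ * (n0⁻¹ * ψ n0) * b') * b'⁻¹ := by group
      rw [h12, mul_one, mul_inv_cancel, inv_mul_eq_one] at h13
      exact h13.symm
  rcases h.br g with h8 | ⟨b, hb, b', hb', rfl⟩
  · exact h5 g h8
  · rw [map_mul, map_mul, h5 b hb, h5 b' hb', h7]

theorem uniq {θ θ' : G ≃* G} (hθ : Sd U V θ) (hθ' : Sd U V θ') {f : K → K} (h1 : ∀ t, ∃ u v, θ (R t 0 0) = R (f t) u v)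
    (h2 : ∀ t, ∃ u v, θ' (R t 0 0) = R (f t) u v) : θ = θ' := by
  have hs := OD0.Sd.symm h.od hθ'
  have h3 : Sd U V (θ.trans θ'.symm) := by
    constructor
    · intro g
      rw [MulEquiv.trans_apply, hs.pos, hθ.pos]
    · intro g
      rw [MulEquiv.trans_apply, hs.neg, hθ.neg]
  have h4 : ∀ t, ∃ u v, (θ.trans θ'.symm) (R t 0 0) = R t u v := by
    intro t
    obtain ⟨a, b, hab⟩ := h1 t
    obtain ⟨a', b', hab'⟩ := h2 t
    have h5 : θ'.symm (R (f t) a' b') = R t 0 0 := by rw [← hab', MulEquiv.symm_apply_apply]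
    rw [MulEquiv.trans_apply, hab]
    exact h.img hs h5 a b
  apply MulEquiv.ext
  intro g
  have h5 := h.rigid h3 h4 g
  rw [MulEquiv.trans_apply, MulEquiv.symm_apply_eq] at h5
  exact h5

theorem real (s : K ≃+* K) (c : Kˣ) : ∃ θ : G ≃* G, Sd U V θ ∧ ∀ t, ∃ u v, θ (R t 0 0) = R (c * s t) u v := by
  obtain ⟨θ, hθ, h1⟩ := h.fld s
  have h2 : H c ∈ P.B ⊓ P.N := (h.memT _).2 ⟨c, rfl⟩
  have h3 : Sd U V (MulAut.conj (H c)) := (h.od.conj_mem_A0).2 h2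
  refine ⟨θ.trans (MulAut.conj (H c)), ⟨fun g => ?_, fun g => ?_⟩, fun t => ?_⟩
  · rw [MulEquiv.trans_apply, h3.pos, hθ.pos]
  · rw [MulEquiv.trans_apply, h3.neg, hθ.neg]
  · obtain ⟨a, b, hab⟩ := h1 t
    rw [MulEquiv.trans_apply, hab, MulAut.conj_apply, h.ru.act]
    exact ⟨_, _, rfl⟩

theorem card_A0 [Finite K] : Nat.card (OD.A0 U V) = Nat.card (K ≃+* K) * Nat.card Kˣ := by
  have hex : ∀ θ : ↥(OD.A0 U V), ∃ x : (K ≃+* K) × Kˣ, ∀ t, ∃ u v, (θ : MulAut G) (R t 0 0) = R (x.2 * x.1 t) u v := by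
    intro θ
    obtain ⟨s, c, hsc⟩ := h.form θ.2
    exact ⟨(s, c), hsc⟩
  choose F hF using hex
  rw [← Nat.card_prod]
  refine Nat.card_congr (Equiv.ofBijective F ⟨?_, ?_⟩)
  · intro θ θ' hθ
    have h1 := hF θ'
    rw [← hθ] at h1
    exact Subtype.ext (h.uniq θ.2 θ'.2 (hF θ) h1)
  · rintro ⟨s, c⟩
    obtain ⟨θ, hθ, h1⟩ := h.real s c
    refine ⟨⟨θ, hθ⟩, ?_⟩
    have h2 : ∀ t, ((F ⟨θ, hθ⟩).2 : K) * (F ⟨θ, hθ⟩).1 t = c * s t := by
      intro t
      obtain ⟨a, b, hab⟩ := hF ⟨θ, hθ⟩ t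
      obtain ⟨a', b', hab'⟩ := h1 t
      change θ (R t 0 0) = _ at hab
      rw [hab'] at hab
      exact (h.ru.inj hab).1.symm
    have h3 : (F ⟨θ, hθ⟩).2 = c := by
      apply Units.ext
      have := h2 1
      rwa [map_one, map_one, mul_one, mul_one] at this
    have h4 : (F ⟨θ, hθ⟩).1 = s := by
      apply RingEquiv.ext
      intro t
      have := h2 t
      rw [h3] at this
      exact mul_left_cancel₀ c.ne_zero this
    exact Prod.ext h4 h3

/-- the order of the outer automorphism group -/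
theorem card_out [Finite K] : Nat.card (Cfsg.Out G) = Nat.card (K ≃+* K) := by
  have h1 := h.od.card_A0
  have h2 : Nat.card ↥(P.B ⊓ P.N) = Nat.card Kˣ := by
    symm
    refine Nat.card_congr (Equiv.ofBijective (fun κ : Kˣ => (⟨H κ, (h.memT _).2 ⟨κ, rfl⟩⟩ : ↥(P.B ⊓ P.N))) ⟨?_, ?_⟩)
    · intro κ κ' hk
      exact h.Hinj (congrArg Subtype.val hk)
    · rintro ⟨g, hg⟩
      obtain ⟨κ, rfl⟩ := (h.memT g).1 hg
      exact ⟨κ, rfl⟩
  rw [h.card_A0, h2] at h1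
  exact (Nat.eq_of_mul_eq_mul_right Nat.card_pos h1).symm

end RD
end Cfsg.Agent.H6.TO
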