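import Cfsg.Agent.H6.ToM
import Cfsg.Agent.H6.ToO
import Cfsg.Agent.H5.Ree3
import Cfsg.Agent.H15.ChevOut1

/-!
Automorphisms of the small Ree groups.
-/

set_option autoImplicit false
set_option linter.unusedSectionVars false
set_option maxHeartbeats 400000
set_option maxRecDepth 10000

namespace Cfsg.Agent.H6
open Cfsg.Lie Cfsg.Agent.H5.Ree
open scoped Matrix

theorem gmap_inj {D : ChevalleyDatum} {F : Type*} [Field F] (s : F ≃+* F) : Function.Injective (gmap D s) := by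
  intro a b h1
  apply Units.ext
  ext i j
  have h2 := congrArg (fun z : GL D.Idx F => (z : Matrix D.Idx D.Idx F) i j) h1
  exact s.injective h2

theorem gmap_US {D : ChevalleyDatum} {N : ℕ} {η : ℕ → ℕ → ℤ} {rc : ℕ → ℕ → ℤ} {F : Type*} [Field F] (hG : Good D N η rc) (s : F ≃+* F)
    {S : Set ℕ} {g : GL D.Idx F} (hg : g ∈ US (xg D F) S) : gmap D s g ∈ US (xg D F) S := by
  have h : US (xg D F) S ≤ (US (xg D F) S).comap (gmap D s) := by
    rw [US_le]
    intro r hr t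
    rw [Subgroup.mem_comap, hG.gmap_xg s]
    exact mem_US hr _
  exact h hg

namespace WG2
variable {K : Type*} [Field K] {e : ℕ}

theorem gmap_RE (s : K ≃+* K) (b : Bool) (t u v : K) : gmap chevG2 s (RE K e b t u v) = RE K e b (s t) (s u) (s v) := by
  unfold RE NF ab4
  cases b with
  | true =>
    change gmap chevG2 s (xg chevG2 K 7 _ * xg chevG2 K 6 _ * (xg chevG2 K 8 _ * xg chevG2 K 9 _ * xg chevG2 K 10 _ * xg chevG2 K 11 _)) =
      xg chevG2 K 7 _ * xg chevG2 K 6 _ * (xg chevG2 K 8 _ * xg chevG2 K 9 _ * xg chevG2 K 10 _ * xg chevG2 K 11 _)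
    simp only [map_mul, TG2.good.gmap_xg s, map_add, map_pow]
  | false =>
    change gmap chevG2 s (xg chevG2 K 4 (-_) * xg chevG2 K 5 (-_) * (xg chevG2 K 3 (-_) * xg chevG2 K 2 (-_) * xg chevG2 K 1 (-_) * xg chevG2 K 0 (-_))) =
      xg chevG2 K 4 (-_) * xg chevG2 K 5 (-_) * (xg chevG2 K 3 (-_) * xg chevG2 K 2 (-_) * xg chevG2 K 1 (-_) * xg chevG2 K 0 (-_))
    simp only [map_mul, TG2.good.gmap_xg s, map_add, map_pow, map_neg]

theorem gmap_mem (s : K ≃+* K) {g : GL chevG2.Idx K} (hg : g ∈ twistedG2 K e) : gmap chevG2 s g ∈ twistedG2 K e := by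
  have h1 : twistedG2 K e ≤ (twistedG2 K e).comap (gmap chevG2 s) := by
    apply gen_le TG2.good
    rintro w ⟨t, u, v, rfl | rfl⟩
    · rw [← RE_wg, Subgroup.mem_comap, gmap_RE]; exact RE_mem _ _ _ _
    · rw [← RE_wg', Subgroup.mem_comap, gmap_RE]; exact RE_mem _ _ _ _
  exact h1 hg

/-- the field automorphism -/
noncomputable def tau (hf : Fl K e) : K →+* K where
  toFun t := (t ^ e) ^ 3
  map_one' := by rw [one_pow, one_pow]
  map_zero' := by rw [zero_pow (e_ne hf), zero_pow three_ne_zero]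
  map_add' a b := by
    rw [← pow_mul, ← pow_mul, ← pow_mul, mul_comm e 3]
    exact hf.add3 a b
  map_mul' a b := by rw [mul_pow, mul_pow]

theorem tau_eq (hf : Fl K e) (t : K) : tau hf t = (t ^ e) ^ 3 := rfl

theorem tau_tau (hf : Fl K e) (t : K) : tau hf (tau hf t) = t ^ 3 := by
  rw [tau_eq, tau_eq]
  have h1 := hf.sq t
  rw [mul_comm 3 e, pow_mul] at h1
  calc ((((t ^ e) ^ 3) ^ e) ^ 3) = (((t ^ e) ^ e) ^ 3) ^ 3 := by
        rw [← pow_mul, ← pow_mul, ← pow_mul, ← pow_mul, ← pow_mul, ← pow_mul]; congr 1; ring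
    _ = t ^ 3 := by rw [h1]

/-- the unipotent elements -/
noncomputable def RR (K : Type*) [Field K] (e : ℕ) (t u v : K) : ↥(twistedG2 K e) := ⟨RE K e true t u v, RE_mem _ _ _ _⟩

/-- the torus parameter -/
noncomputable def kap (hf : Fl K e) (κ : Kˣ) : Kˣ := κ ^ 2 * Units.map (tau hf).toMonoidHom κ

theorem coe_kap (hf : Fl K e) (κ : Kˣ) : (kap hf κ : K) = κ ^ 2 * tau hf κ := by
  unfold kap
  rw [Units.val_mul, Units.val_pow_eq_pow_val]
  rfl

theorem tau_kap (hf : Fl K e) (κ : Kˣ) : tau hf (kap hf κ) = tau hf κ ^ 2 * κ ^ 3 := by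
  rw [coe_kap, map_mul, map_pow, tau_tau]

theorem kap_inj (hf : Fl K e) {κ κ' : Kˣ} (h : kap hf κ = kap hf κ') : κ = κ' := by
  have key : ∀ κ : Kˣ, (κ : K) = (kap hf κ : K) ^ 2 / tau hf (kap hf κ) := by
    intro κ
    have h1 : tau hf (κ : K) ≠ 0 := by
      rw [Ne, map_eq_zero]; exact κ.ne_zero
    have h2 := κ.ne_zero
    rw [tau_kap, coe_kap]
    field_simp
  apply Units.ext
  rw [key κ, key κ', h]

theorem kap_surj (hf : Fl K e) (c : Kˣ) : ∃ κ, kap hf κ = c := by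
  have h1 : tau hf (c : K) ≠ 0 := by
    rw [Ne, map_eq_zero]; exact c.ne_zero
  have h2 := c.ne_zero
  refine ⟨Units.mk0 ((c : K) ^ 2 / tau hf c) (div_ne_zero (pow_ne_zero 2 h2) h1), Units.ext ?_⟩
  rw [coe_kap, Units.val_mk0, map_div₀, map_pow, tau_tau]
  field_simp

variable [Fintype K] {m : ℕ} (hK : Fintype.card K = 3 ^ (2 * m + 1))

/-- the torus elements -/
noncomputable def HH (hf : Fl K e) (hK : Fintype.card K = 3 ^ (2 * m + 1)) (κ : Kˣ) : ↥(twistedG2 K e) := ⟨hh K e (kap hf κ), hh_mem hK hf _⟩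

variable {σ : ↥(chevG2.group K) →* ↥(chevG2.group K)} (h : Ctx K e σ) (hf : Fl K e)
include h hf hK

theorem RE_mul (t u v t' u' v' : K) : RE K e true t u v * RE K e true t' u' v' =
    RE K e true (t + t') (u + u' - tau hf t' * t) (v + v' - tau hf t' * t ^ 2 - (u - tau hf t' * t) * t') := by
  have h1 : RE K e true t u v * RE K e true t' u' v' ∈ chevG2.posUnipotent K ⊓ twistedG2 K e :=
    mul_mem ((pos_iff h hf).2 ⟨t, u, v, rfl⟩) ((pos_iff h hf).2 ⟨t', u', v', rfl⟩)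
  obtain ⟨a, b, c, habc⟩ := (pos_iff h hf).1 h1
  have h2 := habc
  unfold RE at h2
  rw [NF_mul hf.three] at h2
  obtain ⟨-, h3, -, -, h4, h5⟩ := NF_inj hf.three h2
  rw [habc, ← h3, ← h4, ← h5]
  rfl

theorem hh_RE (κ : Kˣ) (t u v : K) : hh K e (kap hf κ) * RE K e true t u v * (hh K e (kap hf κ))⁻¹ =
    RE K e true (κ * t) (κ * tau hf κ * u) (κ ^ 2 * tau hf κ * v) := by
  have h0 : hh K e (kap hf κ) * RE K e true t u v * (hh K e (kap hf κ))⁻¹ ∈ chevG2.posUnipotent K ⊓ twistedG2 K e := by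
    have h1 := (pos_iff h hf).2 ⟨t, u, v, rfl⟩
    have h2 := (diag_iff h hf hK).2 ⟨kap hf κ, rfl⟩
    exact Subgroup.mem_inf.2 ⟨h.G.diagonal_conj_pos h2.1 h1.1, mul_mem (mul_mem h2.2 h1.2) (inv_mem h2.2)⟩
  obtain ⟨a, b, c, habc⟩ := (pos_iff h hf).1 h0
  have h2 := habc
  unfold RE at h2
  rw [hh_NF] at h2
  obtain ⟨-, h3, -, -, h4, h5⟩ := NF_inj hf.three h2
  have hk : ((kap hf κ : K) ^ e) ^ 3 = tau hf κ ^ 2 * κ ^ 3 := tau_kap hf κ
  have h1 : tau hf (κ : K) ≠ 0 := by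
    rw [Ne, map_eq_zero]; exact κ.ne_zero
  have h20 := κ.ne_zero
  have e1 : ((((kap hf κ ^ e) ^ (-3 : ℤ) * kap hf κ ^ (2 : ℤ) : Kˣ)) : K) = κ := by
    rw [Units.val_mul, zpow_neg, Units.val_inv_eq_inv_val]
    have e2 : (((kap hf κ ^ e) ^ (3 : ℤ) : Kˣ) : K) = tau hf κ ^ 2 * κ ^ 3 := by
      rw [← hk, zpow_ofNat]; push_cast; rfl
    have e3 : (((kap hf κ) ^ (2 : ℤ) : Kˣ) : K) = (κ ^ 2 * tau hf κ) ^ 2 := by
      rw [← coe_kap, zpow_ofNat]; push_cast; rfl
    rw [e2, e3]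
    field_simp
  have e4 : ((((kap hf κ ^ e) ^ (3 : ℤ) * kap hf κ ^ (-1 : ℤ) : Kˣ)) : K) = κ * tau hf κ := by
    rw [Units.val_mul, zpow_neg, Units.val_inv_eq_inv_val, zpow_one]
    have e2 : (((kap hf κ ^ e) ^ (3 : ℤ) : Kˣ) : K) = tau hf κ ^ 2 * κ ^ 3 := by
      rw [← hk, zpow_ofNat]; push_cast; rfl
    rw [e2, coe_kap]
    field_simp
  have e5 : ((((kap hf κ ^ e) ^ (0 : ℤ) * kap hf κ ^ (1 : ℤ) : Kˣ)) : K) = κ ^ 2 * tau hf κ := by
    rw [zpow_zero, one_mul, zpow_one, coe_kap]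
  rw [e1] at h3
  rw [e4] at h4
  rw [e5] at h5
  rw [habc, ← h3, ← h4, ← h5]

theorem ru (hm : 1 ≤ m) : TO.RU (tau hf) (RR K e) (HH hf hK) where
  three := hf.three
  ττ := tau_tau hf
  ne := by
    by_contra hc
    push Not at hc
    have h3 : ∀ t : K, t ^ 3 = t := fun t => by rw [← tau_tau hf, hc, hc]
    have h4 : Fintype.card K ≤ 3 := by
      classical
      have h5 : (Polynomial.X ^ 3 - Polynomial.X : Polynomial K) ≠ 0 := by
        intro h6
        have h7 := congrArg (fun p => Polynomial.coeff p 3) h6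
        simp [Polynomial.coeff_X] at h7
      have h6 : (Finset.univ : Finset K).card ≤ (Polynomial.X ^ 3 - Polynomial.X : Polynomial K).roots.toFinset.card := by
        apply Finset.card_le_card
        intro x _
        rw [Multiset.mem_toFinset, Polynomial.mem_roots h5]
        simp [Polynomial.IsRoot, h3]
      refine h6.trans ((Multiset.toFinset_card_le _).trans ((Polynomial.card_roots' _).trans ?_))
      refine (Polynomial.natDegree_sub_le _ _).trans ?_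
      simp
    rw [hK] at h4
    have h5 : 3 ^ 3 ≤ 3 ^ (2 * m + 1) := Nat.pow_le_pow_right (by norm_num) (by omega)
    omega
  inj := fun h1 => RE_inj hf (congrArg Subtype.val h1)
  mul := fun t u v t' u' v' => Subtype.ext (RE_mul hK h hf t u v t' u' v')
  act := fun κ t u v => Subtype.ext (hh_RE hK h hf κ t u v)
  cube0 := fun u v => Subtype.ext (RE_cube_zero hf u v)
  cube := fun t u v ht h1 => RE_cube_ne hf ht (congrArg Subtype.val h1)

theorem exists_rd (hm : 1 ≤ m) : ∃ n0, TO.RD (grp h hf).bnPair₁ ((chevG2.posUnipotent K).subgroupOf (twistedG2 K e))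
    ((chevG2.negUnipotent K).subgroupOf (twistedG2 K e)) n0 (tau hf) (RR K e) (HH hf hK) := by
  have hT := grp h hf
  have hru := ru hK h hf hm
  obtain ⟨n0, hod, -⟩ := hT.exists_OD0
  refine ⟨n0, ?_⟩
  have hmU : ∀ g : ↥(twistedG2 K e), g ∈ (chevG2.posUnipotent K).subgroupOf (twistedG2 K e) ↔ ∃ t u v, g = RR K e t u v := by
    intro g
    rw [Subgroup.mem_subgroupOf]
    constructor
    · intro hg
      obtain ⟨t, u, v, h1⟩ := (pos_iff h hf).1 (Subgroup.mem_inf.2 ⟨hg, g.2⟩)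
      exact ⟨t, u, v, Subtype.ext h1⟩
    · rintro ⟨t, u, v, rfl⟩
      exact ((pos_iff h hf).2 ⟨t, u, v, rfl⟩).1
  refine
    { od := hod
      ru := hru
      memU := hmU
      memT := ?_
      Hinj := ?_
      br := ?_
      Vne := ?_
      fld := ?_ }
  · intro g
    rw [hT.mem_T]
    constructor
    · intro hg
      obtain ⟨x, hx⟩ := (diag_iff h hf hK).1 (Subgroup.mem_inf.2 ⟨hg, g.2⟩)
      obtain ⟨κ, rfl⟩ := kap_surj hf x
      exact ⟨κ, Subtype.ext hx⟩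
    · rintro ⟨κ, rfl⟩
      exact ((diag_iff h hf hK).2 ⟨_, rfl⟩).1
  · intro κ κ' h1
    exact kap_inj hf (hh_inj (congrArg Subtype.val h1))
  · intro g
    have hr := rk1 h hf
    set nJ : ↥(twistedG2 K e) := ⟨(grp h hf).nJ 0, ((grp h hf).nJ_mem 0).2⟩ with hnJ
    have h1 : n0⁻¹ * nJ ∈ (grp h hf).bnPair₁.B := by
      apply hod.opp
      · exact (grp h hf).nJ_mem 0
      · intro u hu hu'
        exact hr.nU u ⟨hu, u.2⟩ ⟨Subgroup.mem_sup_left hu', (nJ * u * nJ⁻¹).2⟩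
    rcases hr.br g with h2 | ⟨u, hu, t, ht, u', hu', h2⟩
    · exact Or.inl h2
    · right
      refine ⟨u * t, mul_mem (hr.UB hu) (hr.HB ht), n0⁻¹ * nJ * u', mul_mem h1 (hr.UB hu'), ?_⟩
      rw [h2]; group
  · refine ⟨n0 * RR K e 1 0 0 * n0⁻¹, hod.n0_conj_V ((hmU _).2 ⟨1, 0, 0, rfl⟩), ?_⟩
    intro h1
    rw [mul_inv_eq_one] at h1
    have h2 : RR K e 1 0 0 = 1 := mul_left_cancel (h1.trans (mul_one n0).symm)
    apply hru.cube 1 0 0 one_ne_zero
    rw [h2, one_pow]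
  · intro s
    let θ₀ : ↥(twistedG2 K e) →* ↥(twistedG2 K e) := ((gmap chevG2 s).comp (twistedG2 K e).subtype).codRestrict (twistedG2 K e) fun g => gmap_mem s g.2
    have hθ₀ : Function.Injective θ₀ := by
      intro a b hab
      have h0 : gmap chevG2 s (a : GL chevG2.Idx K) = gmap chevG2 s (b : GL chevG2.Idx K) := congrArg Subtype.val hab
      exact Subtype.ext (gmap_inj s h0)
    have hfin : Finite ↥(twistedG2 K e) := inferInstance
    let θ : ↥(twistedG2 K e) ≃* ↥(twistedG2 K e) := MulEquiv.ofBijective θ₀ (Finite.injective_iff_bijective.1 hθ₀)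
    have hθ : ∀ g : ↥(twistedG2 K e), ((θ g : ↥(twistedG2 K e)) : GL chevG2.Idx K) = gmap chevG2 s g := fun g => rfl
    refine ⟨θ, ⟨iff_of_map_le θ _ ?_, iff_of_map_le θ _ ?_⟩, ?_⟩
    · intro g hg
      rw [Subgroup.mem_subgroupOf] at hg ⊢
      rw [hθ, h.G.posUnipotent_eq_US]
      rw [h.G.posUnipotent_eq_US] at hg
      exact gmap_US h.G s hg
    · intro g hg
      rw [Subgroup.mem_subgroupOf] at hg ⊢
      rw [hθ, h.G.negUnipotent_eq_US]
      rw [h.G.negUnipotent_eq_US] at hg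
      exact gmap_US h.G s hg
    · intro t
      refine ⟨s 0, s 0, Subtype.ext ?_⟩
      rw [hθ]
      exact gmap_RE s true t 0 0

end WG2

theorem card_out_ree {K : Type*} [Field K] [Fintype K] {m : ℕ} (hm : 1 ≤ m) (hK : Fintype.card K = 3 ^ (2 * m + 1)) :
    Nat.card (Cfsg.Out ↥(Cfsg.Lie.twistedG2 K (3 ^ m))) = 2 * m + 1 := by
  have hf := WG2.fl_of_card hK
  obtain ⟨σ, h⟩ := WG2.exists_ctx hK
  obtain ⟨n0, hrd⟩ := WG2.exists_rd hK h hf hm
  haveI : Fact (Nat.Prime 3) := ⟨Nat.prime_three⟩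
  haveI : CharP K 3 := charP_of_card Nat.prime_three (Nat.succ_ne_zero _) hK
  rw [hrd.card_out, Cfsg.Agent.H15.Chev.card_ringAut 3 (2 * m + 1) hK]

end Cfsg.Agent.H6
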