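import Cfsg.Agent.H6.ToL

/-!
Standard automorphisms of a finite group with a (B,N)-pair: the action on the rank one subgroups.
-/

set_option autoImplicit false
set_option linter.unusedSectionVars false
set_option maxHeartbeats 400000

namespace Cfsg.Agent.H6.TO
open Cfsg Cfsg.Agent.H6.BN

/-- the data -/
structure OD1 {G : Type*} [Group G] {ι : Type*} (P : BNPair G) (U V : Subgroup G) (n0 : G) (s : ι → G) (X Y : ι → Subgroup G) : Prop where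
  od : OD0 P U V n0
  S_eq : P.S = Set.range s
  X_le : ∀ j, X j ≤ U
  Y_le : ∀ j, Y j ≤ V
  sX : ∀ j x, x ∈ X j ↔ s j * x * (s j)⁻¹ ∈ Y j
  sB : ∀ j, ∀ b ∈ P.B, ∃ b' ∈ P.B, ∃ x ∈ X j, s j * b = b' * s j * x
  n0Y : ∀ j g, g ∈ X j ↔ n0⁻¹ * g * n0 ∈ Y j
  TX : ∀ h ∈ P.B ⊓ P.N, ∀ j, ∀ x ∈ X j, h * x * h⁻¹ ∈ X j
  card : ∀ i j, Nat.card (X i) = Nat.card (X j) → i = j

namespace OD1
variable {G : Type*} [Group G] {ι : Type*} {P : BNPair G} {U V : Subgroup G} {n0 : G} {s : ι → G} {X Y : ι → Subgroup G}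
  (h : OD1 P U V n0 s X Y)
include h

theorem sN (j : ι) : s j ∈ P.N := P.subset (by rw [h.S_eq]; exact ⟨j, rfl⟩)
theorem sS (j : ι) : s j ∈ P.S := by rw [h.S_eq]; exact ⟨j, rfl⟩
theorem sNB (j : ι) : s j ∉ P.B := sm_not_mem_B P ⟨s j, h.sS j⟩
theorem sq (j : ι) : s j * s j ∈ P.B := P.sq_mem _ (h.sS j)

theorem mem_P1 {j : ι} {g : G} (hg : g ∈ P.parabolic {s j}) : g ∈ P.B ∨ ∃ b ∈ P.B, ∃ x ∈ X j, g = b * s j * x := by
  have hJ : {s j} ⊆ P.S := by rw [Set.singleton_subset_iff]; exact h.sS j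
  rw [mem_parabolic_iff' P hJ] at hg
  obtain ⟨n, hn, hgn⟩ := hg
  rw [DoubleCoset.mem_doubleCoset] at hgn
  obtain ⟨b, hb, b', hb', rfl⟩ := hgn
  rw [Subgroup.mem_closure_singleton] at hn
  obtain ⟨z, rfl⟩ := hn
  have h1 : ∀ m : ℤ, (s j * s j) ^ m ∈ P.B := fun m => zpow_mem (h.sq j) m
  rcases Int.even_or_odd' z with ⟨m, hm | hm⟩
  · left
    have e : s j ^ z = (s j * s j) ^ m := by rw [hm, zpow_mul, zpow_two]
    rw [e]
    exact mul_mem (mul_mem hb (h1 m)) hb'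
  · right
    have e : s j ^ z = s j * (s j * s j) ^ m := by rw [hm, add_comm, zpow_add, zpow_mul, zpow_two, zpow_one]
    obtain ⟨c, hc, t, htX, ht⟩ := h.sB j ((s j * s j) ^ m * b') (mul_mem (h1 m) hb')
    refine ⟨b * c, mul_mem hb hc, t, htX, ?_⟩
    rw [e]
    calc b * (s j * (s j * s j) ^ m) * b' = b * (s j * ((s j * s j) ^ m * b')) := by group
      _ = _ := by rw [ht]; group

theorem B_le_P1 (j : ι) : P.B ≤ P.parabolic {s j} := B_le_parabolic P _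
theorem s_mem_P1 (j : ι) : s j ∈ P.parabolic {s j} := subset_parabolic P _ rfl

theorem Y_le_P1 (j : ι) : Y j ≤ P.parabolic {s j} := by
  intro y hy
  have h1 : (s j)⁻¹ * y * s j ∈ X j := by
    rw [h.sX]
    have e : s j * ((s j)⁻¹ * y * s j) * (s j)⁻¹ = y := by group
    rwa [e]
  have h2 := h.B_le_P1 j (h.od.U_le (h.X_le j h1))
  have h3 := mul_mem (mul_mem (h.s_mem_P1 j) h2) (inv_mem (h.s_mem_P1 j))
  have e : s j * ((s j)⁻¹ * y * s j) * (s j)⁻¹ = y := by group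
  rwa [e] at h3

/-- elements of `V` in a minimal parabolic -/
theorem V_P1_form {j : ι} {v : G} (hv : v ∈ V) (hv1 : v ≠ 1) (hP : v ∈ P.parabolic {s j}) : ∃ b ∈ P.B, ∃ x ∈ X j, x ≠ 1 ∧ v = b * s j * x := by
  rcases h.mem_P1 hP with hB | ⟨b, hb, t, htX, e⟩
  · exact absurd (h.od.VB v hv hB) hv1
  · refine ⟨b, hb, t, htX, ?_, e⟩
    rintro rfl
    rw [mul_one] at e
    have h1 : n0⁻¹ * v * n0 ∈ P.B := h.od.U_le ((h.od.n0U v).1 hv)
    have h2 : pr P (⟨s j, h.sN j⟩ * ⟨n0, h.od.n0_mem⟩) = pr P ⟨n0, h.od.n0_mem⟩ := by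
      apply C_unique P (g := s j * n0) (mem_C_pr P (⟨s j, h.sN j⟩ * ⟨n0, h.od.n0_mem⟩))
      refine ⟨⟨n0, h.od.n0_mem⟩, rfl, b⁻¹, inv_mem hb, n0⁻¹ * v * n0, h1, ?_⟩
      change s j * n0 = b⁻¹ * n0 * (n0⁻¹ * v * n0)
      rw [e]; group
    rw [map_mul, mul_eq_right, pr_eq_one_iff] at h2
    exact h.sNB j h2

theorem card_XY (j : ι) : Nat.card (X j) = Nat.card (Y j) := by
  refine Nat.card_congr ⟨fun x => ⟨s j * x * (s j)⁻¹, (h.sX j x).1 x.2⟩, fun y => ⟨(s j)⁻¹ * y * s j, ?_⟩, ?_, ?_⟩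
  · rw [h.sX]
    have e : s j * ((s j)⁻¹ * (y : G) * s j) * (s j)⁻¹ = y := by group
    rw [e]; exact y.2
  · intro x
    apply Subtype.ext
    change (s j)⁻¹ * (s j * (x : G) * (s j)⁻¹) * s j = x
    group
  · intro x
    apply Subtype.ext
    change s j * ((s j)⁻¹ * (x : G) * s j) * (s j)⁻¹ = x
    group

/-- `V ∩ P_j = Y_j` -/
theorem V_inf_P1 [Finite G] (j : ι) : V ⊓ P.parabolic {s j} = Y j := by
  classical
  symm
  apply Subgroup.eq_of_le_of_card_ge (le_inf (h.Y_le j) (h.Y_le_P1 j))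
  rw [← h.card_XY]
  have hex : ∀ v : ↥(V ⊓ P.parabolic {s j}), ∃ x : X j, ((v : G) = 1 → x = 1) ∧ ((v : G) ≠ 1 → (x : G) ≠ 1 ∧ ∃ b ∈ P.B, (v : G) = b * s j * x) := by
    intro v
    by_cases hv : (v : G) = 1
    · exact ⟨1, fun _ => rfl, fun h1 => absurd hv h1⟩
    · obtain ⟨b, hb, x, hx, hx1, e⟩ := h.V_P1_form v.2.1 hv v.2.2
      exact ⟨⟨x, hx⟩, fun h1 => absurd h1 hv, fun _ => ⟨hx1, b, hb, e⟩⟩
  choose F hF1 hF2 using hex
  apply Nat.card_le_card_of_injective F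
  intro v v' hvv
  by_cases hv : (v : G) = 1
  · by_cases hv' : (v' : G) = 1
    · exact Subtype.ext (hv.trans hv'.symm)
    · exfalso
      apply (hF2 v' hv').1
      rw [← hvv, hF1 v hv]; rfl
  · by_cases hv' : (v' : G) = 1
    · exfalso
      apply (hF2 v hv).1
      rw [hvv, hF1 v' hv']; rfl
    · obtain ⟨-, b, hb, e⟩ := hF2 v hv
      obtain ⟨-, b', hb', e'⟩ := hF2 v' hv'
      have h1 : (v : G) * (v' : G)⁻¹ ∈ P.B := by
        rw [e, e', hvv]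
        have e2 : b * s j * (F v' : G) * (b' * s j * (F v' : G))⁻¹ = b * b'⁻¹ := by group
        rw [e2]
        exact mul_mem hb (inv_mem hb')
      have h2 := h.od.VB _ (mul_mem v.2.1 (inv_mem v'.2.1)) h1
      rw [mul_inv_eq_one] at h2
      exact Subtype.ext h2

theorem exists_pi {θ : G ≃* G} (hθ : Sd U V θ) (j : ι) : ∃ i, ∀ g, g ∈ P.parabolic {s j} ↔ θ g ∈ P.parabolic {s i} := by
  let M : Subgroup G := (P.parabolic {s j}).comap θ.symm.toMonoidHom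
  have hMm : ∀ g, g ∈ M ↔ θ.symm g ∈ P.parabolic {s j} := fun g => Iff.rfl
  have hθs : Sd U V θ.symm := OD0.Sd.symm h.od hθ
  have hBM : P.B ≤ M := fun b hb => (hMm b).2 (h.B_le_P1 j ((OD0.Sd.B h.od hθs b).2 hb))
  have h1 := eq_parabolic P M hBM
  have h2 : ∃ i, s i ∈ M := by
    by_contra hc
    push Not at hc
    have h3 : P.S ∩ (M : Set G) = ∅ := by
      rw [Set.eq_empty_iff_forall_notMem]
      rintro x ⟨hx, hxM⟩
      rw [h.S_eq] at hx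
      obtain ⟨i, rfl⟩ := hx
      exact hc i hxM
    have h4 : P.parabolic ∅ = P.B := by
      unfold BNPair.parabolic
      rw [Subgroup.closure_empty, sup_bot_eq]
    rw [h3, h4] at h1
    have h5 : θ (s j) ∈ M := by rw [hMm, MulEquiv.symm_apply_apply]; exact h.s_mem_P1 j
    rw [h1, OD0.Sd.B h.od hθ] at h5
    exact h.sNB j h5
  obtain ⟨i, hi⟩ := h2
  have h3 : P.parabolic {s i} ≤ M := by
    unfold BNPair.parabolic
    refine sup_le hBM ?_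
    rw [Subgroup.closure_le, Set.singleton_subset_iff]
    exact hi
  let M' : Subgroup G := (P.parabolic {s i}).comap θ.toMonoidHom
  have hMm' : ∀ g, g ∈ M' ↔ θ g ∈ P.parabolic {s i} := fun g => Iff.rfl
  have hBM' : P.B ≤ M' := fun b hb => (hMm' b).2 (h.B_le_P1 i ((OD0.Sd.B h.od hθ b).2 hb))
  have h4 : s j ∈ M' := by
    have h5 : θ.symm (s i) ∈ P.parabolic {s j} := hi
    have h6 : θ.symm (s i) ∉ P.B := by rw [OD0.Sd.B h.od hθs]; exact h.sNB i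
    rcases h.mem_P1 h5 with h7 | ⟨b, hb, t, htX, e⟩
    · exact absurd h7 h6
    · have h8 : θ.symm (s i) ∈ M' := by
        rw [hMm', MulEquiv.apply_symm_apply]; exact h.s_mem_P1 i
      have e2 : s j = b⁻¹ * θ.symm (s i) * t⁻¹ := by rw [e]; group
      rw [e2]
      exact mul_mem (mul_mem (inv_mem (hBM' hb)) h8) (inv_mem (hBM' (h.od.U_le (h.X_le j htX))))
  have h5 : P.parabolic {s j} ≤ M' := by
    have : P.parabolic {s j} = P.B ⊔ Subgroup.closure {s j} := rfl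
    rw [this]
    refine sup_le hBM' ?_
    rw [Subgroup.closure_le, Set.singleton_subset_iff]
    exact h4
  refine ⟨i, fun g => ⟨fun hg => h5 hg, fun hg => ?_⟩⟩
  have := h3 hg
  rwa [hMm, MulEquiv.symm_apply_apply] at this

theorem mapY [Finite G] {θ : G ≃* G} (hθ : Sd U V θ) (j : ι) (g : G) : θ g ∈ Y j ↔ g ∈ Y j := by
  obtain ⟨i, hi⟩ := h.exists_pi hθ j
  have h1 : ∀ g, θ g ∈ Y i ↔ g ∈ Y j := by
    intro g
    rw [← h.V_inf_P1 i, ← h.V_inf_P1 j, Subgroup.mem_inf, Subgroup.mem_inf, hθ.neg, ← hi]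
  have h2 : Nat.card (Y j) = Nat.card (Y i) := by
    refine Nat.card_congr ⟨fun y => ⟨θ y, (h1 y).2 y.2⟩, fun y => ⟨θ.symm y, (h1 _).1 (by rw [MulEquiv.apply_symm_apply]; exact y.2)⟩, ?_, ?_⟩
    · intro y
      exact Subtype.ext (θ.symm_apply_apply _)
    · intro y
      exact Subtype.ext (θ.apply_symm_apply _)
  have h3 : j = i := by
    apply h.card
    rw [h.card_XY, h.card_XY, h2]
  rw [← h3] at h1
  exact h1 g

theorem TN {t n : G} (hn : n ∈ P.N) (ht : t ∈ P.B ⊓ P.N) : n * t * n⁻¹ ∈ P.B ⊓ P.N :=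
  ⟨P.conj_mem n hn t ht, P.N.mul_mem (P.N.mul_mem hn ht.2) (P.N.inv_mem hn)⟩

theorem TY {c : G} (hc : c ∈ P.B ⊓ P.N) (j : ι) {y : G} (hy : y ∈ Y j) : c * y * c⁻¹ ∈ Y j := by
  have h1 : (s j)⁻¹ * y * s j ∈ X j := by
    rw [h.sX]
    have e : s j * ((s j)⁻¹ * y * s j) * (s j)⁻¹ = y := by group
    rwa [e]
  have h2 : (s j)⁻¹ * c * s j ∈ P.B ⊓ P.N := by
    have := h.TN (inv_mem (h.sN j)) hc
    rwa [inv_inv] at this
  have h3 := h.TX _ h2 j _ h1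
  rw [h.sX] at h3
  have e : s j * ((s j)⁻¹ * c * s j * ((s j)⁻¹ * y * s j) * ((s j)⁻¹ * c * s j)⁻¹) * (s j)⁻¹ = c * y * c⁻¹ := by group
  rwa [e] at h3

theorem mapX' [Finite G] {θ : G ≃* G} (hθ : Sd U V θ) (j : ι) {g : G} (hg : g ∈ X j) : θ g ∈ X j := by
  rw [h.n0Y] at hg ⊢
  have h1 := h.TY (OD0.Sd.n0T h.od hθ) j ((h.mapY hθ j _).2 hg)
  have e : n0⁻¹ * θ n0 * θ (n0⁻¹ * g * n0) * (n0⁻¹ * θ n0)⁻¹ = n0⁻¹ * θ g * n0 := by
    rw [map_mul, map_mul, map_inv]; group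
  rwa [e] at h1

theorem mapX [Finite G] {θ : G ≃* G} (hθ : Sd U V θ) (j : ι) (g : G) : θ g ∈ X j ↔ g ∈ X j := by
  refine ⟨fun hg => ?_, h.mapX' hθ j⟩
  have := h.mapX' (OD0.Sd.symm h.od hθ) j hg
  rwa [MulEquiv.symm_apply_apply] at this

/-- an element of `Y` normalising `X` is trivial -/
theorem norm_one {j : ι} {d : G} (hd : d ∈ Y j) (hn : ∀ x ∈ X j, d * x * d⁻¹ ∈ X j) : d = 1 := by
  by_contra hd1
  obtain ⟨b, hb, x, hx, -, e⟩ := h.V_P1_form (h.Y_le j hd) hd1 (h.Y_le_P1 j hd)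
  have h1 : (s j)⁻¹ * d * s j ∈ X j := by
    rw [h.sX]
    have e : s j * ((s j)⁻¹ * d * s j) * (s j)⁻¹ = d := by group
    rwa [e]
  have h2 := hn _ (mul_mem (mul_mem (inv_mem hx) h1) hx)
  have e2 : d * (x⁻¹ * ((s j)⁻¹ * d * s j) * x) * d⁻¹ = b * d * b⁻¹ := by
    conv_lhs =>
      rw [show d * (x⁻¹ * ((s j)⁻¹ * d * s j) * x) * d⁻¹ = d * x⁻¹ * (s j)⁻¹ * d * (d * x⁻¹ * (s j)⁻¹)⁻¹ by group]
    have e3 : d * x⁻¹ * (s j)⁻¹ = b := by
      conv_lhs => rw [e]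
      group
    rw [e3]
  rw [e2] at h2
  have h3 := h.od.U_le (h.X_le j h2)
  have h4 : d ∈ P.B := by
    have := mul_mem (mul_mem (inv_mem hb) h3) hb
    have e3 : b⁻¹ * (b * d * b⁻¹) * b = d := by group
    rwa [e3] at this
  exact hd1 (h.od.VB d (h.Y_le j hd) h4)

/-- fixing an element of `Y` -/
theorem fixn [Finite G] {ψ : G ≃* G} (hψ : Sd U V ψ) {j : ι} {x y x' : G} (hx : ψ x = x) (hx' : ψ x' = x') (hxX' : x' ∈ X j) (hy : y ∈ Y j)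
    (hn : ∀ g, g ∈ X j ↔ (x * y * x') * g * (x * y * x')⁻¹ ∈ Y j) : ψ y = y := by
  have h1 : ∀ g ∈ X j, ψ (x * y * x') * g * (ψ (x * y * x'))⁻¹ ∈ Y j := by
    intro g hg
    obtain ⟨g', rfl⟩ := ψ.surjective g
    rw [← map_inv, ← map_mul, ← map_mul, h.mapY hψ, ← hn, ← h.mapX hψ]
    exact hg
  have h2 : y⁻¹ * ψ y = 1 := by
    apply h.norm_one (mul_mem (inv_mem hy) ((h.mapY hψ j y).2 hy))
    intro g hg
    have h3 := h1 _ (mul_mem (mul_mem (inv_mem hxX') hg) hxX')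
    rw [map_mul, map_mul, hx, hx'] at h3
    have e : x * ψ y * x' * (x'⁻¹ * g * x') * (x * ψ y * x')⁻¹ = (x * y * x') * (x'⁻¹ * (y⁻¹ * ψ y * g * (y⁻¹ * ψ y)⁻¹) * x') * (x * y * x')⁻¹ := by group
    rw [e, ← hn] at h3
    have h4 := mul_mem (mul_mem hxX' h3) (inv_mem hxX')
    have e2 : x' * (x'⁻¹ * (y⁻¹ * ψ y * g * (y⁻¹ * ψ y)⁻¹) * x') * x'⁻¹ = y⁻¹ * ψ y * g * (y⁻¹ * ψ y)⁻¹ := by group
    rwa [e2] at h4
  exact (inv_mul_eq_one.1 h2).symm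

end OD1
end Cfsg.Agent.H6.TO
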