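import Cfsg.Agent.H6.ToQ

/-!
Counting the standard automorphisms of a large Ree group.
-/

set_option autoImplicit false
set_option linter.unusedSectionVars false
set_option maxHeartbeats 400000

namespace Cfsg.Agent.H6.TO
open Cfsg Cfsg.Agent.H6.BN

/-- the data of a large Ree group -/
structure FD {G : Type*} [Group G] (P : BNPair G) (U V : Subgroup G) (n0 : G) (s : Fin 2 → G) (X Y : Fin 2 → Subgroup G)
    {K : Type*} [Field K] (φ : K →+* K) (X0 Y0 : K → G) (S : K → K → G) (H : Kˣ → Kˣ → G) : Prop where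
  o1 : OD1 P U V n0 s X Y
  r1 : R1 X0 Y0
  memX0 : ∀ g, g ∈ X 0 ↔ ∃ t, g = X0 t
  memY0 : ∀ g, g ∈ Y 0 ↔ ∃ t, g = Y0 t
  memX1 : ∀ g, g ∈ X 1 ↔ ∃ t u, g = S t u
  memT : ∀ g, g ∈ P.B ⊓ P.N ↔ ∃ a b, g = H a b
  Hinj : ∀ {a b a' b'}, H a b = H a' b' → a = a' ∧ b = b'
  act0 : ∀ a b t, H a b * X0 t * (H a b)⁻¹ = X0 (a * t)
  act1 : ∀ a b t u, H a b * S t u * (H a b)⁻¹ = S (b * t) (b * φ b * u)
  two : (2 : K) = 0
  φφ : ∀ t, φ (φ t) ^ 2 = t
  ne : ∃ t, φ t ≠ t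
  Sinj : ∀ {t u t' u'}, S t u = S t' u' → t = t' ∧ u = u'
  Smul : ∀ t u t' u', S t u * S t' u' = S (t + t') (u + u' + φ t * t')
  cross : ∀ t : Kˣ, ∃ a, nn X0 Y0 (t : K) * (nn X0 Y0 1)⁻¹ = H a t⁻¹
  y1 : ∃ x ∈ X 1, ∃ y ∈ Y 1, ∃ x' ∈ X 1, ∀ g, g ∈ X 1 ↔ (x * y * x') * g * (x * y * x')⁻¹ ∈ Y 1
  gen : ∀ M : Subgroup G, (∀ j, X j ≤ M) → (∀ j, Y j ≤ M) → M = ⊤
  fld : ∀ σ : K ≃+* K, ∃ θ : G ≃* G, Sd U V θ ∧ (∀ t, θ (X0 t) = X0 (σ t)) ∧ ∀ t, ∃ u, θ (S t 0) = S (σ t) u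

namespace FD
variable {G : Type*} [Group G] {P : BNPair G} {U V : Subgroup G} {n0 : G} {s : Fin 2 → G} {X Y : Fin 2 → Subgroup G}
    {K : Type*} [Field K] {φ : K →+* K} {X0 Y0 : K → G} {S : K → K → G} {H : Kˣ → Kˣ → G} (h : FD P U V n0 s X Y φ X0 Y0 S H)
include h

theorem dbl (a : K) : a + a = 0 := by linear_combination a * h.two
theorem neg_eq (a : K) : -a = a := by linear_combination -a * h.two

theorem S00 : S 0 0 = 1 := by
  have h1 := h.Smul 0 0 0 0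
  rw [mul_zero, add_zero, add_zero] at h1
  exact left_eq_mul.1 h1.symm

theorem Ssq0 (u : K) : S 0 u * S 0 u = 1 := by
  rw [h.Smul, add_zero, mul_zero, add_zero, h.dbl, h.S00]

theorem Ssq (t u : K) (ht : t ≠ 0) : S t u * S t u ≠ 1 := by
  rw [h.Smul, h.dbl, h.dbl, zero_add, ← h.S00]
  intro h1
  have h2 := (h.Sinj h1).2
  rcases mul_eq_zero.1 h2 with h3 | h3
  · exact ht ((map_eq_zero φ).1 h3)
  · exact ht h3

theorem Smul0 (t u u' : K) : S t u * S 0 u' = S t (u + u') := by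
  rw [h.Smul, add_zero, mul_zero, add_zero]

theorem S_mem (t u : K) : S t u ∈ X 1 := (h.memX1 _).2 ⟨t, u, rfl⟩
theorem X0_mem (t : K) : X0 t ∈ X 0 := (h.memX0 _).2 ⟨t, rfl⟩
theorem Y0_mem (t : K) : Y0 t ∈ Y 0 := (h.memY0 _).2 ⟨t, rfl⟩

theorem ker_img [Finite G] {θ : G ≃* G} (hθ : Sd U V θ) (u : K) : ∃ u', θ (S 0 u) = S 0 u' := by
  obtain ⟨t, a, hab⟩ := (h.memX1 _).1 ((h.o1.mapX hθ 1 _).2 (h.S_mem 0 u))
  have ht : t = 0 := by
    by_contra ht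
    apply h.Ssq t a ht
    rw [← hab, ← map_mul, h.Ssq0, map_one]
  rw [ht] at hab
  exact ⟨a, hab⟩

theorem img [Finite G] {θ : G ≃* G} (hθ : Sd U V θ) {t t' u u' : K} (h0 : θ (S t u) = S t' u') (a : K) : ∃ a', θ (S t a) = S t' a' := by
  obtain ⟨x, hxy⟩ := h.ker_img hθ (a - u)
  have h1 : S t a = S t u * S 0 (a - u) := by rw [h.Smul0, add_sub_cancel]
  rw [h1, map_mul, h0, hxy, h.Smul0]
  exact ⟨_, rfl⟩

theorem T_img {θ : G ≃* G} (hθ : Sd U V θ) (a b : Kˣ) : ∃ a' b', θ (H a b) = H a' b' := by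
  have h1 : H a b ∈ P.B ⊓ P.N := (h.memT _).2 ⟨a, b, rfl⟩
  apply (h.memT _).1
  apply h.o1.od.mem_T_of_norm
  · rw [OD0.Sd.B h.o1.od hθ]
    exact h1.1
  · intro v hv
    obtain ⟨w, rfl⟩ := θ.surjective v
    rw [← map_inv, ← map_mul, ← map_mul, hθ.neg]
    exact h.o1.od.T_norm h1 ((hθ.neg w).1 hv)
  · intro v hv
    obtain ⟨w, rfl⟩ := θ.surjective v
    rw [← map_inv, ← map_mul, ← map_mul, hθ.neg]
    have h2 := h.o1.od.T_norm (inv_mem h1) ((hθ.neg w).1 hv)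
    rwa [inv_inv] at h2

/-- the form of a standard automorphism -/
theorem form [Finite G] [Finite K] {θ : G ≃* G} (hθ : Sd U V θ) : ∃ (σ : K ≃+* K) (c d : Kˣ), (∀ t, θ (X0 t) = X0 (c * σ t)) ∧
    ∀ t, ∃ u, θ (S t 0) = S (d * σ t) u := by
  have hf0 : ∀ t, ∃ t', θ (X0 t) = X0 t' := fun t => (h.memX0 _).1 ((h.o1.mapX hθ 0 _).2 (h.X0_mem t))
  have hg0 : ∀ t, ∃ t', θ (Y0 t) = Y0 t' := fun t => (h.memY0 _).1 ((h.o1.mapY hθ 0 _).2 (h.Y0_mem t))
  have hk0 : ∀ t, ∃ t' u, θ (S t 0) = S t' u := fun t => (h.memX1 _).1 ((h.o1.mapX hθ 1 _).2 (h.S_mem t 0))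
  choose f hf using hf0
  choose g hg using hg0
  choose k l hk using hk0
  obtain ⟨τ, c, hc, h1, h2⟩ := h.r1.form (θ := θ.toMonoidHom) θ.injective (f := f) (g := g) hf hg
  have hk1 : k 1 ≠ 0 := by
    intro h3
    have h4 := hk 1
    rw [h3] at h4
    apply h.Ssq 1 0 one_ne_zero
    apply θ.injective
    rw [map_mul, h4, h.Ssq0, map_one]
  have hkz : k 0 = 0 := by
    have h3 := hk 0
    rw [h.S00, map_one, ← h.S00] at h3
    exact (h.Sinj h3).1.symm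
  have hθn : ∀ t, t ≠ 0 → θ (nn X0 Y0 t) = nn X0 Y0 (c * τ t) := by
    intro t ht
    unfold nn
    rw [map_mul, map_mul, hf, hg, h1, h2]
    congr 3
    rw [map_neg, map_inv₀, mul_inv, mul_neg]
  have key : ∀ t : Kˣ, k (t⁻¹ : Kˣ) = (τ t)⁻¹ * k 1 := by
    intro t
    obtain ⟨a, ha⟩ := h.cross t
    obtain ⟨a', b', hab⟩ := h.T_img hθ a t⁻¹
    have hu : c * τ t ≠ 0 := mul_ne_zero hc (by rw [Ne, map_eq_zero_iff _ τ.injective]; exact t.ne_zero)
    obtain ⟨a1, ha1⟩ := h.cross (Units.mk0 _ hu)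
    obtain ⟨a2, ha2⟩ := h.cross (Units.mk0 _ hc)
    -- the action on `S`
    have h3 : θ (H a t⁻¹) = H a1 (Units.mk0 _ hu)⁻¹ * (H a2 (Units.mk0 _ hc)⁻¹)⁻¹ := by
      rw [← ha, ← ha1, ← ha2, map_mul, map_inv, hθn _ t.ne_zero, hθn 1 one_ne_zero, map_one, mul_one, Units.val_mk0, Units.val_mk0]
      group
    have h4 : ∀ x y, (H a2 (Units.mk0 _ hc)⁻¹)⁻¹ * S x y * H a2 (Units.mk0 _ hc)⁻¹ = S (c * x) (c * φ c * y) := by
      intro x y
      have h5 := h.act1 a2 (Units.mk0 _ hc)⁻¹ (c * x) (c * φ c * y)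
      have hφc : φ c ≠ 0 := by rwa [Ne, map_eq_zero]
      rw [Units.val_inv_eq_inv_val, Units.val_mk0, map_inv₀, inv_mul_cancel_left₀ hc,
        show c⁻¹ * (φ c)⁻¹ * (c * φ c * y) = y by field_simp] at h5
      rw [← h5]; group
    have h6 := congrArg θ (h.act1 a t⁻¹ 1 0)
    rw [mul_zero, mul_one, hk, map_mul, map_mul, map_inv, hk, h3] at h6
    have h7 : H a1 (Units.mk0 _ hu)⁻¹ * (H a2 (Units.mk0 _ hc)⁻¹)⁻¹ * S (k 1) (l 1) * (H a1 (Units.mk0 _ hu)⁻¹ * (H a2 (Units.mk0 _ hc)⁻¹)⁻¹)⁻¹ =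
        H a1 (Units.mk0 _ hu)⁻¹ * ((H a2 (Units.mk0 _ hc)⁻¹)⁻¹ * S (k 1) (l 1) * H a2 (Units.mk0 _ hc)⁻¹) * (H a1 (Units.mk0 _ hu)⁻¹)⁻¹ := by group
    rw [h7, h4, h.act1] at h6
    have h8 := (h.Sinj h6).1
    rw [← h8, Units.val_inv_eq_inv_val, Units.val_mk0]
    have : τ (t : K) ≠ 0 := by rw [Ne, map_eq_zero_iff _ τ.injective]; exact t.ne_zero
    field_simp
  refine ⟨τ, Units.mk0 c hc, Units.mk0 _ hk1, fun t => by rw [hf, h1]; rfl, fun t => ?_⟩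
  by_cases ht : t = 0
  · subst ht
    rw [map_zero, mul_zero]
    exact ⟨_, by rw [hk, hkz]⟩
  · have h3 := key (Units.mk0 t ht)⁻¹
    rw [inv_inv, Units.val_mk0, Units.val_inv_eq_inv_val, Units.val_mk0, map_inv₀, inv_inv] at h3
    rw [Units.val_mk0, mul_comm, ← h3]
    exact ⟨_, hk t⟩

/-- rigidity for the Suzuki group -/
theorem rigS {ψ : G ≃* G} (h2 : ∀ t u, ∃ u', ψ (S t u) = S t u') (h3 : ∀ b, ψ (H 1 b) = H 1 b) (t u : K) : ψ (S t u) = S t u := by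
  have hB := fun u => h2 0 u
  choose B hB using hB
  have hb := fun t => h2 t 0
  choose β hβ using hb
  have eqB : ∀ (b : Kˣ) u, B (b * φ b * u) = b * φ b * B u := by
    intro b u
    have h4 := congrArg ψ (h.act1 1 b 0 u)
    rw [mul_zero, hB, map_mul, map_mul, map_inv, h3, hB, h.act1, mul_zero] at h4
    exact (h.Sinj h4).2.symm
  have eqb : ∀ (b : Kˣ) t, β (b * t) = b * φ b * β t := by
    intro b t
    have h4 := congrArg ψ (h.act1 1 b t 0)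
    rw [mul_zero, hβ, map_mul, map_mul, map_inv, h3, hβ, h.act1] at h4
    exact (h.Sinj h4).2.symm
  have Blin : ∀ v, B v = v * B 1 := by
    intro v
    by_cases hv : v = 0
    · rw [hv]
      have h4 := hB 0
      rw [h.S00, map_one, ← h.S00] at h4
      rw [← (h.Sinj h4).2, zero_mul]
    · -- `b φ b = v`
      have hφv : φ v ≠ 0 := by rwa [Ne, map_eq_zero]
      have h4 : ∀ b : K, b ≠ 0 → B (b * φ b) = b * φ b * B 1 := by
        intro b hb
        have := eqB (Units.mk0 b hb) 1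
        rwa [mul_one, Units.val_mk0] at this
      have h6 := h4 (v ^ 2 / φ v ^ 2) (div_ne_zero (pow_ne_zero 2 hv) (pow_ne_zero 2 hφv))
      have h7 : v ^ 2 / φ v ^ 2 * φ (v ^ 2 / φ v ^ 2) = v := by
        rw [map_div₀, map_pow, map_pow, h.φφ]
        field_simp
      rw [h7] at h6
      exact h6
  have hs : ∀ t u, S t u = S t 0 * S 0 u := fun t u => by rw [h.Smul0, zero_add]
  have main : ∀ t t', β (t + t') + φ t * t' * B 1 = β t + β t' + φ t * t' := by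
    intro t t'
    have h4 := congrArg ψ (h.Smul t 0 t' 0)
    rw [map_mul, hβ, hβ, zero_add, zero_add, hs (t + t'), map_mul, hβ, hB, h.Smul, h.Smul0, Blin] at h4
    exact (h.Sinj h4).2.symm
  have β0 : β 0 = 0 := by
    have h4 := hβ 0
    rw [h.S00, map_one, ← h.S00] at h4
    exact (h.Sinj h4).2.symm
  have B1 : B 1 = 1 := by
    have h4 := main 1 1
    rw [h.dbl, h.dbl, map_one, β0, one_mul, one_mul, zero_add, zero_add] at h4
    exact h4
  have badd : ∀ t t', β (t + t') = β t + β t' := by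
    intro t t'
    have h4 := main t t'
    rw [B1, mul_one] at h4
    exact add_right_cancel h4
  have bk : ∀ b : K, b ≠ 0 → β b = b * φ b * β 1 := by
    intro b hb
    have := eqb (Units.mk0 b hb) 1
    rwa [mul_one, Units.val_mk0] at this
  obtain ⟨z, hz⟩ := h.ne
  have b1 : β 1 = 0 := by
    have hz0 : z ≠ 0 := by rintro rfl; exact hz (map_zero φ)
    have hz1 : z + 1 ≠ 0 := by
      intro h4
      apply hz
      rw [eq_neg_of_add_eq_zero_left h4, map_neg, map_one]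
    have h4 := badd z 1
    rw [bk _ hz1, bk z hz0, map_add, map_one] at h4
    have h5 : (φ z - z) * β 1 = 0 := by linear_combination h4 - z * β 1 * h.two
    rcases mul_eq_zero.1 h5 with h6 | h6
    · exact absurd (sub_eq_zero.1 h6) hz
    · exact h6
  have bz : β t = 0 := by
    by_cases ht : t = 0
    · rw [ht, β0]
    · rw [bk t ht, b1, mul_zero]
  rw [hs, map_mul, hβ, hB, bz, Blin, B1, mul_one]

/-- rigidity -/
theorem rigid [Finite G] {ψ : G ≃* G} (hψ : Sd U V ψ) (h0 : ∀ t, ψ (X0 t) = X0 t) (h1 : ∀ t, ∃ u, ψ (S t 0) = S t u) (g : G) : ψ g = g := by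
  have h2 : ∀ t u, ∃ u', ψ (S t u) = S t u' := by
    intro t u
    obtain ⟨a, hab⟩ := h1 t
    exact h.img hψ hab u
  have h3 : ∀ a b, ψ (H a b) = H a b := by
    intro a b
    obtain ⟨a', b', hab⟩ := h.T_img hψ a b
    have h4 := congrArg ψ (h.act0 a b 1)
    rw [map_mul, map_mul, map_inv, h0, h0, hab, h.act0, mul_one, mul_one] at h4
    have h5 := h.r1.Xi h4
    obtain ⟨u, hu⟩ := h1 1
    obtain ⟨u', hu'⟩ := h1 b
    have h6 := congrArg ψ (h.act1 a b 1 0)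
    rw [map_mul, map_mul, map_inv, hu, mul_zero, mul_one, hu', hab, h.act1, mul_one] at h6
    have h7 := (h.Sinj h6).1
    rw [hab, Units.ext h5, Units.ext h7]
  have h4 := h.rigS h2 (fun b => h3 1 b)
  have hX : ∀ j, ∀ x ∈ X j, ψ x = x := by
    intro j x hx
    fin_cases j
    · obtain ⟨t, rfl⟩ := (h.memX0 _).1 hx
      exact h0 t
    · obtain ⟨t, u, rfl⟩ := (h.memX1 _).1 hx
      exact h4 t u
  have hYj : ∀ j, (∃ x ∈ X j, ∃ y ∈ Y j, ∃ x' ∈ X j, ∀ g, g ∈ X j ↔ (x * y * x') * g * (x * y * x')⁻¹ ∈ Y j) → ∀ y ∈ Y j, ψ y = y := by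
    rintro j ⟨x, hx, y, hy, x', hx', hn⟩ z hz
    have h5 := h.o1.fixn hψ (hX j x hx) (hX j x' hx') hx' hy hn
    have h6 : ψ (x * y * x') = x * y * x' := by rw [map_mul, map_mul, hX j x hx, hX j x' hx', h5]
    set n := x * y * x' with hnd
    have h7 : n⁻¹ * z * n ∈ X j := by
      rw [hn]
      have e : n * (n⁻¹ * z * n) * n⁻¹ = z := by group
      rwa [e]
    have h8 := hX j _ h7
    have e : z = n * (n⁻¹ * z * n) * n⁻¹ := by group
    rw [e, map_mul, map_mul, map_inv, h8, h6]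
  have hY : ∀ j, ∀ y ∈ Y j, ψ y = y := by
    intro j
    fin_cases j
    · apply hYj
      refine ⟨X0 1, h.X0_mem _, Y0 (-1⁻¹), h.Y0_mem _, X0 1, h.X0_mem _, ?_⟩
      have hn1 := h.r1.nX 1 one_ne_zero
      intro g
      change g ∈ X 0 ↔ nn X0 Y0 1 * g * (nn X0 Y0 1)⁻¹ ∈ Y 0
      rw [h.memX0, h.memY0]
      constructor
      · rintro ⟨t, rfl⟩
        exact ⟨_, hn1 t⟩
      · rintro ⟨t, ht⟩
        refine ⟨-t, ?_⟩
        have h5 := hn1 (-t)
        rw [inv_one, one_pow, neg_one_mul, neg_neg, ← ht] at h5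
        exact (mul_left_cancel (mul_right_cancel h5)).symm
    · exact hYj 1 h.y1
  let M : Subgroup G :=
    { carrier := {g | ψ g = g}
      mul_mem' := fun {a b} ha hb => by
        change ψ (a * b) = a * b
        rw [map_mul]
        exact congrArg₂ _ ha hb
      one_mem' := map_one ψ
      inv_mem' := fun {a} ha => by
        change ψ a⁻¹ = a⁻¹
        rw [map_inv]
        exact congrArg _ ha }
  have hM := h.gen M hX hY
  have : g ∈ M := by rw [hM]; exact Subgroup.mem_top g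
  exact this

theorem uniq [Finite G] {θ θ' : G ≃* G} (hθ : Sd U V θ) (hθ' : Sd U V θ') {f k : K → K} (h1 : ∀ t, θ (X0 t) = X0 (f t))
    (h1' : ∀ t, ∃ u, θ (S t 0) = S (k t) u) (h2 : ∀ t, θ' (X0 t) = X0 (f t)) (h2' : ∀ t, ∃ u, θ' (S t 0) = S (k t) u) : θ = θ' := by
  have hs := OD0.Sd.symm h.o1.od hθ'
  have h3 : Sd U V (θ.trans θ'.symm) := by
    constructor
    · intro g
      rw [MulEquiv.trans_apply, hs.pos, hθ.pos]
    · intro g
      rw [MulEquiv.trans_apply, hs.neg, hθ.neg]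
  have h4 : ∀ t, (θ.trans θ'.symm) (X0 t) = X0 t := by
    intro t
    rw [MulEquiv.trans_apply, h1, ← h2, MulEquiv.symm_apply_apply]
  have h5 : ∀ t, ∃ u, (θ.trans θ'.symm) (S t 0) = S t u := by
    intro t
    obtain ⟨a, hab⟩ := h1' t
    obtain ⟨a', hab'⟩ := h2' t
    have h5 : θ'.symm (S (k t) a') = S t 0 := by rw [← hab', MulEquiv.symm_apply_apply]
    rw [MulEquiv.trans_apply, hab]
    exact h.img hs h5 a
  apply MulEquiv.ext
  intro g
  have h6 := h.rigid h3 h4 h5 g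
  rw [MulEquiv.trans_apply, MulEquiv.symm_apply_eq] at h6
  exact h6

theorem real (σ : K ≃+* K) (c d : Kˣ) : ∃ θ : G ≃* G, Sd U V θ ∧ (∀ t, θ (X0 t) = X0 (c * σ t)) ∧ ∀ t, ∃ u, θ (S t 0) = S (d * σ t) u := by
  obtain ⟨θ, hθ, h1, h2⟩ := h.fld σ
  have h4 : H c d ∈ P.B ⊓ P.N := (h.memT _).2 ⟨c, d, rfl⟩
  have h3 : Sd U V (MulAut.conj (H c d)) := (h.o1.od.conj_mem_A0).2 h4
  refine ⟨θ.trans (MulAut.conj (H c d)), ⟨fun g => ?_, fun g => ?_⟩, fun t => ?_, fun t => ?_⟩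
  · rw [MulEquiv.trans_apply, h3.pos, hθ.pos]
  · rw [MulEquiv.trans_apply, h3.neg, hθ.neg]
  · rw [MulEquiv.trans_apply, h1, MulAut.conj_apply, h.act0]
  · obtain ⟨a, hab⟩ := h2 t
    rw [MulEquiv.trans_apply, hab, MulAut.conj_apply, h.act1]
    exact ⟨_, rfl⟩

theorem card_A0 [Finite G] [Finite K] : Nat.card (OD.A0 U V) = Nat.card (K ≃+* K) * (Nat.card Kˣ * Nat.card Kˣ) := by
  have hex : ∀ θ : ↥(OD.A0 U V), ∃ x : (K ≃+* K) × Kˣ × Kˣ, (∀ t, (θ : MulAut G) (X0 t) = X0 (x.2.1 * x.1 t)) ∧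
      ∀ t, ∃ u, (θ : MulAut G) (S t 0) = S (x.2.2 * x.1 t) u := by
    intro θ
    obtain ⟨σ, c, d, h1, h2⟩ := h.form θ.2
    exact ⟨(σ, c, d), h1, h2⟩
  choose F hF hF' using hex
  rw [← Nat.card_prod, ← Nat.card_prod]
  refine Nat.card_congr (Equiv.ofBijective F ⟨?_, ?_⟩)
  · intro θ θ' hθ
    have h1 := hF θ'
    have h1' := hF' θ'
    rw [← hθ] at h1 h1'
    exact Subtype.ext (h.uniq θ.2 θ'.2 (hF θ) (hF' θ) h1 h1')
  · rintro ⟨σ, c, d⟩
    obtain ⟨θ, hθ, h1, h2⟩ := h.real σ c d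
    refine ⟨⟨θ, hθ⟩, ?_⟩
    set z := F ⟨θ, hθ⟩ with hz
    have h3 : ∀ t, ((z.2.1 : Kˣ) : K) * z.1 t = c * σ t := by
      intro t
      have h4 := hF ⟨θ, hθ⟩ t
      change θ (X0 t) = _ at h4
      rw [h1] at h4
      exact (h.r1.Xi h4).symm
    have h3' : ((z.2.2 : Kˣ) : K) * z.1 1 = d * σ 1 := by
      obtain ⟨a, hab⟩ := hF' ⟨θ, hθ⟩ 1
      obtain ⟨a', hab'⟩ := h2 1
      change θ (S 1 0) = _ at hab
      rw [hab'] at hab
      exact (h.Sinj hab).1.symm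
    have h4 : z.2.1 = c := by
      apply Units.ext
      have := h3 1
      rwa [map_one, map_one, mul_one, mul_one] at this
    have h4' : z.2.2 = d := by
      apply Units.ext
      rwa [map_one, map_one, mul_one, mul_one] at h3'
    have h5 : z.1 = σ := by
      apply RingEquiv.ext
      intro t
      have := h3 t
      rw [h4] at this
      exact mul_left_cancel₀ c.ne_zero this
    exact Prod.ext h5 (Prod.ext h4 h4')

/-- the order of the outer automorphism group -/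
theorem card_out [Finite G] [Finite K] : Nat.card (Cfsg.Out G) = Nat.card (K ≃+* K) := by
  have h1 := h.o1.od.card_A0
  have h2 : Nat.card ↥(P.B ⊓ P.N) = Nat.card Kˣ * Nat.card Kˣ := by
    rw [← Nat.card_prod]
    symm
    refine Nat.card_congr (Equiv.ofBijective (fun x : Kˣ × Kˣ => (⟨H x.1 x.2, (h.memT _).2 ⟨x.1, x.2, rfl⟩⟩ : ↥(P.B ⊓ P.N))) ⟨?_, ?_⟩)
    · rintro ⟨a, b⟩ ⟨a', b'⟩ hk
      obtain ⟨h3, h4⟩ := h.Hinj (congrArg Subtype.val hk)
      change a = a' at h3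
      change b = b' at h4
      rw [h3, h4]
    · rintro ⟨g, hg⟩
      obtain ⟨a, b, rfl⟩ := (h.memT g).1 hg
      exact ⟨(a, b), rfl⟩
  rw [h.card_A0, h2] at h1
  exact (Nat.eq_of_mul_eq_mul_right (Nat.mul_pos Nat.card_pos Nat.card_pos) h1).symm

end FD
end Cfsg.Agent.H6.TO
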