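import Cfsg.Agent.H6.ToM
import Cfsg.Agent.H6.ToR

/-!
The rank one subgroups of a twisted group.
-/

set_option autoImplicit false
set_option linter.unusedSectionVars false
set_option maxHeartbeats 400000

namespace Cfsg.Agent.H6
open Cfsg.Lie
open scoped Matrix

variable {D : ChevalleyDatum} {N : ℕ} {η : ℕ → ℕ → ℤ} {rc : ℕ → ℕ → ℤ} {F : Type*} [Field F]
  {m : ℕ} {rho inv lam pi : ℕ → ℕ} {ep : ℕ → ℤ} {e : ℕ} {σ : ↥(D.group F) →* ↥(D.group F)}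
  {ι : Type} {L : ι → List (Fin D.rank)}

namespace TwGrp
variable {h : TwCtx D N η rc F m rho inv lam pi ep e σ} {G₁ : Subgroup (GL D.Idx F)} (hT : TwGrp h L G₁)

/-- generators -/
noncomputable def sJ (j : ι) : ↥G₁ := ⟨hT.nJ j, (hT.nJ_mem j).2⟩

/-- root subgroups -/
noncomputable def XG (_ : TwGrp h L G₁) (j : ι) : Subgroup ↥G₁ := (US (xg D F) (h.G.Um (h.wJ L j))).subgroupOf G₁

/-- opposite root subgroups -/
noncomputable def YG (j : ι) : Subgroup ↥G₁ := (hT.XG j).map (MulAut.conj (hT.sJ j)).toMonoidHom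

theorem mem_XG {j : ι} {g : ↥G₁} : g ∈ hT.XG j ↔ (g : GL D.Idx F) ∈ US (xg D F) (h.G.Um (h.wJ L j)) := Iff.rfl

theorem mem_YG {j : ι} {g : ↥G₁} : g ∈ hT.YG j ↔ (hT.sJ j)⁻¹ * g * hT.sJ j ∈ hT.XG j := by
  constructor
  · rintro ⟨x, hx, rfl⟩
    have e : (hT.sJ j)⁻¹ * (MulAut.conj (hT.sJ j)).toMonoidHom x * hT.sJ j = x := by
      change (hT.sJ j)⁻¹ * (hT.sJ j * x * (hT.sJ j)⁻¹) * hT.sJ j = x
      group
    rw [e]; exact hx
  · intro hg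
    refine ⟨_, hg, ?_⟩
    change hT.sJ j * ((hT.sJ j)⁻¹ * g * hT.sJ j) * (hT.sJ j)⁻¹ = g
    group

include hT

theorem diag_mon {c : GL D.Idx F} (hc : c ∈ D.diagonalSubgroup F) : ∃ χ, Mon h.G (xg D F) c 1 χ := by
  rw [← h.G.HA_eq] at hc
  exact h.G.HA_mon (h.G.rdn h.E) hc

theorem XG_norm {c : ↥G₁} (hc : (c : GL D.Idx F) ∈ D.diagonalSubgroup F) {j : ι} {x : ↥G₁} (hx : x ∈ hT.XG j) : c * x * c⁻¹ ∈ hT.XG j := by
  obtain ⟨χ, hm⟩ := hT.diag_mon hc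
  exact hm.mem_US (fun r hr => hr.1) (fun r hr => hr) hx

theorem XG_sB (j : ι) {b : ↥G₁} (hb : (b : GL D.Idx F) ∈ D.borelSubgroup F) :
    ∃ b' : ↥G₁, (b' : GL D.Idx F) ∈ D.borelSubgroup F ∧ ∃ x ∈ hT.XG j, hT.sJ j * b = b' * hT.sJ j * x := by
  obtain ⟨u, hu, t, ht, hbe⟩ := hT.mem_borel₁ (Subgroup.mem_inf.2 ⟨hb, b.2⟩)
  have huf : u ∈ US (xg D F) (posS D N) ⊓ fixS σ := by
    rw [hT.pos_inf, h.G.posUnipotent_eq_US] at hu
    exact hu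
  obtain ⟨y, hy, x, hx, rfl⟩ := h.fix_union (h.G.pClo_all) (h.G.pClo_Upl (h.wJ L j)) (h.G.pClo_Um (h.wJ L j))
    (h.G.posS_eq_union (h.wJ L j)) (fun r h1 h2 => by
      obtain ⟨a1, a2, a3⟩ := h1
      obtain ⟨b1, b2, b3⟩ := h2
      omega)
    (fun r hr => h.rho_mem_Upl (h.wJ_mem hT.orb j) hr) (fun r hr => h.rho_mem_Um (h.wJ_mem hT.orb j) hr) huf
  have hxG : x ∈ G₁ := hT.root j hx
  have hyG : y ∈ G₁ := hT.pos_le (Subgroup.mem_inf.2 ⟨h.US_le_pos (h.G.Upl_sub _) hy.1, hy.2⟩)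
  obtain ⟨χ, hm⟩ := hT.nJ_mon j
  have hy' : hT.nJ j * y * (hT.nJ j)⁻¹ ∈ D.borelSubgroup F := Subgroup.mem_sup_left (h.G.Upl_conj h.E hm hy.1)
  have ht' := hT.diag₁_conj (hT.nJ_mem j) ht
  have hv' := hT.XG_norm (c := (⟨t, ht.2⟩ : ↥G₁)⁻¹) (inv_mem ht.1) (j := j) (x := ⟨x, hxG⟩) hx.1
  refine ⟨⟨(hT.nJ j * y * (hT.nJ j)⁻¹) * (hT.nJ j * t * (hT.nJ j)⁻¹),
    mul_mem (mul_mem (mul_mem (hT.nJ_mem j).2 hyG) (inv_mem (hT.nJ_mem j).2)) ht'.2⟩,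
    mul_mem hy' (Subgroup.mem_sup_right ht'.1), _, hv', ?_⟩
  apply Subtype.ext
  change hT.nJ j * (b : GL D.Idx F) = (hT.nJ j * y * (hT.nJ j)⁻¹) * (hT.nJ j * t * (hT.nJ j)⁻¹) * hT.nJ j * (t⁻¹ * x * t⁻¹⁻¹)
  rw [hbe]; group

theorem card_XG (j : ι) : Nat.card (hT.XG j) = Nat.card ↥(US (xg D F) (h.G.Um (h.wJ L j)) ⊓ fixS σ) :=
  Nat.card_congr ⟨fun x => ⟨x.1, x.2, hT.le_fix x.1.2⟩, fun x => ⟨⟨x.1, hT.root j x.2⟩, x.2.1⟩, fun _ => rfl, fun _ => rfl⟩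

theorem exists_OD1 [Finite F]
    (hcen : ∀ w : h.G.W, (∀ r : Fin D.nroots, N ≤ (r : ℕ) ↔ (w.1 r : ℕ) < N) → ∀ j, ∀ r : Fin D.nroots, (r : ℕ) ∈ h.G.Um (h.wJ L j) →
      (((h.wJ L j).1 (w.1 r) : Fin D.nroots) : ℕ) ∈ h.G.Um (h.wJ L j) ∧ ((w.1 ((h.wJ L j).1 r) : Fin D.nroots) : ℕ) ∈ h.G.Um (h.wJ L j))
    (hcard : ∀ i j, Nat.card ↥(US (xg D F) (h.G.Um (h.wJ L i)) ⊓ fixS σ) = Nat.card ↥(US (xg D F) (h.G.Um (h.wJ L j)) ⊓ fixS σ) → i = j) :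
    ∃ n0 : ↥G₁, TO.OD1 hT.bnPair₁ ((D.posUnipotent F).subgroupOf G₁) ((D.negUnipotent F).subgroupOf G₁) n0 hT.sJ hT.XG hT.YG := by
  obtain ⟨n0, hod, w, χ, hw0, hmn⟩ := hT.exists_OD0
  refine ⟨n0, ?_⟩
  have hwi : ∀ r : Fin D.nroots, w.1 ((w⁻¹).1 r) = r := fun r => Equiv.apply_symm_apply w.1 r
  have hw0' : ∀ r : Fin D.nroots, N ≤ (r : ℕ) ↔ ((w⁻¹).1 r : ℕ) < N := by
    intro r
    have := hw0 ((w⁻¹).1 r)
    rw [hwi] at this
    omega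
  refine
    { od := hod
      S_eq := ?_
      X_le := ?_
      Y_le := ?_
      sX := ?_
      sB := ?_
      n0Y := ?_
      TX := ?_
      card := ?_ }
  · ext x
    constructor
    · rintro ⟨j, hj⟩
      exact ⟨j, Subtype.ext hj.symm⟩
    · rintro ⟨j, rfl⟩
      exact ⟨j, rfl⟩
  · intro j x hx
    exact h.US_le_pos (h.G.Um_sub _) hx
  · intro j y hy
    rw [hT.mem_YG] at hy
    rw [Subgroup.mem_subgroupOf, h.G.negUnipotent_eq_US]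
    obtain ⟨χ, hm⟩ := hT.nJ_mon j
    have h1 := hm.mem_US (S := h.G.Um (h.wJ L j)) (T := {r | r < N}) (fun r hr => hr.1) (fun r hr => by
      rw [h.G.mem_Um] at hr
      exact hr.2) (hT.mem_XG.1 hy)
    have e1 : hT.nJ j * (((hT.sJ j)⁻¹ * y * hT.sJ j : ↥G₁) : GL D.Idx F) * (hT.nJ j)⁻¹ = y := by
      change hT.nJ j * ((hT.nJ j)⁻¹ * (y : GL D.Idx F) * hT.nJ j) * (hT.nJ j)⁻¹ = y
      group
    rwa [e1] at h1
  · intro j x
    rw [hT.mem_YG]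
    have e1 : (hT.sJ j)⁻¹ * (hT.sJ j * x * (hT.sJ j)⁻¹) * hT.sJ j = x := by group
    rw [e1]
  · intro j b hb
    obtain ⟨b', hb', x, hx, he⟩ := hT.XG_sB j (b := b) hb.1
    exact ⟨b', ⟨hb', b'.2⟩, x, hx, he⟩
  · intro j g
    rw [hT.mem_YG, hT.mem_XG, hT.mem_XG]
    obtain ⟨χ', hm⟩ := hT.nJ_mon j
    have hinv : (h.wJ L j)⁻¹ = h.wJ L j := inv_eq_of_mul_eq_one_left (h.wJ_sq hT.orb j)
    change (g : GL D.Idx F) ∈ _ ↔ (hT.nJ j)⁻¹ * ((n0 : GL D.Idx F)⁻¹ * g * n0) * hT.nJ j ∈ _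
    constructor
    · intro hg
      have h1 := (hm.inv.mul hmn.inv).mem_US (S := h.G.Um (h.wJ L j)) (T := h.G.Um (h.wJ L j)) (fun r hr => hr.1) (fun r hr => by
        rw [hinv]
        exact (hcen _ hw0' j r hr).1) hg
      have e1 : (hT.nJ j)⁻¹ * (n0 : GL D.Idx F)⁻¹ * g * ((hT.nJ j)⁻¹ * (n0 : GL D.Idx F)⁻¹)⁻¹ = (hT.nJ j)⁻¹ * ((n0 : GL D.Idx F)⁻¹ * g * n0) * hT.nJ j := by
        group
      rwa [e1] at h1
    · intro hg
      have h1 := (hmn.mul hm).mem_US (S := h.G.Um (h.wJ L j)) (T := h.G.Um (h.wJ L j)) (fun r hr => hr.1) (fun r hr =>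
        (hcen _ hw0 j r hr).2) hg
      have e1 : (n0 : GL D.Idx F) * hT.nJ j * ((hT.nJ j)⁻¹ * ((n0 : GL D.Idx F)⁻¹ * g * n0) * hT.nJ j) * ((n0 : GL D.Idx F) * hT.nJ j)⁻¹ = g := by
        group
      rwa [e1] at h1
  · intro c hc j x hx
    exact hT.XG_norm (hT.mem_T.1 hc) hx
  · intro i j hij
    rw [hT.card_XG, hT.card_XG] at hij
    exact hcard i j hij

end TwGrp

/-- the rank one group of a commuting orbit -/
theorem corb_r1 (h : TwCtx D N η rc F m rho inv lam pi ep e σ) {G₁ : Subgroup (GL D.Idx F)} (hT : TwGrp h L G₁) {j : ι} (hc : COrb D F (L j))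
    (hum : ∀ r ∈ h.G.Um (h.wJ L j), ∃ i ∈ L j, r = D.simple i) (ex : ℕ → ℕ) (exadd : ∀ i, ∀ t u : F, (t + u) ^ ex i = t ^ ex i + u ^ ex i)
    (mem : ∀ b (t : F), pw D F b (L j) (fun i => t ^ ex i) ∈ G₁) :
    TO.R1 (fun t : F => (⟨pw D F true (L j) (fun i => t ^ ex i), mem true t⟩ : ↥G₁)) (fun t : F => (⟨pw D F false (L j) (fun i => t ^ ex i), mem false t⟩ : ↥G₁)) ∧
      ∀ t : F, ((TO.nn (fun t : F => (⟨pw D F true (L j) (fun i => t ^ ex i), mem true t⟩ : ↥G₁)) (fun t : F => (⟨pw D F false (L j) (fun i => t ^ ex i), mem false t⟩ : ↥G₁)) t : ↥G₁) : GL D.Idx F) =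
        pn D F (L j) (fun i => t ^ ex i) := by
  classical
  set X : F → ↥G₁ := fun t : F => (⟨pw D F true (L j) (fun i => t ^ ex i), mem true t⟩ : ↥G₁) with hX
  set Y : F → ↥G₁ := fun t : F => (⟨pw D F false (L j) (fun i => t ^ ex i), mem false t⟩ : ↥G₁) with hY
  have cX : ∀ t, ((X t : ↥G₁) : GL D.Idx F) = pw D F true (L j) (fun i => t ^ ex i) := fun t => rfl
  have cY : ∀ t, ((Y t : ↥G₁) : GL D.Idx F) = pw D F false (L j) (fun i => t ^ ex i) := fun t => rfl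
  have ex_ne : ∀ i, ex i ≠ 0 := fun i => (zero_lt_of_add (exadd i)).ne'
  have ex_neg : ∀ i (t : F), (-t) ^ ex i = -t ^ ex i := fun i t => neg_pow_of_add (exadd i) t
  have ex_inj : ∀ {i : ℕ} {t u : F}, t ^ ex i = u ^ ex i → t = u := by
    intro i t u he
    have h1 : (t - u) ^ ex i = 0 := by
      rw [sub_eq_add_neg, exadd, ex_neg, he, add_neg_cancel]
    exact sub_eq_zero.1 (pow_eq_zero_iff (ex_ne i) |>.1 h1)
  have coe_nn : ∀ t : F, ((TO.nn X Y t : ↥G₁) : GL D.Idx F) = pn D F (L j) (fun i => t ^ ex i) := by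
    intro t
    unfold TO.nn
    rw [Subgroup.coe_mul, Subgroup.coe_mul, cX, cY, ← hc.pn_eq]
    congr 2
    apply pw_congr
    intro i _
    rw [ex_neg, inv_pow]
  have pow_ne : ∀ {t : F}, t ≠ 0 → ∀ i : ℕ, t ^ ex i ≠ 0 := fun ht i => pow_ne_zero _ ht
  have hnX : ∀ t : F, t ≠ 0 → ∀ u, TO.nn X Y t * X u * (TO.nn X Y t)⁻¹ = Y (-(t⁻¹) ^ 2 * u) := by
    intro t ht u
    apply Subtype.ext
    rw [Subgroup.coe_mul, Subgroup.coe_mul, Subgroup.coe_inv, coe_nn, cX, cY]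
    apply conj_pw h.G
    intro i hi
    rw [pn_sx_pos h.G hc hi (pow_ne ht i)]
    congr 1
    rw [mul_pow, ex_neg, inv_pow, inv_pow, inv_pow, ← pow_mul, ← pow_mul, mul_comm 2]
  have hnY : ∀ t : F, t ≠ 0 → ∀ u, TO.nn X Y t * Y u * (TO.nn X Y t)⁻¹ = X (-t ^ 2 * u) := by
    intro t ht u
    apply Subtype.ext
    rw [Subgroup.coe_mul, Subgroup.coe_mul, Subgroup.coe_inv, coe_nn, cX, cY]
    apply conj_pw h.G
    intro i hi
    rw [pn_sx_neg h.G hc hi (pow_ne ht i)]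
    congr 1
    rw [mul_pow, ex_neg, ← pow_mul, ← pow_mul, mul_comm 2]
  have hXi : Function.Injective X := by
    intro t u htu
    have h1 := congrArg (fun z : ↥G₁ => (z : GL D.Idx F)) htu
    simp only [cX] at h1
    obtain ⟨i, hi⟩ := List.exists_mem_of_ne_nil _ (hT.orb.ne j)
    have hop : ∀ v : F, op (xg D F) (fun r => if r ∈ h.G.Um (h.wJ L j) then (if hh : ∃ l : Fin D.rank, r = D.simple l then v ^ ex hh.choose else 0) else 0) N N =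
        pw D F true (L j) (fun i => v ^ ex i) := by
      intro v
      rw [h.op_eq_pw hc]
      · apply pw_congr
        intro l hl
        rw [if_pos ((h.simple_mem_Um_wJ hT.orb).2 hl)]
        have hh : ∃ l' : Fin D.rank, D.simple l = D.simple l' := ⟨l, rfl⟩
        rw [dif_pos hh]
        have h3 : l = hh.choose := simple_injF h.G hh.choose_spec
        rw [← h3]
      · intro r hr
        rw [if_neg]
        intro h2
        obtain ⟨l, hl, hle⟩ := hum r h2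
        exact hr l hl hle
    rw [← hop, ← hop] at h1
    have h2 := h.G.op_inj h.E _ _ N N (by rw [h.G.nroots_eq]; ring) le_rfl h1 (D.simple i) (h.G.simple_pos i i.2) (h.G.simple_lt i i.2)
    rw [if_pos ((h.simple_mem_Um_wJ hT.orb).2 hi), if_pos ((h.simple_mem_Um_wJ hT.orb).2 hi)] at h2
    have hh : ∃ l' : Fin D.rank, D.simple i = D.simple l' := ⟨i, rfl⟩
    rw [dif_pos hh, dif_pos hh] at h2
    exact ex_inj h2
  have hYi : Function.Injective Y := by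
    intro t u htu
    have h1 := hnY 1 one_ne_zero t
    have h2 := hnY 1 one_ne_zero u
    rw [htu, h2] at h1
    have h3 := hXi h1
    rw [one_pow, neg_one_mul, neg_one_mul, neg_inj] at h3
    exact h3.symm
  have addb : ∀ b t u, pw D F b (L j) (fun i => (t + u) ^ ex i) = pw D F b (L j) (fun i => t ^ ex i) * pw D F b (L j) (fun i => u ^ ex i) := by
    intro b t u
    rw [← hc.pw_add h.G]
    apply pw_congr
    intro i _
    exact exadd _ _ _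
  refine ⟨⟨fun t u => Subtype.ext (addb _ t u), fun t u => Subtype.ext (addb _ t u), hXi, hYi, fun t u htu => ?_, hnX, hnY⟩, coe_nn⟩
  have h1 : ((X t : ↥G₁) : GL D.Idx F) ∈ D.posUnipotent F ⊓ D.negUnipotent F := by
    refine Subgroup.mem_inf.2 ⟨?_, ?_⟩
    · rw [cX]; exact pw_mem_pos h.G _ _
    · rw [htu, cY]; exact pw_mem_neg h.G _ _
  rw [h.G.pos_inf_neg h.E, Subgroup.mem_bot] at h1
  have h4 : X t = 1 := Subtype.ext h1
  have h3 : Y 0 = 1 := by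
    have : Y (0 + 0) = Y 0 * Y 0 := Subtype.ext (addb false 0 0)
    rw [add_zero] at this
    exact left_eq_mul.1 this
  rw [h4, ← h3] at htu
  exact (hYi htu).symm

end Cfsg.Agent.H6
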