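import Cfsg.Agent.H6.TwF4D

/-!
The large Ree groups 2F4(q): perfectness, simplicity.
-/

set_option autoImplicit false
set_option linter.unusedSectionVars false
set_option maxHeartbeats 400000
set_option maxRecDepth 10000

namespace Cfsg.Agent.H6
open Cfsg.Lie
open scoped Matrix

namespace WF4

section
variable {K : Type*} [Field K] {e : ℕ}
variable {σ : ↥(chevF4.group K) →* ↥(chevF4.group K)} (h : Ctx K e σ) (hf : Fl K e)

theorem car24 : ∀ r < 48, (r = 24 → (chevF4.cartan 0 r, chevF4.cartan 3 r) = ((0 : ℤ), (2 : ℤ))) ∧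
    (r = 33 → (chevF4.cartan 0 r, chevF4.cartan 3 r) = ((2 : ℤ), (0 : ℤ))) ∧
    (r = 25 ∨ r = 27 ∨ r = 28 ∨ r = 30 → (chevF4.cartan 1 r, chevF4.cartan 2 r) ∈ ([(-2, 2), (2, -1), (0, 1), (2, 0)] : List (ℤ × ℤ))) := by
  decide +kernel

theorem um0 : ∀ j ∈ LL 0, chevF4.simple j = 24 ∨ chevF4.simple j = 33 := by decide +kernel

/-- the character of `hh x y` -/
theorem hh_chr (x y : Kˣ) (r : ℕ) : (∏ k : Fin 4, (![x ^ e, y ^ e, y, x] : Fin 4 → Kˣ) k ^ chevF4.cartan k r) =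
    (x ^ ((e : ℤ) * chevF4.cartan 0 r + chevF4.cartan 3 r)) * (y ^ ((e : ℤ) * chevF4.cartan 1 r + chevF4.cartan 2 r)) := by
  rw [Fin.prod_univ_four]
  change (x ^ e) ^ chevF4.cartan 0 r * (y ^ e) ^ chevF4.cartan 1 r * y ^ chevF4.cartan 2 r * x ^ chevF4.cartan 3 r = _
  rw [zpow_add, zpow_add, zpow_mul, zpow_mul, zpow_natCast, zpow_natCast]
  generalize (x ^ e) ^ chevF4.cartan 0 r = a
  generalize (y ^ e) ^ chevF4.cartan 1 r = b
  generalize y ^ chevF4.cartan 2 r = c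
  generalize x ^ chevF4.cartan 3 r = d
  rw [mul_assoc a b c, mul_assoc a (b * c) d, mul_comm (b * c) d, mul_assoc a d (b * c)]

include h hf

theorem rank_dS [Fintype K] {m : ℕ} (hm : 1 ≤ m) (he : e = 2 ^ m) (hK : Fintype.card K = 2 ^ (2 * m + 1)) (j : Fin 2) :
    US (xg chevF4 K) (h.G.Um (h.wJ LL j)) ⊓ fixS σ ≤ dS (twistedF4 K e) := by
  obtain ⟨ζ, hζ⟩ := IsCyclic.exists_generator (α := Kˣ)
  have hord : orderOf ζ = 2 ^ (2 * m + 1) - 1 := by
    rw [orderOf_eq_card_of_forall_mem_zpowers hζ, Nat.card_units, Nat.card_eq_fintype_card, hK]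
  have hcard : (2 : ℤ) ^ (2 * m + 1) = 2 * e * e := by rw [he]; push_cast; ring
  have he2 : (2 : ℤ) ≤ e := by
    rw [he]
    have : 2 ^ 1 ≤ 2 ^ m := Nat.pow_le_pow_right (by norm_num) hm
    exact_mod_cast this
  have h4 : ((2 ^ (2 * m + 1) - 1 : ℕ) : ℤ) = 2 * e * e - 1 := by
    rw [Nat.cast_sub (Nat.one_le_pow _ _ (by norm_num)), Nat.cast_pow]
    push_cast
    rw [hcard]
  have h5 : ∀ z : ℤ, ζ ^ z = 1 → z ≠ 0 → |z| < 2 * (e : ℤ) * e - 1 → False := by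
    intro z hz hz0 hz1
    have h3 := orderOf_dvd_iff_zpow_eq_one.2 hz
    rw [hord, h4] at h3
    exact hz0 (Int.eq_zero_of_abs_lt_dvd h3 hz1)
  have h6 : (e : ℤ) * e ≥ 2 * e := by nlinarith
  fin_cases j
  · refine (grp h hf).torus_dS (j := 0) (hh_mem h hf ζ 1) (TF4.good.mon_PhiH (![ζ ^ e, 1 ^ e, 1, ζ] : Fin 4 → Kˣ)) ?_
    intro r hr hχ
    have hr48 : (r : ℕ) < 48 := lt_of_lt_of_eq r.2 nr
    obtain ⟨c1, c2, -⟩ := car24 r hr48
    change (∏ k : Fin 4, (![ζ ^ e, 1 ^ e, 1, ζ] : Fin 4 → Kˣ) k ^ chevF4.cartan k r) = 1 at hχ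
    rw [hh_chr, one_zpow, mul_one] at hχ
    obtain ⟨i, hi, hri⟩ := TF4.chk.umS h 0 ums0 (r : ℕ) hr
    rcases um0 i hi with h7 | h7
    · have h8 : (r : ℕ) = 24 := hri.trans h7
      have h9 := c1 h8
      rw [Prod.mk.injEq] at h9
      rw [h9.1, h9.2] at hχ
      refine h5 _ hχ (by omega) ?_
      rw [abs_lt]; constructor <;> nlinarith
    · have h8 : (r : ℕ) = 33 := hri.trans h7
      have h9 := c2 h8
      rw [Prod.mk.injEq] at h9
      rw [h9.1, h9.2] at hχ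
      refine h5 _ hχ (by omega) ?_
      rw [abs_lt]; constructor <;> nlinarith
  · refine (grp h hf).torus_dS (j := 1) (hh_mem h hf 1 ζ) (TF4.good.mon_PhiH (![1 ^ e, ζ ^ e, ζ, 1] : Fin 4 → Kˣ)) ?_
    intro r hr hχ
    have hr48 : (r : ℕ) < 48 := lt_of_lt_of_eq r.2 nr
    obtain ⟨-, -, c3⟩ := car24 r hr48
    change (∏ k : Fin 4, (![1 ^ e, ζ ^ e, ζ, 1] : Fin 4 → Kˣ) k ^ chevF4.cartan k r) = 1 at hχ
    rw [hh_chr, one_zpow, one_mul] at hχ
    have h9 := c3 ((mem_Um1 h).1 hr)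
    generalize chevF4.cartan 1 r = a at h9 hχ
    generalize chevF4.cartan 2 r = b at h9 hχ
    simp only [List.mem_cons, Prod.mk.injEq, List.not_mem_nil, or_false] at h9
    rcases h9 with ⟨rfl, rfl⟩ | ⟨rfl, rfl⟩ | ⟨rfl, rfl⟩ | ⟨rfl, rfl⟩ <;>
      refine h5 _ hχ (by omega) ?_ <;> rw [abs_lt] <;> constructor <;> nlinarith

theorem gens_dS (hd : ∀ j : Fin 2, US (xg chevF4 K) (h.G.Um (h.wJ LL j)) ⊓ fixS σ ≤ dS (twistedF4 K e)) :
    commutator ↥(twistedF4 K e) = ⊤ := by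
  apply commutator_eq_top
  apply gen_le TF4.good
  rintro w (⟨t, rfl | rfl⟩ | ⟨t, u, rfl | rfl⟩)
  · have h1 := pair_eq (K := K) (e := e) true t
    change wg chevF4 K (f4PairWord e f4p1 f4p4 t) = _ at h1
    rw [h1]
    exact (grp h hf).pw_dS corb0 (hd 0) true (key0 hf t)
  · have h1 := pair_eq (K := K) (e := e) false t
    change wg chevF4 K (f4PairWord e f4m1 f4m4 t) = _ at h1
    rw [h1]
    exact (grp h hf).pw_dS corb0 (hd 0) false (key0 hf t)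
  · have h1 := RF_wg (K := K) (e := e) true t u
    change _ = wg chevF4 K (b2ClassWord e f4a f4b f4ab f4aab t u) at h1
    rw [← h1]
    exact hd 1 ((fix_iff h hf).2 ⟨t, u, rfl⟩)
  · have h1 := RF_wg (K := K) (e := e) false t u
    change _ = wg chevF4 K (b2ClassWord e f4ma f4mb f4mab f4maab t u) at h1
    rw [← h1]
    have hS : ∀ i, i = 20 ∨ i = 22 ∨ i = 19 ∨ i = 17 → i ∈ {r | ∃ hr : r < chevF4.nroots, (h.G.ngf ⟨r, hr⟩ : ℕ) ∈ h.G.Um (h.wJ LL 1)} := by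
      intro i hi
      have hi' : i < chevF4.nroots := by rw [nr]; omega
      refine ⟨hi', (mem_Um1 h).2 ?_⟩
      change chevF4.neg i = 25 ∨ chevF4.neg i = 27 ∨ chevF4.neg i = 28 ∨ chevF4.neg i = 30
      have key : ∀ i < 48, i = 20 ∨ i = 22 ∨ i = 19 ∨ i = 17 → chevF4.neg i = 25 ∨ chevF4.neg i = 27 ∨ chevF4.neg i = 28 ∨ chevF4.neg i = 30 := by decide +kernel
      exact key i (by omega) hi
    refine (grp h hf).neg_dS (j := 1) (hd 1) ?_ (RF_fix h hf false t u)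
    unfold RF NF
    exact mul_mem (mul_mem (mem_US (hS 20 (by norm_num)) _) (mem_US (hS 22 (by norm_num)) _))
      (mul_mem (mem_US (hS 19 (by norm_num)) _) (mem_US (hS 17 (by norm_num)) _))

theorem perfect [Fintype K] {m : ℕ} (hm : 1 ≤ m) (he : e = 2 ^ m) (hK : Fintype.card K = 2 ^ (2 * m + 1)) :
    commutator ↥(twistedF4 K e) = ⊤ := gens_dS h hf (rank_dS h hf hm he hK)

omit h hf
def par : Fin 2 → Fin 2 := ![0, 0]
theorem parc : ∀ i : Fin 2, i = par i ∨ chkId 48 TF4.P (((L i).map Fin.val ++ (L (par i)).map Fin.val) ++ ((L i).map Fin.val ++ (L (par i)).map Fin.val)) = false := by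
  decide +kernel
include h hf

theorem irr : ∀ i : Fin 2, i = par i ∨ h.wJ LL i * h.wJ LL (par i) ≠ h.wJ LL (par i) * h.wJ LL i := by
  intro i
  exact (parc i).imp_right fun h1 => TF4.chk.noncomm h.G (LL i) (LL (par i)) h1 (h.wJ_sq orbL i) (h.wJ_sq orbL (par i))

theorem simple [Fintype K] {m : ℕ} (hm : 1 ≤ m) (he : e = 2 ^ m) (hK : Fintype.card K = 2 ^ (2 * m + 1)) :
    IsSimpleGroup ↥(twistedF4 K e) ∧ ¬ IsMulCommutative ↥(twistedF4 K e) := by
  have h2 : ∀ i : Fin 2, par^[1] i = 0 := by decide +kernel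
  exact (grp h hf).simple_group par 0 1 (irr h hf) h2 (perfect h hf hm he hK)

end
end WF4
end Cfsg.Agent.H6
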