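import Cfsg.Agent.H6.ToS
import Cfsg.Agent.H6.ToI
import Cfsg.Agent.H6.ToP
import Cfsg.Agent.H6.TwF4E

/-!
Root subgroups, torus and field automorphisms of the large Ree groups.
-/

set_option autoImplicit false
set_option linter.unusedSectionVars false
set_option maxHeartbeats 400000
set_option maxRecDepth 10000

namespace Cfsg.Agent.H6
open Cfsg.Lie
open scoped Matrix

section
variable {D : ChevalleyDatum} {N : ℕ} {η : ℕ → ℕ → ℤ} {rc : ℕ → ℕ → ℤ} {F : Type*} [Field F]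
  {m : ℕ} {rho inv lam pi : ℕ → ℕ} {ep : ℕ → ℤ} {e : ℕ} {σ : ↥(D.group F) →* ↥(D.group F)}
  {ι : Type} {L : ι → List (Fin D.rank)}

/-- any monomial representative may be used -/
theorem TwGrp.mem_YG' {h : TwCtx D N η rc F m rho inv lam pi ep e σ} {G₁ : Subgroup (GL D.Idx F)} (hT : TwGrp h L G₁) {j : ι} {n : ↥G₁}
    (hn : (n : GL D.Idx F) ∈ D.monomialSubgroup F) {χ : Fin D.nroots → Fˣ} (hm : Mon h.G (xg D F) (n : GL D.Idx F) (h.wJ L j) χ) {g : ↥G₁} :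
    g ∈ hT.YG j ↔ n⁻¹ * g * n ∈ hT.XG j := by
  rw [hT.mem_YG]
  obtain ⟨χ', hm'⟩ := hT.nJ_mon j
  have h1 : (((hT.sJ j)⁻¹ * n : ↥G₁) : GL D.Idx F) ∈ D.diagonalSubgroup F := by
    have h2 := hm'.inv.mul hm
    rw [inv_mul_cancel] at h2
    exact h.G.mem_diagonal_of_mon h.E (mul_mem (inv_mem (hT.nJ_mem j).1) hn) h2
  have h2 : (((hT.sJ j)⁻¹ * n : ↥G₁)⁻¹ : GL D.Idx F) ∈ D.diagonalSubgroup F := inv_mem h1
  constructor
  · intro hg
    have h3 := hT.XG_norm (c := ((hT.sJ j)⁻¹ * n)⁻¹) h2 hg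
    have e : ((hT.sJ j)⁻¹ * n)⁻¹ * ((hT.sJ j)⁻¹ * g * hT.sJ j) * ((hT.sJ j)⁻¹ * n)⁻¹⁻¹ = n⁻¹ * g * n := by group
    rwa [e] at h3
  · intro hg
    have h3 := hT.XG_norm (c := (hT.sJ j)⁻¹ * n) h1 hg
    have e : ((hT.sJ j)⁻¹ * n) * (n⁻¹ * g * n) * ((hT.sJ j)⁻¹ * n)⁻¹ = (hT.sJ j)⁻¹ * g * hT.sJ j := by group
    rwa [e] at h3

theorem TwGrp.conj_iff_YG {h : TwCtx D N η rc F m rho inv lam pi ep e σ} {G₁ : Subgroup (GL D.Idx F)} (hT : TwGrp h L G₁) {j : ι} {n : ↥G₁}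
    (hn : (n : GL D.Idx F) ∈ D.monomialSubgroup F) {χ : Fin D.nroots → Fˣ} (hm : Mon h.G (xg D F) (n : GL D.Idx F) (h.wJ L j) χ) {g : ↥G₁} :
    g ∈ hT.XG j ↔ n * g * n⁻¹ ∈ hT.YG j := by
  rw [hT.mem_YG' hn hm]
  have e : n⁻¹ * (n * g * n⁻¹) * n = g := by group
  rw [e]

theorem TwGrp.YG_of_US {h : TwCtx D N η rc F m rho inv lam pi ep e σ} {G₁ : Subgroup (GL D.Idx F)} (hT : TwGrp h L G₁) {j : ι} {g : ↥G₁}
    (hg : (g : GL D.Idx F) ∈ US (xg D F) {r | ∃ hr : r < D.nroots, (h.G.ngf ⟨r, hr⟩ : ℕ) ∈ h.G.Um (h.wJ L j)}) : g ∈ hT.YG j := by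
  rw [hT.mem_YG, hT.mem_XG]
  obtain ⟨χ, hm⟩ := hT.nJ_mon j
  have h1 := hm.inv.mem_US (S := {r | ∃ hr : r < D.nroots, (h.G.ngf ⟨r, hr⟩ : ℕ) ∈ h.G.Um (h.wJ L j)})
    (T := h.G.Um (h.wJ L j)) (fun r hr => hr.1) (fun r hr => by
      obtain ⟨hr1, hr2⟩ := hr
      have hr3 : ((h.G.ngf r : Fin D.nroots) : ℕ) ∈ h.G.Um (h.wJ L j) := hr2
      rw [h.G.mem_Um, h.G.W_neg, h.G.pos_ngf_iff, h.G.ngf_lt_iff] at hr3
      have hinv : (h.wJ L j)⁻¹ = h.wJ L j := inv_eq_of_mul_eq_one_left (h.wJ_sq hT.orb j)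
      rw [hinv, h.G.mem_Um]
      refine ⟨hr3.2, ?_⟩
      have h5 : (h.wJ L j).1 ((h.wJ L j).1 r) = r := congrArg (fun x : h.G.W => x.1 r) (h.wJ_sq hT.orb j)
      rw [h5]; exact hr3.1) hg
  rwa [inv_inv] at h1

theorem Chk.wp_eq {W : ℕ} {G : List (List ℕ)} {S P E CA CO MO : ℕ} {l n : ℕ} (h : Chk D l n W N G S P E CA CO MO) (hG : Good D N η rc)
    (A : List (Fin D.rank)) (r : Fin D.nroots) : ((wp hG.s A).1 r : ℕ) = rfP P (A.map Fin.val) r := by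
  obtain rfl := h.rank
  obtain rfl := h.nroots
  rw [wp_val hG A r, (rfw_eq h.hw hG.w_lt A r.2).1]

theorem Chk.long {W : ℕ} {G : List (List ℕ)} {S P E CA CO MO : ℕ} {l n : ℕ} (h : Chk D l n W N G S P E CA CO MO) (hG : Good D N η rc)
    (W0 : List (Fin D.rank)) (h1 : chkLong n N P (W0.map Fin.val) = true) (r : Fin D.nroots) : N ≤ (r : ℕ) ↔ ((wp hG.s W0).1 r : ℕ) < N := by
  rw [h.wp_eq hG]
  obtain rfl := h.rank
  obtain rfl := h.nroots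
  have h3 := allB_spec h1 r r.2
  have h4 : Nat.ble N r = Nat.ble (Nat.succ (rfP P (W0.map Fin.val) r)) N := by
    cases ha : Nat.ble N r <;> cases hb : Nat.ble (Nat.succ (rfP P (W0.map Fin.val) r)) N <;> simp_all
  constructor
  · intro h5
    have h6 := Nat.ble_eq_true_of_le h5
    rw [h4] at h6
    exact Nat.le_of_ble_eq_true h6
  · intro h5
    have h6 : Nat.ble (Nat.succ (rfP P (W0.map Fin.val) r)) N = true := Nat.ble_eq_true_of_le h5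
    rw [← h4] at h6
    exact Nat.le_of_ble_eq_true h6

end

namespace WF4

/-- the longest word -/
def W0 : List (Fin 4) := powL 4 (L 0 ++ L 1)
theorem long0 : chkLong 48 24 TF4.P (W0.map Fin.val) = true := by decide +kernel
theorem cen0 : ∀ j : Fin 2, ∀ r < 48, (24 ≤ r ∧ rfP TF4.P ((L j).map Fin.val) r < 24) →
    (24 ≤ rfP TF4.P ((L j).map Fin.val) (rfP TF4.P (W0.map Fin.val) r) ∧
      rfP TF4.P ((L j).map Fin.val) (rfP TF4.P ((L j).map Fin.val) (rfP TF4.P (W0.map Fin.val) r)) < 24) ∧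
    (24 ≤ rfP TF4.P (W0.map Fin.val) (rfP TF4.P ((L j).map Fin.val) r) ∧
      rfP TF4.P ((L j).map Fin.val) (rfP TF4.P (W0.map Fin.val) (rfP TF4.P ((L j).map Fin.val) r)) < 24) := by decide +kernel

section
variable {K : Type*} [Field K] {e : ℕ}
variable {σ : ↥(chevF4.group K) →* ↥(chevF4.group K)} (h : Ctx K e σ) (hf : Fl K e)

include h in
theorem hcen (w : h.G.W) (hw : ∀ r : Fin chevF4.nroots, 24 ≤ (r : ℕ) ↔ (w.1 r : ℕ) < 24) (j : Fin 2) (r : Fin chevF4.nroots)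
    (hr : (r : ℕ) ∈ h.G.Um (h.wJ LL j)) :
    (((h.wJ LL j).1 (w.1 r) : Fin chevF4.nroots) : ℕ) ∈ h.G.Um (h.wJ LL j) ∧ ((w.1 ((h.wJ LL j).1 r) : Fin chevF4.nroots) : ℕ) ∈ h.G.Um (h.wJ LL j) := by
  have hw0 : w = wp h.G.s (W0 : List (Fin chevF4.rank)) := h.G.longest_unique h.E hw (TF4.chk.long h.G W0 long0)
  have r48 : (r : ℕ) < 48 := lt_of_lt_of_eq r.2 nr
  have key : ∀ x : Fin chevF4.nroots, (((h.wJ LL j).1 x : Fin chevF4.nroots) : ℕ) = rfP TF4.P ((L j).map Fin.val) x := fun x => TF4.chk.wp_eq h.G (LL j) x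
  have key0 : ∀ x : Fin chevF4.nroots, ((w.1 x : Fin chevF4.nroots) : ℕ) = rfP TF4.P (W0.map Fin.val) x := by
    intro x
    rw [hw0]
    exact TF4.chk.wp_eq h.G (W0 : List (Fin chevF4.rank)) x
  rw [h.G.mem_Um, key] at hr
  rw [h.G.mem_Um, h.G.mem_Um]
  simp only [key, key0]
  exact cen0 j r r48 hr

/-- exponents -/
def exF (e : ℕ) (i : ℕ) : ℕ := if i = 0 then e else 1

theorem f0_eq (t : K) : f0 e t = fun i => t ^ exF e i := by
  funext i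
  unfold f0 exF
  split_ifs
  · rfl
  · rw [pow_one]

theorem exadd (hf : Fl K e) (i : ℕ) (t u : K) : (t + u) ^ exF e i = t ^ exF e i + u ^ exF e i := by
  unfold exF
  split_ifs
  · exact hf.add t u
  · rw [pow_one, pow_one, pow_one]

theorem pmem (hf : Fl K e) (b : Bool) (t : K) : pw chevF4 K b (LL 0) (fun i => t ^ exF e i) ∈ twistedF4 K e := by
  rw [← f0_eq]
  exact gen_mem b _ (key0 hf t)

/-- root elements of the first orbit -/
noncomputable def X0 (hf : Fl K e) (t : K) : ↥(twistedF4 K e) := ⟨pw chevF4 K true (LL 0) (fun i => t ^ exF e i), pmem hf true t⟩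
noncomputable def Y0 (hf : Fl K e) (t : K) : ↥(twistedF4 K e) := ⟨pw chevF4 K false (LL 0) (fun i => t ^ exF e i), pmem hf false t⟩
/-- root elements of the second orbit -/
noncomputable def SS (K : Type*) [Field K] (e : ℕ) (t u : K) : ↥(twistedF4 K e) := ⟨RF K e true t u, RF_mem true t u⟩

include h in
theorem r1F : TO.R1 (X0 hf) (Y0 hf) ∧ ∀ t : K, ((TO.nn (X0 hf) (Y0 hf) t : ↥(twistedF4 K e)) : GL chevF4.Idx K) = pn chevF4 K (LL 0) (fun i => t ^ exF e i) :=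
  corb_r1 h (grp h hf) corb0 (TF4.chk.umS h 0 ums0) (exF e) (exadd hf) (pmem hf)

include h in
theorem memX0 (g : ↥(twistedF4 K e)) : g ∈ (grp h hf).XG 0 ↔ ∃ t, g = X0 hf t := by
  rw [TwGrp.mem_XG]
  constructor
  · intro hx
    have hxf : (g : GL chevF4.Idx K) ∈ fixS σ := le_fix h hf g.2
    obtain ⟨t, ht, htx⟩ := h.G.exists_op' (h.G.rd h.E) (h.G.pClo_Um _) hx
    have h1 := (h.corb_fix_iff (grp h hf).orb corb0 (TF4.chk.umS h 0 ums0) t ht).1 (htx ▸ hxf)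
    have h2 := h1 _ in3
    change t (chevF4.simple (sP PT 3)) = t (chevF4.simple 3) ^ (lamF 2 LT (chevF4.simple 3) * e) at h2
    rw [p3, l3, one_mul] at h2
    refine ⟨t (chevF4.simple 3), Subtype.ext ?_⟩
    change (g : GL chevF4.Idx K) = pw chevF4 K true (LL 0) (fun i => t (chevF4.simple 3) ^ exF e i)
    rw [htx, h.op_eq_pw corb0 t]
    · apply pw_congr
      intro i hi
      rcases mem0 i hi with h3 | h3
      · rw [h3]; exact h2
      · rw [h3]; exact (pow_one _).symm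
    · intro r hr
      apply ht
      intro h2
      obtain ⟨i, hi, hie⟩ := TF4.chk.umS h 0 ums0 r h2
      exact hr i hi hie
  · rintro ⟨t, rfl⟩
    change pw chevF4 K true (LL 0) (fun i => t ^ exF e i) ∈ _
    unfold pw
    apply Subgroup.list_prod_mem
    intro x hx
    rw [List.mem_map] at hx
    obtain ⟨i, hi, rfl⟩ := hx
    exact mem_US ((h.simple_mem_Um_wJ (grp h hf).orb).2 hi) _

include h in
theorem memX1 (g : ↥(twistedF4 K e)) : g ∈ (grp h hf).XG 1 ↔ ∃ t u, g = SS K e t u := by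
  rw [TwGrp.mem_XG]
  constructor
  · intro hx
    obtain ⟨t, u, htu⟩ := (fix_iff h hf).1 (Subgroup.mem_inf.2 ⟨hx, le_fix h hf g.2⟩)
    exact ⟨t, u, Subtype.ext htu⟩
  · rintro ⟨t, u, rfl⟩
    exact ((fix_iff h hf).2 ⟨t, u, rfl⟩).1

include h in
theorem memY0 (g : ↥(twistedF4 K e)) : g ∈ (grp h hf).YG 0 ↔ ∃ t, g = Y0 hf t := by
  obtain ⟨hr, hc⟩ := r1F h hf
  have h1 : ∀ i ∈ LL 0, (1 : K) ^ exF e (i : Fin chevF4.rank) ≠ 0 := fun i _ => by rw [one_pow]; exact one_ne_zero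
  obtain ⟨hn, χ, hm⟩ := pn_mon (A := LL 0) h.G h.E (c := fun i => (1 : K) ^ exF e i) h1
  rw [← hc] at hn hm
  rw [(grp h hf).mem_YG' hn hm, memX0 h hf]
  have hn1 := hr.nX 1 one_ne_zero
  constructor
  · rintro ⟨t, ht⟩
    refine ⟨-(1⁻¹) ^ 2 * t, ?_⟩
    rw [← hn1, ← ht]; group
  · rintro ⟨t, rfl⟩
    refine ⟨-t, ?_⟩
    have h2 := hn1 (-t)
    rw [inv_one, one_pow, neg_one_mul, neg_neg] at h2
    rw [← h2]; group

/-- conjugation by the torus -/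
theorem hh_act (h : Ctx K e σ) (x y : Kˣ) (r : Fin chevF4.nroots) (t : K) : hh K e x y * xg chevF4 K r t * (hh K e x y)⁻¹ =
    xg chevF4 K r (((x ^ ((e : ℤ) * chevF4.cartan 0 r + chevF4.cartan 3 r)) * (y ^ ((e : ℤ) * chevF4.cartan 1 r + chevF4.cartan 2 r)) : Kˣ) * t) := by
  have h1 := (TF4.good.mon_PhiH (![x ^ e, y ^ e, y, x] : Fin 4 → Kˣ)).act r t
  change hh K e x y * xg chevF4 K r t * (hh K e x y)⁻¹ = xg chevF4 K r (((∏ k : Fin 4, (![x ^ e, y ^ e, y, x] : Fin 4 → Kˣ) k ^ chevF4.cartan k r : Kˣ) : K) * t) at h1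
  rw [h1, hh_chr]

end
end WF4
end Cfsg.Agent.H6
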