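import Cfsg.Agent.H6.ToT

/-!
The outer automorphism group of the large Ree groups.
-/

set_option autoImplicit false
set_option linter.unusedSectionVars false
set_option maxHeartbeats 400000
set_option maxRecDepth 10000

namespace Cfsg.Agent.H6
open Cfsg.Lie
open scoped Matrix

namespace WF4

section par
variable {K : Type*} [Field K] (r : Kˣ →* Kˣ)

def ca (x y : Kˣ) : Kˣ := x ^ 2 * y⁻¹
def cb (x y : Kˣ) : Kˣ := y ^ 2 * (r y)⁻¹ * x⁻¹
def ww (a b : Kˣ) : Kˣ := b * a ^ 2 * (r a)⁻¹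
def xx (a b : Kˣ) : Kˣ := ww r a b ^ 3 * (r (ww r a b)) ^ 2
def yy (a b : Kˣ) : Kˣ := xx r a b ^ 2 * a⁻¹

theorem ca_xx (a b : Kˣ) : ca (xx r a b) (yy r a b) = a := by
  unfold ca yy
  rw [mul_inv_rev, inv_inv, mul_comm a, ← mul_assoc, mul_inv_cancel, one_mul]

variable {r} (hr : ∀ z, r (r z) = z ^ 2)
include hr

theorem cb_xx (a b : Kˣ) : cb r (xx r a b) (yy r a b) = b := by
  have h1 : r (xx r a b) = r (ww r a b) ^ 3 * ww r a b ^ 4 := by
    unfold xx
    rw [map_mul, map_pow, map_pow, hr, ← pow_mul]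
  unfold cb yy
  rw [map_mul, map_pow, map_inv, h1]
  have h2 : ww r a b = b * a ^ 2 * (r a)⁻¹ := rfl
  have h3 : b = ww r a b * (a ^ 2)⁻¹ * r a := by
    rw [h2]; apply Units.ext; push_cast; field_simp
  unfold xx
  conv_rhs => rw [h3]
  generalize ww r a b = w
  generalize r w = W
  generalize r a = A
  apply Units.ext; push_cast; field_simp

theorem xx_c (x y : Kˣ) : xx r (ca x y) (cb r x y) = x := by
  have h1 : ww r (ca x y) (cb r x y) = x ^ 3 * (r x ^ 2)⁻¹ := by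
    unfold ww ca cb
    rw [map_mul, map_pow, map_inv]
    generalize r x = X
    generalize r y = Y
    apply Units.ext; push_cast; field_simp
  unfold xx
  rw [h1, map_mul, map_pow, map_inv, map_pow, hr]
  generalize r x = X
  apply Units.ext; push_cast; field_simp

theorem yy_c (x y : Kˣ) : yy r (ca x y) (cb r x y) = y := by
  unfold yy
  rw [xx_c hr]
  unfold ca
  apply Units.ext; push_cast; field_simp

end par

theorem carA : chevF4.cartan 0 (chevF4.simple 0) = 2 ∧ chevF4.cartan 1 (chevF4.simple 0) = -1 ∧ chevF4.cartan 2 (chevF4.simple 0) = 0 ∧ chevF4.cartan 3 (chevF4.simple 0) = 0 := by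
  decide +kernel
theorem carB : chevF4.cartan 0 (chevF4.simple 3) = 0 ∧ chevF4.cartan 1 (chevF4.simple 3) = 0 ∧ chevF4.cartan 2 (chevF4.simple 3) = -1 ∧ chevF4.cartan 3 (chevF4.simple 3) = 2 := by
  decide +kernel
theorem car25 : chevF4.cartan 0 25 = 0 ∧ chevF4.cartan 1 25 = -2 ∧ chevF4.cartan 2 25 = 2 ∧ chevF4.cartan 3 25 = -1 := by decide +kernel
theorem car28 : chevF4.cartan 0 28 = -1 ∧ chevF4.cartan 1 28 = 0 ∧ chevF4.cartan 2 28 = 1 ∧ chevF4.cartan 3 28 = -1 := by decide +kernel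

section
variable {K : Type*} [Field K] {e : ℕ}

theorem cm4 : ∀ r ∈ [28, 30], ∀ s ∈ [27, 25], r < chevF4.nroots ∧ s < chevF4.nroots ∧ s ≠ chevF4.neg r ∧ cm0 2 chevF4.chainEntry r s = true := by decide +kernel

theorem cm4' (h2 : (2 : K) = 0) {r s : ℕ} (hr : r ∈ [28, 30]) (hs : s ∈ [27, 25]) (p q : K) : Commute (xg chevF4 K r p) (xg chevF4 K s q) := by
  obtain ⟨k1, k2, k3, k4⟩ := cm4 r hr s hs
  exact comm_of_cm0 TF4.good TF4.ext (m := 2) (by exact_mod_cast h2) k1 k2 k3 k4 p q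

theorem NF_mul (h2 : (2 : K) = 0) (x y p q x' y' p' q' : K) : NF K true x y p q * NF K true x' y' p' q' =
    NF K true (x + x') (y + y') (p + p' + x' * y) (q + q' + x' ^ 2 * y) := by
  have cca : ∀ p q : K, Commute (Xc K true p) (Xa K true q) := fun p q => cm4' h2 (by decide) (by decide) p q
  have cda : ∀ p q : K, Commute (Xd K true p) (Xa K true q) := fun p q => cm4' h2 (by decide) (by decide) p q
  have ccb : ∀ p q : K, Commute (Xc K true p) (Xb K true q) := fun p q => cm4' h2 (by decide) (by decide) p q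
  have cdb : ∀ p q : K, Commute (Xd K true p) (Xb K true q) := fun p q => cm4' h2 (by decide) (by decide) p q
  have aA : ∀ p q : K, Xa K true (p + q) = Xa K true p * Xa K true q := fun p q => TF4.good.xg_add _ _ _
  have aB : ∀ p q : K, Xb K true (p + q) = Xb K true p * Xb K true q := fun p q => TF4.good.xg_add _ _ _
  have c1 : Commute (Xc K true p * Xd K true q) (Xa K true x') := (cca _ _).mul_left (cda _ _)
  have c2 : ∀ p q, Commute (Xc K true p * Xd K true q) (Xb K true y') := fun p q => (ccb _ _).mul_left (cdb _ _)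
  unfold NF
  calc Xa K true x * Xb K true y * (Xc K true p * Xd K true q) * (Xa K true x' * Xb K true y' * (Xc K true p' * Xd K true q'))
      = Xa K true x * Xb K true y * ((Xc K true p * Xd K true q) * Xa K true x') * Xb K true y' * (Xc K true p' * Xd K true q') := by simp only [mul_assoc]
    _ = Xa K true x * (Xb K true y * Xa K true x') * (Xc K true p * Xd K true q) * Xb K true y' * (Xc K true p' * Xd K true q') := by
        rw [c1.eq]; simp only [mul_assoc]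
    _ = Xa K true x * Xa K true x' * Xb K true y * ((Xc K true (x' * y) * Xd K true (x' ^ 2 * y)) * (Xc K true p * Xd K true q)) * Xb K true y' *
        (Xc K true p' * Xd K true q') := by rw [rel_ba h2]; simp only [mul_assoc]
    _ = Xa K true (x + x') * Xb K true y * ((Xc K true (x' * y + p) * Xd K true (x' ^ 2 * y + q)) * Xb K true y') * (Xc K true p' * Xd K true q') := by
        rw [cd_mul h2, aA]; simp only [mul_assoc]
    _ = Xa K true (x + x') * (Xb K true y * Xb K true y') * ((Xc K true (x' * y + p) * Xd K true (x' ^ 2 * y + q)) * (Xc K true p' * Xd K true q')) := by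
        rw [(c2 _ _).eq]; simp only [mul_assoc]
    _ = _ := by
        rw [cd_mul h2, ← aB]
        congr 2
        · congr 1; ring
        · congr 1; ring

variable {σ : ↥(chevF4.group K) →* ↥(chevF4.group K)} (h : Ctx K e σ) (hf : Fl K e)

/-- the field endomorphism -/
noncomputable def phi (hf : Fl K e) : K →+* K where
  toFun t := t ^ e
  map_one' := one_pow e
  map_zero' := pow_e_zero hf
  map_add' := hf.add
  map_mul' a b := mul_pow a b e

theorem phi_eq (t : K) : phi hf t = t ^ e := rfl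

/-- the square map on units -/
noncomputable abbrev rr' (K : Type*) [Field K] (e : ℕ) : Kˣ →* Kˣ := powMonoidHom (2 * e)

theorem hrr (hf : Fl K e) (z : Kˣ) : rr' K e (rr' K e z) = z ^ 2 := by
  change (z ^ (2 * e)) ^ (2 * e) = z ^ 2
  rw [mul_comm 2 e, pow_mul z, mul_comm e 2]
  have h1 := hu hf z
  calc ((z ^ e) ^ 2) ^ (2 * e) = ((z ^ e) ^ (2 * e)) ^ 2 := by rw [← pow_mul, ← pow_mul (z ^ e) (2 * e), mul_comm 2]
    _ = z ^ 2 := by rw [h1]

include h in
theorem hh_X0 (x y : Kˣ) (t : K) : hh K e x y * pw chevF4 K true (LL 0) (fun i => t ^ exF e i) * (hh K e x y)⁻¹ =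
    pw chevF4 K true (LL 0) (fun i => ((ca x y : Kˣ) * t) ^ exF e i) := by
  apply conj_pw h.G
  intro i hi
  have h1 := hh_act h x y (h.G.sr i) (t ^ exF e i)
  change hh K e x y * xg chevF4 K (chevF4.simple i) (t ^ exF e i) * (hh K e x y)⁻¹ =
    xg chevF4 K (chevF4.simple i) (((x ^ ((e : ℤ) * chevF4.cartan 0 (chevF4.simple i) + chevF4.cartan 3 (chevF4.simple i))) *
      (y ^ ((e : ℤ) * chevF4.cartan 1 (chevF4.simple i) + chevF4.cartan 2 (chevF4.simple i))) : Kˣ) * t ^ exF e i) at h1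
  change hh K e x y * xg chevF4 K (chevF4.simple i) (t ^ exF e i) * (hh K e x y)⁻¹ = xg chevF4 K (chevF4.simple i) (((ca x y : Kˣ) * t) ^ exF e i)
  rw [h1]
  congr 1
  rw [mul_pow]
  congr 1
  rw [← Units.val_pow_eq_pow_val]
  congr 1
  rcases mem0 i hi with h3 | h3
  · rw [h3]
    obtain ⟨c0, c1, c2, c3⟩ := carA
    rw [c0, c1, c2, c3]
    change _ = (x ^ 2 * y⁻¹) ^ e
    rw [add_zero, add_zero, mul_pow, zpow_mul, zpow_mul, zpow_natCast, zpow_natCast, zpow_neg, zpow_one, zpow_ofNat, ← pow_mul, ← pow_mul, mul_comm 2 e, inv_pow]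
  · rw [h3]
    obtain ⟨c0, c1, c2, c3⟩ := carB
    rw [c0, c1, c2, c3]
    change _ = (x ^ 2 * y⁻¹) ^ 1
    rw [mul_zero, zero_add, zero_add, pow_one, zpow_neg, zpow_one, zpow_ofNat]

/-- characters -/
def chF (e : ℕ) (x y : Kˣ) (r : ℕ) : Kˣ :=
  (x ^ ((e : ℤ) * chevF4.cartan 0 r + chevF4.cartan 3 r)) * (y ^ ((e : ℤ) * chevF4.cartan 1 r + chevF4.cartan 2 r))

include h in
theorem hh_NF (x y : Kˣ) (a b c d : K) : hh K e x y * NF K true a b c d * (hh K e x y)⁻¹ =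
    NF K true ((chF e x y 27 : Kˣ) * a) ((chF e x y 25 : Kˣ) * b) ((chF e x y 28 : Kˣ) * c) ((chF e x y 30 : Kˣ) * d) := by
  have k27 : hh K e x y * xg chevF4 K 27 a * (hh K e x y)⁻¹ = xg chevF4 K 27 ((chF e x y 27 : Kˣ) * a) := hh_act h x y ⟨27, by rw [nr]; norm_num⟩ a
  have k25 : hh K e x y * xg chevF4 K 25 b * (hh K e x y)⁻¹ = xg chevF4 K 25 ((chF e x y 25 : Kˣ) * b) := hh_act h x y ⟨25, by rw [nr]; norm_num⟩ b
  have k28 : hh K e x y * xg chevF4 K 28 c * (hh K e x y)⁻¹ = xg chevF4 K 28 ((chF e x y 28 : Kˣ) * c) := hh_act h x y ⟨28, by rw [nr]; norm_num⟩ c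
  have k30 : hh K e x y * xg chevF4 K 30 d * (hh K e x y)⁻¹ = xg chevF4 K 30 ((chF e x y 30 : Kˣ) * d) := hh_act h x y ⟨30, by rw [nr]; norm_num⟩ d
  change hh K e x y * (xg chevF4 K 27 a * xg chevF4 K 25 b * (xg chevF4 K 28 c * xg chevF4 K 30 d)) * (hh K e x y)⁻¹ =
    xg chevF4 K 27 _ * xg chevF4 K 25 _ * (xg chevF4 K 28 _ * xg chevF4 K 30 _)
  rw [← k27, ← k25, ← k28, ← k30]
  group

include h hf in
theorem hh_RF (x y : Kˣ) (t u : K) : hh K e x y * RF K e true t u * (hh K e x y)⁻¹ =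
    RF K e true ((cb (rr' K e) x y : Kˣ) * t) ((cb (rr' K e) x y : Kˣ) * (cb (rr' K e) x y : Kˣ) ^ e * u) := by
  have hT := grp h hf
  have h0 : hh K e x y * RF K e true t u * (hh K e x y)⁻¹ ∈ US (xg chevF4 K) (h.G.Um (h.wJ LL 1)) ⊓ fixS σ := by
    have h1 := (diag_iff h hf).2 ⟨x, y, rfl⟩
    have h2 := hT.XG_norm (c := ⟨hh K e x y, h1.2⟩) h1.1 ((memX1 h hf (SS K e t u)).2 ⟨t, u, rfl⟩)
    exact Subgroup.mem_inf.2 ⟨h2, le_fix h hf (mul_mem (mul_mem h1.2 (RF_mem true t u)) (inv_mem h1.2))⟩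
  obtain ⟨t', u', h1⟩ := (fix_iff h hf).1 h0
  have h2 := hh_NF h x y (t ^ e) t (t ^ (e + 1) + u) (u ^ (2 * e))
  change hh K e x y * RF K e true t u * (hh K e x y)⁻¹ = _ at h2
  rw [h1] at h2 ⊢
  unfold RF at h2
  obtain ⟨-, h3, h4, -⟩ := NF_inj hf.two h2
  have a1 : (x ^ ((e : ℤ) * chevF4.cartan 0 25 + chevF4.cartan 3 25)) * (y ^ ((e : ℤ) * chevF4.cartan 1 25 + chevF4.cartan 2 25)) = cb (rr' K e) x y := by
    obtain ⟨c0, c1, c2, c3⟩ := car25
    rw [c0, c1, c2, c3]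
    change _ = y ^ 2 * (y ^ (2 * e))⁻¹ * x⁻¹
    rw [mul_zero, zero_add, zpow_neg, zpow_one, zpow_add, mul_comm (e : ℤ) (-2), ← neg_mul_eq_neg_mul, zpow_neg, zpow_ofNat, mul_comm]
    congr 1
    rw [mul_comm]
    congr 2
  have a2 : (x ^ ((e : ℤ) * chevF4.cartan 0 28 + chevF4.cartan 3 28)) * (y ^ ((e : ℤ) * chevF4.cartan 1 28 + chevF4.cartan 2 28)) =
      cb (rr' K e) x y * (cb (rr' K e) x y) ^ e := by
    obtain ⟨c0, c1, c2, c3⟩ := car28
    rw [c0, c1, c2, c3]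
    change _ = y ^ 2 * (y ^ (2 * e))⁻¹ * x⁻¹ * (y ^ 2 * (y ^ (2 * e))⁻¹ * x⁻¹) ^ e
    have h5 : (y ^ (2 * e)) ^ e = y := by rw [← pow_mul, mul_comm (2 * e) e, pow_mul, hu hf]
    have h6 : (y ^ 2 * (y ^ (2 * e))⁻¹ * x⁻¹) ^ e = y ^ (2 * e) * y⁻¹ * (x ^ e)⁻¹ := by
      rw [mul_pow, mul_pow, inv_pow, inv_pow, h5, ← pow_mul]
    rw [h6, mul_zero, zero_add, zpow_one, zpow_add, mul_neg, mul_one, zpow_neg, zpow_neg, zpow_one, zpow_natCast]
    apply Units.ext; push_cast; field_simp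
  have h3' : t' = (cb (rr' K e) x y : Kˣ) * t := by
    rw [h3]
    congr 1
    exact congrArg Units.val a1
  have h4' : t' ^ (e + 1) + u' = (cb (rr' K e) x y : Kˣ) * (cb (rr' K e) x y : Kˣ) ^ e * (t ^ (e + 1) + u) := by
    rw [h4]
    congr 1
    refine (congrArg Units.val a2).trans ?_
    push_cast
    rfl
  have h5 : u' = (cb (rr' K e) x y : Kˣ) * (cb (rr' K e) x y : Kˣ) ^ e * u := by
    rw [h3', mul_pow, pow_succ, pow_succ] at h4'
    linear_combination h4'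
  rw [h3', h5]

theorem hh_hp (x : Kˣ) : hp chevF4 K (LL 0) (fun i => (x : K) ^ exF e i) = hh K e x 1 := by
  have h2 := PhiH_eq_prod (F := K) TF4.good (![x ^ e, 1 ^ e, 1, x] : Fin 4 → Kˣ) (M := ([(0 : Fin 4), 3, 1, 2] : List (Fin 4))) perm4
  have h3 : (List.map (fun i : Fin chevF4.rank => hX chevF4 (xg chevF4 K) (chevF4.simple (i : ℕ)) (((![x ^ e, 1 ^ e, 1, x] : Fin 4 → Kˣ) i : Kˣ) : K))
      ([(0 : Fin 4), 3, 1, 2] : List (Fin 4))).prod =
      hX chevF4 (xg chevF4 K) (chevF4.simple ((0 : Fin 4) : ℕ)) ((x ^ e : Kˣ) : K) *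
      (hX chevF4 (xg chevF4 K) (chevF4.simple ((3 : Fin 4) : ℕ)) (x : K) *
      (hX chevF4 (xg chevF4 K) (chevF4.simple ((1 : Fin 4) : ℕ)) ((1 ^ e : Kˣ) : K) *
      (hX chevF4 (xg chevF4 K) (chevF4.simple ((2 : Fin 4) : ℕ)) ((1 : Kˣ) : K) * 1))) := rfl
  have h4 : ∀ i : ℕ, i < chevF4.rank → hX chevF4 (xg chevF4 K) (chevF4.simple i) ((1 : Kˣ) : K) = 1 := by
    intro i hi
    rw [hX_eq_tor TF4.good hi]
    simp only [one_zpow]
    exact tor_one
  symm
  change PhiH chevF4 K 4 ![x ^ e, 1 ^ e, 1, x] = _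
  refine h2.trans (h3.trans ?_)
  rw [one_pow, h4 _ (by decide +kernel), h4 _ (by decide +kernel)]
  change _ = hX chevF4 (xg chevF4 K) (chevF4.simple ((0 : Fin 4) : ℕ)) ((x : K) ^ exF e 0) *
      (hX chevF4 (xg chevF4 K) (chevF4.simple ((3 : Fin 4) : ℕ)) ((x : K) ^ exF e 3) * 1)
  rw [show exF e 0 = e from rfl, show exF e 3 = 1 from rfl, pow_one, Units.val_pow_eq_pow_val]
  simp only [mul_one]

end
end WF4
end Cfsg.Agent.H6
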