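import Cfsg.Agent.H6.ToU

/-!
The outer automorphism group of the large Ree groups: conclusion.
-/

set_option autoImplicit false
set_option linter.unusedSectionVars false
set_option maxHeartbeats 400000
set_option maxRecDepth 10000

namespace Cfsg.Agent.H6
open Cfsg.Lie
open scoped Matrix

namespace WF4

section
variable {K : Type*} [Field K] {e : ℕ}

theorem gmap_pw (s : K ≃+* K) (b : Bool) (A : List (Fin chevF4.rank)) (f : ℕ → K) : gmap chevF4 s (pw chevF4 K b A f) = pw chevF4 K b A (fun i => s (f i)) := by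
  unfold pw
  rw [map_list_prod, List.map_map]
  congr 1
  apply List.map_congr_left
  intro i _
  change gmap chevF4 s (sx chevF4 K b i (f i)) = _
  unfold sx
  exact TF4.good.gmap_xg s _ _

theorem gmap_RF (s : K ≃+* K) (b : Bool) (t u : K) : gmap chevF4 s (RF K e b t u) = RF K e b (s t) (s u) := by
  unfold RF NF Xa Xb Xc Xd
  simp only [map_mul, TF4.good.gmap_xg s, map_add, map_pow]

variable {σ : ↥(chevF4.group K) →* ↥(chevF4.group K)} (h : Ctx K e σ) (hf : Fl K e)

include hf in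
theorem gmap_mem (s : K ≃+* K) {g : GL chevF4.Idx K} (hg : g ∈ twistedF4 K e) : gmap chevF4 s g ∈ twistedF4 K e := by
  have h1 : twistedF4 K e ≤ (twistedF4 K e).comap (gmap chevF4 s) := by
    apply gen_le TF4.good
    rintro w (⟨t, rfl | rfl⟩ | ⟨t, u, rfl | rfl⟩)
    · have h1 := pair_eq (K := K) (e := e) true t
      change wg chevF4 K (f4PairWord e f4p1 f4p4 t) = _ at h1
      rw [h1, Subgroup.mem_comap, f0_eq, gmap_pw]
      simp only [map_pow]
      exact pmem hf true _
    · have h1 := pair_eq (K := K) (e := e) false t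
      change wg chevF4 K (f4PairWord e f4m1 f4m4 t) = _ at h1
      rw [h1, Subgroup.mem_comap, f0_eq, gmap_pw]
      simp only [map_pow]
      exact pmem hf false _
    · have h1 := RF_wg (K := K) (e := e) true t u
      change _ = wg chevF4 K (b2ClassWord e f4a f4b f4ab f4aab t u) at h1
      rw [← h1, Subgroup.mem_comap, gmap_RF]
      exact RF_mem _ _ _
    · have h1 := RF_wg (K := K) (e := e) false t u
      change _ = wg chevF4 K (b2ClassWord e f4ma f4mb f4mab f4maab t u) at h1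
      rw [← h1, Subgroup.mem_comap, gmap_RF]
      exact RF_mem _ _ _
  exact h1 hg

include h in
theorem RFf_YG (t u : K) : (⟨RF K e false t u, RF_mem false t u⟩ : ↥(twistedF4 K e)) ∈ (grp h hf).YG 1 := by
  have hS : ∀ i, i = 20 ∨ i = 22 ∨ i = 19 ∨ i = 17 → i ∈ {r | ∃ hr : r < chevF4.nroots, (h.G.ngf ⟨r, hr⟩ : ℕ) ∈ h.G.Um (h.wJ LL 1)} := by
    intro i hi
    have hi' : i < chevF4.nroots := by rw [nr]; omega
    refine ⟨hi', (mem_Um1 h).2 ?_⟩
    change chevF4.neg i = 25 ∨ chevF4.neg i = 27 ∨ chevF4.neg i = 28 ∨ chevF4.neg i = 30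
    have key : ∀ i < 48, i = 20 ∨ i = 22 ∨ i = 19 ∨ i = 17 → chevF4.neg i = 25 ∨ chevF4.neg i = 27 ∨ chevF4.neg i = 28 ∨ chevF4.neg i = 30 := by decide +kernel
    exact key i (by omega) hi
  apply (grp h hf).YG_of_US
  change RF K e false t u ∈ _
  unfold RF NF
  exact mul_mem (mul_mem (mem_US (hS 20 (by norm_num)) _) (mem_US (hS 22 (by norm_num)) _))
    (mul_mem (mem_US (hS 19 (by norm_num)) _) (mem_US (hS 17 (by norm_num)) _))

/-- torus elements with given action -/
noncomputable def HH (h : Ctx K e σ) (hf : Fl K e) (a b : Kˣ) : ↥(twistedF4 K e) :=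
  ⟨hh K e (xx (rr' K e) a b) (yy (rr' K e) a b), hh_mem h hf _ _⟩

theorem hh_eq_HH (x y : Kˣ) : (⟨hh K e x y, hh_mem h hf x y⟩ : ↥(twistedF4 K e)) = HH h hf (ca x y) (cb (rr' K e) x y) := by
  unfold HH
  apply Subtype.ext
  change hh K e x y = hh K e (xx (rr' K e) (ca x y) (cb (rr' K e) x y)) (yy (rr' K e) (ca x y) (cb (rr' K e) x y))
  rw [xx_c (hrr hf), yy_c (hrr hf)]

theorem hh_inj {x y x' y' : Kˣ} (he : hh K e x y = hh K e x' y') : x = x' ∧ y = y' := by
  have h0 := PhiH_inj he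
  have h1 : y = y' := congrFun h0 2
  have h2 : x = x' := congrFun h0 3
  exact ⟨h2, h1⟩

theorem exists_fd [Fintype K] {m : ℕ} (hm : 1 ≤ m) (hK : Fintype.card K = 2 ^ (2 * m + 1)) :
    ∃ n0, TO.FD (grp h hf).bnPair₁ ((chevF4.posUnipotent K).subgroupOf (twistedF4 K e)) ((chevF4.negUnipotent K).subgroupOf (twistedF4 K e)) n0
      (grp h hf).sJ (grp h hf).XG (grp h hf).YG (phi hf) (X0 hf) (Y0 hf) (SS K e) (HH h hf) := by
  have hq : 1 < Fintype.card K := Fintype.one_lt_card
  obtain ⟨n0, hod⟩ := (grp h hf).exists_OD1 (hcen h) (by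
    intro i j hij
    rw [cards h hf, cards h hf] at hij
    have := Nat.pow_right_injective hq hij
    exact Fin.ext (by simpa using this))
  obtain ⟨hr, hc⟩ := r1F h hf
  refine ⟨n0, ?_⟩
  refine
    { o1 := hod
      r1 := hr
      memX0 := memX0 h hf
      memY0 := memY0 h hf
      memX1 := memX1 h hf
      memT := ?_
      Hinj := ?_
      act0 := ?_
      act1 := ?_
      two := hf.two
      φφ := ?_
      ne := ?_
      Sinj := ?_
      Smul := ?_
      cross := ?_
      y1 := ?_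
      gen := ?_
      fld := ?_ }
  · intro g
    rw [(grp h hf).mem_T]
    constructor
    · intro hg
      obtain ⟨x, y, hx⟩ := (diag_iff h hf).1 (Subgroup.mem_inf.2 ⟨hg, g.2⟩)
      refine ⟨ca x y, cb (rr' K e) x y, ?_⟩
      rw [← hh_eq_HH h hf]
      exact Subtype.ext hx
    · rintro ⟨a, b, rfl⟩
      exact ((diag_iff h hf).2 ⟨_, _, rfl⟩).1
  · intro a b a' b' he
    obtain ⟨h1, h2⟩ := hh_inj (congrArg Subtype.val he)
    have e1 := ca_xx (rr' K e) a b
    have e2 := cb_xx (hrr hf) a b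
    rw [h1, h2] at e1 e2
    rw [ca_xx] at e1
    rw [cb_xx (hrr hf)] at e2
    exact ⟨e1.symm, e2.symm⟩
  · intro a b t
    apply Subtype.ext
    refine (hh_X0 h (xx (rr' K e) a b) (yy (rr' K e) a b) t).trans ?_
    rw [ca_xx]
    rfl
  · intro a b t u
    apply Subtype.ext
    refine (hh_RF h hf (xx (rr' K e) a b) (yy (rr' K e) a b) t u).trans ?_
    rw [cb_xx (hrr hf)]
    rfl
  · intro t
    rw [phi_eq, phi_eq, ← pow_mul, mul_comm e 2]
    exact hf.sq t
  · by_contra hcn
    push Not at hcn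
    have h3 : ∀ t : K, t ^ 2 = t := by
      intro t
      have h4 := hf.sq t
      rw [mul_comm 2 e, pow_mul] at h4
      have h5 : (t ^ e) ^ e = t := by
        have := hcn t
        rw [phi_eq] at this
        rw [this, this]
      rwa [h5] at h4
    have h4 : Fintype.card K ≤ 2 := by
      classical
      have h5 : (Polynomial.X ^ 2 - Polynomial.X : Polynomial K) ≠ 0 := by
        intro h6
        have h7 := congrArg (fun p => Polynomial.coeff p 2) h6
        simp [Polynomial.coeff_X] at h7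
      have h6 : (Finset.univ : Finset K).card ≤ (Polynomial.X ^ 2 - Polynomial.X : Polynomial K).roots.toFinset.card := by
        apply Finset.card_le_card
        intro x _
        rw [Multiset.mem_toFinset, Polynomial.mem_roots h5]
        simp [Polynomial.IsRoot, h3]
      refine h6.trans ((Multiset.toFinset_card_le _).trans ((Polynomial.card_roots' _).trans ?_))
      refine (Polynomial.natDegree_sub_le _ _).trans ?_
      simp
    rw [hK] at h4
    have h5 : 2 ^ 3 ≤ 2 ^ (2 * m + 1) := Nat.pow_le_pow_right (by norm_num) (by omega)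
    omega
  · intro t u t' u' he
    exact RF_inj hf (congrArg Subtype.val he)
  · intro t u t' u'
    apply Subtype.ext
    change RF K e true t u * RF K e true t' u' = RF K e true (t + t') (u + u' + t ^ e * t')
    unfold RF
    rw [NF_mul hf.two]
    congr 1
    · exact (hf.add t t').symm
    · rw [pow_succ, pow_succ, pow_succ, hf.add]
      linear_combination (-(t ^ e * t')) * hf.two
    · have e1 : (t' ^ e) ^ 2 = t' ^ (2 * e) := by rw [← pow_mul, mul_comm]
      rw [hf.add2, hf.add2, mul_pow, hf.sq, e1]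
      ring
  · intro t
    refine ⟨t ^ 2, ?_⟩
    have h1 := hh_eq_HH h hf t 1
    have h2 : ca t 1 = t ^ 2 := by unfold ca; rw [inv_one, mul_one]
    have h3 : cb (rr' K e) t 1 = t⁻¹ := by unfold cb; rw [map_one, inv_one, one_pow, one_mul, one_mul]
    rw [h2, h3] at h1
    rw [← h1]
    apply Subtype.ext
    rw [Subgroup.coe_mul, Subgroup.coe_inv, hc, hc, corb0.pn_hp h.G]
    have h4 : pn chevF4 K (LL 0) (fun i => (1 : K) ^ exF e i) = pn chevF4 K (LL 0) (fun _ => 1) := by
      congr 1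
      funext i
      exact one_pow _
    rw [h4, mul_inv_cancel_right]
    exact hh_hp t
  · have hn1 := n1_eq (K := K) (e := e) hf
    refine ⟨(SS K e 1 0)⁻¹, inv_mem ((memX1 h hf _).2 ⟨1, 0, rfl⟩), ⟨RF K e false 1 0, RF_mem false 1 0⟩, RFf_YG h hf 1 0,
      (SS K e 1 0)⁻¹ * (SS K e 1 0)⁻¹, mul_mem (inv_mem ((memX1 h hf _).2 ⟨1, 0, rfl⟩)) (inv_mem ((memX1 h hf _).2 ⟨1, 0, rfl⟩)), ?_⟩
    intro g
    obtain ⟨χ, hmn⟩ := h.G.mon_nwd (h.G.rdn (F := K) h.E) (LL 1)
    have hcoe : (((SS K e 1 0)⁻¹ * ⟨RF K e false 1 0, RF_mem false 1 0⟩ * ((SS K e 1 0)⁻¹ * (SS K e 1 0)⁻¹) : ↥(twistedF4 K e)) : GL chevF4.Idx K) =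
        Good.nwd (xg chevF4 K) (LL 1) := by
      rw [hn1, ← mul_assoc]
      rfl
    have hmon : Good.nwd (xg chevF4 K) (LL 1) ∈ chevF4.monomialSubgroup K := by
      rw [← h.G.NA_eq, h.G.mem_NA (h.G.rdn (F := K) h.E)]; exact ⟨LL 1, 1, one_mem _, by rw [mul_one]⟩
    rw [← hcoe] at hmn hmon
    exact (grp h hf).conj_iff_YG hmon hmn
  · intro M hX hY
    have h1 : twistedF4 K e ≤ M.map (twistedF4 K e).subtype := by
      apply gen_le TF4.good
      rintro w (⟨t, rfl | rfl⟩ | ⟨t, u, rfl | rfl⟩)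
      · have h1 := pair_eq (K := K) (e := e) true t
        change wg chevF4 K (f4PairWord e f4p1 f4p4 t) = _ at h1
        rw [h1, f0_eq]
        exact ⟨X0 hf t, hX 0 ((memX0 h hf _).2 ⟨t, rfl⟩), rfl⟩
      · have h1 := pair_eq (K := K) (e := e) false t
        change wg chevF4 K (f4PairWord e f4m1 f4m4 t) = _ at h1
        rw [h1, f0_eq]
        exact ⟨Y0 hf t, hY 0 ((memY0 h hf _).2 ⟨t, rfl⟩), rfl⟩
      · have h1 := RF_wg (K := K) (e := e) true t u
        change _ = wg chevF4 K (b2ClassWord e f4a f4b f4ab f4aab t u) at h1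
        rw [← h1]
        exact ⟨SS K e t u, hX 1 ((memX1 h hf _).2 ⟨t, u, rfl⟩), rfl⟩
      · have h1 := RF_wg (K := K) (e := e) false t u
        change _ = wg chevF4 K (b2ClassWord e f4ma f4mb f4mab f4maab t u) at h1
        rw [← h1]
        exact ⟨⟨RF K e false t u, RF_mem false t u⟩, hY 1 (RFf_YG h hf t u), rfl⟩
    rw [eq_top_iff]
    rintro ⟨g, hg⟩ -
    obtain ⟨x, hx, hxg⟩ := h1 hg
    have : x = ⟨g, hg⟩ := Subtype.ext hxg
    rw [← this]; exact hx
  · intro s
    let θ₀ : ↥(twistedF4 K e) →* ↥(twistedF4 K e) := ((gmap chevF4 s).comp (twistedF4 K e).subtype).codRestrict (twistedF4 K e) fun g => gmap_mem hf s g.2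
    have hθ₀ : Function.Injective θ₀ := by
      intro a b hab
      have h0 : gmap chevF4 s (a : GL chevF4.Idx K) = gmap chevF4 s (b : GL chevF4.Idx K) := congrArg Subtype.val hab
      exact Subtype.ext (gmap_inj s h0)
    have hfin : Finite ↥(twistedF4 K e) := inferInstance
    let θ : ↥(twistedF4 K e) ≃* ↥(twistedF4 K e) := MulEquiv.ofBijective θ₀ (Finite.injective_iff_bijective.1 hθ₀)
    have hθ : ∀ g : ↥(twistedF4 K e), ((θ g : ↥(twistedF4 K e)) : GL chevF4.Idx K) = gmap chevF4 s g := fun g => rfl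
    refine ⟨θ, ⟨iff_of_map_le θ _ ?_, iff_of_map_le θ _ ?_⟩, ?_, ?_⟩
    · intro g hg
      rw [Subgroup.mem_subgroupOf] at hg ⊢
      rw [hθ, h.G.posUnipotent_eq_US]
      rw [h.G.posUnipotent_eq_US] at hg
      exact gmap_US h.G s hg
    · intro g hg
      rw [Subgroup.mem_subgroupOf] at hg ⊢
      rw [hθ, h.G.negUnipotent_eq_US]
      rw [h.G.negUnipotent_eq_US] at hg
      exact gmap_US h.G s hg
    · intro t
      apply Subtype.ext
      rw [hθ]
      change gmap chevF4 s (pw chevF4 K true (LL 0) (fun i => t ^ exF e i)) = pw chevF4 K true (LL 0) (fun i => (s t) ^ exF e i)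
      rw [gmap_pw]
      simp only [map_pow]
    · intro t
      refine ⟨s 0, Subtype.ext ?_⟩
      rw [hθ]
      exact gmap_RF s true t 0

end
end WF4

theorem card_out_reeF4 {K : Type*} [Field K] [Fintype K] {m : ℕ} (hm : 1 ≤ m) (hK : Fintype.card K = 2 ^ (2 * m + 1)) :
    Nat.card (Cfsg.Out ↥(Cfsg.Lie.twistedF4 K (2 ^ m))) = 2 * m + 1 := by
  have hf := WF4.fl_of_card hK
  obtain ⟨σ, h⟩ := WF4.exists_ctx hK
  obtain ⟨n0, hfd⟩ := WF4.exists_fd h hf hm hK
  haveI : Fact (Nat.Prime 2) := ⟨Nat.prime_two⟩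
  haveI : CharP K 2 := charP_of_card Nat.prime_two (Nat.succ_ne_zero _) hK
  have hfin : Finite ↥(Cfsg.Lie.twistedF4 K (2 ^ m)) := inferInstance
  rw [hfd.card_out, Cfsg.Agent.H15.Chev.card_ringAut 2 (2 * m + 1) hK]

end Cfsg.Agent.H6
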